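import Cfsg.Agent.Lib.Lead.SLn
import Cfsg.Agent.Lib.Lead.SL23Q
import Cfsg.Agent.Lib.Lead.PermEmb
/-! `PSL_4(2) ≅ A_8`: the Klein correspondence in coordinates. `SL_4(2)` acts on alternating
matrices `M ↦ g M gᵀ` (the exterior square); the 28 invertible ones carry a graph (two are adjacent
when their sum is invertible), with exactly eight 7-cliques, and these are permuted faithfully. -/
set_option autoImplicit false
set_option linter.style.haveILetI false
namespace Cfsg.Agent.Lead
open Matrix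

abbrev W4 := Matrix (Fin 4) (Fin 4) (ZMod 2)
abbrev SL42 := SpecialLinearGroup (Fin 4) (ZMod 2)

/-- An alternating matrix in coordinates. -/
def alt4 (a b c d e f : ZMod 2) : W4 :=
  !![0, a, b, c; a, 0, d, e; b, d, 0, f; c, e, f, 0]

def kc0 : Finset W4 := {alt4 0 0 1 1 1 1, alt4 0 1 0 0 1 1, alt4 0 1 1 1 0 1, alt4 1 0 0 0 0 1, alt4 1 0 1 1 0 0, alt4 1 1 0 1 1 0, alt4 1 1 1 0 1 0}
def kc1 : Finset W4 := {alt4 0 0 1 1 0 1, alt4 0 1 0 1 1 0, alt4 0 1 1 0 1 0, alt4 1 0 0 0 1 1, alt4 1 0 1 1 0 0, alt4 1 1 0 0 0 1, alt4 1 1 1 1 1 1}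
def kc2 : Finset W4 := {alt4 0 0 1 1 1 0, alt4 0 1 0 0 1 1, alt4 0 1 1 1 0 0, alt4 1 0 0 1 0 1, alt4 1 0 1 0 0 1, alt4 1 1 0 0 1 0, alt4 1 1 1 1 1 1}
def kc3 : Finset W4 := {alt4 0 0 1 1 0 1, alt4 0 1 0 1 1 1, alt4 0 1 1 0 1 1, alt4 1 0 0 0 0 1, alt4 1 0 1 1 1 0, alt4 1 1 0 0 1 0, alt4 1 1 1 1 0 0}
def kc4 : Finset W4 := {alt4 0 0 1 1 0 0, alt4 0 1 0 1 1 0, alt4 0 1 1 0 1 1, alt4 1 0 0 1 1 1, alt4 1 0 1 0 0 1, alt4 1 1 0 1 0 1, alt4 1 1 1 0 1 0}
def kc5 : Finset W4 := {alt4 0 0 1 1 1 0, alt4 0 1 0 0 1 0, alt4 0 1 1 1 0 1, alt4 1 0 0 1 1 1, alt4 1 0 1 0 1 1, alt4 1 1 0 0 0 1, alt4 1 1 1 1 0 0}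
def kc6 : Finset W4 := {alt4 0 0 1 1 0 0, alt4 0 1 0 1 1 1, alt4 0 1 1 0 1 0, alt4 1 0 0 1 0 1, alt4 1 0 1 0 1 1, alt4 1 1 0 1 1 0, alt4 1 1 1 0 0 1}
def kc7 : Finset W4 := {alt4 0 0 1 1 1 1, alt4 0 1 0 0 1 0, alt4 0 1 1 1 0 0, alt4 1 0 0 0 1 1, alt4 1 0 1 1 1 0, alt4 1 1 0 1 0 1, alt4 1 1 1 0 0 1}

/-- The eight cliques. -/
def kSet : Finset (Finset W4) := {kc0, kc1, kc2, kc3, kc4, kc5, kc6, kc7}

/-- The action on matrices. -/
def act4 (g : SL42) (M : W4) : W4 := g.1 * M * g.1ᵀ

/-- The action on sets of matrices. -/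
def actF4 (g : SL42) (c : Finset W4) : Finset W4 := c.image (act4 g)

lemma act4_one (M : W4) : act4 1 M = M := by
  simp [act4]

lemma act4_mul (g h : SL42) (M : W4) : act4 (g * h) M = act4 g (act4 h M) := by
  simp [act4, Matrix.mul_assoc, Matrix.transpose_mul]

lemma actF4_one (c : Finset W4) : actF4 1 c = c := by
  simp [actF4, funext act4_one]

lemma actF4_mul (g h : SL42) (c : Finset W4) : actF4 (g * h) c = actF4 g (actF4 h c) := by
  simp only [actF4, Finset.image_image]
  congr 1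
  funext M
  exact act4_mul g h M

set_option maxRecDepth 100000 in
lemma kt_0_1_0 : actF4 (SpecialLinearGroup.transvection (i := 0) (j := 1) (by decide) 1) kc0 = kc3 := by
  decide +kernel

set_option maxRecDepth 100000 in
lemma kt_0_1_1 : actF4 (SpecialLinearGroup.transvection (i := 0) (j := 1) (by decide) 1) kc1 = kc5 := by
  decide +kernel

set_option maxRecDepth 100000 in
lemma kt_0_1_2 : actF4 (SpecialLinearGroup.transvection (i := 0) (j := 1) (by decide) 1) kc2 = kc4 := by
  decide +kernel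

set_option maxRecDepth 100000 in
lemma kt_0_1_3 : actF4 (SpecialLinearGroup.transvection (i := 0) (j := 1) (by decide) 1) kc3 = kc0 := by
  decide +kernel

set_option maxRecDepth 100000 in
lemma kt_0_1_4 : actF4 (SpecialLinearGroup.transvection (i := 0) (j := 1) (by decide) 1) kc4 = kc2 := by
  decide +kernel

set_option maxRecDepth 100000 in
lemma kt_0_1_5 : actF4 (SpecialLinearGroup.transvection (i := 0) (j := 1) (by decide) 1) kc5 = kc1 := by
  decide +kernel

set_option maxRecDepth 100000 in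
lemma kt_0_1_6 : actF4 (SpecialLinearGroup.transvection (i := 0) (j := 1) (by decide) 1) kc6 = kc7 := by
  decide +kernel

set_option maxRecDepth 100000 in
lemma kt_0_1_7 : actF4 (SpecialLinearGroup.transvection (i := 0) (j := 1) (by decide) 1) kc7 = kc6 := by
  decide +kernel

set_option maxRecDepth 100000 in
lemma kt_0_2_0 : actF4 (SpecialLinearGroup.transvection (i := 0) (j := 2) (by decide) 1) kc0 = kc4 := by
  decide +kernel

set_option maxRecDepth 100000 in
lemma kt_0_2_1 : actF4 (SpecialLinearGroup.transvection (i := 0) (j := 2) (by decide) 1) kc1 = kc6 := by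
  decide +kernel

set_option maxRecDepth 100000 in
lemma kt_0_2_2 : actF4 (SpecialLinearGroup.transvection (i := 0) (j := 2) (by decide) 1) kc2 = kc3 := by
  decide +kernel

set_option maxRecDepth 100000 in
lemma kt_0_2_3 : actF4 (SpecialLinearGroup.transvection (i := 0) (j := 2) (by decide) 1) kc3 = kc2 := by
  decide +kernel

set_option maxRecDepth 100000 in
lemma kt_0_2_4 : actF4 (SpecialLinearGroup.transvection (i := 0) (j := 2) (by decide) 1) kc4 = kc0 := by
  decide +kernel

set_option maxRecDepth 100000 in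
lemma kt_0_2_5 : actF4 (SpecialLinearGroup.transvection (i := 0) (j := 2) (by decide) 1) kc5 = kc7 := by
  decide +kernel

set_option maxRecDepth 100000 in
lemma kt_0_2_6 : actF4 (SpecialLinearGroup.transvection (i := 0) (j := 2) (by decide) 1) kc6 = kc1 := by
  decide +kernel

set_option maxRecDepth 100000 in
lemma kt_0_2_7 : actF4 (SpecialLinearGroup.transvection (i := 0) (j := 2) (by decide) 1) kc7 = kc5 := by
  decide +kernel

set_option maxRecDepth 100000 in
lemma kt_0_3_0 : actF4 (SpecialLinearGroup.transvection (i := 0) (j := 3) (by decide) 1) kc0 = kc1 := by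
  decide +kernel

set_option maxRecDepth 100000 in
lemma kt_0_3_1 : actF4 (SpecialLinearGroup.transvection (i := 0) (j := 3) (by decide) 1) kc1 = kc0 := by
  decide +kernel

set_option maxRecDepth 100000 in
lemma kt_0_3_2 : actF4 (SpecialLinearGroup.transvection (i := 0) (j := 3) (by decide) 1) kc2 = kc7 := by
  decide +kernel

set_option maxRecDepth 100000 in
lemma kt_0_3_3 : actF4 (SpecialLinearGroup.transvection (i := 0) (j := 3) (by decide) 1) kc3 = kc5 := by
  decide +kernel

set_option maxRecDepth 100000 in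
lemma kt_0_3_4 : actF4 (SpecialLinearGroup.transvection (i := 0) (j := 3) (by decide) 1) kc4 = kc6 := by
  decide +kernel

set_option maxRecDepth 100000 in
lemma kt_0_3_5 : actF4 (SpecialLinearGroup.transvection (i := 0) (j := 3) (by decide) 1) kc5 = kc3 := by
  decide +kernel

set_option maxRecDepth 100000 in
lemma kt_0_3_6 : actF4 (SpecialLinearGroup.transvection (i := 0) (j := 3) (by decide) 1) kc6 = kc4 := by
  decide +kernel

set_option maxRecDepth 100000 in
lemma kt_0_3_7 : actF4 (SpecialLinearGroup.transvection (i := 0) (j := 3) (by decide) 1) kc7 = kc2 := by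
  decide +kernel

set_option maxRecDepth 100000 in
lemma kt_1_0_0 : actF4 (SpecialLinearGroup.transvection (i := 1) (j := 0) (by decide) 1) kc0 = kc3 := by
  decide +kernel

set_option maxRecDepth 100000 in
lemma kt_1_0_1 : actF4 (SpecialLinearGroup.transvection (i := 1) (j := 0) (by decide) 1) kc1 = kc7 := by
  decide +kernel

set_option maxRecDepth 100000 in
lemma kt_1_0_2 : actF4 (SpecialLinearGroup.transvection (i := 1) (j := 0) (by decide) 1) kc2 = kc6 := by
  decide +kernel

set_option maxRecDepth 100000 in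
lemma kt_1_0_3 : actF4 (SpecialLinearGroup.transvection (i := 1) (j := 0) (by decide) 1) kc3 = kc0 := by
  decide +kernel

set_option maxRecDepth 100000 in
lemma kt_1_0_4 : actF4 (SpecialLinearGroup.transvection (i := 1) (j := 0) (by decide) 1) kc4 = kc5 := by
  decide +kernel

set_option maxRecDepth 100000 in
lemma kt_1_0_5 : actF4 (SpecialLinearGroup.transvection (i := 1) (j := 0) (by decide) 1) kc5 = kc4 := by
  decide +kernel

set_option maxRecDepth 100000 in
lemma kt_1_0_6 : actF4 (SpecialLinearGroup.transvection (i := 1) (j := 0) (by decide) 1) kc6 = kc2 := by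
  decide +kernel

set_option maxRecDepth 100000 in
lemma kt_1_0_7 : actF4 (SpecialLinearGroup.transvection (i := 1) (j := 0) (by decide) 1) kc7 = kc1 := by
  decide +kernel

set_option maxRecDepth 100000 in
lemma kt_1_2_0 : actF4 (SpecialLinearGroup.transvection (i := 1) (j := 2) (by decide) 1) kc0 = kc1 := by
  decide +kernel

set_option maxRecDepth 100000 in
lemma kt_1_2_1 : actF4 (SpecialLinearGroup.transvection (i := 1) (j := 2) (by decide) 1) kc1 = kc0 := by
  decide +kernel

set_option maxRecDepth 100000 in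
lemma kt_1_2_2 : actF4 (SpecialLinearGroup.transvection (i := 1) (j := 2) (by decide) 1) kc2 = kc5 := by
  decide +kernel

set_option maxRecDepth 100000 in
lemma kt_1_2_3 : actF4 (SpecialLinearGroup.transvection (i := 1) (j := 2) (by decide) 1) kc3 = kc7 := by
  decide +kernel

set_option maxRecDepth 100000 in
lemma kt_1_2_4 : actF4 (SpecialLinearGroup.transvection (i := 1) (j := 2) (by decide) 1) kc4 = kc6 := by
  decide +kernel

set_option maxRecDepth 100000 in
lemma kt_1_2_5 : actF4 (SpecialLinearGroup.transvection (i := 1) (j := 2) (by decide) 1) kc5 = kc2 := by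
  decide +kernel

set_option maxRecDepth 100000 in
lemma kt_1_2_6 : actF4 (SpecialLinearGroup.transvection (i := 1) (j := 2) (by decide) 1) kc6 = kc4 := by
  decide +kernel

set_option maxRecDepth 100000 in
lemma kt_1_2_7 : actF4 (SpecialLinearGroup.transvection (i := 1) (j := 2) (by decide) 1) kc7 = kc3 := by
  decide +kernel

set_option maxRecDepth 100000 in
lemma kt_1_3_0 : actF4 (SpecialLinearGroup.transvection (i := 1) (j := 3) (by decide) 1) kc0 = kc6 := by
  decide +kernel

set_option maxRecDepth 100000 in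
lemma kt_1_3_1 : actF4 (SpecialLinearGroup.transvection (i := 1) (j := 3) (by decide) 1) kc1 = kc4 := by
  decide +kernel

set_option maxRecDepth 100000 in
lemma kt_1_3_2 : actF4 (SpecialLinearGroup.transvection (i := 1) (j := 3) (by decide) 1) kc2 = kc3 := by
  decide +kernel

set_option maxRecDepth 100000 in
lemma kt_1_3_3 : actF4 (SpecialLinearGroup.transvection (i := 1) (j := 3) (by decide) 1) kc3 = kc2 := by
  decide +kernel

set_option maxRecDepth 100000 in
lemma kt_1_3_4 : actF4 (SpecialLinearGroup.transvection (i := 1) (j := 3) (by decide) 1) kc4 = kc1 := by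
  decide +kernel

set_option maxRecDepth 100000 in
lemma kt_1_3_5 : actF4 (SpecialLinearGroup.transvection (i := 1) (j := 3) (by decide) 1) kc5 = kc7 := by
  decide +kernel

set_option maxRecDepth 100000 in
lemma kt_1_3_6 : actF4 (SpecialLinearGroup.transvection (i := 1) (j := 3) (by decide) 1) kc6 = kc0 := by
  decide +kernel

set_option maxRecDepth 100000 in
lemma kt_1_3_7 : actF4 (SpecialLinearGroup.transvection (i := 1) (j := 3) (by decide) 1) kc7 = kc5 := by
  decide +kernel

set_option maxRecDepth 100000 in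
lemma kt_2_0_0 : actF4 (SpecialLinearGroup.transvection (i := 2) (j := 0) (by decide) 1) kc0 = kc2 := by
  decide +kernel

set_option maxRecDepth 100000 in
lemma kt_2_0_1 : actF4 (SpecialLinearGroup.transvection (i := 2) (j := 0) (by decide) 1) kc1 = kc4 := by
  decide +kernel

set_option maxRecDepth 100000 in
lemma kt_2_0_2 : actF4 (SpecialLinearGroup.transvection (i := 2) (j := 0) (by decide) 1) kc2 = kc0 := by
  decide +kernel

set_option maxRecDepth 100000 in
lemma kt_2_0_3 : actF4 (SpecialLinearGroup.transvection (i := 2) (j := 0) (by decide) 1) kc3 = kc6 := by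
  decide +kernel

set_option maxRecDepth 100000 in
lemma kt_2_0_4 : actF4 (SpecialLinearGroup.transvection (i := 2) (j := 0) (by decide) 1) kc4 = kc1 := by
  decide +kernel

set_option maxRecDepth 100000 in
lemma kt_2_0_5 : actF4 (SpecialLinearGroup.transvection (i := 2) (j := 0) (by decide) 1) kc5 = kc7 := by
  decide +kernel

set_option maxRecDepth 100000 in
lemma kt_2_0_6 : actF4 (SpecialLinearGroup.transvection (i := 2) (j := 0) (by decide) 1) kc6 = kc3 := by
  decide +kernel

set_option maxRecDepth 100000 in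
lemma kt_2_0_7 : actF4 (SpecialLinearGroup.transvection (i := 2) (j := 0) (by decide) 1) kc7 = kc5 := by
  decide +kernel

set_option maxRecDepth 100000 in
lemma kt_2_1_0 : actF4 (SpecialLinearGroup.transvection (i := 2) (j := 1) (by decide) 1) kc0 = kc5 := by
  decide +kernel

set_option maxRecDepth 100000 in
lemma kt_2_1_1 : actF4 (SpecialLinearGroup.transvection (i := 2) (j := 1) (by decide) 1) kc1 = kc3 := by
  decide +kernel

set_option maxRecDepth 100000 in
lemma kt_2_1_2 : actF4 (SpecialLinearGroup.transvection (i := 2) (j := 1) (by decide) 1) kc2 = kc7 := by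
  decide +kernel

set_option maxRecDepth 100000 in
lemma kt_2_1_3 : actF4 (SpecialLinearGroup.transvection (i := 2) (j := 1) (by decide) 1) kc3 = kc1 := by
  decide +kernel

set_option maxRecDepth 100000 in
lemma kt_2_1_4 : actF4 (SpecialLinearGroup.transvection (i := 2) (j := 1) (by decide) 1) kc4 = kc6 := by
  decide +kernel

set_option maxRecDepth 100000 in
lemma kt_2_1_5 : actF4 (SpecialLinearGroup.transvection (i := 2) (j := 1) (by decide) 1) kc5 = kc0 := by
  decide +kernel

set_option maxRecDepth 100000 in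
lemma kt_2_1_6 : actF4 (SpecialLinearGroup.transvection (i := 2) (j := 1) (by decide) 1) kc6 = kc4 := by
  decide +kernel

set_option maxRecDepth 100000 in
lemma kt_2_1_7 : actF4 (SpecialLinearGroup.transvection (i := 2) (j := 1) (by decide) 1) kc7 = kc2 := by
  decide +kernel

set_option maxRecDepth 100000 in
lemma kt_2_3_0 : actF4 (SpecialLinearGroup.transvection (i := 2) (j := 3) (by decide) 1) kc0 = kc3 := by
  decide +kernel

set_option maxRecDepth 100000 in
lemma kt_2_3_1 : actF4 (SpecialLinearGroup.transvection (i := 2) (j := 3) (by decide) 1) kc1 = kc5 := by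
  decide +kernel

set_option maxRecDepth 100000 in
lemma kt_2_3_2 : actF4 (SpecialLinearGroup.transvection (i := 2) (j := 3) (by decide) 1) kc2 = kc6 := by
  decide +kernel

set_option maxRecDepth 100000 in
lemma kt_2_3_3 : actF4 (SpecialLinearGroup.transvection (i := 2) (j := 3) (by decide) 1) kc3 = kc0 := by
  decide +kernel

set_option maxRecDepth 100000 in
lemma kt_2_3_4 : actF4 (SpecialLinearGroup.transvection (i := 2) (j := 3) (by decide) 1) kc4 = kc7 := by
  decide +kernel

set_option maxRecDepth 100000 in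
lemma kt_2_3_5 : actF4 (SpecialLinearGroup.transvection (i := 2) (j := 3) (by decide) 1) kc5 = kc1 := by
  decide +kernel

set_option maxRecDepth 100000 in
lemma kt_2_3_6 : actF4 (SpecialLinearGroup.transvection (i := 2) (j := 3) (by decide) 1) kc6 = kc2 := by
  decide +kernel

set_option maxRecDepth 100000 in
lemma kt_2_3_7 : actF4 (SpecialLinearGroup.transvection (i := 2) (j := 3) (by decide) 1) kc7 = kc4 := by
  decide +kernel

set_option maxRecDepth 100000 in
lemma kt_3_0_0 : actF4 (SpecialLinearGroup.transvection (i := 3) (j := 0) (by decide) 1) kc0 = kc7 := by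
  decide +kernel

set_option maxRecDepth 100000 in
lemma kt_3_0_1 : actF4 (SpecialLinearGroup.transvection (i := 3) (j := 0) (by decide) 1) kc1 = kc3 := by
  decide +kernel

set_option maxRecDepth 100000 in
lemma kt_3_0_2 : actF4 (SpecialLinearGroup.transvection (i := 3) (j := 0) (by decide) 1) kc2 = kc5 := by
  decide +kernel

set_option maxRecDepth 100000 in
lemma kt_3_0_3 : actF4 (SpecialLinearGroup.transvection (i := 3) (j := 0) (by decide) 1) kc3 = kc1 := by
  decide +kernel

set_option maxRecDepth 100000 in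
lemma kt_3_0_4 : actF4 (SpecialLinearGroup.transvection (i := 3) (j := 0) (by decide) 1) kc4 = kc6 := by
  decide +kernel

set_option maxRecDepth 100000 in
lemma kt_3_0_5 : actF4 (SpecialLinearGroup.transvection (i := 3) (j := 0) (by decide) 1) kc5 = kc2 := by
  decide +kernel

set_option maxRecDepth 100000 in
lemma kt_3_0_6 : actF4 (SpecialLinearGroup.transvection (i := 3) (j := 0) (by decide) 1) kc6 = kc4 := by
  decide +kernel

set_option maxRecDepth 100000 in
lemma kt_3_0_7 : actF4 (SpecialLinearGroup.transvection (i := 3) (j := 0) (by decide) 1) kc7 = kc0 := by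
  decide +kernel

set_option maxRecDepth 100000 in
lemma kt_3_1_0 : actF4 (SpecialLinearGroup.transvection (i := 3) (j := 1) (by decide) 1) kc0 = kc2 := by
  decide +kernel

set_option maxRecDepth 100000 in
lemma kt_3_1_1 : actF4 (SpecialLinearGroup.transvection (i := 3) (j := 1) (by decide) 1) kc1 = kc6 := by
  decide +kernel

set_option maxRecDepth 100000 in
lemma kt_3_1_2 : actF4 (SpecialLinearGroup.transvection (i := 3) (j := 1) (by decide) 1) kc2 = kc0 := by
  decide +kernel

set_option maxRecDepth 100000 in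
lemma kt_3_1_3 : actF4 (SpecialLinearGroup.transvection (i := 3) (j := 1) (by decide) 1) kc3 = kc4 := by
  decide +kernel

set_option maxRecDepth 100000 in
lemma kt_3_1_4 : actF4 (SpecialLinearGroup.transvection (i := 3) (j := 1) (by decide) 1) kc4 = kc3 := by
  decide +kernel

set_option maxRecDepth 100000 in
lemma kt_3_1_5 : actF4 (SpecialLinearGroup.transvection (i := 3) (j := 1) (by decide) 1) kc5 = kc7 := by
  decide +kernel

set_option maxRecDepth 100000 in
lemma kt_3_1_6 : actF4 (SpecialLinearGroup.transvection (i := 3) (j := 1) (by decide) 1) kc6 = kc1 := by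
  decide +kernel

set_option maxRecDepth 100000 in
lemma kt_3_1_7 : actF4 (SpecialLinearGroup.transvection (i := 3) (j := 1) (by decide) 1) kc7 = kc5 := by
  decide +kernel

set_option maxRecDepth 100000 in
lemma kt_3_2_0 : actF4 (SpecialLinearGroup.transvection (i := 3) (j := 2) (by decide) 1) kc0 = kc3 := by
  decide +kernel

set_option maxRecDepth 100000 in
lemma kt_3_2_1 : actF4 (SpecialLinearGroup.transvection (i := 3) (j := 2) (by decide) 1) kc1 = kc7 := by
  decide +kernel

set_option maxRecDepth 100000 in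
lemma kt_3_2_2 : actF4 (SpecialLinearGroup.transvection (i := 3) (j := 2) (by decide) 1) kc2 = kc4 := by
  decide +kernel

set_option maxRecDepth 100000 in
lemma kt_3_2_3 : actF4 (SpecialLinearGroup.transvection (i := 3) (j := 2) (by decide) 1) kc3 = kc0 := by
  decide +kernel

set_option maxRecDepth 100000 in
lemma kt_3_2_4 : actF4 (SpecialLinearGroup.transvection (i := 3) (j := 2) (by decide) 1) kc4 = kc2 := by
  decide +kernel

set_option maxRecDepth 100000 in
lemma kt_3_2_5 : actF4 (SpecialLinearGroup.transvection (i := 3) (j := 2) (by decide) 1) kc5 = kc6 := by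
  decide +kernel

set_option maxRecDepth 100000 in
lemma kt_3_2_6 : actF4 (SpecialLinearGroup.transvection (i := 3) (j := 2) (by decide) 1) kc6 = kc5 := by
  decide +kernel

set_option maxRecDepth 100000 in
lemma kt_3_2_7 : actF4 (SpecialLinearGroup.transvection (i := 3) (j := 2) (by decide) 1) kc7 = kc1 := by
  decide +kernel

lemma mem_kc0 : kc0 ∈ kSet := by
  simp [kSet]

lemma mem_kc1 : kc1 ∈ kSet := by
  simp [kSet]

lemma mem_kc2 : kc2 ∈ kSet := by
  simp [kSet]

lemma mem_kc3 : kc3 ∈ kSet := by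
  simp [kSet]

lemma mem_kc4 : kc4 ∈ kSet := by
  simp [kSet]

lemma mem_kc5 : kc5 ∈ kSet := by
  simp [kSet]

lemma mem_kc6 : kc6 ∈ kSet := by
  simp [kSet]

lemma mem_kc7 : kc7 ∈ kSet := by
  simp [kSet]

lemma kt_mem_0_1 : ∀ x ∈ kSet, actF4 (SpecialLinearGroup.transvection (i := 0) (j := 1) (by decide) 1) x ∈ kSet := by
  intro x hx
  simp only [kSet, Finset.mem_insert, Finset.mem_singleton] at hx
  rcases hx with rfl | rfl | rfl | rfl | rfl | rfl | rfl | rfl
  · rw [kt_0_1_0]; exact mem_kc3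
  · rw [kt_0_1_1]; exact mem_kc5
  · rw [kt_0_1_2]; exact mem_kc4
  · rw [kt_0_1_3]; exact mem_kc0
  · rw [kt_0_1_4]; exact mem_kc2
  · rw [kt_0_1_5]; exact mem_kc1
  · rw [kt_0_1_6]; exact mem_kc7
  · rw [kt_0_1_7]; exact mem_kc6

lemma kt_mem_0_2 : ∀ x ∈ kSet, actF4 (SpecialLinearGroup.transvection (i := 0) (j := 2) (by decide) 1) x ∈ kSet := by
  intro x hx
  simp only [kSet, Finset.mem_insert, Finset.mem_singleton] at hx
  rcases hx with rfl | rfl | rfl | rfl | rfl | rfl | rfl | rfl
  · rw [kt_0_2_0]; exact mem_kc4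
  · rw [kt_0_2_1]; exact mem_kc6
  · rw [kt_0_2_2]; exact mem_kc3
  · rw [kt_0_2_3]; exact mem_kc2
  · rw [kt_0_2_4]; exact mem_kc0
  · rw [kt_0_2_5]; exact mem_kc7
  · rw [kt_0_2_6]; exact mem_kc1
  · rw [kt_0_2_7]; exact mem_kc5

lemma kt_mem_0_3 : ∀ x ∈ kSet, actF4 (SpecialLinearGroup.transvection (i := 0) (j := 3) (by decide) 1) x ∈ kSet := by
  intro x hx
  simp only [kSet, Finset.mem_insert, Finset.mem_singleton] at hx
  rcases hx with rfl | rfl | rfl | rfl | rfl | rfl | rfl | rfl
  · rw [kt_0_3_0]; exact mem_kc1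
  · rw [kt_0_3_1]; exact mem_kc0
  · rw [kt_0_3_2]; exact mem_kc7
  · rw [kt_0_3_3]; exact mem_kc5
  · rw [kt_0_3_4]; exact mem_kc6
  · rw [kt_0_3_5]; exact mem_kc3
  · rw [kt_0_3_6]; exact mem_kc4
  · rw [kt_0_3_7]; exact mem_kc2

lemma kt_mem_1_0 : ∀ x ∈ kSet, actF4 (SpecialLinearGroup.transvection (i := 1) (j := 0) (by decide) 1) x ∈ kSet := by
  intro x hx
  simp only [kSet, Finset.mem_insert, Finset.mem_singleton] at hx
  rcases hx with rfl | rfl | rfl | rfl | rfl | rfl | rfl | rfl
  · rw [kt_1_0_0]; exact mem_kc3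
  · rw [kt_1_0_1]; exact mem_kc7
  · rw [kt_1_0_2]; exact mem_kc6
  · rw [kt_1_0_3]; exact mem_kc0
  · rw [kt_1_0_4]; exact mem_kc5
  · rw [kt_1_0_5]; exact mem_kc4
  · rw [kt_1_0_6]; exact mem_kc2
  · rw [kt_1_0_7]; exact mem_kc1

lemma kt_mem_1_2 : ∀ x ∈ kSet, actF4 (SpecialLinearGroup.transvection (i := 1) (j := 2) (by decide) 1) x ∈ kSet := by
  intro x hx
  simp only [kSet, Finset.mem_insert, Finset.mem_singleton] at hx
  rcases hx with rfl | rfl | rfl | rfl | rfl | rfl | rfl | rfl
  · rw [kt_1_2_0]; exact mem_kc1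
  · rw [kt_1_2_1]; exact mem_kc0
  · rw [kt_1_2_2]; exact mem_kc5
  · rw [kt_1_2_3]; exact mem_kc7
  · rw [kt_1_2_4]; exact mem_kc6
  · rw [kt_1_2_5]; exact mem_kc2
  · rw [kt_1_2_6]; exact mem_kc4
  · rw [kt_1_2_7]; exact mem_kc3

lemma kt_mem_1_3 : ∀ x ∈ kSet, actF4 (SpecialLinearGroup.transvection (i := 1) (j := 3) (by decide) 1) x ∈ kSet := by
  intro x hx
  simp only [kSet, Finset.mem_insert, Finset.mem_singleton] at hx
  rcases hx with rfl | rfl | rfl | rfl | rfl | rfl | rfl | rfl
  · rw [kt_1_3_0]; exact mem_kc6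
  · rw [kt_1_3_1]; exact mem_kc4
  · rw [kt_1_3_2]; exact mem_kc3
  · rw [kt_1_3_3]; exact mem_kc2
  · rw [kt_1_3_4]; exact mem_kc1
  · rw [kt_1_3_5]; exact mem_kc7
  · rw [kt_1_3_6]; exact mem_kc0
  · rw [kt_1_3_7]; exact mem_kc5

lemma kt_mem_2_0 : ∀ x ∈ kSet, actF4 (SpecialLinearGroup.transvection (i := 2) (j := 0) (by decide) 1) x ∈ kSet := by
  intro x hx
  simp only [kSet, Finset.mem_insert, Finset.mem_singleton] at hx
  rcases hx with rfl | rfl | rfl | rfl | rfl | rfl | rfl | rfl
  · rw [kt_2_0_0]; exact mem_kc2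
  · rw [kt_2_0_1]; exact mem_kc4
  · rw [kt_2_0_2]; exact mem_kc0
  · rw [kt_2_0_3]; exact mem_kc6
  · rw [kt_2_0_4]; exact mem_kc1
  · rw [kt_2_0_5]; exact mem_kc7
  · rw [kt_2_0_6]; exact mem_kc3
  · rw [kt_2_0_7]; exact mem_kc5

lemma kt_mem_2_1 : ∀ x ∈ kSet, actF4 (SpecialLinearGroup.transvection (i := 2) (j := 1) (by decide) 1) x ∈ kSet := by
  intro x hx
  simp only [kSet, Finset.mem_insert, Finset.mem_singleton] at hx
  rcases hx with rfl | rfl | rfl | rfl | rfl | rfl | rfl | rfl
  · rw [kt_2_1_0]; exact mem_kc5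
  · rw [kt_2_1_1]; exact mem_kc3
  · rw [kt_2_1_2]; exact mem_kc7
  · rw [kt_2_1_3]; exact mem_kc1
  · rw [kt_2_1_4]; exact mem_kc6
  · rw [kt_2_1_5]; exact mem_kc0
  · rw [kt_2_1_6]; exact mem_kc4
  · rw [kt_2_1_7]; exact mem_kc2

lemma kt_mem_2_3 : ∀ x ∈ kSet, actF4 (SpecialLinearGroup.transvection (i := 2) (j := 3) (by decide) 1) x ∈ kSet := by
  intro x hx
  simp only [kSet, Finset.mem_insert, Finset.mem_singleton] at hx
  rcases hx with rfl | rfl | rfl | rfl | rfl | rfl | rfl | rfl
  · rw [kt_2_3_0]; exact mem_kc3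
  · rw [kt_2_3_1]; exact mem_kc5
  · rw [kt_2_3_2]; exact mem_kc6
  · rw [kt_2_3_3]; exact mem_kc0
  · rw [kt_2_3_4]; exact mem_kc7
  · rw [kt_2_3_5]; exact mem_kc1
  · rw [kt_2_3_6]; exact mem_kc2
  · rw [kt_2_3_7]; exact mem_kc4

lemma kt_mem_3_0 : ∀ x ∈ kSet, actF4 (SpecialLinearGroup.transvection (i := 3) (j := 0) (by decide) 1) x ∈ kSet := by
  intro x hx
  simp only [kSet, Finset.mem_insert, Finset.mem_singleton] at hx
  rcases hx with rfl | rfl | rfl | rfl | rfl | rfl | rfl | rfl
  · rw [kt_3_0_0]; exact mem_kc7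
  · rw [kt_3_0_1]; exact mem_kc3
  · rw [kt_3_0_2]; exact mem_kc5
  · rw [kt_3_0_3]; exact mem_kc1
  · rw [kt_3_0_4]; exact mem_kc6
  · rw [kt_3_0_5]; exact mem_kc2
  · rw [kt_3_0_6]; exact mem_kc4
  · rw [kt_3_0_7]; exact mem_kc0

lemma kt_mem_3_1 : ∀ x ∈ kSet, actF4 (SpecialLinearGroup.transvection (i := 3) (j := 1) (by decide) 1) x ∈ kSet := by
  intro x hx
  simp only [kSet, Finset.mem_insert, Finset.mem_singleton] at hx
  rcases hx with rfl | rfl | rfl | rfl | rfl | rfl | rfl | rfl
  · rw [kt_3_1_0]; exact mem_kc2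
  · rw [kt_3_1_1]; exact mem_kc6
  · rw [kt_3_1_2]; exact mem_kc0
  · rw [kt_3_1_3]; exact mem_kc4
  · rw [kt_3_1_4]; exact mem_kc3
  · rw [kt_3_1_5]; exact mem_kc7
  · rw [kt_3_1_6]; exact mem_kc1
  · rw [kt_3_1_7]; exact mem_kc5

lemma kt_mem_3_2 : ∀ x ∈ kSet, actF4 (SpecialLinearGroup.transvection (i := 3) (j := 2) (by decide) 1) x ∈ kSet := by
  intro x hx
  simp only [kSet, Finset.mem_insert, Finset.mem_singleton] at hx
  rcases hx with rfl | rfl | rfl | rfl | rfl | rfl | rfl | rfl
  · rw [kt_3_2_0]; exact mem_kc3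
  · rw [kt_3_2_1]; exact mem_kc7
  · rw [kt_3_2_2]; exact mem_kc4
  · rw [kt_3_2_3]; exact mem_kc0
  · rw [kt_3_2_4]; exact mem_kc2
  · rw [kt_3_2_5]; exact mem_kc6
  · rw [kt_3_2_6]; exact mem_kc5
  · rw [kt_3_2_7]; exact mem_kc1

lemma kSet_transv : ∀ (i j : Fin 4) (h : i ≠ j) (c : ZMod 2),
    ∀ x ∈ kSet, actF4 (SpecialLinearGroup.transvection h c) x ∈ kSet := by
  intro i j h c
  have hc : c = 0 ∨ c = 1 := by
    revert c
    decide
  rcases hc with rfl | rfl
  · intro x hx
    have h1 : SpecialLinearGroup.transvection h (0 : ZMod 2) = 1 := by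
      apply Subtype.ext
      simp [SpecialLinearGroup.transvection, Matrix.transvection]
    rw [h1, actF4_one]
    exact hx
  · have key : (i = 0 ∧ j = 1) ∨ (i = 0 ∧ j = 2) ∨ (i = 0 ∧ j = 3) ∨ (i = 1 ∧ j = 0) ∨ (i = 1 ∧ j = 2) ∨ (i = 1 ∧ j = 3) ∨ (i = 2 ∧ j = 0) ∨ (i = 2 ∧ j = 1) ∨ (i = 2 ∧ j = 3) ∨ (i = 3 ∧ j = 0) ∨ (i = 3 ∧ j = 1) ∨ (i = 3 ∧ j = 2) := by
      revert i j
      decide
    rcases key with ⟨rfl, rfl⟩ | ⟨rfl, rfl⟩ | ⟨rfl, rfl⟩ | ⟨rfl, rfl⟩ | ⟨rfl, rfl⟩ | ⟨rfl, rfl⟩ | ⟨rfl, rfl⟩ | ⟨rfl, rfl⟩ | ⟨rfl, rfl⟩ | ⟨rfl, rfl⟩ | ⟨rfl, rfl⟩ | ⟨rfl, rfl⟩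
    · exact kt_mem_0_1
    · exact kt_mem_0_2
    · exact kt_mem_0_3
    · exact kt_mem_1_0
    · exact kt_mem_1_2
    · exact kt_mem_1_3
    · exact kt_mem_2_0
    · exact kt_mem_2_1
    · exact kt_mem_2_3
    · exact kt_mem_3_0
    · exact kt_mem_3_1
    · exact kt_mem_3_2

lemma kSet_inv (g : SL42) : ∀ x ∈ kSet, actF4 g x ∈ kSet := by
  refine transvection_induction' (fun g => ∀ x ∈ kSet, actF4 g x ∈ kSet) kSet_transv ?_ g
  intro A B hA hB x hx
  rw [actF4_mul]
  exact hA _ (hB _ hx)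

set_option maxRecDepth 100000 in
lemma kSet_card : Fintype.card {x // x ∈ kSet} = 8 := by
  decide +kernel

/-- The permutation of the cliques. -/
def rhoPerm (g : SL42) : Equiv.Perm {x // x ∈ kSet} where
  toFun x := ⟨actF4 g x.1, kSet_inv g x.1 x.2⟩
  invFun x := ⟨actF4 g⁻¹ x.1, kSet_inv g⁻¹ x.1 x.2⟩
  left_inv x := by
    apply Subtype.ext
    change actF4 g⁻¹ (actF4 g x.1) = x.1
    rw [← actF4_mul, inv_mul_cancel, actF4_one]
  right_inv x := by
    apply Subtype.ext
    change actF4 g (actF4 g⁻¹ x.1) = x.1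
    rw [← actF4_mul, mul_inv_cancel, actF4_one]

/-- The permutation representation of `SL_4(2)`. -/
def rhoHom : SL42 →* Equiv.Perm {x // x ∈ kSet} where
  toFun := rhoPerm
  map_one' := by
    ext x : 2
    exact actF4_one x.1
  map_mul' g h := by
    ext x : 2
    exact actF4_mul g h x.1

set_option maxRecDepth 100000 in
lemma rhoHom_nontrivial : ∃ g : SL42, ∃ x ∈ kSet, actF4 g x ≠ x :=
  ⟨SpecialLinearGroup.transvection (i := 0) (j := 1) (by decide) 1, kc0, by decide +kernel,
    by decide +kernel⟩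

theorem psl42_equiv_alt {F : Type*} [Field F] [Fintype F] (hF : Fintype.card F = 2) :
    Nonempty (ProjectiveSpecialLinearGroup (Fin 4) F ≃* alternatingGroup (Fin 8)) := by
  classical
  have : Fact (Nat.Prime 2) := ⟨by norm_num⟩
  have e : F ≃+* ZMod 2 := FiniteField.ringEquivOfCardEq (by rw [hF, ZMod.card])
  let E := slCongr (ι := Fin 4) e
  let b : {x // x ∈ kSet} ≃ Fin 8 := Fintype.equivFinOfCardEq kSet_card
  let ρ : SpecialLinearGroup (Fin 4) F →* Equiv.Perm (Fin 8) :=
    ((Equiv.permCongrHom b).toMonoidHom.comp rhoHom).comp E.toMonoidHom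
  have hcen : Subgroup.center (SpecialLinearGroup (Fin 4) F) ≤ ρ.ker := by
    have h1 : Nat.card (Subgroup.center (SpecialLinearGroup (Fin 4) F)) = 1 := by
      rw [card_center_SL, hF]
      simp
    have h2 : Subgroup.center (SpecialLinearGroup (Fin 4) F) = ⊥ :=
      Subgroup.eq_bot_of_card_eq _ h1
    rw [h2]
    exact bot_le
  let f : ProjectiveSpecialLinearGroup (Fin 4) F →* Equiv.Perm (Fin 8) :=
    QuotientGroup.lift _ ρ hcen
  have hsimple : IsSimpleGroup (ProjectiveSpecialLinearGroup (Fin 4) F) :=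
    PSL_simple (by simp)
  have hinj : Function.Injective f := by
    have hk := (inferInstance : f.ker.Normal)
    rcases hk.eq_bot_or_eq_top with h | h
    · exact (MonoidHom.ker_eq_bot_iff f).1 h
    · exfalso
      obtain ⟨g, x, hx, hg⟩ := rhoHom_nontrivial
      have h1 : f ((E.symm g : SpecialLinearGroup (Fin 4) F) :
          ProjectiveSpecialLinearGroup (Fin 4) F) = 1 := by
        have : ((E.symm g : SpecialLinearGroup (Fin 4) F) :
          ProjectiveSpecialLinearGroup (Fin 4) F) ∈ f.ker := by rw [h]; trivial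
        exact this
      have h2 : ρ (E.symm g) = 1 := h1
      have h3 : (Equiv.permCongrHom b).toMonoidHom (rhoHom g) = 1 := by
        have : ρ (E.symm g) = (Equiv.permCongrHom b).toMonoidHom (rhoHom (E (E.symm g))) := rfl
        rw [this, E.apply_symm_apply] at h2
        exact h2
      have h4 : rhoHom g = 1 := by
        apply (Equiv.permCongrHom b).injective
        rw [map_one]
        exact h3
      have h5 := congrArg (fun p => (p ⟨x, hx⟩ : {x // x ∈ kSet}).1) h4
      exact hg h5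
  have hc : 2 * Nat.card (ProjectiveSpecialLinearGroup (Fin 4) F) = Nat.factorial 8 := by
    have h := card_PSL (F := F) 4 (by norm_num)
    rw [hF, Fin.prod_univ_four] at h
    generalize Nat.card (ProjectiveSpecialLinearGroup (Fin 4) F) = N at h ⊢
    norm_num at h
    rw [h]
    decide
  exact mulEquiv_alt_of_injective 8 f hinj hc

end Cfsg.Agent.Lead
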