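import Cfsg.Agent.Lib.Lead.PSUPerfect
/-! Simplicity of the projective special unitary groups. -/
set_option autoImplicit false
set_option linter.unusedSimpArgs false
set_option linter.style.haveILetI false
set_option linter.unusedSectionVars false
set_option linter.unusedVariables false
namespace Cfsg.Agent.Lead.PSU
open Matrix Cfsg.Agent.H12.UTrans
open scoped MatrixGroups commutatorElement

variable {F : Type*} [Field F] [Fintype F] {q n : ℕ}

local notation "herm" => Cfsg.hermForm n F q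

section
variable (hF : Fintype.card F = q ^ 2) (hn : 0 < n)
include hF

/-- An element with all isotropic vectors as eigenvectors is scalar. -/
lemma scalar_of_eigen (g : Cfsg.SU n F q)
    (H : ∀ v : Fin n → F, herm v v = 0 → v ≠ 0 → ∃ t : F, act g v = t • v) (i₀ : Fin n) :
    ((g : SpecialLinearGroup (Fin n) F) : Matrix (Fin n) (Fin n) F) =
      (((g : SpecialLinearGroup (Fin n) F) : Matrix (Fin n) (Fin n) F) i₀ i₀) • 1 := by
  classical
  obtain ⟨a₁, a₂, a₃, h12, h13, h23, ha₁, ha₂, ha₃⟩ := exists_three_norm hF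
  set M := ((g : SpecialLinearGroup (Fin n) F) : Matrix (Fin n) (Fin n) F) with hM
  have key : ∀ i j : Fin n, i ≠ j → M i j = 0 ∧ M i i = M j j := by
    intro i j hij
    have hroot : ∀ a : F, a ^ (q + 1) = -1 →
        M i j * a ^ 2 + (M i i - M j j) * a - M j i = 0 := by
      intro a ha
      let v : Fin n → F := Pi.single i 1 + a • Pi.single j 1
      have hv : herm v v = 0 := by
        simp only [v]
        rw [herm_add_left, herm_add_right hF, herm_add_right hF, herm_smul_left, herm_smul_right hF,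
          herm_smul_right hF, herm_smul_left, herm_single_single hF, herm_single_single hF,
          herm_single_single hF, herm_single_single hF, if_pos rfl, if_pos rfl, if_neg hij,
          if_neg (Ne.symm hij)]
        rw [pow_succ] at ha
        linear_combination ha
      have hvi : v i = 1 := by simp [v, Pi.single_apply, Ne.symm hij]
      have hv0 : v ≠ 0 := by
        intro h0
        rw [h0] at hvi
        exact zero_ne_one hvi
      obtain ⟨t, ht⟩ := H v hv hv0
      have ht' : t • v = M *ᵥ v := ht.symm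
      have hMv : M *ᵥ v = fun k => M k i + a * M k j := by
        simp only [v, Matrix.mulVec_add, Matrix.mulVec_smul, Matrix.mulVec_single_one]
        rfl
      rw [hMv] at ht'
      have e1 := congrFun ht' i
      have e2 := congrFun ht' j
      simp only [Pi.smul_apply, smul_eq_mul, hvi, mul_one] at e1 e2
      have hvj : v j = a := by simp [v, Pi.single_apply, hij]
      rw [hvj] at e2
      rw [e1] at e2
      linear_combination e2
    have r1 := hroot a₁ ha₁
    have r2 := hroot a₂ ha₂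
    have r3 := hroot a₃ ha₃
    have d12 : a₁ - a₂ ≠ 0 := sub_ne_zero.2 h12
    have d13 : a₁ - a₃ ≠ 0 := sub_ne_zero.2 h13
    have d23 : a₂ - a₃ ≠ 0 := sub_ne_zero.2 h23
    have s1 : M i j * (a₁ + a₂) + (M i i - M j j) = 0 := by
      apply mul_left_cancel₀ d12
      linear_combination r1 - r2
    have s2 : M i j * (a₁ + a₃) + (M i i - M j j) = 0 := by
      apply mul_left_cancel₀ d13
      linear_combination r1 - r3
    have s3 : M i j = 0 := by
      apply mul_left_cancel₀ d23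
      linear_combination s1 - s2
    refine ⟨s3, ?_⟩
    rw [s3] at s1
    linear_combination s1
  ext i j
  rw [Matrix.smul_apply, Matrix.one_apply]
  by_cases hij : i = j
  · subst hij
    simp only [if_true, smul_eq_mul, mul_one]
    by_cases hi : i = i₀
    · rw [hi]
    · exact (key i i₀ hi).2
  · rw [if_neg hij, smul_zero]
    exact (key i j hij).1

include hn in
/-- A noncentral element moves an isotropic point. -/
lemma exists_moved {g : Cfsg.SU n F q} (hg : g ∉ Subgroup.center (Cfsg.SU n F q)) :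
    ∃ u : Fin n → F, herm u u = 0 ∧ u ≠ 0 ∧ ∀ t : F, act g u ≠ t • u := by
  by_contra hall
  push Not at hall
  apply hg
  have hs := scalar_of_eigen hF g hall ⟨0, hn⟩
  rw [Subgroup.mem_center_iff]
  intro h
  apply su_ext
  intro x
  have e : ∀ y : Fin n → F, act g y = ((((g : SpecialLinearGroup (Fin n) F) : Matrix (Fin n) (Fin n) F) ⟨0, hn⟩ ⟨0, hn⟩) • y) := by
    intro y
    unfold act
    conv_lhs => rw [hs]
    rw [Matrix.smul_mulVec, Matrix.one_mulVec]
  rw [act_mul, act_mul, e (act h x), e x, act_smul]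

lemma exists_third {u w : Fin n → F} (huu : herm u u = 0) (hww : herm w w = 0) (hu0 : u ≠ 0) (hw0 : w ≠ 0)
    (hwu : herm w u = 0) : ∃ z, herm z z = 0 ∧ herm z u ≠ 0 ∧ herm z w ≠ 0 := by
  have hON0 : IsON q (Fin.elim0 : Fin 0 → Fin n → F) := fun i => i.elim0
  have hX : ∀ x : Fin n → F, x ∈ perpOf hF (Fin.elim0 : Fin 0 → Fin n → F) := fun x i => i.elim0
  obtain ⟨y₁, -, hy₁u⟩ := exists_perp_ne hF hON0 (hX u) hu0
  obtain ⟨y₂, -, hy₂w⟩ := exists_perp_ne hF hON0 (hX w) hw0
  obtain ⟨y, hyu, hyw⟩ : ∃ y, herm y u ≠ 0 ∧ herm y w ≠ 0 := by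
    by_cases h1 : herm y₁ w = 0
    · by_cases h2 : herm y₂ u = 0
      · refine ⟨y₁ + y₂, ?_, ?_⟩
        · rw [herm_add_left, h2, add_zero]
          exact hy₁u
        · rw [herm_add_left, h1, zero_add]
          exact hy₂w
      · exact ⟨y₂, h2, hy₂w⟩
    · exact ⟨y₁, hy₁u, h1⟩
  obtain ⟨μ, hμ⟩ := iso_adjust hF huu hyu
  have huw : herm u w = 0 := herm_eq_zero_symm hF hwu
  refine ⟨y + μ • u, hμ, ?_, ?_⟩
  · rw [herm_add_left, herm_smul_left, huu, mul_zero, add_zero]
    exact hyu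
  · rw [herm_add_left, herm_smul_left, huw, mul_zero, add_zero]
    exact hyw

lemma exists_iso_vec (hn2 : 2 ≤ n) : ∃ u : Fin n → F, u ≠ 0 ∧ herm u u = 0 := by
  have hON0 : IsON q (Fin.elim0 : Fin 0 → Fin n → F) := fun i => i.elim0
  obtain ⟨a₁, ha₁, ha₁1⟩ := exists_unit_perp hF _ hON0 (by omega)
  have he1 : IsON q (Fin.cons a₁ Fin.elim0 : Fin 1 → Fin n → F) :=
    (isON_cons_iff hF _ a₁).2 ⟨hON0, ha₁, ha₁1⟩
  obtain ⟨a₂, ha₂, ha₂1⟩ := exists_unit_perp hF _ he1 (by omega)
  rw [perpOf_cons] at ha₂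
  obtain ⟨-, ha₂a₁⟩ := ha₂
  obtain ⟨c, hc⟩ := exists_c hF
  have ha₁a₂ : herm a₁ a₂ = 0 := herm_eq_zero_symm hF ha₂a₁
  refine ⟨a₁ + c • a₂, ?_, ?_⟩
  · intro h0
    have : herm (a₁ + c • a₂) a₁ = 1 := by
      rw [herm_add_left, herm_smul_left, ha₂a₁, ha₁1]
      ring
    rw [h0, herm_zero_left hF] at this
    exact zero_ne_one this
  · rw [herm_add_left, herm_add_right hF, herm_add_right hF, herm_smul_left, herm_smul_right hF,
      herm_smul_right hF, herm_smul_left, ha₁1, ha₂1, ha₁a₂, ha₂a₁]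
    rw [pow_succ] at hc
    linear_combination hc

end

/-- The orbit relation on vectors modulo scalars. -/
def RelN (N : Subgroup (Cfsg.SU n F q)) (x y : Fin n → F) : Prop :=
  ∃ m ∈ N, ∃ l : F, l ≠ 0 ∧ act m x = l • y

section Rel
variable {N : Subgroup (Cfsg.SU n F q)}

lemma RelN.symm {x y : Fin n → F} (h : RelN N x y) : RelN N y x := by
  obtain ⟨m, hm, l, hl, e⟩ := h
  refine ⟨m⁻¹, N.inv_mem hm, l⁻¹, inv_ne_zero hl, ?_⟩
  have : y = l⁻¹ • act m x := by rw [e, smul_smul, inv_mul_cancel₀ hl, one_smul]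
  rw [this, act_smul, act_inv_act]

lemma RelN.trans {x y z : Fin n → F} (h : RelN N x y) (h' : RelN N y z) : RelN N x z := by
  obtain ⟨m, hm, l, hl, e⟩ := h
  obtain ⟨m', hm', l', hl', e'⟩ := h'
  refine ⟨m' * m, N.mul_mem hm' hm, l * l', mul_ne_zero hl hl', ?_⟩
  rw [act_mul, e, act_smul, e', smul_smul]

lemma RelN.conj [N.Normal] {x y : Fin n → F} (h : RelN N x y) (t : Cfsg.SU n F q) :
    RelN N (act t x) (act t y) := by
  obtain ⟨m, hm, l, hl, e⟩ := h
  refine ⟨t * m * t⁻¹, Subgroup.Normal.conj_mem inferInstance m hm t, l, hl, ?_⟩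
  rw [act_mul, act_mul, act_inv_act, e, act_smul]

lemma RelN.scale {x y : Fin n → F} (h : RelN N x y) {κ : F} (hκ : κ ≠ 0) : RelN N x (κ • y) := by
  obtain ⟨m, hm, l, hl, e⟩ := h
  refine ⟨m, hm, l * κ⁻¹, mul_ne_zero hl (inv_ne_zero hκ), ?_⟩
  rw [e, smul_smul, mul_assoc, inv_mul_cancel₀ hκ, mul_one]

end Rel

section Main
variable (hF : Fintype.card F = q ^ 2) (hn : 0 < n) (hn3 : 3 ≤ n)
include hF hn hn3

/-- Step: a non-perpendicular related pair. -/
lemma exists_nonperp_pair {N : Subgroup (Cfsg.SU n F q)} [N.Normal]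
    (hN : ¬ N ≤ Subgroup.center (Cfsg.SU n F q)) :
    ∃ x y : Fin n → F, x ≠ 0 ∧ y ≠ 0 ∧ herm x x = 0 ∧ herm y y = 0 ∧ herm y x ≠ 0 ∧ RelN N x y := by
  obtain ⟨g, hgN, hg⟩ := SetLike.not_le_iff_exists.1 hN
  obtain ⟨u, huu, hu0, hmov⟩ := exists_moved hF hn hg
  obtain ⟨u', hu'⟩ : ∃ u', u' = act g u := ⟨_, rfl⟩
  have hR : RelN N u u' := ⟨g, hgN, 1, one_ne_zero, by rw [hu', one_smul]⟩
  have hu'u' : herm u' u' = 0 := by rw [hu', herm_act]; exact huu
  have hu'0 : u' ≠ 0 := by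
    intro h0
    apply hu0
    apply act_injective g
    rw [← hu', h0, act_zero]
  by_cases hp : herm u' u = 0
  · -- find `z`
    have hex : ∃ y₀, herm y₀ u = 0 ∧ herm y₀ u' ≠ 0 := by
      by_contra hall
      push Not at hall
      obtain ⟨y₁, hy₁⟩ := exists_herm_one hF hu0
      have hy₁u : herm y₁ u = 1 := by rw [herm_conj hF u y₁, hy₁, one_pow]
      obtain ⟨κ, hκ⟩ : ∃ κ, κ = herm y₁ u' := ⟨_, rfl⟩
      have hall2 : ∀ y, herm y (u' - κ ^ q • u) = 0 := by
        intro y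
        have h1 := hall (y - herm y u • y₁) (by
          rw [herm_sub_left hF, herm_smul_left, hy₁u]
          ring)
        rw [herm_sub_left hF, herm_smul_left, ← hκ] at h1
        rw [herm_sub_right hF, herm_smul_right hF, pow_q_sq hF]
        linear_combination h1
      apply hmov (κ ^ q)
      rw [← hu']
      by_contra hne
      have hx0 : u' - κ ^ q • u ≠ 0 := sub_ne_zero.2 hne
      obtain ⟨y, hy⟩ := herm_nondeg hF hx0
      apply hy
      exact herm_eq_zero_symm hF (hall2 y)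
    obtain ⟨y₀, hy₀u, hy₀u'⟩ := hex
    obtain ⟨μ, hμ⟩ := iso_adjust hF hu'u' hy₀u'
    obtain ⟨z, hz⟩ : ∃ z, z = y₀ + μ • u' := ⟨_, rfl⟩
    rw [← hz] at hμ
    have hzu : herm z u = 0 := by
      rw [hz, herm_add_left, herm_smul_left, hy₀u, hp]
      ring
    have hzu' : herm z u' ≠ 0 := by
      rw [hz, herm_add_left, herm_smul_left, hu'u', mul_zero, add_zero]
      exact hy₀u'
    have hu'z : herm u' z ≠ 0 := fun h0 => hzu' (herm_eq_zero_symm hF h0)
    obtain ⟨c, hc0, hc⟩ := exists_trace_zero hF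
    have AT : Adm q z 0 c := admT hF hμ hc
    obtain ⟨T, hT⟩ : ∃ T, T = E hF hn z 0 c AT := ⟨_, rfl⟩
    have hTu : act T u = u := by
      rw [hT]
      exact act_E_fix hF hn AT (herm_eq_zero_symm hF hzu) (herm_zero_right hF u)
    have hTu' : act T u' = u' + (c * herm u' z) • z := by
      rw [hT, T_apply hF hn]
    have hR2 : RelN N u (act T u') := by
      have := hR.conj T
      rwa [hTu] at this
    refine ⟨u', act T u', hu'0, ?_, hu'u', ?_, ?_, hR.symm.trans hR2⟩
    · intro h0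
      apply hu'0
      apply act_injective T
      rw [h0, act_zero]
    · rw [herm_act]
      exact hu'u'
    · rw [hTu', herm_add_left, herm_smul_left, hu'u', zero_add]
      exact mul_ne_zero (mul_ne_zero hc0 hu'z) hzu'
  · exact ⟨u, u', hu0, hu'0, huu, hu'u', hp, hR⟩

lemma rel_all {N : Subgroup (Cfsg.SU n F q)} [N.Normal]
    (hN : ¬ N ≤ Subgroup.center (Cfsg.SU n F q)) {x y : Fin n → F} (hx0 : x ≠ 0) (hy0 : y ≠ 0)
    (hxx : herm x x = 0) (hyy : herm y y = 0) : RelN N x y := by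
  obtain ⟨x₀, y₀, hx₀0, hy₀0, hx₀x₀, hy₀y₀, hp, hR⟩ := exists_nonperp_pair hF hn hn3 hN
  have step3 : ∀ x y : Fin n → F, x ≠ 0 → y ≠ 0 → herm x x = 0 → herm y y = 0 → herm y x ≠ 0 →
      RelN N x y := by
    intro x y hx0 hy0 hxx hyy hyx
    obtain ⟨t, ht⟩ := exists_SU_map hF hn3 hx₀0 hx0 hx₀x₀ hxx
    have ht' : act t x₀ = x := ht
    obtain ⟨y₁, hy₁⟩ : ∃ y₁, y₁ = act t y₀ := ⟨_, rfl⟩
    have hR1 : RelN N x y₁ := by
      have := hR.conj t
      rwa [ht', ← hy₁] at this
    have hy₁x : herm y₁ x = herm y₀ x₀ := by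
      rw [hy₁, ← ht', herm_act]
    have hy₁x0 : herm y₁ x ≠ 0 := by rw [hy₁x]; exact hp
    have hy₁y₁ : herm y₁ y₁ = 0 := by rw [hy₁, herm_act]; exact hy₀y₀
    obtain ⟨κ, hκ⟩ : ∃ κ, κ = herm y x / herm y₁ x := ⟨_, rfl⟩
    have hκ0 : κ ≠ 0 := by
      rw [hκ]
      exact div_ne_zero hyx hy₁x0
    have hR2 := hR1.scale hκ0
    have h22 : herm (κ • y₁) (κ • y₁) = 0 := by
      rw [herm_smul_left, herm_smul_right hF, hy₁y₁]
      ring
    have h2x : herm (κ • y₁) x = herm y x := by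
      rw [herm_smul_left, hκ]
      field_simp
    obtain ⟨a, b, hab, -, hE⟩ := exists_E_map hF hxx h22 hyy (by rw [h2x]; exact hyx) h2x.symm
    have hfix : act (E hF hn x a b hab) x = x :=
      act_E_fix hF hn hab hxx (herm_eq_zero_symm hF hab.au)
    have := hR2.conj (E hF hn x a b hab)
    rwa [hfix, act_E, hE] at this
  by_cases hyx : herm y x = 0
  · obtain ⟨z, hzz, hzx, hzy⟩ := exists_third hF hxx hyy hx0 hy0 hyx
    have hz0 : z ≠ 0 := by
      rintro rfl
      exact hzx (herm_zero_left hF x)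
    have hyz : herm y z ≠ 0 := fun h0 => hzy (herm_eq_zero_symm hF h0)
    exact (step3 x z hx0 hz0 hxx hzz hzx).trans (step3 z y hz0 hy0 hzz hyy hyz)
  · exact step3 x y hx0 hy0 hxx hyy hyx

/-- The stabilizer-type subgroup. -/
def Qsub (hF : Fintype.card F = q ^ 2) (hn : 0 < n) {u : Fin n → F} (huu : herm u u = 0) :
    Subgroup (Cfsg.SU n F q) where
  carrier := {g | ∃ a b, ∃ h : Adm q u a b, g = E hF hn u a b h}
  mul_mem' := by
    rintro _ _ ⟨a, b, h, rfl⟩ ⟨a', b', h', rfl⟩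
    exact ⟨_, _, _, E_mul hF hn h h'⟩
  one_mem' := ⟨0, 0, Adm.zero hF u huu, (E_one hF hn _).symm⟩
  inv_mem' := by
    rintro _ ⟨a, b, h, rfl⟩
    exact ⟨_, _, _, E_inv hF hn h⟩

/-- The root-type subgroup. -/
def Tsub (hF : Fintype.card F = q ^ 2) (hn : 0 < n) {u : Fin n → F} (huu : herm u u = 0) :
    Subgroup (Cfsg.SU n F q) where
  carrier := {g | ∃ b, ∃ h : Adm q u 0 b, g = E hF hn u 0 b h}
  mul_mem' := by
    rintro _ _ ⟨b, h, rfl⟩ ⟨b', h', rfl⟩
    have A : Adm q u 0 (b + b' - herm 0 0) := by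
      have := Adm.mul hF h h'
      rwa [add_zero] at this
    refine ⟨_, A, ?_⟩
    rw [E_mul hF hn h h']
    apply E_congr
    · simp
    · rfl
  one_mem' := ⟨0, Adm.zero hF u huu, (E_one hF hn _).symm⟩
  inv_mem' := by
    rintro _ ⟨b, h, rfl⟩
    have A : Adm q u 0 (b ^ q) := by
      have := Adm.inv hF h
      rwa [neg_zero] at this
    refine ⟨_, A, ?_⟩
    rw [E_inv hF hn h]
    apply E_congr
    · simp
    · rfl

omit hn3 in
lemma E_conj_mem_quot {N : Subgroup (Cfsg.SU n F q)} [N.Normal] {u₀ a : Fin n → F} {b μ : F} {m : Cfsg.SU n F q}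
    (hm : m ∈ N) (hμ : μ ≠ 0) (huu : herm u₀ u₀ = 0) (h : Adm q (μ • act m u₀) a b) :
    QuotientGroup.mk' N (E hF hn (μ • act m u₀) a b h) ∈ (Qsub hF hn huu).map (QuotientGroup.mk' N) := by
  have A1 := Adm.scale hF hμ h
  rw [E_scale hF hn hμ h]
  have A2 : Adm q u₀ (act m⁻¹ (μ ^ q • a)) (μ ^ (q + 1) * b) := by
    have := Adm.conj hF m⁻¹ A1
    rwa [act_inv_act] at this
  have A3 := Adm.conj hF m A2
  refine ⟨E hF hn u₀ _ _ A2, ⟨_, _, A2, rfl⟩, ?_⟩
  have e1 : E hF hn (act m u₀) (μ ^ q • a) (μ ^ (q + 1) * b) A1 =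
      m * E hF hn u₀ _ _ A2 * m⁻¹ := by
    rw [E_conj hF hn m A2]
    apply E_congr
    · rw [act_act_inv]
    · rfl
  rw [e1, map_mul, map_mul, map_inv]
  have hm1 : QuotientGroup.mk' N m = 1 := by
    simpa using (QuotientGroup.eq_one_iff m).2 hm
  rw [hm1]
  simp

theorem normal_eq_top (hne : ¬ (n = 3 ∧ q = 2)) {N : Subgroup (Cfsg.SU n F q)} [N.Normal]
    (hN : ¬ N ≤ Subgroup.center (Cfsg.SU n F q)) : N = ⊤ := by
  obtain ⟨u₀, hu₀0, hu₀⟩ := exists_iso_vec hF (n := n) (by omega)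
  set π := QuotientGroup.mk' N with hπ
  have hsurj : Function.Surjective π := QuotientGroup.mk'_surjective N
  -- generators lie in the image of `Q`
  have hgen : ∀ x a b (h : Adm q x a b), π (E hF hn x a b h) ∈ (Qsub hF hn hu₀).map π := by
    intro x a b h
    by_cases hx0 : x = 0
    · subst hx0
      rw [E_zero_b_one hF hn (herm_zero_left hF 0) h, map_one]
      exact Subgroup.one_mem _
    · obtain ⟨m, hm, l, hl, e⟩ := rel_all hF hn hn3 hN hu₀0 hx0 hu₀ h.uu
      have hx : x = l⁻¹ • act m u₀ := by rw [e, smul_smul, inv_mul_cancel₀ hl, one_smul]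
      subst hx
      exact E_conj_mem_quot hF hn hm (inv_ne_zero hl) hu₀ h
  have hQ : (Qsub hF hn hu₀).map π = ⊤ := by
    rw [eq_top_iff]
    intro y _
    obtain ⟨g, rfl⟩ := hsurj y
    have hle : G0 hF hn ≤ ((Qsub hF hn hu₀).map π).comap π := by
      rw [G0, Subgroup.closure_le]
      rintro _ ⟨x, a, b, h, rfl⟩
      exact hgen x a b h
    exact hle (G0_eq_top hF hn hn3 g)
  have hperf : ⁅(⊤ : Subgroup (Cfsg.SU n F q ⧸ N)), (⊤ : Subgroup (Cfsg.SU n F q ⧸ N))⁆ = (⊤ : Subgroup (Cfsg.SU n F q ⧸ N)) := by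
    have h1 := commutator_eq_top hF hn hn3 hne
    have h2 : (⊤ : Subgroup (Cfsg.SU n F q)).map π = ⊤ := Subgroup.map_top_of_surjective π hsurj
    have h3 := congrArg (Subgroup.map π) h1
    rw [commutator_def, Subgroup.map_commutator, h2] at h3
    exact h3
  have hQT : ⁅Qsub hF hn hu₀, Qsub hF hn hu₀⁆ ≤ Tsub hF hn hu₀ := by
    rw [Subgroup.commutator_le]
    rintro _ ⟨a, b, h, rfl⟩ _ ⟨a', b', h', rfl⟩
    rw [E_commutator hF hn h h']
    exact ⟨_, _, rfl⟩
  have hT : (Tsub hF hn hu₀).map π = ⊤ := by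
    rw [eq_top_iff, ← hperf, ← hQ, ← Subgroup.map_commutator]
    exact Subgroup.map_mono hQT
  have hTT : ⁅Tsub hF hn hu₀, Tsub hF hn hu₀⁆ = ⊥ := by
    rw [eq_bot_iff, Subgroup.commutator_le]
    rintro _ ⟨b, h, rfl⟩ _ ⟨b', h', rfl⟩
    rw [E_commutator hF hn h h', Subgroup.mem_bot]
    have h0 : Adm q u₀ 0 0 := Adm.zero hF u₀ hu₀
    rw [E_congr hF hn _ h0 rfl (by simp)]
    exact E_one hF hn h0
  have hbot : (⊤ : Subgroup (Cfsg.SU n F q ⧸ N)) = ⊥ := by
    rw [← hperf, ← hT, ← Subgroup.map_commutator, hTT, Subgroup.map_bot]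
  rw [eq_top_iff]
  intro g _
  have : π g ∈ (⊤ : Subgroup (Cfsg.SU n F q ⧸ N)) := Subgroup.mem_top _
  rw [hbot, Subgroup.mem_bot] at this
  exact (QuotientGroup.eq_one_iff g).1 this

theorem psu_simple (hne : ¬ (n = 3 ∧ q = 2)) : IsSimpleGroup (Cfsg.PSU n F q) := by
  haveI : Nontrivial (Cfsg.PSU n F q) := by
    by_contra hnt
    rw [not_nontrivial_iff_subsingleton] at hnt
    obtain ⟨u, hu0, huu⟩ := exists_iso_vec hF (n := n) (by omega)
    obtain ⟨c, hc0, hc⟩ := exists_trace_zero hF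
    have AT : Adm q u 0 c := admT hF huu hc
    -- every element is central, hence the group is abelian
    have hcen : ∀ g : Cfsg.SU n F q, g ∈ Subgroup.center (Cfsg.SU n F q) := by
      intro g
      have : ((g : Cfsg.SU n F q) : Cfsg.PSU n F q) = 1 := Subsingleton.elim _ _
      exact (QuotientGroup.eq_one_iff g).1 this
    have hcomm : commutator (Cfsg.SU n F q) = ⊥ := by
      rw [eq_bot_iff, commutator_def, Subgroup.commutator_le]
      intro g _ h _
      rw [Subgroup.mem_bot, commutatorElement_eq_one_iff_mul_comm]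
      exact Subgroup.mem_center_iff.1 (hcen h) g
    have htop := commutator_eq_top hF hn hn3 hne
    rw [hcomm] at htop
    have h1 : E hF hn u 0 c AT = 1 := by
      have : E hF hn u 0 c AT ∈ (⊥ : Subgroup (Cfsg.SU n F q)) := by
        rw [htop]
        exact Subgroup.mem_top _
      exact Subgroup.mem_bot.1 this
    obtain ⟨y, hy⟩ := exists_herm_one hF hu0
    have hyu : herm y u = 1 := by rw [herm_conj hF u y, hy, one_pow]
    have h2 := T_apply hF hn AT y
    rw [h1, act_one, hyu, mul_one] at h2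
    have h3 : c • u = 0 := by
      have := sub_eq_zero.2 h2
      simpa using this.symm
    exact hu0 ((smul_eq_zero.1 h3).resolve_left hc0)
  refine ⟨fun H hH => ?_⟩
  set π := QuotientGroup.mk' (Subgroup.center (Cfsg.SU n F q)) with hπ
  have hsurj : Function.Surjective π := QuotientGroup.mk'_surjective _
  haveI hN : (H.comap π).Normal := Subgroup.Normal.comap hH π
  by_cases hle : H.comap π ≤ Subgroup.center (Cfsg.SU n F q)
  · left
    rw [eq_bot_iff]
    intro y hy
    obtain ⟨g, rfl⟩ := hsurj y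
    have : g ∈ Subgroup.center (Cfsg.SU n F q) := hle hy
    rw [Subgroup.mem_bot]
    exact (QuotientGroup.eq_one_iff g).2 this
  · right
    have htop := normal_eq_top hF hn hn3 hne hle
    rw [eq_top_iff]
    intro y _
    obtain ⟨g, rfl⟩ := hsurj y
    have : g ∈ H.comap π := by
      rw [htop]
      exact Subgroup.mem_top _
    exact this

end Main

end Cfsg.Agent.Lead.PSU
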