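import Cfsg.Agent.Lib.Lead.SL2Sylow
/-! The commutator subgroup of `GL_n(F)` is `SL_n(F)`, apart from `GL_2(2)`. -/
set_option autoImplicit false
set_option linter.unusedSimpArgs false
set_option linter.style.haveILetI false
set_option linter.unusedSectionVars false
namespace Cfsg.Agent.Lead
open Matrix
open scoped MatrixGroups commutatorElement

variable {F : Type*} [Field F]

lemma commutator_GL_le_ker {ι : Type*} [Fintype ι] [DecidableEq ι] :
    commutator (GL ι F) ≤ (GeneralLinearGroup.det : GL ι F →* Fˣ).ker := by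
  rw [commutator_def, Subgroup.commutator_le]
  intro g₁ _ g₂ _
  rw [MonoidHom.mem_ker, map_commutatorElement, commutatorElement_eq_one_iff_commute]
  exact mul_comm _ _

lemma toGL_uSL_mem (a : F) (ha0 : a ≠ 0) (ha1 : a ≠ 1) (x : F) :
    SpecialLinearGroup.toGL (uSL x) ∈ commutator (GL (Fin 2) F) := by
  have hsub : a - 1 ≠ 0 := sub_ne_zero.2 ha1
  have hdet : (!![a, 0; 0, 1] : Matrix (Fin 2) (Fin 2) F).det ≠ 0 := by
    simp [Matrix.det_fin_two, ha0]
  let d : GL (Fin 2) F := GeneralLinearGroup.mkOfDetNeZero _ hdet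
  set y := x / (a - 1) with hy
  have key : d * SpecialLinearGroup.toGL (uSL y)
      = SpecialLinearGroup.toGL (uSL x) * SpecialLinearGroup.toGL (uSL y) * d := by
    apply Units.ext
    change (!![a, 0; 0, 1] : Matrix (Fin 2) (Fin 2) F) * !![1, y; 0, 1] =
      (!![1, x; 0, 1] : Matrix (Fin 2) (Fin 2) F) * !![1, y; 0, 1] * !![a, 0; 0, 1]
    have hx : x = y * (a - 1) := by rw [hy]; field_simp
    ext i j
    fin_cases i <;> fin_cases j <;> simp [Matrix.mul_apply, Fin.sum_univ_two, hx]
    ring
  have e : SpecialLinearGroup.toGL (uSL x) = ⁅d, SpecialLinearGroup.toGL (uSL y)⁆ := by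
    rw [commutatorElement_def, key]; group
  rw [e, commutator_def]
  exact Subgroup.commutator_mem_commutator (Subgroup.mem_top _) (Subgroup.mem_top _)

lemma toGL_lSL_mem (a : F) (ha0 : a ≠ 0) (ha1 : a ≠ 1) (x : F) :
    SpecialLinearGroup.toGL (lSL x) ∈ commutator (GL (Fin 2) F) := by
  have hsub : a - 1 ≠ 0 := sub_ne_zero.2 ha1
  have hdet : (!![1, 0; 0, a] : Matrix (Fin 2) (Fin 2) F).det ≠ 0 := by
    simp [Matrix.det_fin_two, ha0]
  let d : GL (Fin 2) F := GeneralLinearGroup.mkOfDetNeZero _ hdet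
  set y := x / (a - 1) with hy
  have key : d * SpecialLinearGroup.toGL (lSL y)
      = SpecialLinearGroup.toGL (lSL x) * SpecialLinearGroup.toGL (lSL y) * d := by
    apply Units.ext
    change (!![1, 0; 0, a] : Matrix (Fin 2) (Fin 2) F) * !![1, 0; y, 1] =
      (!![1, 0; x, 1] : Matrix (Fin 2) (Fin 2) F) * !![1, 0; y, 1] * !![1, 0; 0, a]
    have hx : x = y * (a - 1) := by rw [hy]; field_simp
    ext i j
    fin_cases i <;> fin_cases j <;> simp [Matrix.mul_apply, Fin.sum_univ_two, hx]
    ring
  have e : SpecialLinearGroup.toGL (lSL x) = ⁅d, SpecialLinearGroup.toGL (lSL y)⁆ := by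
    rw [commutatorElement_def, key]; group
  rw [e, commutator_def]
  exact Subgroup.commutator_mem_commutator (Subgroup.mem_top _) (Subgroup.mem_top _)

lemma range_toGL_eq_ker_det' {ι : Type*} [Fintype ι] [DecidableEq ι] :
    (SpecialLinearGroup.toGL (n := ι) (R := F)).range
      = (GeneralLinearGroup.det (n := ι) (R := F)).ker := by
  ext g
  constructor
  · rintro ⟨s, rfl⟩
    rw [MonoidHom.mem_ker]
    apply Units.ext
    simp [GeneralLinearGroup.det, SpecialLinearGroup.toGL, s.2]
  · intro hg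
    rw [MonoidHom.mem_ker] at hg
    have h1 : (g : Matrix ι ι F).det = 1 := by
      have := congrArg Units.val hg
      simpa [GeneralLinearGroup.det] using this
    refine ⟨⟨(g : Matrix ι ι F), h1⟩, ?_⟩
    apply Units.ext
    rfl

theorem commutator_GL_eq_ker (n : ℕ) (h : n = 2 → ∃ a : F, a ≠ 0 ∧ a ≠ 1) :
    commutator (GL (Fin n) F) = (GeneralLinearGroup.det : GL (Fin n) F →* Fˣ).ker := by
  refine le_antisymm commutator_GL_le_ker ?_
  rw [← range_toGL_eq_ker_det']
  rcases (by omega : n = 0 ∨ n = 1 ∨ n = 2 ∨ 3 ≤ n) with rfl | rfl | rfl | hn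
  · rintro _ ⟨g, rfl⟩
    have : SpecialLinearGroup.toGL g = 1 := by
      apply Units.ext
      ext i
      exact i.elim0
    rw [this]
    exact one_mem _
  · rintro _ ⟨g, rfl⟩
    have : SpecialLinearGroup.toGL g = 1 := by
      apply Units.ext
      have hd := g.2
      rw [Matrix.det_fin_one] at hd
      ext i j
      fin_cases i; fin_cases j
      simpa using hd
    rw [this]
    exact one_mem _
  · obtain ⟨a, ha0, ha1⟩ := h rfl
    rintro _ ⟨g, rfl⟩
    refine sl2_induction (fun g => SpecialLinearGroup.toGL g ∈ commutator (GL (Fin 2) F))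
      (toGL_uSL_mem a ha0 ha1) (toGL_lSL_mem a ha0 ha1) (fun A B hA hB => ?_) g
    rw [map_mul]
    exact mul_mem hA hB
  · have h1 := commutator_SL_eq_top (ι := Fin n) (F := F) (by simpa using hn)
    rw [MonoidHom.range_eq_map, ← h1, commutator_def]
    rw [Subgroup.map_commutator]
    exact Subgroup.commutator_mono le_top le_top

end Cfsg.Agent.Lead
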