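import Cfsg.Agent.Lib.Lead.PSUSimple
import Cfsg.Agent.Lib.Lead.AutPSLSyl
/-! Automorphisms of `PSU`: basic facts and Sylow subgroups. -/
set_option autoImplicit false
set_option linter.style.haveILetI false
set_option linter.unusedSimpArgs false
set_option linter.unusedSectionVars false
set_option linter.unusedVariables false
namespace Cfsg.Agent.Lead.AutPSU
open Matrix Cfsg.Agent.Lead Cfsg.Agent.Lead.PSU
open Cfsg.Agent.Lead.AutPSL (zc image_zc)
open scoped MatrixGroups commutatorElement Pointwise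

variable {F : Type*} [Field F] [Fintype F] {q n : ℕ}

local notation "herm" => Cfsg.hermForm n F q
local notation "V" => (Fin n → F)
local notation "SUG" => Cfsg.SU n F q
local notation "PG" => (Cfsg.SU n F q ⧸ Subgroup.center (Cfsg.SU n F q))
local notation "pr" => (QuotientGroup.mk' (Subgroup.center (Cfsg.SU n F q)))

/-- the matrix of an element of `SU` -/
def mat (g : Cfsg.SU n F q) : Matrix (Fin n) (Fin n) F := ((g : SpecialLinearGroup (Fin n) F) : Matrix (Fin n) (Fin n) F)

lemma act_eq_mat (g : Cfsg.SU n F q) (x : Fin n → F) : act g x = mat g *ᵥ x := rfl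

/-- the matrix as a monoid homomorphism -/
def matHom : Cfsg.SU n F q →* Matrix (Fin n) (Fin n) F where
  toFun := mat
  map_one' := rfl
  map_mul' _ _ := rfl

lemma mat_pow (g : Cfsg.SU n F q) (k : ℕ) : mat (g ^ k) = mat g ^ k := map_pow (matHom (n := n) (F := F) (q := q)) g k

lemma act_pow_eigen {s : Cfsg.SU n F q} {v : Fin n → F} {c : F} (h : act s v = c • v) (k : ℕ) :
    act (s ^ k) v = c ^ k • v := by
  induction k with
  | zero => simp [act_one]
  | succ k ih => rw [pow_succ, act_mul, h, act_smul, ih, smul_smul, pow_succ, mul_comm]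

section
variable (hF : Fintype.card F = q ^ 2) (hn : 0 < n)
include hF

lemma norm_smul_form (c : F) (x y : Fin n → F) : herm (c • x) (c • y) = c ^ (q + 1) * herm x y := by
  rw [herm_smul_left, herm_smul_right hF, pow_succ]
  ring

include hn in
/-- central elements act as scalars of norm one -/
lemma central_scalar {A : Cfsg.SU n F q} (hA : A ∈ Subgroup.center (Cfsg.SU n F q)) :
    ∃ ζ : F, ζ ^ (q + 1) = 1 ∧ ∀ x, act A x = ζ • x := by
  classical
  let i₀ : Fin n := ⟨0, hn⟩
  have h := center_SU_scalar hF hA i₀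
  refine ⟨((A : SpecialLinearGroup (Fin n) F) : Matrix (Fin n) (Fin n) F) i₀ i₀, ?_, ?_⟩
  · set ζ := ((A : SpecialLinearGroup (Fin n) F) : Matrix (Fin n) (Fin n) F) i₀ i₀ with hζ
    have hact : ∀ x, act A x = ζ • x := by
      intro x
      unfold act
      rw [h, Matrix.smul_mulVec, Matrix.one_mulVec]
    have h2 := herm_act A (Pi.single i₀ 1) (Pi.single i₀ 1)
    rw [hact, norm_smul_form hF, herm_single_single hF, if_pos rfl, mul_one] at h2
    exact h2
  · intro x
    unfold act
    conv_lhs => rw [h]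
    rw [Matrix.smul_mulVec, Matrix.one_mulVec]

omit hF in
lemma scalar_central (ζ : F) (A : Cfsg.SU n F q) (h : ∀ x, act A x = ζ • x) : A ∈ Subgroup.center (Cfsg.SU n F q) := by
  rw [Subgroup.mem_center_iff]
  intro B
  apply su_ext
  intro x
  rw [act_mul, act_mul, h, h, act_smul]

include hn in
lemma pr_eq_iff {s t : Cfsg.SU n F q} :
    pr s = pr t ↔ ∃ ζ : F, ζ ^ (q + 1) = 1 ∧ ∀ x, act t x = ζ • act s x := by
  constructor
  · intro h
    have h1 : s⁻¹ * t ∈ Subgroup.center (Cfsg.SU n F q) := QuotientGroup.eq.mp h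
    obtain ⟨ζ, hζ, hx⟩ := central_scalar hF hn h1
    refine ⟨ζ, hζ, fun x => ?_⟩
    have h2 := hx x
    rw [act_mul] at h2
    have h3 := congrArg (act s) h2
    rw [act_act_inv, act_smul] at h3
    exact h3
  · rintro ⟨ζ, hζ, hx⟩
    apply QuotientGroup.eq.mpr
    apply scalar_central ζ
    intro y
    rw [act_mul, hx, act_smul, act_inv_act]

lemma pow_q_ne_zero {c : F} (hc : c ≠ 0) : c ^ q ≠ 0 := pow_ne_zero _ hc

/-- `E` for equal data -/
lemma E_congr' {u u' a a' : Fin n → F} {b b' : F} (h : Adm q u a b) (h' : Adm q u' a' b')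
    (e0 : u = u') (e1 : a = a') (e2 : b = b') : E hF hn u a b h = E hF hn u' a' b' h' := by
  subst e0 e1 e2
  rfl

/-- conjugation of an Eichler transformation by an element fixing the point -/
lemma conj_E_fix (s : Cfsg.SU n F q) {v a : Fin n → F} {b c : F} (hc : c ≠ 0) (hs : act s v = c • v) (h : Adm q v a b) :
    ∃ h' : Adm q v (c ^ q • act s a) (c ^ (q + 1) * b), s * E hF hn v a b h * s⁻¹ = E hF hn v (c ^ q • act s a) (c ^ (q + 1) * b) h' := by
  have h0 : Adm q (c • v) (act s a) b := by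
    have := Adm.conj hF s h
    rwa [hs] at this
  refine ⟨Adm.scale hF hc h0, ?_⟩
  rw [E_conj hF hn s h, E_congr' hF hn (Adm.conj hF s h) h0 hs rfl rfl, E_scale hF hn hc h0]

/-- the Eichler transformations are `p`-elements -/
lemma E_pow {p : ℕ} [Fact p.Prime] [CharP F p] {u a : Fin n → F} {b : F} (h : Adm q u a b) :
    (E hF hn u a b h) ^ (p ^ 2) = 1 := by
  apply Subtype.ext
  apply Subtype.ext
  change mat ((E hF hn u a b h) ^ (p ^ 2)) = 1
  rw [mat_pow]
  change (Emat q u a b) ^ (p ^ 2) = 1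
  haveI : Nonempty (Fin n) := ⟨⟨0, hn⟩⟩
  have h1 : (Emat q u a b - 1) ^ 3 = 0 := by
    rw [pow_succ, pow_two]
    exact Emat_cube hF h
  have h2 : (p ^ 2 : ℕ) = 3 + (p ^ 2 - 3) := by
    have : 2 ≤ p := (Fact.out : p.Prime).two_le
    have : 4 ≤ p ^ 2 := by nlinarith
    omega
  have h3 : (Emat q u a b - 1) ^ (p ^ 2) = 0 := by
    rw [h2, pow_add, h1, zero_mul]
  rw [sub_pow_char_pow_of_commute p 2 (Commute.one_right _), one_pow, sub_eq_zero] at h3
  exact h3

/-- the radical of the stabilizer of a point, in `PSU` -/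
def QQ {u : Fin n → F} (huu : herm u u = 0) : Subgroup PG := (Qsub hF hn huu).map pr

/-- the root group, in `PSU` -/
def TT {u : Fin n → F} (huu : herm u u = 0) : Subgroup PG := (Tsub hF hn huu).map pr

lemma mem_QQ {u : Fin n → F} {huu : herm u u = 0} {x : PG} :
    x ∈ QQ hF hn huu ↔ ∃ a b, ∃ h : Adm q u a b, pr (E hF hn u a b h) = x := by
  constructor
  · rintro ⟨_, ⟨a, b, h, rfl⟩, rfl⟩
    exact ⟨a, b, h, rfl⟩
  · rintro ⟨a, b, h, rfl⟩
    exact ⟨_, ⟨a, b, h, rfl⟩, rfl⟩

lemma mem_TT {u : Fin n → F} {huu : herm u u = 0} {x : PG} :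
    x ∈ TT hF hn huu ↔ ∃ b, ∃ h : Adm q u 0 b, pr (E hF hn u 0 b h) = x := by
  constructor
  · rintro ⟨_, ⟨b, h, rfl⟩, rfl⟩
    exact ⟨b, h, rfl⟩
  · rintro ⟨b, h, rfl⟩
    exact ⟨_, ⟨b, h, rfl⟩, rfl⟩

lemma TT_le_QQ {u : Fin n → F} (huu : herm u u = 0) : TT hF hn huu ≤ QQ hF hn huu := by
  intro x hx
  obtain ⟨b, h, rfl⟩ := (mem_TT hF hn).mp hx
  exact (mem_QQ hF hn).mpr ⟨0, b, h, rfl⟩

lemma isPGroup_QQ {p : ℕ} [Fact p.Prime] [CharP F p] {u : Fin n → F} (huu : herm u u = 0) :
    IsPGroup p (QQ hF hn huu) := by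
  rintro ⟨x, hx⟩
  obtain ⟨a, b, h, rfl⟩ := (mem_QQ hF hn).mp hx
  refine ⟨2, ?_⟩
  apply Subtype.ext
  change (pr (E hF hn u a b h)) ^ (p ^ 2) = 1
  rw [← map_pow, E_pow hF hn h, map_one]

/-- `P` fixes the point `⟨v⟩` -/
def Fix (P : Subgroup PG) (v : Fin n → F) : Prop :=
  ∀ s : Cfsg.SU n F q, pr s ∈ P → ∃ c : F, c ≠ 0 ∧ act s v = c • v

omit hF in
lemma act_ne_zero {s : Cfsg.SU n F q} {v : Fin n → F} (hv : v ≠ 0) : act s v ≠ 0 := by
  intro h
  apply hv
  have h1 := congrArg (act s⁻¹) h
  rwa [act_inv_act, act_zero] at h1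

/-- the non-zero isotropic vectors -/
def IsoV (hF : Fintype.card F = q ^ 2) : Type _ := {v : Fin n → F // v ≠ 0 ∧ herm v v = 0}

/-- proportionality of isotropic vectors -/
def ptSetoid : Setoid (IsoV (n := n) hF) where
  r x y := ∃ c : F, c ≠ 0 ∧ y.1 = c • x.1
  iseqv :=
    { refl := fun x => ⟨1, one_ne_zero, (one_smul _ _).symm⟩
      symm := by
        rintro x y ⟨c, hc, e⟩
        refine ⟨c⁻¹, inv_ne_zero hc, ?_⟩
        rw [e, smul_smul, inv_mul_cancel₀ hc, one_smul]
      trans := by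
        rintro x y z ⟨c, hc, e⟩ ⟨d, hd, e'⟩
        refine ⟨d * c, mul_ne_zero hd hc, ?_⟩
        rw [e', e, smul_smul] }

/-- isotropic points -/
def Pt : Type _ := Quotient (ptSetoid (n := n) hF)

/-- the action on isotropic vectors -/
def actIso (g : Cfsg.SU n F q) (x : IsoV (n := n) hF) : IsoV (n := n) hF :=
  ⟨act g x.1, act_ne_zero x.2.1, by rw [herm_act]; exact x.2.2⟩

/-- the action on isotropic points -/
def actPt (g : Cfsg.SU n F q) : Pt (n := n) hF → Pt (n := n) hF :=
  Quotient.map' (s₁ := ptSetoid hF) (s₂ := ptSetoid hF) (actIso hF g) (by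
    rintro x y ⟨c, hc, e⟩
    refine ⟨c, hc, ?_⟩
    change act g y.1 = c • act g x.1
    rw [e, act_smul])

lemma actPt_mk (g : Cfsg.SU n F q) (x : IsoV (n := n) hF) :
    actPt hF g (Quotient.mk (ptSetoid hF) x) = Quotient.mk (ptSetoid hF) (actIso hF g x) := rfl

/-- the action on points as a permutation -/
def permPt : Cfsg.SU n F q →* Equiv.Perm (Pt (n := n) hF) where
  toFun g :=
    { toFun := actPt hF g
      invFun := actPt hF g⁻¹
      left_inv := by
        intro x
        induction x using Quotient.inductionOn with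
        | h x =>
          rw [actPt_mk, actPt_mk]
          congr 1
          apply Subtype.ext
          exact act_inv_act g x.1
      right_inv := by
        intro x
        induction x using Quotient.inductionOn with
        | h x =>
          rw [actPt_mk, actPt_mk]
          congr 1
          apply Subtype.ext
          exact act_act_inv g x.1 }
  map_one' := by
    ext x
    induction x using Quotient.inductionOn with
    | h x =>
      change actPt hF 1 (Quotient.mk (ptSetoid hF) x) = Quotient.mk (ptSetoid hF) x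
      rw [actPt_mk]
      congr 1
      apply Subtype.ext
      exact act_one x.1
  map_mul' g g' := by
    ext x
    induction x using Quotient.inductionOn with
    | h x =>
      change actPt hF (g * g') (Quotient.mk (ptSetoid hF) x) = actPt hF g (actPt hF g' (Quotient.mk (ptSetoid hF) x))
      rw [actPt_mk, actPt_mk, actPt_mk]
      congr 1
      apply Subtype.ext
      exact act_mul g g' x.1

lemma permPt_apply (g : Cfsg.SU n F q) (x : IsoV (n := n) hF) :
    permPt hF g (Quotient.mk (ptSetoid hF) x) = Quotient.mk (ptSetoid hF) (actIso hF g x) := rfl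

include hn in
lemma permPt_center : Subgroup.center (Cfsg.SU n F q) ≤ (permPt (n := n) hF).ker := by
  intro A hA
  rw [MonoidHom.mem_ker]
  ext x
  induction x using Quotient.inductionOn with
  | h x =>
    rw [permPt_apply]
    obtain ⟨ζ, hζ, hx⟩ := central_scalar hF hn hA
    apply Quotient.sound
    refine ⟨ζ⁻¹, ?_, ?_⟩
    · intro h0
      rw [inv_eq_zero] at h0
      rw [h0, zero_pow (by omega)] at hζ
      exact zero_ne_one hζ
    · have hz : ζ ≠ 0 := by
        intro h0
        rw [h0, zero_pow (by omega)] at hζ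
        exact zero_ne_one hζ
      change x.1 = ζ⁻¹ • act A x.1
      rw [hx, smul_smul, inv_mul_cancel₀ hz, one_smul]

/-- the action of `PSU` on points -/
def permPG : PG →* Equiv.Perm (Pt (n := n) hF) :=
  QuotientGroup.lift _ (permPt hF) (permPt_center hF hn)

instance : Finite (IsoV (n := n) hF) := by
  unfold IsoV
  infer_instance

instance : Finite (Pt (n := n) hF) := by
  unfold Pt
  exact Quotient.finite _

lemma exp_not_dvd {p : ℕ} (hp : p.Prime) (hpq : p ∣ q) (hn2 : 2 ≤ n) :
    ¬ p ∣ (if Even n then (q ^ n - 1) * (q ^ (n - 1) + 1) else (q ^ n + 1) * (q ^ (n - 1) - 1)) := by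
  have hpn : p ∣ q ^ n := dvd_pow hpq (by omega)
  have hpn' : p ∣ q ^ (n - 1) := dvd_pow hpq (by omega)
  have h1 : ∀ k, p ∣ k → ¬ p ∣ k + 1 := by
    intro k hk h2
    have := (Nat.dvd_add_right hk).mp h2
    exact hp.one_lt.ne' (Nat.dvd_one.mp this)
  have h2 : ∀ k, p ∣ k → k ≠ 0 → ¬ p ∣ k - 1 := by
    intro k hk h0 h2
    apply h1 (k - 1) h2
    have : k - 1 + 1 = k := Nat.sub_add_cancel (Nat.one_le_iff_ne_zero.mpr h0)
    rw [this]
    exact hk
  have hq0 : q ≠ 0 := by
    rintro rfl
    simp at hF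
  split_ifs
  · intro h
    rcases (Nat.Prime.dvd_mul hp).mp h with h | h
    · exact h2 _ hpn (pow_ne_zero _ hq0) h
    · exact h1 _ hpn' h
  · intro h
    rcases (Nat.Prime.dvd_mul hp).mp h with h | h
    · exact h1 _ hpn h
    · exact h2 _ hpn' (pow_ne_zero _ hq0) h

/-- the number of isotropic vectors is prime to `p` -/
lemma card_IsoV : Nat.card (IsoV (n := n) hF) =
    (if Even n then (q ^ n - 1) * (q ^ (n - 1) + 1) else (q ^ n + 1) * (q ^ (n - 1) - 1)) := by
  classical
  have h := herm_card_zero (n := n) hF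
  have h1 : Nat.card {v : Fin n → F // herm v v = 0} = Nat.card (IsoV (n := n) hF) + 1 := by
    let f : Option (IsoV (n := n) hF) → {v : Fin n → F // herm v v = 0} := fun o =>
      match o with
      | none => ⟨0, herm_zero_left hF 0⟩
      | some x => ⟨x.1, x.2.2⟩
    have hf : Function.Bijective f := by
      constructor
      · rintro (_ | x) (_ | y) hxy
        · rfl
        · exact absurd (congrArg (fun z : {v : Fin n → F // herm v v = 0} => z.1) hxy).symm y.2.1
        · exact absurd (congrArg (fun z : {v : Fin n → F // herm v v = 0} => z.1) hxy) x.2.1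
        · have h5 : x.1 = y.1 := congrArg (fun z : {v : Fin n → F // herm v v = 0} => z.1) hxy
          exact congrArg some (Subtype.ext h5)
      · rintro ⟨v, hv⟩
        by_cases h0 : v = 0
        · subst h0
          exact ⟨none, rfl⟩
        · exact ⟨some ⟨v, h0, hv⟩, rfl⟩
    rw [← Nat.card_eq_of_bijective f hf, Finite.card_option]
  rw [h1] at h
  exact Nat.succ_injective h

/-- the free action of the scalars -/
lemma card_IsoV_eq : Nat.card (IsoV (n := n) hF) = Nat.card (Pt (n := n) hF) * (q ^ 2 - 1) := by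
  classical
  have hunits : Nat.card Fˣ = q ^ 2 - 1 := by
    rw [Nat.card_units, Nat.card_eq_fintype_card, hF]
  rw [← hunits, ← Nat.card_prod]
  symm
  let f : Pt (n := n) hF × Fˣ → IsoV (n := n) hF := fun x =>
    ⟨(x.2 : F) • (Quotient.out x.1 : IsoV (n := n) hF).1, smul_ne_zero x.2.ne_zero (Quotient.out x.1 : IsoV (n := n) hF).2.1, by
      rw [norm_smul_form hF, (Quotient.out x.1 : IsoV (n := n) hF).2.2, mul_zero]⟩
  apply Nat.card_eq_of_bijective f
  constructor
  · rintro ⟨x, c⟩ ⟨y, d⟩ hxy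
    have h1 : (c : F) • (Quotient.out x : IsoV (n := n) hF).1 = (d : F) • (Quotient.out y : IsoV (n := n) hF).1 :=
      congrArg Subtype.val hxy
    have h2 : x = y := by
      have : Quotient.mk (ptSetoid hF) (Quotient.out x : IsoV (n := n) hF) = Quotient.mk (ptSetoid hF) (Quotient.out y : IsoV (n := n) hF) := by
        apply Quotient.sound
        refine ⟨(d : F)⁻¹ * c, mul_ne_zero (inv_ne_zero d.ne_zero) c.ne_zero, ?_⟩
        rw [← smul_smul, h1, smul_smul, inv_mul_cancel₀ d.ne_zero, one_smul]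
      exact (Quotient.out_eq x).symm.trans (this.trans (Quotient.out_eq y))
    subst h2
    have h3 : ((c : F) - d) • (Quotient.out x : IsoV (n := n) hF).1 = 0 := by
      rw [sub_smul, h1, sub_self]
    have h4 := (smul_eq_zero.mp h3).resolve_right (Quotient.out x : IsoV (n := n) hF).2.1
    exact Prod.ext rfl (Units.ext (sub_eq_zero.mp h4))
  · intro v
    have h0 : Quotient.mk (ptSetoid hF) (Quotient.out (Quotient.mk (ptSetoid hF) v) : IsoV (n := n) hF) = Quotient.mk (ptSetoid hF) v :=
      Quotient.out_eq _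
    obtain ⟨c, hc, e⟩ := Quotient.exact h0
    refine ⟨⟨Quotient.mk (ptSetoid hF) v, Units.mk0 c hc⟩, ?_⟩
    apply Subtype.ext
    exact e.symm

include hn in
/-- a `p`-subgroup fixes a point -/
lemma exists_fix {p : ℕ} [Fact p.Prime] (hpq : p ∣ q) (hn2 : 2 ≤ n) {P : Subgroup PG} (hP : IsPGroup p P) :
    ∃ v : Fin n → F, v ≠ 0 ∧ herm v v = 0 ∧ Fix P v := by
  have hnd : ¬ p ∣ Nat.card (Pt (n := n) hF) := by
    intro h
    apply exp_not_dvd hF (Fact.out : p.Prime) hpq hn2
    rw [← card_IsoV hF, card_IsoV_eq hF]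
    exact Dvd.dvd.mul_right h _
  letI : MulAction PG (Pt (n := n) hF) := MulAction.compHom _ (permPG hF hn)
  obtain ⟨x, hx⟩ := hP.nonempty_fixed_point_of_prime_not_dvd_card (Pt (n := n) hF) hnd
  induction x using Quotient.inductionOn with
  | h x =>
    refine ⟨x.1, x.2.1, x.2.2, fun s hs => ?_⟩
    have h1 := hx ⟨pr s, hs⟩
    have h2 : permPt hF s (Quotient.mk (ptSetoid hF) x) = Quotient.mk (ptSetoid hF) x := h1
    rw [permPt_apply] at h2
    obtain ⟨c, hc, e⟩ := Quotient.exact h2
    have hc' : c⁻¹ ≠ 0 := inv_ne_zero hc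
    refine ⟨c⁻¹, hc', ?_⟩
    have e' : x.1 = c • act s x.1 := e
    conv_rhs => rw [e']
    rw [smul_smul, inv_mul_cancel₀ hc, one_smul]

end

end Cfsg.Agent.Lead.AutPSU
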