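import Cfsg.Agent.Lib.Lead.AutPSU9
/-! Automorphisms of `PSU`: the coordinates are semilinear (lines). -/
set_option autoImplicit false
set_option linter.style.haveILetI false
set_option linter.unusedSimpArgs false
set_option linter.unusedSectionVars false
set_option linter.unusedVariables false
namespace Cfsg.Agent.Lead.AutPSU
open Matrix Cfsg.Agent.Lead Cfsg.Agent.Lead.PSU
open scoped MatrixGroups commutatorElement Pointwise

variable {F : Type*} [Field F] [Fintype F] {q n : ℕ}

local notation "herm" => Cfsg.hermForm n F q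
local notation "SUG" => Cfsg.SU n F q
local notation "PG" => (Cfsg.SU n F q ⧸ Subgroup.center (Cfsg.SU n F q))
local notation "pr" => (QuotientGroup.mk' (Subgroup.center (Cfsg.SU n F q)))

section
variable (hF : Fintype.card F = q ^ 2) (hn : 0 < n)
include hF hn

variable {p : ℕ} [hp : Fact p.Prime] [CharP F p]
variable {i₀ i₁ : Fin n} {u v : Fin n → F} (hb : Base q i₀ i₁ u v) (hn3 : 3 ≤ n)
variable {α : MulAut (Cfsg.SU n F q ⧸ Subgroup.center (Cfsg.SU n F q))} {φ : (Fin n → F) → (Fin n → F)} (hc : Coord hF hn v hb.uu α φ)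
  (hαu : Pres α (TT hF hn hb.uu)) (hαv : Pres α (TT hF hn hb.vv))
include hb hc hαu hαv hn3

/-- lines through `v`, the anisotropic case -/
lemma Coord.line_aniso₀ {a : Fin n → F} (hau : herm a u = 0) (hav : herm a v = 0) (haa : herm a a ≠ 0) {s : F} (hs : s ^ q ≠ s) :
    ∃ r : F, φ (s • a) = r • φ a := by
  have hq2 := two_le_q hF
  have hsd : s - s ^ q ≠ 0 := fun h0 => hs (sub_eq_zero.mp h0).symm
  have hsd' : s ^ q - s ≠ 0 := fun h0 => hs (sub_eq_zero.mp h0)
  set A := herm a a with hA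
  have hAq : A ^ q = A := herm_self_fixed hF a
  set b := A * s ^ q * (1 - s) / (s - s ^ q) with hbdef
  have hbq : b ^ q = A * s * (1 - s ^ q) / (s ^ q - s) := by
    rw [hbdef, div_pow, mul_pow, mul_pow, hAq, pow_q_sq hF, pow_sub_q hF, pow_sub_q hF, pow_q_sq hF]
    have : (1 : F) ^ q = 1 := one_pow q
    rw [this]
  have ht1 : b + b ^ q + A = 0 := by
    rw [hbq, hbdef]
    have : s ^ q - s = -(s - s ^ q) := by ring
    rw [this]
    field_simp
    ring
  have hb0 : b ≠ 0 := by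
    intro h0
    rw [h0, zero_pow (by omega), add_zero, zero_add] at ht1
    exact haa ht1
  have ht2 : s * b + (s * b) ^ q + herm (s • a) (s • a) = 0 := by
    rw [norm_smul_form hF, mul_pow, hbq, hbdef, ← hA, pow_succ]
    have : s ^ q - s = -(s - s ^ q) := by ring
    rw [this]
    field_simp
    ring
  have hsau : herm (s • a) u = 0 := by rw [herm_smul_left, hau, mul_zero]
  have hsav : herm (s • a) v = 0 := by rw [herm_smul_left, hav, mul_zero]
  have A₁ : Adm q u a b := ⟨hb.uu, hau, ht1⟩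
  have A₂ : Adm q u (s • a) (s * b) := ⟨hb.uu, hsau, ht2⟩
  obtain ⟨b₁, B₁, e₁⟩ := hc.val _ _ A₁ hav
  obtain ⟨b₂, B₂, e₂⟩ := hc.val _ _ A₂ hsav
  have hx1 := hc.mapW _ hau hav
  have hx2 := hc.mapW _ hsau hsav
  have h1 := point_iso hF hn hb A₁ hav
  have h2 := point_iso hF hn hb A₂ hsav
  have h1' := point_iso hF hn hb B₁ hx1.2
  have h2' := point_iso hF hn hb B₂ hx2.2
  have ey := Coord.map_TT hF hn hb hc hαv A₁ B₁ hav e₁ h1 h1'
  have ew := Coord.map_TT hF hn hb hc hαv A₂ B₂ hsav e₂ h2 h2'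
  have hv0 := Base.v_ne hF hn hb hn3
  have hp : herm (v + a + b • u) v ≠ 0 := by
    rw [herm_add_left, herm_add_left, herm_smul_left, hb.vv, hav, Base.uv hF hb]
    simpa using hb0
  have hline : v + s • a + (s * b) • u = (1 - s) • v + s • (v + a + b • u) := by
    module
  obtain ⟨c', d', e⟩ := line_map hF hn hn3 (α := α) hv0 (point_ne hF hn hb A₁) (point_ne hF hn hb A₂) hv0 (point_ne hF hn hb B₁) (point_ne hF hn hb B₂)
    hb.vv h1 h2 hb.vv h1' h2' hαv.map_eq ey ew hp hline
  refine ⟨d', ?_⟩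
  have e1 : φ (s • a) - d' • φ a = (c' + d' - 1) • v + (d' * b₁ - b₂) • u := by
    linear_combination (norm := module) e
  have hW1 : herm (φ (s • a) - d' • φ a) u = 0 := by
    rw [herm_sub_left hF, herm_smul_left, hx1.1, hx2.1]
    ring
  have hW2 : herm (φ (s • a) - d' • φ a) v = 0 := by
    rw [herm_sub_left hF, herm_smul_left, hx1.2, hx2.2]
    ring
  have h3 : c' + d' - 1 = 0 := by
    have := hW1
    rw [e1, herm_add_left, herm_smul_left, herm_smul_left, hb.vu, hb.uu] at this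
    simpa using this
  have h4 : d' * b₁ - b₂ = 0 := by
    have := hW2
    rw [e1, herm_add_left, herm_smul_left, herm_smul_left, hb.vv, Base.uv hF hb] at this
    simpa using this
  rw [h3, h4, zero_smul, zero_smul, add_zero] at e1
  exact sub_eq_zero.mp e1

/-- lines through `v`, the anisotropic case -/
lemma Coord.line_aniso {a : Fin n → F} (hau : herm a u = 0) (hav : herm a v = 0) (haa : herm a a ≠ 0) (s : F) :
    ∃ r : F, φ (s • a) = r • φ a := by
  by_cases hs : s ^ q = s
  · obtain ⟨s₁, hs₁⟩ := exists_not_fixed hF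
    have hs₂ : (s - s₁) ^ q ≠ s - s₁ := by
      rw [pow_sub_q hF, hs]
      intro h
      exact hs₁ (sub_right_injective h)
    obtain ⟨r₁, e₁⟩ := Coord.line_aniso₀ hF hn hb hn3 hc hαu hαv hau hav haa hs₁
    obtain ⟨r₂, e₂⟩ := Coord.line_aniso₀ hF hn hb hn3 hc hαu hαv hau hav haa hs₂
    have hsum : s • a = s₁ • a + (s - s₁) • a := by
      rw [← add_smul]
      congr 1
      ring
    have h1 : herm (s₁ • a) u = 0 := by rw [herm_smul_left, hau, mul_zero]
    have h2 : herm (s₁ • a) v = 0 := by rw [herm_smul_left, hav, mul_zero]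
    have h3 : herm ((s - s₁) • a) u = 0 := by rw [herm_smul_left, hau, mul_zero]
    have h4 : herm ((s - s₁) • a) v = 0 := by rw [herm_smul_left, hav, mul_zero]
    refine ⟨r₁ + r₂, ?_⟩
    rw [hsum, Coord.add hF hn hb hc h1 h2 h3 h4, e₁, e₂, add_smul]
  · exact Coord.line_aniso₀ hF hn hb hn3 hc hαu hαv hau hav haa hs

end

section
variable (hF : Fintype.card F = q ^ 2) (hn : 0 < n)
include hF

variable {i₀ i₁ : Fin n} {u v : Fin n → F} (hb : Base q i₀ i₁ u v)
include hb

/-- the form on the perpendicular of the pair is non-degenerate -/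
lemma exists_W_val {a : Fin n → F} (hau : herm a u = 0) (hav : herm a v = 0) (ha0 : a ≠ 0) (t : F) :
    ∃ x, herm x u = 0 ∧ herm x v = 0 ∧ herm x a = t := by
  classical
  obtain ⟨h1, h2⟩ := (hb.mem a).mp ⟨hau, hav⟩
  obtain ⟨i, hi⟩ : ∃ i, a i ≠ 0 := by
    by_contra hall
    push Not at hall
    exact ha0 (funext hall)
  have hi0 : i ≠ i₀ := by
    rintro rfl
    exact hi h1
  have hi1 : i ≠ i₁ := by
    rintro rfl
    exact hi h2
  have e : ∀ y : Fin n → F, herm (Pi.single i 1) y = (y i) ^ q := by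
    intro y
    rw [herm_conj hF y, herm_single hF]
  have hq0 : (a i) ^ q ≠ 0 := pow_ne_zero _ hi
  have hq2 := two_le_q hF
  refine ⟨(t * ((a i) ^ q)⁻¹) • Pi.single i 1, ?_, ?_, ?_⟩
  · rw [herm_smul_left, e, hb.uz i hi0 hi1, zero_pow (by omega), mul_zero]
  · rw [herm_smul_left, e, hb.vz i hi0 hi1, zero_pow (by omega), mul_zero]
  · rw [herm_smul_left, e]
    field_simp

end

/-- the action of a transvection with perpendicular centre -/
lemma E_conj_perp (hF : Fintype.card F = q ^ 2) (hn : 0 < n) {u a x : Fin n → F} {b c : F} (T : Adm q a 0 c) (hua : herm u a = 0) (A : Adm q u x b)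
    (A' : Adm q u (x + (c * herm x a) • a) b) :
    E hF hn a 0 c T * E hF hn u x b A * (E hF hn a 0 c T)⁻¹ = E hF hn u (x + (c * herm x a) • a) b A' := by
  rw [E_conj hF hn]
  apply E_congr' hF hn
  · rw [act_E, Efun_zero hF, hua]
    simp
  · rw [act_E, Efun_zero hF]
  · rfl

section
variable (hF : Fintype.card F = q ^ 2) (hn : 0 < n)
include hF hn

variable {p : ℕ} [hp : Fact p.Prime] [CharP F p]
variable {i₀ i₁ : Fin n} {u v : Fin n → F} (hb : Base q i₀ i₁ u v) (hn3 : 3 ≤ n)
variable {α : MulAut (Cfsg.SU n F q ⧸ Subgroup.center (Cfsg.SU n F q))} {φ : (Fin n → F) → (Fin n → F)} (hc : Coord hF hn v hb.uu α φ)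
  (hαu : Pres α (TT hF hn hb.uu)) (hαv : Pres α (TT hF hn hb.vv))
include hb hc hαu hαv hn3

include p in
/-- the isotropic case -/
lemma Coord.line_iso {a : Fin n → F} (hau : herm a u = 0) (hav : herm a v = 0) (haa : herm a a = 0) (ha0 : a ≠ 0) (s : F) :
    ∃ r : F, φ (s • a) = r • φ a := by
  have hu0 := Base.u_ne hF hn hb hn3
  have hv0 := Base.v_ne hF hn hb hn3
  obtain ⟨a', ha'0, ha'a', ea'⟩ := stepA (p := p) hF hn (by omega) α ha0 haa
  have hau' : herm a' u = 0 := perp_map hF hn hn3 hu0 ha0 hu0 ha'0 hb.uu haa hb.uu ha'a' hαu.map_eq ea' hau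
  have hav' : herm a' v = 0 := perp_map hF hn hn3 hv0 ha0 hv0 ha'0 hb.vv haa hb.vv ha'a' hαv.map_eq ea' hav
  obtain ⟨c₁, hc₁0, hc₁⟩ := exists_trace_zero hF
  have T : Adm q a 0 c₁ := admT hF haa hc₁
  have h1 : α (pr (E hF hn a 0 c₁ T)) ∈ TT hF hn ha'a' := by
    rw [← ea']
    exact ⟨_, (mem_TT hF hn).mpr ⟨c₁, T, rfl⟩, rfl⟩
  obtain ⟨c', T', e'⟩ := (mem_TT hF hn).mp h1
  have key : ∀ x, herm x u = 0 → herm x v = 0 → φ ((c₁ * herm x a) • a) = (c' * herm (φ x) a') • a' := by
    intro x hxu hxv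
    have hua : herm u a = 0 := herm_eq_zero_symm hF hau
    have hua' : herm u a' = 0 := herm_eq_zero_symm hF hau'
    obtain ⟨b, A⟩ := exists_adm hF hb.uu hxu
    have hx' := hc.mapW _ hxu hxv
    set y := (c₁ * herm x a) • a with hy
    have hyu : herm y u = 0 := by rw [hy, herm_smul_left, hau, mul_zero]
    have hyv : herm y v = 0 := by rw [hy, herm_smul_left, hav, mul_zero]
    have hxyu : herm (x + y) u = 0 := by rw [herm_add_left, hxu, hyu, add_zero]
    have hxyv : herm (x + y) v = 0 := by rw [herm_add_left, hxv, hyv, add_zero]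
    have A₁ : Adm q u (x + y) b := by
      refine ⟨hb.uu, hxyu, ?_⟩
      have := (Adm.conj hF (E hF hn a 0 c₁ T) A).tr
      rw [herm_act] at this
      rw [← this]
      rw [hy, herm_add_left, herm_add_right hF, herm_add_right hF, herm_smul_left, herm_smul_right hF, herm_smul_left, herm_smul_right hF,
        haa, herm_conj hF x a]
      have h5 : (c₁ * herm x a) ^ q = c₁ ^ q * (herm x a) ^ q := mul_pow _ _ _
      have h6 : c₁ ^ q = -c₁ := by linear_combination hc₁
      rw [h5, h6]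
      ring
    have e₁ := E_conj_perp hF hn T hua A A₁
    obtain ⟨b₁, B, e₂⟩ := hc.val _ _ A hxv
    obtain ⟨b₂, B₂, e₃⟩ := hc.val _ _ A₁ hxyv
    set y' := (c' * herm (φ x) a') • a' with hy'
    have hy'u : herm y' u = 0 := by rw [hy', herm_smul_left, hau', mul_zero]
    have hy'v : herm y' v = 0 := by rw [hy', herm_smul_left, hav', mul_zero]
    have B₁ : Adm q u (φ x + y') b₁ := by
      refine ⟨hb.uu, by rw [herm_add_left, hx'.1, hy'u, add_zero], ?_⟩
      have := (Adm.conj hF (E hF hn a' 0 c' T') B).tr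
      rw [herm_act] at this
      rw [← this]
      have hc'' : c' ^ q = -c' := by
        have := T'.tr
        rw [herm_zero_left hF] at this
        linear_combination this
      rw [hy', herm_add_left, herm_add_right hF, herm_add_right hF, herm_smul_left, herm_smul_right hF, herm_smul_left, herm_smul_right hF,
        ha'a', herm_conj hF (φ x) a', mul_pow, hc'']
      ring
    have e₄ := E_conj_perp hF hn T' hua' B B₁
    have e₅ : α (pr (E hF hn u (x + y) b A₁)) = pr (E hF hn u (φ x + y') b₁ B₁) := by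
      rw [← e₁, ← e₄, map_mul, map_mul, map_inv, map_mul, map_mul, map_inv, map_mul, map_mul, map_inv, e₂, ← e']
    rw [e₃] at e₅
    have e₆ := (E_unique hF hn hb B₂ B₁ (hc.mapW _ hxyu hxyv).2 (by rw [herm_add_left, hx'.2, hy'v, add_zero]) e₅).1
    rw [Coord.add hF hn hb hc hxu hxv hyu hyv] at e₆
    exact add_left_cancel e₆
  -- the conclusion
  obtain ⟨x₁, h11, h12, h13⟩ := exists_W_val hF hb hau hav ha0 (c₁⁻¹ * s)
  obtain ⟨x₂, h21, h22, h23⟩ := exists_W_val hF hb hau hav ha0 c₁⁻¹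
  have e1 := key x₁ h11 h12
  have e2 := key x₂ h21 h22
  rw [h13, mul_inv_cancel_left₀ hc₁0] at e1
  rw [h23, mul_inv_cancel₀ hc₁0, one_smul] at e2
  have hφa : φ a ≠ 0 := fun h0 => ha0 (Coord.zero_of hF hn hb hc hαu hau hav h0)
  have hμ : c' * herm (φ x₂) a' ≠ 0 := by
    intro h0
    rw [h0, zero_smul] at e2
    exact hφa e2
  refine ⟨(c' * herm (φ x₁) a') * (c' * herm (φ x₂) a')⁻¹, ?_⟩
  rw [e1, e2, smul_smul, mul_assoc, inv_mul_cancel₀ hμ, mul_one]

/-- the fundamental step -/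
lemma Coord.same_ratio (hlines : ∀ a, herm a u = 0 → herm a v = 0 → ∀ s : F, ∃ r : F, φ (s • a) = r • φ a)
    {x y : Fin n → F} (hxu : herm x u = 0) (hxv : herm x v = 0) (hyu : herm y u = 0) (hyv : herm y v = 0) (hx0 : x ≠ 0)
    (hindep : ∀ κ : F, y ≠ κ • x) {s r₁ r₂ : F} (e₁ : φ (s • x) = r₁ • φ x) (e₂ : φ (s • y) = r₂ • φ y) : r₁ = r₂ := by
  classical
  have hφx : φ x ≠ 0 := fun h0 => hx0 (Coord.zero_of hF hn hb hc hαu hxu hxv h0)
  have hsx : ∀ t : F, herm (t • x) u = 0 ∧ herm (t • x) v = 0 := fun t => by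
    rw [herm_smul_left, herm_smul_left, hxu, hxv, mul_zero]
    exact ⟨rfl, rfl⟩
  have hsy : ∀ t : F, herm (t • y) u = 0 ∧ herm (t • y) v = 0 := fun t => by
    rw [herm_smul_left, herm_smul_left, hyu, hyv, mul_zero]
    exact ⟨rfl, rfl⟩
  -- the values of `φ` on the line are onto
  have honto : ∀ κ : F, ∃ t : F, φ (t • x) = κ • φ x := by
    choose f hf using hlines x hxu hxv
    have hinj : Function.Injective f := by
      intro t t' h
      have h1 := hf t
      have h2 := hf t'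
      rw [h, ← h2] at h1
      have h3 := Coord.inj hF hn hb hc hαu (hsx t).1 (hsx t).2 (hsx t').1 (hsx t').2 h1
      have h4 : (t - t') • x = 0 := by rw [sub_smul, h3, sub_self]
      exact sub_eq_zero.mp ((smul_eq_zero.mp h4).resolve_right hx0)
    intro κ
    obtain ⟨t, ht⟩ := (Finite.injective_iff_surjective.mp hinj) κ
    exact ⟨t, by rw [hf, ht]⟩
  have hind' : ∀ κ : F, φ y ≠ κ • φ x := by
    intro κ h
    obtain ⟨t, ht⟩ := honto κ
    rw [← ht] at h
    exact hindep t (Coord.inj hF hn hb hc hαu hyu hyv (hsx t).1 (hsx t).2 h)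
  have hxyu : herm (x + y) u = 0 := by rw [herm_add_left, hxu, hyu, add_zero]
  have hxyv : herm (x + y) v = 0 := by rw [herm_add_left, hxv, hyv, add_zero]
  obtain ⟨r₃, e₃⟩ := hlines _ hxyu hxyv s
  rw [smul_add, Coord.add hF hn hb hc (hsx s).1 (hsx s).2 (hsy s).1 (hsy s).2, Coord.add hF hn hb hc hxu hxv hyu hyv, e₁, e₂] at e₃
  have h1 : (r₂ - r₃) • φ y = (r₃ - r₁) • φ x := by
    rw [sub_smul, sub_smul]
    linear_combination (norm := module) e₃
  have h2 : r₂ = r₃ := by
    by_contra hne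
    have h3 : r₂ - r₃ ≠ 0 := sub_ne_zero.mpr hne
    apply hind' ((r₂ - r₃)⁻¹ * (r₃ - r₁))
    rw [← smul_smul, ← h1, smul_smul, inv_mul_cancel₀ h3, one_smul]
  rw [h2, sub_self, zero_smul] at h1
  have h4 := (smul_eq_zero.mp h1.symm).resolve_right hφx
  rw [h2]
  exact (sub_eq_zero.mp h4).symm

end

end Cfsg.Agent.Lead.AutPSU
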