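import Cfsg.Agent.Lib.Lead.AutPSU10
/-! Automorphisms of `PSU`: the coordinates are semilinear. -/
set_option autoImplicit false
set_option linter.style.haveILetI false
set_option linter.unusedSimpArgs false
set_option linter.unusedSectionVars false
set_option linter.unusedVariables false
namespace Cfsg.Agent.Lead.AutPSU
open Matrix Cfsg.Agent.Lead Cfsg.Agent.Lead.PSU
open scoped MatrixGroups commutatorElement Pointwise

variable {F : Type*} [Field F] [Fintype F] {q n : ℕ}

local notation "herm" => Cfsg.hermForm n F q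
local notation "SUG" => Cfsg.SU n F q
local notation "PG" => (Cfsg.SU n F q ⧸ Subgroup.center (Cfsg.SU n F q))
local notation "pr" => (QuotientGroup.mk' (Subgroup.center (Cfsg.SU n F q)))

/-- the size of a proper subfield -/
lemma subfield_card_le (K : Subfield F) (hK : K ≠ ⊤) : Nat.card K ^ 2 ≤ Fintype.card F := by
  classical
  obtain ⟨y, hy⟩ : ∃ y : F, y ∉ K := by
    by_contra hcon
    push Not at hcon
    exact hK (top_unique fun x _ => hcon x)
  let f : K × K → F := fun x => (x.1 : F) + y * (x.2 : F)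
  have hf : Function.Injective f := by
    rintro ⟨k₁, k₂⟩ ⟨k₁', k₂'⟩ h
    have h0 : (k₁ : F) + y * k₂ = k₁' + y * k₂' := h
    have h2 : k₂ = k₂' := by
      by_contra hne
      have h3 : (k₂ : F) - k₂' ≠ 0 := by
        intro h4
        exact hne (Subtype.ext (sub_eq_zero.mp h4))
      apply hy
      have h5 : y = ((k₁' : F) - k₁) / ((k₂ : F) - k₂') := by
        field_simp
        linear_combination h0
      rw [h5]
      exact K.div_mem (K.sub_mem k₁'.2 k₁.2) (K.sub_mem k₂.2 k₂'.2)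
    subst h2
    have h3 : k₁ = k₁' := Subtype.ext (add_right_cancel h0)
    rw [h3]
  have h1 := Nat.card_le_card_of_injective f hf
  rw [Nat.card_prod, Nat.card_eq_fintype_card (α := F)] at h1
  rw [pow_two]
  exact h1

/-- a subfield containing the `(2q-1)`-th powers is everything -/
lemma subfield_eq_top (hF : Fintype.card F = q ^ 2) (hq3 : 3 ≤ q) (K : Subfield F) (hK : ∀ x : F, x ≠ 0 → x ^ (2 * q - 1) ∈ K) : K = ⊤ := by
  classical
  by_contra hne
  have h1 := subfield_card_le K hne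
  rw [hF] at h1
  have h2 : Nat.card K ≤ q := by
    exact (Nat.pow_le_pow_iff_left (by norm_num)).mp h1
  let R := (powMonoidHom (2 * q - 1) : Fˣ →* Fˣ).range
  have hG : Nat.card Fˣ = q ^ 2 - 1 := by
    rw [Nat.card_units, Nat.card_eq_fintype_card, hF]
  have hR : Nat.card R = (q ^ 2 - 1) / (q ^ 2 - 1).gcd (2 * q - 1) := by
    have := IsCyclic.card_powMonoidHom_range (G := Fˣ) (2 * q - 1)
    rw [hG] at this
    exact this
  have hg : (q ^ 2 - 1).gcd (2 * q - 1) ∣ 3 := by
    set g := (q ^ 2 - 1).gcd (2 * q - 1) with hgdef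
    have h3 : g ∣ q ^ 2 - 1 := Nat.gcd_dvd_left _ _
    have h4 : g ∣ 2 * q - 1 := Nat.gcd_dvd_right _ _
    have h5 : (2 * q - 1) * (2 * q + 1) = 4 * (q ^ 2 - 1) + 3 := by
      obtain ⟨k, rfl⟩ : ∃ k, q = k + 1 := ⟨q - 1, by omega⟩
      have e1 : 2 * (k + 1) - 1 = 2 * k + 1 := by omega
      have e2 : (k + 1) ^ 2 - 1 = k ^ 2 + 2 * k := by
        have : (k + 1) ^ 2 = k ^ 2 + 2 * k + 1 := by ring
        omega
      rw [e1, e2]
      ring
    have h6 : g ∣ 4 * (q ^ 2 - 1) + 3 := by
      rw [← h5]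
      exact Dvd.dvd.mul_right h4 _
    exact (Nat.dvd_add_right (Dvd.dvd.mul_left h3 4)).mp h6
  have hg' : (q ^ 2 - 1).gcd (2 * q - 1) ≤ 3 := Nat.le_of_dvd (by norm_num) hg
  have hR2 : Nat.card R * (q ^ 2 - 1).gcd (2 * q - 1) = q ^ 2 - 1 := by
    rw [hR]
    exact Nat.div_mul_cancel (Nat.gcd_dvd_left _ _)
  -- the injection
  let f : Option R → K := fun o =>
    match o with
    | none => 0
    | some r => ⟨((r : Fˣ) : F), by
        obtain ⟨x, hx⟩ := r.2
        rw [← hx]
        exact hK _ x.ne_zero⟩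
  have hf : Function.Injective f := by
    rintro (_ | x) (_ | y) h
    · rfl
    · exfalso
      have h0 : (0 : F) = ((y : Fˣ) : F) := congrArg Subtype.val h
      exact (y : Fˣ).ne_zero h0.symm
    · exfalso
      have h0 : ((x : Fˣ) : F) = 0 := congrArg Subtype.val h
      exact (x : Fˣ).ne_zero h0
    · have h0 : ((x : Fˣ) : F) = ((y : Fˣ) : F) := congrArg Subtype.val h
      exact congrArg some (Subtype.ext (Units.ext h0))
  have h3 := Nat.card_le_card_of_injective f hf
  rw [Finite.card_option] at h3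
  have h4 : Nat.card R + 1 ≤ q := h3.trans h2
  have h5 : q ^ 2 - 1 ≤ Nat.card R * 3 := by
    rw [← hR2]
    exact Nat.mul_le_mul_left _ hg'
  have h6 : q ^ 2 ≤ 3 * q - 2 := by
    have : 1 ≤ q ^ 2 := Nat.one_le_pow _ _ (by omega)
    omega
  have h7 : 3 * q ≤ q ^ 2 := by
    rw [pow_two]
    exact Nat.mul_le_mul_right _ hq3
  omega

section
variable (hF : Fintype.card F = q ^ 2) (hn : 0 < n)
include hF hn

variable {i₀ i₁ : Fin n} {u v : Fin n → F} (hb : Base q i₀ i₁ u v) (hn3 : 3 ≤ n)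

omit hn in
include hb in
lemma single_mem_W {i : Fin n} (h0 : i ≠ i₀) (h1 : i ≠ i₁) : herm (Pi.single i 1) u = 0 ∧ herm (Pi.single i 1) v = 0 := by
  classical
  apply (hb.mem _).mpr
  simp [Pi.single_apply, Ne.symm h0, Ne.symm h1]

include hb hn3 in
/-- torus elements -/
lemma exists_torus {l : F} (hl : l ≠ 0) : ∃ d : Cfsg.SU n F q, act d u = l • u ∧ act d v = (l⁻¹) ^ q • v := by
  have hq2 := two_le_q hF
  have hu0 := Base.u_ne hF hn hb hn3
  have hON0 : IsON q (Fin.elim0 : Fin 0 → Fin n → F) := fun i => i.elim0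
  have hX : ∀ x : Fin n → F, x ∈ perpOf hF (Fin.elim0 : Fin 0 → Fin n → F) := fun x i => i.elim0
  have hlu : herm (l • u) (l • u) = 0 := by rw [norm_smul_form hF, hb.uu, mul_zero]
  obtain ⟨t, -, ht⟩ := trans_X hF hn hON0 (by omega) (hX u) (hX (l • u)) hb.uu hlu hu0 (smul_ne_zero hl hu0)
  have hv₂ : herm (act t v) (act t v) = 0 := herm_act_self hF t hb.vv
  have hw : herm ((l⁻¹) ^ q • v) ((l⁻¹) ^ q • v) = 0 := by rw [norm_smul_form hF, hb.vv, mul_zero]
  have hv₂u : herm (act t v) (l • u) = 1 := by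
    rw [← ht, herm_act]
    exact hb.vu
  have hwu : herm ((l⁻¹) ^ q • v) (l • u) = 1 := by
    rw [herm_smul_left, herm_smul_right hF, hb.vu, mul_one, ← mul_pow, inv_mul_cancel₀ hl, one_pow]
  obtain ⟨a, b, A, -, hE⟩ := exists_E_map hF hlu hv₂ hw (by rw [hv₂u]; exact one_ne_zero) (by rw [hwu, hv₂u])
  refine ⟨E hF hn (l • u) a b A * t, ?_, ?_⟩
  · rw [act_mul, ht]
    exact act_E_fix hF hn A hlu (herm_eq_zero_symm hF A.au)
  · rw [act_mul, act_E, hE]

omit hn in
include hb in
/-- the determinant in rank three -/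
lemma det_three (hn' : n = 3) {i₂ : Fin n} (h20 : i₂ ≠ i₀) (h21 : i₂ ≠ i₁) (s : Cfsg.SU n F q) {a b c : F}
    (h1 : act s u = a • u) (h2 : act s v = b • v) (h3 : act s (Pi.single i₂ 1) = c • Pi.single i₂ 1) : a * b * c = 1 := by
  classical
  have hne : i₀ ≠ i₁ := hb.ne
  have huniv : (Finset.univ : Finset (Fin n)) = {i₀, i₁, i₂} := by
    symm
    apply Finset.eq_univ_of_card
    rw [Finset.card_insert_of_notMem, Finset.card_insert_of_notMem, Finset.card_singleton, Fintype.card_fin, hn']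
    · simpa using h21.symm
    · simp only [Finset.mem_insert, Finset.mem_singleton, not_or]
      exact ⟨hne, h20.symm⟩
  set col : Fin n → Fin n → F := fun j => if j = i₀ then u else if j = i₁ then v else Pi.single i₂ 1 with hcol
  have hc0 : col i₀ = u := by simp [hcol]
  have hc1 : col i₁ = v := by simp [hcol, hne.symm]
  have hc2 : col i₂ = Pi.single i₂ 1 := by simp [hcol, h20, h21]
  set d : Fin n → F := fun j => if j = i₀ then a else if j = i₁ then b else c with hd
  have hd0 : d i₀ = a := by simp [hd]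
  have hd1 : d i₁ = b := by simp [hd, hne.symm]
  have hd2 : d i₂ = c := by simp [hd, h20, h21]
  have hall : ∀ j, j = i₀ ∨ j = i₁ ∨ j = i₂ := by
    intro j
    have : j ∈ (Finset.univ : Finset (Fin n)) := Finset.mem_univ j
    rw [huniv] at this
    simpa using this
  have hact : ∀ j, act s (col j) = d j • col j := by
    intro j
    rcases hall j with rfl | rfl | rfl
    · rw [hc0, hd0, h1]
    · rw [hc1, hd1, h2]
    · rw [hc2, hd2, h3]
  let T : Matrix (Fin n) (Fin n) F := Matrix.of fun k j => col j k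
  have hT : mat s * T = T * Matrix.diagonal d := by
    ext k j
    rw [Matrix.mul_diagonal]
    have := congrFun (hact j) k
    simp only [Pi.smul_apply, smul_eq_mul] at this
    have h5 : (mat s * T) k j = act s (col j) k := rfl
    rw [h5, this]
    exact mul_comm _ _
  have hdet : (mat s).det = 1 := (s : SpecialLinearGroup (Fin n) F).2
  have hT0 : T.det ≠ 0 := by
    intro h0
    obtain ⟨x, hx0, hx⟩ := Matrix.exists_mulVec_eq_zero_iff.mpr h0
    have e : x i₀ • u + x i₁ • v + x i₂ • (Pi.single i₂ 1 : Fin n → F) = 0 := by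
      funext k
      have := congrFun hx k
      simp only [Matrix.mulVec, dotProduct, T, Matrix.of_apply, huniv, Pi.zero_apply] at this
      rw [Finset.sum_insert, Finset.sum_insert, Finset.sum_singleton, hc0, hc1, hc2] at this
      · simp only [Pi.add_apply, Pi.smul_apply, smul_eq_mul, Pi.zero_apply]
        linear_combination this
      · simpa using h21.symm
      · simp only [Finset.mem_insert, Finset.mem_singleton, not_or]
        exact ⟨hne, h20.symm⟩
    have hW := single_mem_W hF hb h20 h21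
    have e0 : x i₀ = 0 := by
      have := congrArg (fun t => herm t v) e
      simp only [herm_add_left, herm_smul_left, hb.vv, Base.uv hF hb, hW.2, herm_zero_left hF, mul_zero, add_zero, mul_one] at this
      exact this
    have e1 : x i₁ = 0 := by
      have := congrArg (fun t => herm t u) e
      simp only [herm_add_left, herm_smul_left, hb.uu, hb.vu, hW.1, herm_zero_left hF, mul_zero, add_zero, mul_one, zero_add] at this
      exact this
    have e2 : x i₂ = 0 := by
      rw [e0, e1, zero_smul, zero_smul, add_zero, zero_add] at e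
      have := congrFun e i₂
      simpa using this
    apply hx0
    funext j
    rcases hall j with rfl | rfl | rfl
    · exact e0
    · exact e1
    · exact e2
  have h4 := congrArg Matrix.det hT
  rw [Matrix.det_mul, Matrix.det_mul, hdet, one_mul, Matrix.det_diagonal, huniv, Finset.prod_insert, Finset.prod_insert, Finset.prod_singleton, hd0, hd1, hd2] at h4
  · have h5 : T.det * (1 - a * (b * c)) = 0 := by linear_combination h4
    have h6 := (mul_eq_zero.mp h5).resolve_left hT0
    linear_combination -h6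
  · simpa using h21.symm
  · simp only [Finset.mem_insert, Finset.mem_singleton, not_or]
    exact ⟨hne, h20.symm⟩

end

section
variable (hF : Fintype.card F = q ^ 2) (hn : 0 < n)
include hF hn

variable {p : ℕ} [hp : Fact p.Prime] [CharP F p]
variable {i₀ i₁ : Fin n} {u v : Fin n → F} (hb : Base q i₀ i₁ u v) (hn3 : 3 ≤ n)
variable {α : MulAut (Cfsg.SU n F q ⧸ Subgroup.center (Cfsg.SU n F q))} {φ : (Fin n → F) → (Fin n → F)} (hc : Coord hF hn v hb.uu α φ)
  (hαu : Pres α (TT hF hn hb.uu)) (hαv : Pres α (TT hF hn hb.vv))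
include hb hc hαu hαv hn3

include p in
/-- the lines through `v` -/
lemma Coord.lines (a : Fin n → F) (hau : herm a u = 0) (hav : herm a v = 0) (s : F) : ∃ r : F, φ (s • a) = r • φ a := by
  by_cases ha0 : a = 0
  · subst ha0
    refine ⟨0, ?_⟩
    rw [smul_zero, zero_smul]
    exact Coord.zero hF hn hb hc hn3
  · by_cases haa : herm a a = 0
    · exact Coord.line_iso (p := p) hF hn hb hn3 hc hαu hαv hau hav haa ha0 s
    · exact Coord.line_aniso hF hn hb hn3 hc hαu hαv hau hav haa s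

include p in
/-- rank at least four -/
lemma Coord.all_ratio₄ {i₂ i₃ : Fin n} (h20 : i₂ ≠ i₀) (h21 : i₂ ≠ i₁) (h30 : i₃ ≠ i₀) (h31 : i₃ ≠ i₁) (h23 : i₂ ≠ i₃) (s : F) :
    ∃ r : F, ∀ a, herm a u = 0 → herm a v = 0 → φ (s • a) = r • φ a := by
  classical
  have hlines := Coord.lines (p := p) hF hn hb hn3 hc hαu hαv
  have he₂ := single_mem_W hF hb h20 h21
  have he₃ := single_mem_W hF hb h30 h31
  have hne₂ : (Pi.single i₂ 1 : Fin n → F) ≠ 0 := by
    intro h
    have := congrFun h i₂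
    simp at this
  have hne₃ : (Pi.single i₃ 1 : Fin n → F) ≠ 0 := by
    intro h
    have := congrFun h i₃
    simp at this
  have hind : ∀ κ : F, (Pi.single i₃ 1 : Fin n → F) ≠ κ • (Pi.single i₂ 1 : Fin n → F) := by
    intro κ h
    have := congrFun h i₃
    simp [Pi.single_apply, Ne.symm h23] at this
  obtain ⟨r, hr⟩ := hlines _ he₂.1 he₂.2 s
  obtain ⟨r₃, hr₃⟩ := hlines _ he₃.1 he₃.2 s
  have h23' : r = r₃ := Coord.same_ratio hF hn hb hn3 hc hαu hαv hlines he₂.1 he₂.2 he₃.1 he₃.2 hne₂ hind hr hr₃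
  refine ⟨r, fun a hau hav => ?_⟩
  by_cases ha0 : a = 0
  · subst ha0
    rw [smul_zero, Coord.zero hF hn hb hc hn3, smul_zero]
  obtain ⟨r₄, hr₄⟩ := hlines _ hau hav s
  by_cases hdep : ∀ κ : F, a ≠ κ • (Pi.single i₂ 1 : Fin n → F)
  · rw [hr₄, Coord.same_ratio hF hn hb hn3 hc hαu hαv hlines he₂.1 he₂.2 hau hav hne₂ hdep hr hr₄]
  · push Not at hdep
    obtain ⟨κ, e⟩ := hdep
    have hind₂ : ∀ κ' : F, (Pi.single i₃ 1 : Fin n → F) ≠ κ' • a := by
      intro κ' h
      rw [e, smul_smul] at h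
      exact hind _ h
    rw [hr₄, h23', Coord.same_ratio hF hn hb hn3 hc hαu hαv hlines hau hav he₃.1 he₃.2 ha0 hind₂ hr₄ hr₃]

/-- rank three: the torus -/
lemma Coord.torus₃ (hn' : n = 3) {i₂ : Fin n} (h20 : i₂ ≠ i₀) (h21 : i₂ ≠ i₁) {l : F} (hl : l ≠ 0) :
    ∃ r : F, ∀ a, herm a u = 0 → herm a v = 0 → φ ((l ^ (2 * q - 1)) • a) = r • φ a := by
  classical
  have hq2 := two_le_q hF
  have hne : i₀ ≠ i₁ := hb.ne
  have hu0 := Base.u_ne hF hn hb hn3
  have hv0 := Base.v_ne hF hn hb hn3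
  have huniv : (Finset.univ : Finset (Fin n)) = {i₀, i₁, i₂} := by
    symm
    apply Finset.eq_univ_of_card
    rw [Finset.card_insert_of_notMem, Finset.card_insert_of_notMem, Finset.card_singleton, Fintype.card_fin, hn']
    · simpa using h21.symm
    · simp only [Finset.mem_insert, Finset.mem_singleton, not_or]
      exact ⟨hne, h20.symm⟩
  have hall : ∀ j, j = i₀ ∨ j = i₁ ∨ j = i₂ := by
    intro j
    have : j ∈ (Finset.univ : Finset (Fin n)) := Finset.mem_univ j
    rw [huniv] at this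
    simpa using this
  -- `W` is a line
  have hline : ∀ x : Fin n → F, herm x u = 0 → herm x v = 0 → x = x i₂ • Pi.single i₂ 1 := by
    intro x h1 h2
    obtain ⟨h3, h4⟩ := (hb.mem x).mp ⟨h1, h2⟩
    funext j
    rcases hall j with rfl | rfl | rfl
    · simp [Pi.single_apply, h3, Ne.symm h20]
    · simp [Pi.single_apply, h4, Ne.symm h21]
    · simp
  set e : Fin n → F := Pi.single i₂ 1 with he
  have hW := single_mem_W hF hb h20 h21
  -- elements stabilizing both points act on `W` by a scalar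
  have hact : ∀ (s : Cfsg.SU n F q) (c d : F), c ≠ 0 → d ≠ 0 → act s u = c • u → act s v = d • v →
      ∃ ν : F, ∀ x, herm x u = 0 → herm x v = 0 → act s x = ν • x := by
    intro s c d hc0 hd0 h1 h2
    have h3 : herm (act s e) u = 0 := by
      have := herm_act s e u
      rw [hW.1, h1, herm_smul_right hF] at this
      exact (mul_eq_zero.mp this).resolve_left (pow_ne_zero _ hc0)
    have h4 : herm (act s e) v = 0 := by
      have := herm_act s e v
      rw [hW.2, h2, herm_smul_right hF] at this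
      exact (mul_eq_zero.mp this).resolve_left (pow_ne_zero _ hd0)
    refine ⟨act s e i₂, fun x hxu hxv => ?_⟩
    conv_lhs => rw [hline x hxu hxv]
    rw [act_smul]
    conv_lhs => rw [hline _ h3 h4]
    conv_rhs => rw [hline x hxu hxv]
    rw [smul_smul, smul_smul, mul_comm]
  obtain ⟨d, hdu, hdv⟩ := exists_torus hF hn hb hn3 hl
  obtain ⟨ν, hν⟩ := hact d l ((l⁻¹) ^ q) hl (pow_ne_zero _ (inv_ne_zero hl)) hdu hdv
  have hνe : ν = l ^ q * l⁻¹ := by
    have h1 := det_three hF hb hn' h20 h21 d hdu hdv (hν e hW.1 hW.2)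
    rw [inv_pow] at h1
    have hlq : l ^ q ≠ 0 := pow_ne_zero _ hl
    field_simp at h1 ⊢
    linear_combination h1
  have hr : l ^ q * ν = l ^ (2 * q - 1) := by
    have e1 : 2 * q - 1 + 1 = q + q := by omega
    have e2 : l ^ (2 * q - 1) * l = l ^ q * l ^ q := by
      rw [← pow_succ, e1, pow_add]
    have e3 : l ^ q * (l ^ q * l⁻¹) = l ^ q * l ^ q * l⁻¹ := by ring
    rw [hνe, e3, ← e2, mul_assoc, mul_inv_cancel₀ hl, mul_one]
  -- the image of `d`
  obtain ⟨d', hd'⟩ := QuotientGroup.mk'_surjective _ (α (pr d))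
  have hu' : Pres (MulAut.conj (pr d')) (TT hF hn hb.uu) := by
    rw [hd']
    exact hαu.conj_map (pres_of_fix hF hn hb.uu hl hdu)
  have hv' : Pres (MulAut.conj (pr d')) (TT hF hn hb.vv) := by
    rw [hd']
    exact hαv.conj_map (pres_of_fix hF hn hb.vv (pow_ne_zero _ (inv_ne_zero hl)) hdv)
  obtain ⟨c', hc'0, hd'u⟩ := fix_of_pres hF hn hn3 hu0 hb.uu hu'
  obtain ⟨e', he'0, hd'v⟩ := fix_of_pres hF hn hn3 hv0 hb.vv hv'
  obtain ⟨ν', hν'⟩ := hact d' c' e' hc'0 he'0 hd'u hd'v
  refine ⟨c' ^ q * ν', fun a hau hav => ?_⟩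
  obtain ⟨b, A⟩ := exists_adm hF hb.uu hau
  obtain ⟨b₁, B, e₁⟩ := hc.val _ _ A hav
  have hx' := hc.mapW _ hau hav
  obtain ⟨A₀, e₂₀⟩ := conj_E_fix hF hn d hl hdu A
  obtain ⟨B₀, e₃₀⟩ := conj_E_fix hF hn d' hc'0 hd'u B
  have hAe : l ^ q • act d a = (l ^ (2 * q - 1)) • a := by rw [hν a hau hav, smul_smul, hr]
  have hBe : c' ^ q • act d' (φ a) = (c' ^ q * ν') • φ a := by rw [hν' _ hx'.1 hx'.2, smul_smul]
  have A₁ : Adm q u ((l ^ (2 * q - 1)) • a) (l ^ (q + 1) * b) := by
    rw [← hAe]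
    exact A₀
  have B₁ : Adm q u ((c' ^ q * ν') • φ a) (c' ^ (q + 1) * b₁) := by
    rw [← hBe]
    exact B₀
  have e₂ := e₂₀.trans (E_congr hF hn A₀ A₁ hAe rfl)
  have e₃ := e₃₀.trans (E_congr hF hn B₀ B₁ hBe rfl)
  have hWa : herm ((l ^ (2 * q - 1)) • a) u = 0 ∧ herm ((l ^ (2 * q - 1)) • a) v = 0 := by
    rw [herm_smul_left, herm_smul_left, hau, hav, mul_zero]
    exact ⟨rfl, rfl⟩
  obtain ⟨b₂, B₂, e₄⟩ := hc.val _ _ A₁ hWa.2
  have e₅ : α (pr (E hF hn u _ _ A₁)) = pr (E hF hn u _ _ B₁) := by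
    rw [← e₂, ← e₃, map_mul, map_mul, map_inv, map_mul, map_mul, map_inv, map_mul, map_mul, map_inv, e₁, hd']
  rw [e₄] at e₅
  have hx₂ := hc.mapW _ hWa.1 hWa.2
  exact (E_unique hF hn hb B₂ B₁ hx₂.2 (by rw [herm_smul_left, hx'.2, mul_zero]) e₅).1

end

end Cfsg.Agent.Lead.AutPSU
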