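import Cfsg.Agent.Lib.Lead.AutPSU11
/-! Automorphisms of `PSU`: the field automorphism and the similitude factor. -/
set_option autoImplicit false
set_option linter.style.haveILetI false
set_option linter.unusedSimpArgs false
set_option linter.unusedSectionVars false
set_option linter.unusedVariables false
namespace Cfsg.Agent.Lead.AutPSU
open Matrix Cfsg.Agent.Lead Cfsg.Agent.Lead.PSU
open scoped MatrixGroups commutatorElement Pointwise

variable {F : Type*} [Field F] [Fintype F] {q n : ℕ}

local notation "herm" => Cfsg.hermForm n F q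
local notation "SUG" => Cfsg.SU n F q
local notation "PG" => (Cfsg.SU n F q ⧸ Subgroup.center (Cfsg.SU n F q))
local notation "pr" => (QuotientGroup.mk' (Subgroup.center (Cfsg.SU n F q)))

section
variable (hF : Fintype.card F = q ^ 2) (hn : 0 < n)
include hF hn

variable {p : ℕ} [hp : Fact p.Prime] [CharP F p]
variable {i₀ i₁ : Fin n} {u v : Fin n → F} (hb : Base q i₀ i₁ u v) (hn3 : 3 ≤ n)
variable {α : MulAut (Cfsg.SU n F q ⧸ Subgroup.center (Cfsg.SU n F q))} {φ : (Fin n → F) → (Fin n → F)} (hc : Coord hF hn v hb.uu α φ)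
  (hαu : Pres α (TT hF hn hb.uu)) (hαv : Pres α (TT hF hn hb.vv))
include hb hc hαu hαv hn3

/-- rank three: the scalars form a field -/
lemma Coord.all_ratio₃ (hn' : n = 3) (hq3 : 3 ≤ q) (s : F) :
    ∃ r : F, ∀ a, herm a u = 0 → herm a v = 0 → φ (s • a) = r • φ a := by
  classical
  obtain ⟨i₂, h20, h21⟩ : ∃ i₂ : Fin n, i₂ ≠ i₀ ∧ i₂ ≠ i₁ := by
    by_contra hcon
    push Not at hcon
    have hsub : (Finset.univ : Finset (Fin n)) ⊆ {i₀, i₁} := by
      intro i _
      by_cases hi : i = i₀
      · simp [hi]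
      · simp [hcon i hi]
    have h1 := Finset.card_le_card hsub
    rw [Finset.card_univ, Fintype.card_fin] at h1
    have h2 : ({i₀, i₁} : Finset (Fin n)).card ≤ 2 := Finset.card_le_two
    omega
  have he := single_mem_W hF hb h20 h21
  have hne : (Pi.single i₂ 1 : Fin n → F) ≠ 0 := by
    intro h
    have := congrFun h i₂
    simp at this
  have hsW : ∀ (t : F) (a : Fin n → F), herm a u = 0 → herm a v = 0 → herm (t • a) u = 0 ∧ herm (t • a) v = 0 := by
    intro t a h1 h2
    rw [herm_smul_left, herm_smul_left, h1, h2, mul_zero]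
    exact ⟨rfl, rfl⟩
  have hadd := fun {a a' : Fin n → F} (h1 : herm a u = 0) (h2 : herm a v = 0) (h3 : herm a' u = 0) (h4 : herm a' v = 0) =>
    Coord.add hF hn hb hc h1 h2 h3 h4
  have h00 := Coord.zero hF hn hb hc hn3
  let K : Subfield F :=
    { carrier := {t | ∃ r : F, ∀ a, herm a u = 0 → herm a v = 0 → φ (t • a) = r • φ a}
      mul_mem' := by
        rintro t t' ⟨r, hr⟩ ⟨r', hr'⟩
        refine ⟨r * r', fun a h1 h2 => ?_⟩
        rw [mul_smul, hr _ (hsW t' a h1 h2).1 (hsW t' a h1 h2).2, hr' a h1 h2, smul_smul]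
      one_mem' := ⟨1, fun a _ _ => by rw [one_smul, one_smul]⟩
      add_mem' := by
        rintro t t' ⟨r, hr⟩ ⟨r', hr'⟩
        refine ⟨r + r', fun a h1 h2 => ?_⟩
        rw [add_smul, hadd (hsW t a h1 h2).1 (hsW t a h1 h2).2 (hsW t' a h1 h2).1 (hsW t' a h1 h2).2, hr a h1 h2, hr' a h1 h2, add_smul]
      zero_mem' := ⟨0, fun a _ _ => by rw [zero_smul, zero_smul, h00]⟩
      neg_mem' := by
        rintro t ⟨r, hr⟩
        refine ⟨-r, fun a h1 h2 => ?_⟩
        have h3 := hadd (hsW t a h1 h2).1 (hsW t a h1 h2).2 (hsW (-t) a h1 h2).1 (hsW (-t) a h1 h2).2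
        rw [← add_smul, add_neg_cancel, zero_smul, h00, hr a h1 h2] at h3
        rw [neg_smul r]
        exact (eq_neg_of_add_eq_zero_right h3.symm)
      inv_mem' := by
        rintro t ⟨r, hr⟩
        by_cases ht : t = 0
        · refine ⟨0, fun a _ _ => ?_⟩
          rw [ht, _root_.inv_zero, zero_smul, zero_smul, h00]
        · have hr0 : r ≠ 0 := by
            rintro rfl
            have h1 := hr _ he.1 he.2
            rw [zero_smul] at h1
            have h2 := Coord.zero_of hF hn hb hc hαu (hsW t _ he.1 he.2).1 (hsW t _ he.1 he.2).2 h1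
            exact (smul_ne_zero ht hne) h2
          refine ⟨r⁻¹, fun a h1 h2 => ?_⟩
          have h3 := hr _ (hsW t⁻¹ a h1 h2).1 (hsW t⁻¹ a h1 h2).2
          rw [smul_smul, mul_inv_cancel₀ ht, one_smul] at h3
          rw [h3, smul_smul, inv_mul_cancel₀ hr0, one_smul] }
  have hK : K = ⊤ := by
    apply subfield_eq_top hF hq3
    intro x hx
    exact Coord.torus₃ hF hn hb hn3 hc hαu hαv hn' h20 h21 hx
  have hs : s ∈ K := by
    rw [hK]
    trivial
  exact hs

include p in
/-- the scalars exist -/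
lemma Coord.all_ratio (hne : ¬ (n = 3 ∧ q = 2)) (s : F) :
    ∃ r : F, ∀ a, herm a u = 0 → herm a v = 0 → φ (s • a) = r • φ a := by
  classical
  have hq2 := two_le_q hF
  by_cases hn' : n = 3
  · have hq3 : 3 ≤ q := by
      by_contra hlt
      exact hne ⟨hn', by omega⟩
    exact Coord.all_ratio₃ hF hn hb hn3 hc hαu hαv hn' hq3 s
  · -- two extra coordinates
    have hn4 : 4 ≤ n := by omega
    obtain ⟨i₂, h20, h21⟩ : ∃ i₂ : Fin n, i₂ ≠ i₀ ∧ i₂ ≠ i₁ := by
      by_contra hcon
      push Not at hcon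
      have hsub : (Finset.univ : Finset (Fin n)) ⊆ {i₀, i₁} := by
        intro i _
        by_cases hi : i = i₀
        · simp [hi]
        · simp [hcon i hi]
      have h1 := Finset.card_le_card hsub
      rw [Finset.card_univ, Fintype.card_fin] at h1
      have h2 : ({i₀, i₁} : Finset (Fin n)).card ≤ 2 := Finset.card_le_two
      omega
    obtain ⟨i₃, h30, h31, h23⟩ : ∃ i₃ : Fin n, i₃ ≠ i₀ ∧ i₃ ≠ i₁ ∧ i₂ ≠ i₃ := by
      by_contra hcon
      push Not at hcon
      have hsub : (Finset.univ : Finset (Fin n)) ⊆ {i₀, i₁, i₂} := by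
        intro i _
        by_cases hi : i = i₀
        · simp [hi]
        · by_cases hi1 : i = i₁
          · simp [hi1]
          · have := hcon i hi hi1
            simp [this]
      have h1 := Finset.card_le_card hsub
      rw [Finset.card_univ, Fintype.card_fin] at h1
      have h2 : ({i₀, i₁, i₂} : Finset (Fin n)).card ≤ 3 := Finset.card_le_three
      omega
    exact Coord.all_ratio₄ (p := p) hF hn hb hn3 hc hαu hαv h20 h21 h30 h31 h23 s

include p in
/-- the field automorphism -/
lemma Coord.exists_sigma (hne : ¬ (n = 3 ∧ q = 2)) :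
    ∃ σ : F ≃+* F, ∀ (s : F) (a : Fin n → F), herm a u = 0 → herm a v = 0 → φ (s • a) = σ s • φ a := by
  classical
  choose f hf using Coord.all_ratio (p := p) hF hn hb hn3 hc hαu hαv hne
  obtain ⟨i₂, h20, h21⟩ : ∃ i₂ : Fin n, i₂ ≠ i₀ ∧ i₂ ≠ i₁ := by
    by_contra hcon
    push Not at hcon
    have hsub : (Finset.univ : Finset (Fin n)) ⊆ {i₀, i₁} := by
      intro i _
      by_cases hi : i = i₀
      · simp [hi]
      · simp [hcon i hi]
    have h1 := Finset.card_le_card hsub
    rw [Finset.card_univ, Fintype.card_fin] at h1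
    have h2 : ({i₀, i₁} : Finset (Fin n)).card ≤ 2 := Finset.card_le_two
    omega
  have he := single_mem_W hF hb h20 h21
  have hne' : (Pi.single i₂ 1 : Fin n → F) ≠ 0 := by
    intro h
    have := congrFun h i₂
    simp at this
  set e : Fin n → F := Pi.single i₂ 1 with hedef
  have hφe : φ e ≠ 0 := fun h0 => hne' (Coord.zero_of hF hn hb hc hαu he.1 he.2 h0)
  have hsW : ∀ (t : F) (a : Fin n → F), herm a u = 0 → herm a v = 0 → herm (t • a) u = 0 ∧ herm (t • a) v = 0 := by
    intro t a h1 h2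
    rw [herm_smul_left, herm_smul_left, h1, h2, mul_zero]
    exact ⟨rfl, rfl⟩
  have cancel : ∀ x y : F, x • φ e = y • φ e → x = y := by
    intro x y h
    have : (x - y) • φ e = 0 := by rw [sub_smul, h, sub_self]
    exact sub_eq_zero.mp ((smul_eq_zero.mp this).resolve_right hφe)
  let g : F →+* F :=
    { toFun := f
      map_one' := by
        apply cancel
        rw [← hf 1 e he.1 he.2, one_smul, one_smul]
      map_mul' := by
        intro x y
        apply cancel
        rw [← hf (x * y) e he.1 he.2, mul_smul, hf x _ (hsW y e he.1 he.2).1 (hsW y e he.1 he.2).2, hf y e he.1 he.2, smul_smul]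
      map_zero' := by
        apply cancel
        rw [← hf 0 e he.1 he.2, zero_smul, zero_smul]
        exact Coord.zero hF hn hb hc hn3
      map_add' := by
        intro x y
        apply cancel
        rw [← hf (x + y) e he.1 he.2, add_smul, Coord.add hF hn hb hc (hsW x e he.1 he.2).1 (hsW x e he.1 he.2).2 (hsW y e he.1 he.2).1 (hsW y e he.1 he.2).2,
          hf x e he.1 he.2, hf y e he.1 he.2, add_smul] }
  have hg : Function.Bijective g := ⟨g.injective, Finite.surjective_of_injective g.injective⟩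
  refine ⟨RingEquiv.ofBijective g hg, fun s a h1 h2 => ?_⟩
  exact hf s a h1 h2

/-- the similitude factor -/
lemma Coord.exists_factor {σ : F ≃+* F} (hσ : ∀ (s : F) (a : Fin n → F), herm a u = 0 → herm a v = 0 → φ (s • a) = σ s • φ a)
    {i₂ : Fin n} (h20 : i₂ ≠ i₀) (h21 : i₂ ≠ i₁) :
    ∃ c : F, c ≠ 0 ∧ c ^ q = c ∧ ∀ a a', herm a u = 0 → herm a v = 0 → herm a' u = 0 → herm a' v = 0 →
      herm (φ a) (φ a') = c * σ (herm a a') := by
  classical
  have hq2 := two_le_q hF
  obtain ⟨τ, hτ⟩ := Coord.exists_tau hF hn hb hc hαu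
  have he := single_mem_W hF hb h20 h21
  set e : Fin n → F := Pi.single i₂ 1 with hedef
  have hee : herm e e = 1 := by
    rw [hedef, herm_single_single hF, if_pos rfl]
  have hsW : ∀ (t : F) (a : Fin n → F), herm a u = 0 → herm a v = 0 → herm (t • a) u = 0 ∧ herm (t • a) v = 0 := by
    intro t a h1 h2
    rw [herm_smul_left, herm_smul_left, h1, h2, mul_zero]
    exact ⟨rfl, rfl⟩
  set c := herm (φ e) (φ e) with hcdef
  have hcq : c ^ q = c := herm_self_fixed hF _
  have hτe : ∀ r : F, τ (r ^ q - r) = c * σ (r ^ q - r) := by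
    intro r
    have h1 := Coord.comm_rel hF hn hb hc hτ he.1 he.2 (hsW r e he.1 he.2).1 (hsW r e he.1 he.2).2
    rw [hσ r e he.1 he.2, herm_smul_right hF, herm_smul_left, herm_smul_right hF, herm_smul_left, hee, ← hcdef] at h1
    rw [mul_one, mul_one] at h1
    rw [h1, map_sub, map_pow]
    ring
  refine ⟨c, ?_, hcq, ?_⟩
  · -- the factor is non-zero
    rintro hc0
    obtain ⟨w, hw⟩ := exists_not_fixed hF
    have h1 := hτe w
    rw [hc0, zero_mul] at h1
    have ht : (w ^ q - w) + (w ^ q - w) ^ q = 0 := by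
      rw [pow_sub_q hF, pow_q_sq hF]
      ring
    have A : Adm q u 0 (w ^ q - w) := admT hF hb.uu ht
    obtain ⟨A', e'⟩ := hτ _ A
    have hz : τ (w ^ q - w) = 0 := h1
    have A₀ : Adm q u 0 0 := Adm.zero hF u hb.uu
    have e2 : E hF hn u 0 (τ (w ^ q - w)) A' = E hF hn u 0 0 A₀ := E_congr hF hn _ _ rfl hz
    rw [e2, E_one hF hn A₀, map_one] at e'
    have h2 : pr (E hF hn u 0 (w ^ q - w) A) = pr (E hF hn u 0 0 A₀) := by
      apply α.injective
      rw [e', E_one hF hn A₀, map_one, map_one]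
    have h3 := (E_unique hF hn hb A A₀ (herm_zero_left hF v) (herm_zero_left hF v) h2).2
    exact hw (sub_eq_zero.mp h3)
  · intro a a' hau hav hau' hav'
    set H₀ := herm a a' with hH₀
    set H₁ := herm (φ a) (φ a') with hH₁
    have hconj0 : herm a' a = H₀ ^ q := herm_conj hF a a'
    have hconj1 : herm (φ a') (φ a) = H₁ ^ q := herm_conj hF (φ a) (φ a')
    have key : ∀ x : F, x ^ q * (c * σ H₀ - H₁) - x * (c * σ H₀ - H₁) ^ q = 0 := by
      intro x
      obtain ⟨r, rfl⟩ := σ.surjective x
      have h1 := Coord.comm_rel hF hn hb hc hτ hau hav (hsW r a' hau' hav').1 (hsW r a' hau' hav').2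
      rw [hσ r a' hau' hav', herm_smul_right hF, herm_smul_left, herm_smul_right hF, herm_smul_left, ← hH₀, ← hH₁, hconj0, hconj1] at h1
      have h2 : r ^ q * H₀ - r * H₀ ^ q = (r * H₀ ^ q) ^ q - r * H₀ ^ q := by
        rw [mul_pow, pow_q_sq hF]
      rw [h2, hτe, ← h2] at h1
      rw [pow_sub_q hF, mul_pow, hcq]
      simp only [map_sub, map_mul, map_pow] at h1
      linear_combination h1
    have h1 := key 1
    rw [one_pow, one_mul, one_mul] at h1
    obtain ⟨w, hw⟩ := exists_not_fixed hF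
    have h2 := key w
    rw [← sub_eq_zero.mp h1] at h2
    have h3 : (w ^ q - w) * (c * σ H₀ - H₁) = 0 := by
      linear_combination h2
    have h4 := (mul_eq_zero.mp h3).resolve_left (sub_ne_zero.mpr hw)
    exact (sub_eq_zero.mp h4).symm

end

end Cfsg.Agent.Lead.AutPSU
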