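import Cfsg.Agent.Lib.Lead.AutPSU12
/-! Automorphisms of `PSU`: realising the coordinates by a semilinear map. -/
set_option autoImplicit false
set_option linter.style.haveILetI false
set_option linter.unusedSimpArgs false
set_option linter.unusedSectionVars false
set_option linter.unusedVariables false
namespace Cfsg.Agent.Lead.AutPSU
open Matrix Cfsg.Agent.Lead Cfsg.Agent.Lead.PSU
open scoped MatrixGroups commutatorElement Pointwise

variable {F : Type*} [Field F] [Fintype F] {q n : ℕ}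

local notation "herm" => Cfsg.hermForm n F q
local notation "SUG" => Cfsg.SU n F q
local notation "PG" => (Cfsg.SU n F q ⧸ Subgroup.center (Cfsg.SU n F q))
local notation "pr" => (QuotientGroup.mk' (Subgroup.center (Cfsg.SU n F q)))

/-- a semilinear isometry has matrix form -/
lemma exists_gu (hF : Fintype.card F = q ^ 2) (σ : F ≃+* F) (T : (Fin n → F) → (Fin n → F))
    (hadd : ∀ x y, T (x + y) = T x + T y) (hsmul : ∀ (a : F) x, T (a • x) = σ a • T x)
    (hform : ∀ x y, herm (T x) (T y) = σ (herm x y)) :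
    ∃ g : GL (Fin n) F, g ∈ Cfsg.GU n F q ∧ ∀ x, T x = gam g σ x := by
  classical
  let M : Matrix (Fin n) (Fin n) F := Matrix.of fun i j => T (Pi.single j 1) i
  let TH : (Fin n → F) →+ (Fin n → F) := AddMonoidHom.mk' T hadd
  have hM : ∀ x, T x = M *ᵥ smap σ x := by
    intro x
    have e : x = ∑ j, x j • (Pi.single j 1 : Fin n → F) := by
      funext i
      simp only [Finset.sum_apply, Pi.smul_apply, Pi.single_apply, smul_eq_mul, mul_ite, mul_one, mul_zero,
        Finset.sum_ite_eq, Finset.mem_univ, if_true]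
    conv_lhs => rw [e]
    have e2 : T (∑ j, x j • (Pi.single j 1 : Fin n → F)) = ∑ j, T (x j • (Pi.single j 1 : Fin n → F)) :=
      map_sum TH _ _
    rw [e2]
    funext i
    simp only [hsmul, Finset.sum_apply, Pi.smul_apply, smul_eq_mul, Matrix.mulVec, dotProduct, smap, M, Matrix.of_apply]
    exact Finset.sum_congr rfl fun j _ => mul_comm _ _
  have hform' : ∀ x y, herm (M *ᵥ x) (M *ᵥ y) = herm x y := by
    intro x y
    have h1 := hform (smap σ.symm x) (smap σ.symm y)
    rw [hM, hM, smap_symm, smap_symm, ← herm_smap, smap_symm, smap_symm] at h1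
    exact h1
  have hinj : Function.Injective M.mulVec := by
    intro x y hxy
    rw [← sub_eq_zero]
    by_contra hne
    obtain ⟨z, hz⟩ := herm_nondeg hF hne
    have h1 : herm (M *ᵥ (x - y)) (M *ᵥ z) = 0 := by
      rw [Matrix.mulVec_sub]
      have : M *ᵥ x = M *ᵥ y := hxy
      rw [this, sub_self, herm_zero_left hF]
    rw [hform'] at h1
    exact hz h1
  have hu : IsUnit M := Matrix.mulVec_injective_iff_isUnit.mp hinj
  obtain ⟨g, hg⟩ := hu
  refine ⟨g, ?_, ?_⟩
  · intro x y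
    change herm ((g : Matrix (Fin n) (Fin n) F) *ᵥ x) ((g : Matrix (Fin n) (Fin n) F) *ᵥ y) = herm x y
    rw [hg]
    exact hform' x y
  · intro x
    rw [hM x, gam, hg]

/-- the pieces of a vector -/
def proj (q : ℕ) (u v x : Fin n → F) : Fin n → F :=
  x - (Cfsg.hermForm n F q x v • u + Cfsg.hermForm n F q x u • v)

section
variable (hF : Fintype.card F = q ^ 2)
include hF

variable {u v : Fin n → F} (hb : Hyp q u v)
include hb

lemma herm3 {C C' : Fin n → F} (h1 : herm C u = 0) (h2 : herm C v = 0) (h3 : herm C' u = 0) (h4 : herm C' v = 0) (A B A' B' : F) :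
    herm (A • u + B • v + C) (A' • u + B' • v + C') = A * B' ^ q + B * A' ^ q + herm C C' := by
  have hu : herm u C' = 0 := herm_eq_zero_symm hF h3
  have hv : herm v C' = 0 := herm_eq_zero_symm hF h4
  simp only [herm_add_left, herm_add_right hF, herm_smul_left, herm_smul_right hF, hb.uu, hb.vv, hb.vu, hb.uv hF, h1, h2, hu, hv]
  ring

lemma proj_mem (x : Fin n → F) : herm (proj q u v x) u = 0 ∧ herm (proj q u v x) v = 0 := hb.proj hF x

omit hF hb in
lemma self_eq_proj (x : Fin n → F) : x = herm x v • u + herm x u • v + proj q u v x := by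
  rw [proj]
  abel

lemma proj_add (x y : Fin n → F) : proj q u v (x + y) = proj q u v x + proj q u v y := by
  simp only [proj, herm_add_left]
  module

lemma proj_smul (s : F) (x : Fin n → F) : proj q u v (s • x) = s • proj q u v x := by
  simp only [proj, herm_smul_left]
  module

lemma proj_of_mem {a : Fin n → F} (h1 : herm a u = 0) (h2 : herm a v = 0) : proj q u v a = a := by
  rw [proj, h1, h2]
  simp

lemma proj_u : proj q u v u = 0 := by
  rw [proj, hb.uu, hb.uv hF]
  simp

lemma proj_v : proj q u v v = 0 := by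
  rw [proj, hb.vv, hb.vu]
  simp

/-- the decomposition of the form -/
lemma herm_pieces (x y : Fin n → F) :
    herm x y = herm x v * (herm y u) ^ q + herm x u * (herm y v) ^ q + herm (proj q u v x) (proj q u v y) := by
  obtain ⟨h1, h2⟩ := proj_mem hF hb x
  obtain ⟨h3, h4⟩ := proj_mem hF hb y
  conv_lhs => rw [self_eq_proj (q := q) (u := u) (v := v) x, self_eq_proj (q := q) (u := u) (v := v) y]
  exact herm3 hF hb h1 h2 h3 h4 _ _ _ _

end

section
variable (hF : Fintype.card F = q ^ 2) (hn : 0 < n)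
include hF

variable {u v : Fin n → F} (hb : Hyp q u v)
include hb

/-- the semilinear map -/
lemma exists_gam {φ : (Fin n → F) → (Fin n → F)} (σ : F ≃+* F) {c κ : F} (hκ : κ ≠ 0) (hcκ : κ ^ (q + 1) = c)
    (hφadd : ∀ a a', herm a u = 0 → herm a v = 0 → herm a' u = 0 → herm a' v = 0 → φ (a + a') = φ a + φ a')
    (hφsmul : ∀ (s : F) a, herm a u = 0 → herm a v = 0 → φ (s • a) = σ s • φ a)
    (hφW : ∀ a, herm a u = 0 → herm a v = 0 → herm (φ a) u = 0 ∧ herm (φ a) v = 0)
    (hφform : ∀ a a', herm a u = 0 → herm a v = 0 → herm a' u = 0 → herm a' v = 0 → herm (φ a) (φ a') = c * σ (herm a a'))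
    (hφ0 : φ 0 = 0) :
    ∃ g : GL (Fin n) F, g ∈ Cfsg.GU n F q ∧ gam g σ u = κ ^ q • u ∧ gam g σ v = κ⁻¹ • v ∧
      ∀ a, herm a u = 0 → herm a v = 0 → gam g σ a = κ⁻¹ • φ a := by
  have hq2 := two_le_q hF
  have hcq : c ^ q = c := by rw [← hcκ]; exact norm_fixed hF κ
  let Γ : (Fin n → F) → (Fin n → F) := fun x => (c * σ (herm x v)) • u + σ (herm x u) • v + φ (proj q u v x)
  let T : (Fin n → F) → (Fin n → F) := fun x => κ⁻¹ • Γ x
  have hΓ : ∀ x y, herm (Γ x) (Γ y) = c * σ (herm x y) := by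
    intro x y
    obtain ⟨h1, h2⟩ := proj_mem hF hb x
    obtain ⟨h3, h4⟩ := proj_mem hF hb y
    obtain ⟨h5, h6⟩ := hφW _ h1 h2
    obtain ⟨h7, h8⟩ := hφW _ h3 h4
    change herm ((c * σ (herm x v)) • u + σ (herm x u) • v + φ (proj q u v x)) ((c * σ (herm y v)) • u + σ (herm y u) • v + φ (proj q u v y)) = _
    rw [herm3 hF hb h5 h6 h7 h8, hφform _ _ h1 h2 h3 h4, herm_pieces hF hb x y]
    simp only [map_add, map_mul, map_pow]
    rw [mul_pow, hcq]
    ring
  have hT : ∀ x y, herm (T x) (T y) = σ (herm x y) := by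
    intro x y
    change herm (κ⁻¹ • Γ x) (κ⁻¹ • Γ y) = _
    rw [norm_smul_form hF, hΓ, inv_pow, hcκ]
    have hc0 : c ≠ 0 := by
      rw [← hcκ]
      exact pow_ne_zero _ hκ
    rw [inv_mul_cancel_left₀ hc0]
  have hTadd : ∀ x y, T (x + y) = T x + T y := by
    intro x y
    change κ⁻¹ • ((c * σ (herm (x + y) v)) • u + σ (herm (x + y) u) • v + φ (proj q u v (x + y))) = κ⁻¹ • Γ x + κ⁻¹ • Γ y
    obtain ⟨h1, h2⟩ := proj_mem hF hb x
    obtain ⟨h3, h4⟩ := proj_mem hF hb y
    rw [proj_add hF hb, hφadd _ _ h1 h2 h3 h4, herm_add_left, herm_add_left, map_add, map_add]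
    change _ = κ⁻¹ • ((c * σ (herm x v)) • u + σ (herm x u) • v + φ (proj q u v x)) + κ⁻¹ • ((c * σ (herm y v)) • u + σ (herm y u) • v + φ (proj q u v y))
    module
  have hTsmul : ∀ (s : F) x, T (s • x) = σ s • T x := by
    intro s x
    change κ⁻¹ • ((c * σ (herm (s • x) v)) • u + σ (herm (s • x) u) • v + φ (proj q u v (s • x))) = σ s • κ⁻¹ • ((c * σ (herm x v)) • u + σ (herm x u) • v + φ (proj q u v x))
    obtain ⟨h1, h2⟩ := proj_mem hF hb x
    rw [proj_smul hF hb, hφsmul _ _ h1 h2, herm_smul_left, herm_smul_left, map_mul, map_mul]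
    module
  obtain ⟨g, hg, hgT⟩ := exists_gu hF σ T hTadd hTsmul hT
  refine ⟨g, hg, ?_, ?_, ?_⟩
  · rw [← hgT]
    change κ⁻¹ • ((c * σ (herm u v)) • u + σ (herm u u) • v + φ (proj q u v u)) = _
    rw [proj_u hF hb, hφ0, hb.uu, hb.uv hF, map_zero, map_one, zero_smul, mul_one, add_zero, add_zero, smul_smul, ← hcκ]
    congr 1
    rw [pow_succ]
    field_simp
  · rw [← hgT]
    change κ⁻¹ • ((c * σ (herm v v)) • u + σ (herm v u) • v + φ (proj q u v v)) = _
    rw [proj_v hF hb, hφ0, hb.vv, hb.vu, map_zero, map_one, mul_zero, zero_smul, one_smul, zero_add, add_zero]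
  · intro a h1 h2
    rw [← hgT]
    change κ⁻¹ • ((c * σ (herm a v)) • u + σ (herm a u) • v + φ (proj q u v a)) = _
    rw [proj_of_mem hF hb h1 h2, h1, h2, map_zero, mul_zero, zero_smul, zero_smul, zero_add, zero_add]

end

omit [Fintype F] in
/-- a subgroup mapped into itself by an automorphism is preserved -/
lemma Pres.of_le [Finite PG] {α : MulAut PG} {T : Subgroup PG} (h : T.map α.toMonoidHom ≤ T) : Pres α T := by
  apply Pres.of_map
  apply Subgroup.eq_of_le_of_card_ge h
  have e : T ≃ T.map α.toMonoidHom := (T.equivMapOfInjective α.toMonoidHom α.injective).toEquiv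
  rw [Nat.card_congr e]

section
variable (hF : Fintype.card F = q ^ 2) (hn : 0 < n)
include hF hn

variable {p : ℕ} [hp : Fact p.Prime] [CharP F p]
variable {i₀ i₁ : Fin n} {u v : Fin n → F} (hb : Base q i₀ i₁ u v) (hn3 : 3 ≤ n)
variable {α : MulAut (Cfsg.SU n F q ⧸ Subgroup.center (Cfsg.SU n F q))} {φ : (Fin n → F) → (Fin n → F)} (hc : Coord hF hn v hb.uu α φ)
  (hαu : Pres α (TT hF hn hb.uu)) (hαv : Pres α (TT hF hn hb.vv))
include hb hc hαu hαv hn3

include p in
/-- **Reduction**: an automorphism preserving the two root groups agrees with a semilinear one on the coordinates -/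
lemma Coord.exists_beta (hne : ¬ (n = 3 ∧ q = 2)) :
    ∃ (g : GL (Fin n) F) (hg : g ∈ Cfsg.GU n F q) (σ : F ≃+* F),
      Pres (cU hg σ)⁻¹ (TT hF hn hb.uu) ∧ Pres (cU hg σ)⁻¹ (TT hF hn hb.vv) ∧
      Coord hF hn v hb.uu ((cU hg σ)⁻¹ * α) id := by
  classical
  have hq2 := two_le_q hF
  obtain ⟨σ, hσ⟩ := Coord.exists_sigma (p := p) hF hn hb hn3 hc hαu hαv hne
  obtain ⟨i₂, h20, h21⟩ : ∃ i₂ : Fin n, i₂ ≠ i₀ ∧ i₂ ≠ i₁ := by
    by_contra hcon
    push Not at hcon
    have hsub : (Finset.univ : Finset (Fin n)) ⊆ {i₀, i₁} := by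
      intro i _
      by_cases hi : i = i₀
      · simp [hi]
      · simp [hcon i hi]
    have h1 := Finset.card_le_card hsub
    rw [Finset.card_univ, Fintype.card_fin] at h1
    have h2 : ({i₀, i₁} : Finset (Fin n)).card ≤ 2 := Finset.card_le_two
    omega
  obtain ⟨c, hc0, hcq, hform⟩ := Coord.exists_factor hF hn hb hn3 hc hαu hαv hσ h20 h21
  obtain ⟨κ, hκ0, hκ⟩ := exists_norm_eq hF c hc0 hcq
  obtain ⟨g, hg, hgu, hgv, hgW⟩ := exists_gam hF hb.toHyp (φ := φ) σ hκ0 hκ (fun a a' h1 h2 h3 h4 => Coord.add hF hn hb hc h1 h2 h3 h4)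
    hσ hc.mapW hform (Coord.zero hF hn hb hc hn3)
  have hu0 := Base.u_ne hF hn hb hn3
  have hκq : κ ^ q ≠ 0 := pow_ne_zero _ hκ0
  have hκi : κ⁻¹ ≠ 0 := inv_ne_zero hκ0
  have huu' : herm (gam g σ u) (gam g σ u) = 0 := by rw [herm_gam hg, hb.uu, map_zero]
  have hvv' : herm (gam g σ v) (gam g σ v) = 0 := by rw [herm_gam hg, hb.vv, map_zero]
  have hP1 : Pres (cU hg σ) (TT hF hn hb.uu) := by
    apply Pres.of_le
    have h1 := cU_TT hF hn hg σ hb.uu huu'
    have h2 : herm (κ ^ q • u) (κ ^ q • u) = 0 := by rw [← hgu]; exact huu'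
    rw [TT_congr hF hn hgu huu' h2, TT_smul hF hn hκq hb.uu h2] at h1
    exact h1
  have hP2 : Pres (cU hg σ) (TT hF hn hb.vv) := by
    apply Pres.of_le
    have h1 := cU_TT hF hn hg σ hb.vv hvv'
    have h2 : herm (κ⁻¹ • v) (κ⁻¹ • v) = 0 := by rw [← hgv]; exact hvv'
    rw [TT_congr hF hn hgv hvv' h2, TT_smul hF hn hκi hb.vv h2] at h1
    exact h1
  refine ⟨g, hg, σ, hP1.symm, hP2.symm, ?_, ?_⟩
  · intro a h1 h2
    exact ⟨h1, h2⟩
  · intro a b A hav
    have hx' := hc.mapW a A.au hav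
    obtain ⟨b₁, B, e⟩ := hc.val a b A hav
    -- the preimage
    set b' := σ.symm (c⁻¹ * b₁) with hb'
    have hb'σ : σ b' = c⁻¹ * b₁ := by rw [hb', RingEquiv.apply_symm_apply]
    have ht : b₁ + b₁ ^ q = - (c * σ (herm a a)) := by
      have := B.tr
      rw [hform a a A.au hav A.au hav] at this
      linear_combination this
    have A' : Adm q u a b' := by
      refine ⟨hb.uu, A.au, ?_⟩
      apply σ.injective
      rw [map_add, map_add, map_pow, hb'σ, map_zero, mul_pow, inv_pow, hcq]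
      field_simp
      linear_combination ht
    refine ⟨b', A', ?_⟩
    -- the image
    have hG := Adm.gam_map hg σ A'
    have e₁ := cHomU_E hF hn hg σ A'
    have h2 : cU hg σ (pr (E hF hn u a b' A')) = pr (E hF hn u (φ a) b₁ B) := by
      rw [cU_pr, e₁]
      have hG' : Adm q (κ ^ q • u) (κ⁻¹ • φ a) (σ b') := by
        rw [← hgu, ← hgW a A.au hav]
        exact hG
      have e₂ : E hF hn (gam g σ u) (gam g σ a) (σ b') hG = E hF hn (κ ^ q • u) (κ⁻¹ • φ a) (σ b') hG' :=
        E_congr' hF hn _ _ hgu (hgW a A.au hav) rfl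
      rw [e₂, E_scale hF hn hκq hG']
      congr 1
      apply E_congr
      · rw [pow_q_sq hF, smul_smul, mul_inv_cancel₀ hκ0, one_smul]
      · rw [hb'σ]
        have e3 : (κ ^ q) ^ (q + 1) = c := by
          rw [← pow_mul, mul_comm, pow_mul, hκ, hcq]
        rw [e3]
        field_simp
    change (cU hg σ)⁻¹ (α (pr (E hF hn u a b A))) = _
    rw [e, ← h2]
    exact (cU hg σ).symm_apply_apply _

end

end Cfsg.Agent.Lead.AutPSU
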