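import Cfsg.Agent.Lib.Lead.AutPSU13
/-! Automorphisms of `PSU`: an automorphism with trivial coordinates is trivial. -/
set_option autoImplicit false
set_option linter.style.haveILetI false
set_option linter.unusedSimpArgs false
set_option linter.unusedSectionVars false
set_option linter.unusedVariables false
namespace Cfsg.Agent.Lead.AutPSU
open Matrix Cfsg.Agent.Lead Cfsg.Agent.Lead.PSU
open scoped MatrixGroups commutatorElement Pointwise

variable {F : Type*} [Field F] [Fintype F] {q n : ℕ}

local notation "herm" => Cfsg.hermForm n F q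
local notation "SUG" => Cfsg.SU n F q
local notation "PG" => (Cfsg.SU n F q ⧸ Subgroup.center (Cfsg.SU n F q))
local notation "pr" => (QuotientGroup.mk' (Subgroup.center (Cfsg.SU n F q)))

/-- the parameter of a line through `v` -/
lemma exists_line_b (hF : Fintype.card F = q ^ 2) {a : Fin n → F} (haa : herm a a ≠ 0) {s : F} (hs : s ^ q ≠ s) :
    ∃ b : F, b ≠ 0 ∧ b + b ^ q + herm a a = 0 ∧ s * b + (s * b) ^ q + herm (s • a) (s • a) = 0 := by
  have hq2 := two_le_q hF
  have hsd : s - s ^ q ≠ 0 := fun h0 => hs (sub_eq_zero.mp h0).symm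
  have hsd' : s ^ q - s ≠ 0 := fun h0 => hs (sub_eq_zero.mp h0)
  set A := herm a a with hA
  have hAq : A ^ q = A := herm_self_fixed hF a
  set b := A * s ^ q * (1 - s) / (s - s ^ q) with hbdef
  have hbq : b ^ q = A * s * (1 - s ^ q) / (s ^ q - s) := by
    rw [hbdef, div_pow, mul_pow, mul_pow, hAq, pow_q_sq hF, pow_sub_q hF, pow_sub_q hF, pow_q_sq hF]
    have : (1 : F) ^ q = 1 := one_pow q
    rw [this]
  have ht1 : b + b ^ q + A = 0 := by
    rw [hbq, hbdef]
    have : s ^ q - s = -(s - s ^ q) := by ring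
    rw [this]
    field_simp
    ring
  refine ⟨b, ?_, ht1, ?_⟩
  · intro h0
    rw [h0, zero_pow (by omega), add_zero, zero_add] at ht1
    exact haa ht1
  · rw [norm_smul_form hF, mul_pow, hbq, hbdef, ← hA, pow_succ]
    have : s ^ q - s = -(s - s ^ q) := by ring
    rw [this]
    field_simp
    ring

section
variable (hF : Fintype.card F = q ^ 2) (hn : 0 < n)
include hF hn

variable {p : ℕ} [hp : Fact p.Prime] [CharP F p]
variable {i₀ i₁ : Fin n} {u v : Fin n → F} (hb : Base q i₀ i₁ u v) (hn3 : 3 ≤ n)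
variable {α : MulAut (Cfsg.SU n F q ⧸ Subgroup.center (Cfsg.SU n F q))} (hc : Coord hF hn v hb.uu α id)
  (hαu : Pres α (TT hF hn hb.uu)) (hαv : Pres α (TT hF hn hb.vv))
include hb hc hαu hαv hn3

/-- trivial action on the root group -/
lemma Coord.id_root {i₂ : Fin n} (h20 : i₂ ≠ i₀) (h21 : i₂ ≠ i₁) {c : F} (A : Adm q u 0 c) :
    α (pr (E hF hn u 0 c A)) = pr (E hF hn u 0 c A) := by
  classical
  have hq2 := two_le_q hF
  obtain ⟨τ, hτ⟩ := Coord.exists_tau hF hn hb hc hαu
  have he := single_mem_W hF hb h20 h21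
  set e : Fin n → F := Pi.single i₂ 1 with hedef
  have hee : herm e e = 1 := by
    rw [hedef, herm_single_single hF, if_pos rfl]
  have htr : c + c ^ q = 0 := by
    have := A.tr
    rw [herm_zero_left hF] at this
    linear_combination this
  obtain ⟨w, hw⟩ := exists_not_fixed hF
  have ht0 : w ^ q - w ≠ 0 := sub_ne_zero.mpr hw
  have htq : (w ^ q - w) ^ q = -(w ^ q - w) := by
    rw [pow_sub_q hF, pow_q_sq hF]
    ring
  set μ := c / (w ^ q - w) with hμ
  have hμq : μ ^ q = μ := by
    rw [hμ, div_pow, htq]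
    have : c ^ q = -c := by linear_combination htr
    rw [this]
    field_simp
  set r := μ * w with hr
  have hrc : r ^ q - r = c := by
    rw [hr, mul_pow, hμq, hμ]
    field_simp
  have hrW : herm (r • e) u = 0 ∧ herm (r • e) v = 0 := by
    rw [herm_smul_left, herm_smul_left, he.1, he.2, mul_zero]
    exact ⟨rfl, rfl⟩
  have h1 := Coord.comm_rel hF hn hb hc hτ he.1 he.2 hrW.1 hrW.2
  simp only [id] at h1
  have h2 : herm e (r • e) - herm (r • e) e = c := by
    rw [herm_smul_right hF, herm_smul_left, hee, mul_one, mul_one, hrc]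
  rw [h2] at h1
  obtain ⟨A', e'⟩ := hτ c A
  rw [e']
  congr 1
  exact E_congr hF hn _ _ rfl h1

/-- the translation parts exist -/
lemma Coord.exists_rho {i₂ : Fin n} (h20 : i₂ ≠ i₀) (h21 : i₂ ≠ i₁) (a : Fin n → F) :
    ∃ ρ : F, (herm a u = 0 → herm a v = 0 → ρ + ρ ^ q = 0 ∧ ∀ b (A : Adm q u a b), ∃ A' : Adm q u a (b + ρ),
      α (pr (E hF hn u a b A)) = pr (E hF hn u a (b + ρ) A')) := by
  by_cases hau : herm a u = 0
  · by_cases hav : herm a v = 0
    · obtain ⟨b₀, A₀⟩ := exists_adm hF hb.uu hau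
      obtain ⟨b₀', B₀, e₀⟩ := hc.val a b₀ A₀ hav
      have B₀' : Adm q u a b₀' := B₀
      refine ⟨b₀' - b₀, fun _ _ => ⟨?_, fun b A => ?_⟩⟩
      · have t1 := B₀'.tr
        have t2 := A₀.tr
        rw [pow_sub_q hF]
        linear_combination t1 - t2
      · have hd : (b - b₀) + (b - b₀) ^ q = 0 := by
          have t1 := A.tr
          have t2 := A₀.tr
          rw [pow_sub_q hF]
          linear_combination t1 - t2
        have Ad : Adm q u 0 (b - b₀) := admT hF hb.uu hd
        have e3 : E hF hn u a b A = E hF hn u a b₀ A₀ * E hF hn u 0 (b - b₀) Ad := by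
          rw [E_mul hF hn A₀ Ad]
          apply E_congr
          · rw [add_zero]
          · rw [herm_zero_left hF]
            ring
        have hA' : Adm q u a (b + (b₀' - b₀)) := by
          refine ⟨hb.uu, hau, ?_⟩
          have t1 := A.tr
          have t2 := A₀.tr
          have t3 := B₀'.tr
          rw [pow_add_q hF, pow_sub_q hF]
          linear_combination t1 + t3 - t2
        refine ⟨hA', ?_⟩
        rw [e3, map_mul, map_mul, Coord.id_root hF hn hb hn3 hc hαu hαv h20 h21 Ad]
        have e₁ : α (pr (E hF hn u a b₀ A₀)) = pr (E hF hn u a b₀' B₀') := e₀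
        rw [e₁, ← map_mul, E_mul hF hn B₀' Ad]
        congr 1
        apply E_congr
        · rw [add_zero]
        · rw [herm_zero_left hF]
          ring
    · exact ⟨0, fun _ h => absurd h hav⟩
  · exact ⟨0, fun h => absurd h hau⟩

include p in
/-- the automorphism is trivial on the radical -/
lemma Coord.id_radical {x : PG} (hx : x ∈ QQ hF hn hb.uu) : α x = x := by
  classical
  have hq2 := two_le_q hF
  have hv0 := Base.v_ne hF hn hb hn3
  obtain ⟨i₂, h20, h21⟩ : ∃ i₂ : Fin n, i₂ ≠ i₀ ∧ i₂ ≠ i₁ := by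
    by_contra hcon
    push Not at hcon
    have hsub : (Finset.univ : Finset (Fin n)) ⊆ {i₀, i₁} := by
      intro i _
      by_cases hi : i = i₀
      · simp [hi]
      · simp [hcon i hi]
    have h1 := Finset.card_le_card hsub
    rw [Finset.card_univ, Fintype.card_fin] at h1
    have h2 : ({i₀, i₁} : Finset (Fin n)).card ≤ 2 := Finset.card_le_two
    omega
  choose ρ hρ using Coord.exists_rho hF hn hb hn3 hc hαu hαv h20 h21
  -- additivity
  have hadd : ∀ a a', herm a u = 0 → herm a v = 0 → herm a' u = 0 → herm a' v = 0 → ρ (a + a') = ρ a + ρ a' := by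
    intro a a' h1 h2 h3 h4
    obtain ⟨b, A⟩ := exists_adm hF hb.uu h1
    obtain ⟨b', A'⟩ := exists_adm hF hb.uu h3
    have h5 : herm (a + a') u = 0 := by rw [herm_add_left, h1, h3, add_zero]
    have h6 : herm (a + a') v = 0 := by rw [herm_add_left, h2, h4, add_zero]
    obtain ⟨B, e₁⟩ := (hρ a h1 h2).2 b A
    obtain ⟨B', e₂⟩ := (hρ a' h3 h4).2 b' A'
    have A₁ := Adm.mul hF A A'
    obtain ⟨B₁, e₃⟩ := (hρ _ h5 h6).2 _ A₁
    have e₄ : pr (E hF hn u (a + a') _ A₁) = pr (E hF hn u a b A) * pr (E hF hn u a' b' A') := by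
      rw [← map_mul, E_mul hF hn A A']
    rw [e₄, map_mul, e₁, e₂, ← map_mul, E_mul hF hn B B'] at e₃
    have := (E_unique hF hn hb _ B₁ h6 h6 e₃).2
    linear_combination -this
  have hzero : ρ 0 = 0 := by
    have h0 := hadd 0 0 (herm_zero_left hF u) (herm_zero_left hF v) (herm_zero_left hF u) (herm_zero_left hF v)
    rw [add_zero] at h0
    exact left_eq_add.mp h0
  -- the anisotropic vectors
  have haniso : ∀ a, herm a u = 0 → herm a v = 0 → herm a a ≠ 0 → ρ a = 0 := by
    intro a hau hav haa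
    obtain ⟨s, hs⟩ := exists_not_fixed hF
    obtain ⟨b, hb0, ht1, ht2⟩ := exists_line_b hF haa hs
    have hsau : herm (s • a) u = 0 := by rw [herm_smul_left, hau, mul_zero]
    have hsav : herm (s • a) v = 0 := by rw [herm_smul_left, hav, mul_zero]
    have A₁ : Adm q u a b := ⟨hb.uu, hau, ht1⟩
    have A₂ : Adm q u (s • a) (s * b) := ⟨hb.uu, hsau, ht2⟩
    obtain ⟨B₁, e₁⟩ := (hρ a hau hav).2 b A₁
    obtain ⟨B₂, e₂⟩ := (hρ _ hsau hsav).2 _ A₂
    have h1 := point_iso hF hn hb A₁ hav
    have h2 := point_iso hF hn hb A₂ hsav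
    have h1' := point_iso hF hn hb B₁ hav
    have h2' := point_iso hF hn hb B₂ hsav
    have ey := Coord.map_TT hF hn hb hc hαv (b' := b + ρ a) A₁ B₁ hav e₁ h1 h1'
    have ew := Coord.map_TT hF hn hb hc hαv (b' := s * b + ρ (s • a)) A₂ B₂ hsav e₂ h2 h2'
    have hp : herm (v + a + b • u) v ≠ 0 := by
      rw [herm_add_left, herm_add_left, herm_smul_left, hb.vv, hav, Base.uv hF hb]
      simpa using hb0
    have hline : v + s • a + (s * b) • u = (1 - s) • v + s • (v + a + b • u) := by
      module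
    obtain ⟨c', d', e⟩ := line_map hF hn hn3 (α := α) hv0 (point_ne hF hn hb A₁) (point_ne hF hn hb A₂) hv0 (point_ne hF hn hb B₁) (point_ne hF hn hb B₂)
      hb.vv h1 h2 hb.vv h1' h2' hαv.map_eq ey ew hp hline
    have e1 : (1 - c' - d') • v + (s - d') • a + (s * b + ρ (s • a) - d' * (b + ρ a)) • u = 0 := by
      linear_combination (norm := module) e
    have hua : herm u a = 0 := herm_eq_zero_symm hF hau
    have h3 : 1 - c' - d' = 0 := by
      have := congrArg (fun t => herm t u) e1
      simp only [herm_add_left, herm_smul_left, hb.vu, hb.uu, hau, herm_zero_left hF, mul_zero, add_zero, mul_one] at this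
      exact this
    rw [h3, zero_smul, zero_add] at e1
    have h4 : s - d' = 0 := by
      have := congrArg (fun t => herm t a) e1
      simp only [herm_add_left, herm_smul_left, hua, herm_zero_left hF, mul_zero, add_zero] at this
      exact (mul_eq_zero.mp this).resolve_right haa
    rw [h4, zero_smul, zero_add] at e1
    have h5 := (smul_eq_zero.mp e1).resolve_right (Base.u_ne hF hn hb hn3)
    have hd' : d' = s := (sub_eq_zero.mp h4).symm
    rw [hd'] at h5
    have h6 : ρ (s • a) = s * ρ a := by linear_combination h5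
    have t1 := (hρ _ hsau hsav).1
    have t2 := (hρ a hau hav).1
    rw [h6, mul_pow] at t1
    have h7 : ρ a ^ q = - ρ a := by linear_combination t2
    rw [h7] at t1
    have h8 : (s ^ q - s) * ρ a = 0 := by linear_combination -t1
    exact (mul_eq_zero.mp h8).resolve_left (sub_ne_zero.mpr hs)
  -- all vectors
  have hall : ∀ a, herm a u = 0 → herm a v = 0 → ρ a = 0 := by
    intro a hau hav
    obtain ⟨h10, h11⟩ := (hb.mem a).mp ⟨hau, hav⟩
    have hsing : ∀ i, herm (a i • (Pi.single i 1 : Fin n → F)) u = 0 ∧ herm (a i • (Pi.single i 1 : Fin n → F)) v = 0 ∧ ρ (a i • (Pi.single i 1 : Fin n → F)) = 0 := by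
      intro i
      by_cases hi0 : i = i₀
      · subst hi0
        rw [h10, zero_smul]
        exact ⟨herm_zero_left hF u, herm_zero_left hF v, hzero⟩
      by_cases hi1 : i = i₁
      · subst hi1
        rw [h11, zero_smul]
        exact ⟨herm_zero_left hF u, herm_zero_left hF v, hzero⟩
      have hW := single_mem_W hF hb hi0 hi1
      have h1 : herm (a i • (Pi.single i 1 : Fin n → F)) u = 0 := by rw [herm_smul_left, hW.1, mul_zero]
      have h2 : herm (a i • (Pi.single i 1 : Fin n → F)) v = 0 := by rw [herm_smul_left, hW.2, mul_zero]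
      refine ⟨h1, h2, ?_⟩
      by_cases hai : a i = 0
      · rw [hai, zero_smul]
        exact hzero
      · apply haniso _ h1 h2
        rw [norm_smul_form hF, herm_single_single hF, if_pos rfl, mul_one]
        exact pow_ne_zero _ hai
    have hsum : ∀ s : Finset (Fin n), herm (∑ i ∈ s, a i • (Pi.single i 1 : Fin n → F)) u = 0 ∧ herm (∑ i ∈ s, a i • (Pi.single i 1 : Fin n → F)) v = 0 ∧ ρ (∑ i ∈ s, a i • (Pi.single i 1 : Fin n → F)) = 0 := by
      intro s
      induction s using Finset.induction_on with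
      | empty =>
        simp only [Finset.sum_empty]
        exact ⟨herm_zero_left hF u, herm_zero_left hF v, hzero⟩
      | insert i s hi ih =>
        rw [Finset.sum_insert hi]
        obtain ⟨h1, h2, h3⟩ := hsing i
        obtain ⟨h4, h5, h6⟩ := ih
        refine ⟨by rw [herm_add_left, h1, h4, add_zero], by rw [herm_add_left, h2, h5, add_zero], ?_⟩
        rw [hadd _ _ h1 h2 h4 h5, h3, h6, add_zero]
    have e : a = ∑ j, a j • (Pi.single j 1 : Fin n → F) := by
      funext i
      simp only [Finset.sum_apply, Pi.smul_apply, Pi.single_apply, smul_eq_mul, mul_ite, mul_one, mul_zero,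
        Finset.sum_ite_eq, Finset.mem_univ, if_true]
    rw [e]
    exact (hsum Finset.univ).2.2
  -- the conclusion
  obtain ⟨a₁, b₁, A₁, rfl⟩ := (mem_QQ hF hn).mp hx
  obtain ⟨a, b, A, hau, hav, e⟩ := E_normal hF hn hb A₁
  rw [e]
  obtain ⟨B, e₁⟩ := (hρ a hau hav).2 b A
  rw [e₁]
  congr 1
  apply E_congr
  · rfl
  · rw [hall a hau hav, add_zero]

include p in
/-- root groups of points off the perpendicular are preserved -/
lemma Coord.id_nonperp {y : Fin n → F} (hyy : herm y y = 0) (hyu : herm y u ≠ 0) : Pres α (TT hF hn hyy) := by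
  set κ := (herm y u)⁻¹ with hκ
  have hκ0 : κ ≠ 0 := inv_ne_zero hyu
  have h1 : herm (κ • y) (κ • y) = 0 := by rw [norm_smul_form hF, hyy, mul_zero]
  have h2 : herm (κ • y) u = herm v u := by
    rw [herm_smul_left, hb.vu, hκ, inv_mul_cancel₀ hyu]
  obtain ⟨a, b, A, -, e⟩ := exists_E_map hF hb.uu hb.vv h1 (by rw [hb.vu]; exact one_ne_zero) h2
  have e0 : act (E hF hn u a b A) v = κ • y := by rw [act_E, e]
  have h3 := herm_act_self hF (E hF hn u a b A) hb.vv
  have h4 := TT_map_conj hF hn hb.vv hαv (Coord.id_radical (p := p) hF hn hb hn3 hc hαu hαv ((mem_QQ hF hn).mpr ⟨a, b, A, rfl⟩)) h3 h3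
  have h5 := Pres.of_map h4
  rw [TT_congr hF hn e0 h3 h1, TT_smul hF hn hκ0 hyy h1] at h5
  exact h5

include p in
/-- root groups are preserved -/
lemma Coord.id_all {y : Fin n → F} (hy0 : y ≠ 0) (hyy : herm y y = 0) : Pres α (TT hF hn hyy) := by
  by_cases hyu : herm y u = 0
  · have hu0 := Base.u_ne hF hn hb hn3
    obtain ⟨z, hzz, hzu, hzy⟩ := exists_third hF hb.uu hyy hu0 hy0 hyu
    obtain ⟨t, ht0, ht⟩ := exists_trace_zero hF
    set D := herm z y with hD
    have hyz : herm y z = D ^ q := herm_conj hF z y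
    set τ := t * D⁻¹ with hτ
    have hτ0 : τ ≠ 0 := mul_ne_zero ht0 (inv_ne_zero hzy)
    set x₂ := y + τ • z with hx₂
    have hx₂x₂ : herm x₂ x₂ = 0 := by
      rw [hx₂, herm_add_left, herm_add_right hF, herm_add_right hF, herm_smul_left, herm_smul_right hF, herm_smul_left, herm_smul_right hF,
        hyy, hzz, hyz, ← hD, hτ]
      have : (t * D⁻¹) ^ q = t ^ q * (D ^ q)⁻¹ := by rw [mul_pow, inv_pow]
      rw [this]
      have hDq : D ^ q ≠ 0 := pow_ne_zero _ hzy
      field_simp
      linear_combination (D * D ^ q) * ht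
    have hx₂u : herm x₂ u ≠ 0 := by
      rw [hx₂, herm_add_left, herm_smul_left, hyu, zero_add]
      exact mul_ne_zero hτ0 hzu
    have hz0 : z ≠ 0 := by
      rintro rfl
      exact hzu (herm_zero_left hF u)
    have hx₂0 : x₂ ≠ 0 := by
      intro h0
      rw [h0, herm_zero_left hF] at hx₂u
      exact hx₂u rfl
    have hPz := Coord.id_nonperp (p := p) hF hn hb hn3 hc hαu hαv hzz hzu
    have hPx := Coord.id_nonperp (p := p) hF hn hb hn3 hc hαu hαv hx₂x₂ hx₂u
    obtain ⟨y', hy'0, hy'y', ey⟩ := stepA (p := p) hF hn (by omega) α hy0 hyy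
    have hp : herm x₂ z ≠ 0 := by
      rw [hx₂, herm_add_left, herm_smul_left, hzz, hyz, mul_zero, add_zero]
      exact pow_ne_zero _ hzy
    have hline : y = (-τ) • z + (1 : F) • x₂ := by
      rw [hx₂]
      module
    obtain ⟨c', d', e⟩ := line_map hF hn hn3 (α := α) hz0 hx₂0 hy0 hz0 hx₂0 hy'0 hzz hx₂x₂ hyy hzz hx₂x₂ hy'y' hPz.map_eq hPx.map_eq ey hp hline
    have hy'u : herm y' u = 0 := perp_map hF hn hn3 hu0 hy0 hu0 hy'0 hb.uu hyy hb.uu hy'y' hαu.map_eq ey hyu
    have h3 : (c' + d' * τ) * herm z u = 0 := by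
      rw [e, hx₂, herm_add_left, herm_smul_left, herm_smul_left, herm_add_left, herm_smul_left, hyu] at hy'u
      linear_combination hy'u
    have h4 : c' = -(d' * τ) := by
      have := (mul_eq_zero.mp h3).resolve_right hzu
      linear_combination this
    have h5 : y' = d' • y := by
      rw [e, h4, hx₂]
      module
    have hd0 : d' ≠ 0 := by
      rintro rfl
      rw [zero_smul] at h5
      exact hy'0 h5
    apply Pres.of_map
    rw [ey]
    have h6 : herm (d' • y) (d' • y) = 0 := by rw [← h5]; exact hy'y'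
    rw [TT_congr hF hn h5 hy'y' h6, TT_smul hF hn hd0 hyy h6]
  · exact Coord.id_nonperp (p := p) hF hn hb hn3 hc hαu hαv hyy hyu

include p in
/-- **Step**: an automorphism with trivial coordinates is trivial -/
theorem Coord.eq_one : α = 1 := by
  classical
  ext x
  obtain ⟨s, rfl⟩ := QuotientGroup.mk'_surjective _ x
  obtain ⟨s', hs'⟩ := QuotientGroup.mk'_surjective _ (α (pr s))
  change α (pr s) = pr s
  rw [← hs']
  have key : ∀ y : Fin n → F, herm y y = 0 → y ≠ 0 → ∃ t : F, act (s⁻¹ * s') y = t • y := by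
    intro y hyy hy0
    have hP := Coord.id_all (p := p) hF hn hb hn3 hc hαu hαv hy0 hyy
    have h1 := herm_act_self hF s hyy
    have h2 := herm_act_self hF s' hyy
    have h3 := TT_map_conj hF hn hyy hP hs'.symm h1 h2
    have hP2 := Coord.id_all (p := p) hF hn hb hn3 hc hαu hαv (act_ne_zero (s := s) hy0) h1
    rw [hP2.map_eq] at h3
    obtain ⟨κ, -, e⟩ := par_of_TT_eq hF hn hn3 (act_ne_zero hy0) (act_ne_zero hy0) h1 h2 h3
    refine ⟨κ, ?_⟩
    rw [act_mul, e, act_smul, act_inv_act]
  have h1 := scalar_of_eigen hF (s⁻¹ * s') key ⟨0, hn⟩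
  have h2 : s⁻¹ * s' ∈ Subgroup.center (Cfsg.SU n F q) := by
    apply scalar_central ((((s⁻¹ * s' : Cfsg.SU n F q) : SpecialLinearGroup (Fin n) F) : Matrix (Fin n) (Fin n) F) ⟨0, hn⟩ ⟨0, hn⟩)
    intro y
    unfold act
    conv_lhs => rw [h1]
    rw [Matrix.smul_mulVec, Matrix.one_mulVec]
  exact (QuotientGroup.eq.mpr h2).symm

end

end Cfsg.Agent.Lead.AutPSU
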