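import Cfsg.Agent.Lib.Lead.AutPSU14
/-! Automorphisms of `PSU`: the main theorem. -/
set_option autoImplicit false
set_option linter.style.haveILetI false
set_option linter.unusedSimpArgs false
set_option linter.unusedSectionVars false
set_option linter.unusedVariables false
namespace Cfsg.Agent.Lead.AutPSU
open Matrix Cfsg.Agent.Lead Cfsg.Agent.Lead.PSU
open scoped MatrixGroups commutatorElement Pointwise

variable {F : Type*} [Field F] [Fintype F] {q n : ℕ}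

local notation "herm" => Cfsg.hermForm n F q
local notation "SUG" => Cfsg.SU n F q
local notation "PG" => (Cfsg.SU n F q ⧸ Subgroup.center (Cfsg.SU n F q))
local notation "pr" => (QuotientGroup.mk' (Subgroup.center (Cfsg.SU n F q)))

/-- composition with an inner automorphism -/
lemma conj_mul_cU {g : GL (Fin n) F} (hg : g ∈ Cfsg.GU n F q) (σ : F ≃+* F) (s : Cfsg.SU n F q) :
    MulAut.conj (pr s) * cU hg σ = cU ((Cfsg.GU n F q).mul_mem (toGL_mem s) hg) σ := by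
  ext x
  obtain ⟨t, rfl⟩ := QuotientGroup.mk'_surjective _ x
  change pr s * cU hg σ (pr t) * (pr s)⁻¹ = cU _ σ (pr t)
  rw [cU_pr, cU_pr, ← map_inv, ← map_mul, ← map_mul]
  congr 1
  apply Subtype.ext
  apply Subtype.ext
  change mat s * cMat g σ t * mat s⁻¹ = cMat (toGL s * g) σ t
  rw [cMat, cMat, _root_.mul_inv_rev, toGL_inv]
  have e1 : ((toGL s * g : GL (Fin n) F) : Matrix (Fin n) (Fin n) F) = mat s * (g : Matrix (Fin n) (Fin n) F) := rfl
  have e2 : ((g⁻¹ * toGL s⁻¹ : GL (Fin n) F) : Matrix (Fin n) (Fin n) F) = ((g⁻¹ : GL (Fin n) F) : Matrix (Fin n) (Fin n) F) * mat s⁻¹ := rfl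
  rw [e1, e2]
  simp only [Matrix.mul_assoc]

/-- **The main theorem**: every automorphism of `PSU` is induced by a semilinear unitary map. -/
theorem aut_eq_cU (hF : Fintype.card F = q ^ 2) (hn3 : 3 ≤ n) (hne : ¬ (n = 3 ∧ q = 2))
    (α : MulAut PG) : ∃ (g : GL (Fin n) F) (hg : g ∈ Cfsg.GU n F q) (σ : F ≃+* F), α = cU hg σ := by
  classical
  have hn : 0 < n := by omega
  obtain ⟨p, hpc⟩ := CharP.exists F
  haveI : Fact p.Prime := ⟨CharP.char_is_prime F p⟩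
  obtain ⟨i₀, i₁, u, v, hb⟩ := exists_base (n := n) hF hn3
  have hu0 := Base.u_ne hF hn hb hn3
  have hv0 := Base.v_ne hF hn hb hn3
  obtain ⟨u₁, hu₁0, hu₁u₁, eu⟩ := stepA (p := p) hF hn (by omega) α hu0 hb.uu
  obtain ⟨v₁, hv₁0, hv₁v₁, ev⟩ := stepA (p := p) hF hn (by omega) α hv0 hb.vv
  have hnp : herm v₁ u₁ ≠ 0 := nonperp_map hF hn hn3 hu0 hv0 hu₁0 hv₁0 hb.uu hb.vv hu₁u₁ hv₁v₁ eu ev (by rw [hb.vu]; exact one_ne_zero)
  set κ := (herm v₁ u₁)⁻¹ with hκ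
  have hκ0 : κ ≠ 0 := inv_ne_zero hnp
  set v₂ := κ • v₁ with hv₂
  have hv₂v₂ : herm v₂ v₂ = 0 := by rw [hv₂, norm_smul_form hF, hv₁v₁, mul_zero]
  have hv₂u₁ : herm v₂ u₁ = 1 := by rw [hv₂, herm_smul_left, hκ, inv_mul_cancel₀ hnp]
  have ev₂ : TT hF hn hv₂v₂ = TT hF hn hv₁v₁ := TT_smul hF hn hκ0 hv₁v₁ hv₂v₂
  have hON0 : IsON q (Fin.elim0 : Fin 0 → Fin n → F) := fun i => i.elim0
  have hX : ∀ x : Fin n → F, x ∈ perpOf hF (Fin.elim0 : Fin 0 → Fin n → F) := fun x i => i.elim0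
  obtain ⟨t, -, ht⟩ := trans_X hF hn hON0 (by omega) (hX u₁) (hX u) hu₁u₁ hb.uu hu₁0 hu0
  have hv₃ : herm (act t v₂) (act t v₂) = 0 := herm_act_self hF t hv₂v₂
  have hv₃u : herm (act t v₂) u = herm v u := by
    have h5 : herm (act t v₂) (act t u₁) = 1 := by
      rw [herm_act]
      exact hv₂u₁
    rw [ht] at h5
    rw [h5, hb.vu]
  obtain ⟨a, b, A, -, hE⟩ := exists_E_map hF hb.uu hv₃ hb.vv (by rw [hv₃u, hb.vu]; exact one_ne_zero) hv₃u.symm
  set g₀ := E hF hn u a b A * t with hg₀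
  have hg₀u : act g₀ u₁ = u := by
    rw [hg₀, act_mul, ht]
    exact act_E_fix hF hn A hb.uu (herm_eq_zero_symm hF A.au)
  have hg₀v : act g₀ v₂ = v := by
    rw [hg₀, act_mul, act_E, hE]
  -- the normalized automorphism
  let α₂ : MulAut PG := MulAut.conj (pr g₀) * α
  have hmap : ∀ {x y : Fin n → F} (hx : herm x x = 0) (hy : herm y y = 0) (hy₀ : herm y y = 0) (hx₂ : herm (act g₀ y) (act g₀ y) = 0), (TT hF hn hx).map α.toMonoidHom = TT hF hn hy →
      (TT hF hn hx).map α₂.toMonoidHom = TT hF hn hx₂ := by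
    intro x y hx hy hy₀ hx₂ h
    rw [← TT_conj hF hn g₀ hy hx₂, ← h]
    ext z
    constructor
    · rintro ⟨w, hw, rfl⟩
      exact ⟨α w, ⟨w, hw, rfl⟩, rfl⟩
    · rintro ⟨_, ⟨w, hw, rfl⟩, rfl⟩
      exact ⟨w, hw, rfl⟩
  have hαu : Pres α₂ (TT hF hn hb.uu) := by
    apply Pres.of_map
    have h1 := herm_act_self hF g₀ hu₁u₁
    rw [hmap hb.uu hu₁u₁ hu₁u₁ h1 eu]
    exact TT_congr hF hn hg₀u h1 hb.uu
  have hαv : Pres α₂ (TT hF hn hb.vv) := by
    apply Pres.of_map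
    have h1 := herm_act_self hF g₀ hv₂v₂
    rw [hmap hb.vv hv₂v₂ hv₂v₂ h1 (by rw [ev, ev₂])]
    exact TT_congr hF hn hg₀v h1 hb.vv
  obtain ⟨φ, hc⟩ := exists_coord (p := p) hF hn hb hn3 hαu
  obtain ⟨g, hg, σ, hP1, hP2, hC⟩ := Coord.exists_beta (p := p) hF hn hb hn3 hc hαu hαv hne
  have hone := Coord.eq_one (p := p) hF hn hb hn3 hC (hP1.mul hαu) (hP2.mul hαv)
  have h₂ : α₂ = cU hg σ := by
    have := congrArg (fun x => cU hg σ * x) hone
    simpa using this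
  refine ⟨_, (Cfsg.GU n F q).mul_mem (toGL_mem g₀⁻¹) hg, σ, ?_⟩
  rw [← conj_mul_cU hg σ g₀⁻¹, ← h₂]
  change α = MulAut.conj (pr g₀⁻¹) * (MulAut.conj (pr g₀) * α)
  rw [← mul_assoc, ← map_mul, ← map_mul]
  simp

/-- matrices of `cU` -/
lemma map_refl' (M : Matrix (Fin n) (Fin n) F) : M.map (RingEquiv.refl F) = M := by
  ext i j
  simp

/-- the factorization -/
lemma cU_factor {g : GL (Fin n) F} (hg : g ∈ Cfsg.GU n F q) (σ : F ≃+* F) :
    cU hg σ = cU hg (RingEquiv.refl F) * cU (Cfsg.GU n F q).one_mem σ := by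
  ext x
  obtain ⟨t, rfl⟩ := QuotientGroup.mk'_surjective _ x
  change pr (cHomU hg σ t) = pr (cHomU hg (RingEquiv.refl F) (cHomU (Cfsg.GU n F q).one_mem σ t))
  congr 1
  apply Subtype.ext
  apply Subtype.ext
  change cMat g σ t = cMat g (RingEquiv.refl F) (cHomU (Cfsg.GU n F q).one_mem σ t)
  rw [cMat, cMat, map_refl']
  have e : mat (cHomU (Cfsg.GU n F q).one_mem σ t) = cMat 1 σ t := rfl
  rw [e, cMat]
  simp

end Cfsg.Agent.Lead.AutPSU
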