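import Cfsg.Agent.Lib.Lead.AutPSU15
import Cfsg.Agent.Lib.Lead.AutPSLOut
/-! Automorphisms of `PSU`: the structure of the automorphism group. -/
set_option autoImplicit false
set_option linter.style.haveILetI false
set_option linter.unusedSimpArgs false
set_option linter.unusedSectionVars false
set_option linter.unusedVariables false
namespace Cfsg.Agent.Lead.AutPSU
open Matrix Cfsg.Agent.Lead Cfsg.Agent.Lead.PSU
open scoped MatrixGroups commutatorElement Pointwise

variable {F : Type*} [Field F] [Fintype F] {q n : ℕ}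

local notation "herm" => Cfsg.hermForm n F q
local notation "SUG" => Cfsg.SU n F q
local notation "PG" => (Cfsg.SU n F q ⧸ Subgroup.center (Cfsg.SU n F q))
local notation "pr" => (QuotientGroup.mk' (Subgroup.center (Cfsg.SU n F q)))

lemma cMat_refl (g : GL (Fin n) F) (t : Cfsg.SU n F q) :
    cMat g (RingEquiv.refl F) t = (g : Matrix (Fin n) (Fin n) F) * mat t * ((g⁻¹ : GL (Fin n) F) : Matrix (Fin n) (Fin n) F) := by
  rw [cMat, map_refl']

/-- conjugation by unitary matrices -/
noncomputable def kkU : Cfsg.GU n F q →* MulAut PG where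
  toFun g := cU g.2 (RingEquiv.refl F)
  map_one' := by
    ext x
    obtain ⟨t, rfl⟩ := QuotientGroup.mk'_surjective _ x
    change pr (cHomU (1 : Cfsg.GU n F q).2 _ t) = pr t
    congr 1
    apply Subtype.ext
    apply Subtype.ext
    change cMat _ (RingEquiv.refl F) t = mat t
    rw [cMat_refl]
    simp
  map_mul' g h := by
    ext x
    obtain ⟨t, rfl⟩ := QuotientGroup.mk'_surjective _ x
    change pr (cHomU (g * h).2 _ t) = pr (cHomU g.2 _ (cHomU h.2 _ t))
    congr 1
    apply Subtype.ext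
    apply Subtype.ext
    change cMat (g.1 * h.1) (RingEquiv.refl F) t = cMat g.1 (RingEquiv.refl F) (cHomU h.2 _ t)
    rw [cMat_refl, cMat_refl]
    have e : mat (cHomU h.2 (RingEquiv.refl F) t) = cMat h.1 (RingEquiv.refl F) t := rfl
    rw [e, cMat_refl, _root_.mul_inv_rev]
    have e1 : ((g.1 * h.1 : GL (Fin n) F) : Matrix (Fin n) (Fin n) F) = (g.1 : Matrix (Fin n) (Fin n) F) * (h.1 : Matrix (Fin n) (Fin n) F) := rfl
    have e2 : ((h.1⁻¹ * g.1⁻¹ : GL (Fin n) F) : Matrix (Fin n) (Fin n) F) = ((h.1⁻¹ : GL (Fin n) F) : Matrix (Fin n) (Fin n) F) * ((g.1⁻¹ : GL (Fin n) F) : Matrix (Fin n) (Fin n) F) := rfl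
    rw [e1, e2]
    simp only [Matrix.mul_assoc]

/-- field automorphisms -/
noncomputable def fldU : (F ≃+* F) →* MulAut PG where
  toFun σ := cU (Cfsg.GU n F q).one_mem σ
  map_one' := by
    ext x
    obtain ⟨t, rfl⟩ := QuotientGroup.mk'_surjective _ x
    change pr (cHomU (Cfsg.GU n F q).one_mem _ t) = pr t
    congr 1
    apply Subtype.ext
    apply Subtype.ext
    change cMat 1 1 t = mat t
    rw [cMat]
    have : (mat t).map (1 : F ≃+* F) = mat t := by
      ext i j
      simp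
    rw [this]
    simp
  map_mul' σ τ := by
    ext x
    obtain ⟨t, rfl⟩ := QuotientGroup.mk'_surjective _ x
    change pr (cHomU (Cfsg.GU n F q).one_mem _ t) = pr (cHomU (Cfsg.GU n F q).one_mem σ (cHomU (Cfsg.GU n F q).one_mem τ t))
    congr 1
    apply Subtype.ext
    apply Subtype.ext
    change cMat 1 (σ * τ) t = cMat 1 σ (cHomU (Cfsg.GU n F q).one_mem τ t)
    rw [cMat, cMat]
    have e : mat (cHomU (Cfsg.GU n F q).one_mem τ t) = cMat 1 τ t := rfl
    rw [e, cMat]
    ext i j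
    simp

lemma kkU_pr (g : Cfsg.GU n F q) (t : Cfsg.SU n F q) : kkU g (pr t) = pr (cHomU g.2 (RingEquiv.refl F) t) := rfl

lemma fldU_pr (σ : F ≃+* F) (t : Cfsg.SU n F q) : fldU σ (pr t) = pr (cHomU (Cfsg.GU n F q).one_mem σ t) := rfl

lemma cU_eq (g : Cfsg.GU n F q) (σ : F ≃+* F) : cU g.2 σ = kkU g * fldU σ := cU_factor g.2 σ

/-- the inner automorphisms -/
def toGU (s : Cfsg.SU n F q) : Cfsg.GU n F q := ⟨toGL s, toGL_mem s⟩

lemma kkU_toGU (s : Cfsg.SU n F q) : kkU (toGU s) = MulAut.conj (pr s) := by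
  ext x
  obtain ⟨t, rfl⟩ := QuotientGroup.mk'_surjective _ x
  change pr (cHomU (toGU s).2 (RingEquiv.refl F) t) = pr s * pr t * (pr s)⁻¹
  rw [← map_inv, ← map_mul, ← map_mul]
  congr 1

/-- apply a field automorphism to a unitary matrix -/
noncomputable def mapGU (hF : Fintype.card F = q ^ 2) (σ : F ≃+* F) (g : Cfsg.GU n F q) : Cfsg.GU n F q :=
  ⟨Matrix.GeneralLinearGroup.map (σ : F →+* F) g.1, by
    intro x y
    change herm ((g.1 : Matrix (Fin n) (Fin n) F).map σ *ᵥ x) ((g.1 : Matrix (Fin n) (Fin n) F).map σ *ᵥ y) = herm x y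
    have ex : x = smap σ (smap σ.symm x) := (smap_symm σ x).symm
    have ey : y = smap σ (smap σ.symm y) := (smap_symm σ y).symm
    conv_lhs => rw [ex, ey]
    rw [map_mulVec_smap, map_mulVec_smap, herm_smap, gu_form g.2, ← herm_smap, smap_symm, smap_symm]⟩

lemma fldU_kkU (hF : Fintype.card F = q ^ 2) (σ : F ≃+* F) (g : Cfsg.GU n F q) :
    fldU σ * kkU g = kkU (mapGU hF σ g) * fldU σ := by
  ext x
  obtain ⟨t, rfl⟩ := QuotientGroup.mk'_surjective _ x
  change pr (cHomU (Cfsg.GU n F q).one_mem σ (cHomU g.2 (RingEquiv.refl F) t)) = pr (cHomU (mapGU hF σ g).2 (RingEquiv.refl F) (cHomU (Cfsg.GU n F q).one_mem σ t))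
  congr 1
  apply Subtype.ext
  apply Subtype.ext
  change cMat 1 σ (cHomU g.2 (RingEquiv.refl F) t) = cMat (mapGU hF σ g).1 (RingEquiv.refl F) (cHomU (Cfsg.GU n F q).one_mem σ t)
  rw [cMat_refl, cMat]
  have e1 : mat (cHomU g.2 (RingEquiv.refl F) t) = cMat g.1 (RingEquiv.refl F) t := rfl
  have e2 : mat (cHomU (Cfsg.GU n F q).one_mem σ t) = cMat 1 σ t := rfl
  rw [e1, e2, cMat_refl, cMat]
  have e3 : ((mapGU hF σ g).1 : Matrix (Fin n) (Fin n) F) = (g.1 : Matrix (Fin n) (Fin n) F).map σ := rfl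
  have e4 : (((mapGU hF σ g).1)⁻¹ : GL (Fin n) F) = Matrix.GeneralLinearGroup.map (σ : F →+* F) (g.1⁻¹) := by
    change (Matrix.GeneralLinearGroup.map (σ : F →+* F) g.1)⁻¹ = _
    rw [map_inv]
  have e5 : ((Matrix.GeneralLinearGroup.map (σ : F →+* F) (g.1⁻¹) : GL (Fin n) F) : Matrix (Fin n) (Fin n) F) = ((g.1⁻¹ : GL (Fin n) F) : Matrix (Fin n) (Fin n) F).map σ := rfl
  rw [e3, e4, e5, Matrix.map_mul, Matrix.map_mul]
  simp

/-- scalar criterion for matrices -/
lemma scalar_of_eigen_mat (hF : Fintype.card F = q ^ 2) (M : Matrix (Fin n) (Fin n) F)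
    (H : ∀ v : Fin n → F, herm v v = 0 → v ≠ 0 → ∃ t : F, M *ᵥ v = t • v) (i₀ : Fin n) :
    M = (M i₀ i₀) • 1 := by
  classical
  obtain ⟨a₁, a₂, a₃, h12, h13, h23, ha₁, ha₂, ha₃⟩ := exists_three_norm hF
  have key : ∀ i j : Fin n, i ≠ j → M i j = 0 ∧ M i i = M j j := by
    intro i j hij
    have hroot : ∀ a : F, a ^ (q + 1) = -1 →
        M i j * a ^ 2 + (M i i - M j j) * a - M j i = 0 := by
      intro a ha
      let v : Fin n → F := Pi.single i 1 + a • Pi.single j 1
      have hv : herm v v = 0 := by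
        simp only [v]
        rw [herm_add_left, herm_add_right hF, herm_add_right hF, herm_smul_left, herm_smul_right hF,
          herm_smul_right hF, herm_smul_left, herm_single_single hF, herm_single_single hF,
          herm_single_single hF, herm_single_single hF, if_pos rfl, if_pos rfl, if_neg hij,
          if_neg (Ne.symm hij)]
        rw [pow_succ] at ha
        linear_combination ha
      have hvi : v i = 1 := by simp [v, Pi.single_apply, Ne.symm hij]
      have hv0 : v ≠ 0 := by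
        intro h0
        rw [h0] at hvi
        exact zero_ne_one hvi
      obtain ⟨t, ht⟩ := H v hv hv0
      have ht' : t • v = M *ᵥ v := ht.symm
      have hMv : M *ᵥ v = fun k => M k i + a * M k j := by
        simp only [v, Matrix.mulVec_add, Matrix.mulVec_smul, Matrix.mulVec_single_one]
        rfl
      rw [hMv] at ht'
      have e1 := congrFun ht' i
      have e2 := congrFun ht' j
      simp only [Pi.smul_apply, smul_eq_mul, hvi, mul_one] at e1 e2
      have hvj : v j = a := by simp [v, Pi.single_apply, hij]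
      rw [hvj] at e2
      rw [e1] at e2
      linear_combination e2
    have r1 := hroot a₁ ha₁
    have r2 := hroot a₂ ha₂
    have r3 := hroot a₃ ha₃
    have d12 : a₁ - a₂ ≠ 0 := sub_ne_zero.2 h12
    have d13 : a₁ - a₃ ≠ 0 := sub_ne_zero.2 h13
    have d23 : a₂ - a₃ ≠ 0 := sub_ne_zero.2 h23
    have s1 : M i j * (a₁ + a₂) + (M i i - M j j) = 0 := by
      apply mul_left_cancel₀ d12
      linear_combination r1 - r2
    have s2 : M i j * (a₁ + a₃) + (M i i - M j j) = 0 := by
      apply mul_left_cancel₀ d13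
      linear_combination r1 - r3
    have s3 : M i j = 0 := by
      apply mul_left_cancel₀ d23
      linear_combination s1 - s2
    refine ⟨s3, ?_⟩
    rw [s3] at s1
    linear_combination s1
  ext i j
  rw [Matrix.smul_apply, Matrix.one_apply]
  by_cases hij : i = j
  · subst hij
    simp only [if_true, smul_eq_mul, mul_one]
    by_cases hi : i = i₀
    · rw [hi]
    · exact (key i i₀ hi).2
  · rw [if_neg hij, smul_zero]
    exact (key i j hij).1

lemma gam_ne (g : GL (Fin n) F) (σ : F ≃+* F) {y : Fin n → F} (hy : y ≠ 0) : gam g σ y ≠ 0 := by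
  intro h0
  have h1 := congrArg (fun z => ((g⁻¹ : GL (Fin n) F) : Matrix (Fin n) (Fin n) F) *ᵥ z) h0
  simp only [gam, Matrix.mulVec_mulVec, gl_inv_mul', Matrix.one_mulVec, Matrix.mulVec_zero] at h1
  have h2 := congrArg (smap σ.symm) h1
  rw [smap_symm', smap_zero] at h2
  exact hy h2

section
variable (hF : Fintype.card F = q ^ 2) (hn : 0 < n)
include hF hn

/-- the exact image of a root group -/
lemma cU_TT_eq {g : GL (Fin n) F} (hg : g ∈ Cfsg.GU n F q) (σ : F ≃+* F) {y : Fin n → F} (hyy : herm y y = 0)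
    (h' : herm (gam g σ y) (gam g σ y) = 0) :
    (TT hF hn hyy).map (cU hg σ).toMonoidHom = TT hF hn h' := by
  apply le_antisymm (cU_TT hF hn hg σ hyy h')
  intro x hx
  obtain ⟨c, C, rfl⟩ := (mem_TT hF hn).mp hx
  have htr : c + c ^ q = 0 := by
    have := C.tr
    rw [herm_zero_left hF] at this
    linear_combination this
  have ht : σ.symm c + (σ.symm c) ^ q = 0 := by
    apply σ.injective
    rw [map_add, map_pow, RingEquiv.apply_symm_apply, map_zero]
    exact htr
  have A : Adm q y 0 (σ.symm c) := admT hF hyy ht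
  refine ⟨_, (mem_TT hF hn).mpr ⟨_, A, rfl⟩, ?_⟩
  change cU hg σ (pr _) = _
  rw [cU_pr, cHomU_E hF hn hg σ A]
  congr 1
  apply E_congr
  · rw [gam, smap_zero, Matrix.mulVec_zero]
  · rw [RingEquiv.apply_symm_apply]

/-- `c_g = 1` forces `g` to be scalar -/
lemma kkU_eq_one (hn3 : 3 ≤ n) {g : Cfsg.GU n F q} (h : kkU g = 1) :
    (g.1 : Matrix (Fin n) (Fin n) F) = ((g.1 : Matrix (Fin n) (Fin n) F) ⟨0, hn⟩ ⟨0, hn⟩) • 1 := by
  apply scalar_of_eigen_mat hF
  intro y hyy hy0
  have h1 : herm (gam g.1 (RingEquiv.refl F) y) (gam g.1 (RingEquiv.refl F) y) = 0 := by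
    rw [herm_gam g.2, hyy, map_zero]
  have h2 := cU_TT_eq hF hn g.2 (RingEquiv.refl F) hyy h1
  have h3 : cU g.2 (RingEquiv.refl F) = 1 := h
  rw [h3] at h2
  have h4 : (TT hF hn hyy).map (1 : MulAut PG).toMonoidHom = TT hF hn hyy := by
    ext x
    constructor
    · rintro ⟨z, hz, rfl⟩
      exact hz
    · intro hx
      exact ⟨x, hx, rfl⟩
  rw [h4] at h2
  have e : gam g.1 (RingEquiv.refl F) y = (g.1 : Matrix (Fin n) (Fin n) F) *ᵥ y := by
    rw [gam]
    rfl
  have hne : gam g.1 (RingEquiv.refl F) y ≠ 0 := gam_ne _ _ hy0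
  obtain ⟨κ, -, e2⟩ := par_of_TT_eq hF hn hn3 hy0 hne hyy h1 h2
  exact ⟨κ, by rw [← e]; exact e2⟩

omit hF hn in
/-- scalars act trivially -/
lemma kkU_of_scalar {g : Cfsg.GU n F q} {z : F} (h : (g.1 : Matrix (Fin n) (Fin n) F) = z • 1) : kkU g = 1 := by
  ext x
  obtain ⟨t, rfl⟩ := QuotientGroup.mk'_surjective _ x
  change pr (cHomU g.2 _ t) = pr t
  congr 1
  apply Subtype.ext
  apply Subtype.ext
  change cMat g.1 (RingEquiv.refl F) t = mat t
  rw [cMat_refl]
  have h1 : (g.1 : Matrix (Fin n) (Fin n) F) * mat t = mat t * (g.1 : Matrix (Fin n) (Fin n) F) := by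
    rw [h]
    simp
  rw [h1, Matrix.mul_assoc, gl_mul_inv', Matrix.mul_one]

/-- a field automorphism which is inner-diagonal is trivial -/
lemma fldU_eq_kkU (hn3 : 3 ≤ n) {τ : F ≃+* F} {g : Cfsg.GU n F q} (h : fldU τ = kkU g) : τ = 1 := by
  classical
  obtain ⟨i₀, i₁, u, v, hb⟩ := exists_base (n := n) hF hn3
  obtain ⟨i₂, h20, h21⟩ : ∃ i₂ : Fin n, i₂ ≠ i₀ ∧ i₂ ≠ i₁ := by
    by_contra hcon
    push Not at hcon
    have hsub : (Finset.univ : Finset (Fin n)) ⊆ {i₀, i₁} := by
      intro i _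
      by_cases hi : i = i₀
      · simp [hi]
      · simp [hcon i hi]
    have h1 := Finset.card_le_card hsub
    rw [Finset.card_univ, Fintype.card_fin] at h1
    have h2 : ({i₀, i₁} : Finset (Fin n)).card ≤ 2 := Finset.card_le_two
    omega
  have hu0 := Base.u_ne hF hn hb hn3
  have hv0 := Base.v_ne hF hn hb hn3
  have hg' : g.1⁻¹ ∈ Cfsg.GU n F q := (Cfsg.GU n F q).inv_mem g.2
  set U : (Fin n → F) → (Fin n → F) := gam g.1⁻¹ τ with hU
  have hUform : ∀ x y, herm (U x) (U y) = τ (herm x y) := herm_gam hg' τ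
  have hUadd : ∀ x y, U (x + y) = U x + U y := gam_add _ _
  have hUsmul : ∀ (c : F) x, U (c • x) = τ c • U x := gam_smul _ _
  -- isotropic vectors are eigenvectors
  have key : ∀ y : Fin n → F, herm y y = 0 → y ≠ 0 → ∃ κ : F, κ ≠ 0 ∧ U y = κ • y := by
    intro y hyy hy0
    have h1 : herm (gam 1 τ y) (gam 1 τ y) = 0 := by
      rw [herm_gam (Cfsg.GU n F q).one_mem, hyy, map_zero]
    have h2 : herm (gam g.1 (RingEquiv.refl F) y) (gam g.1 (RingEquiv.refl F) y) = 0 := by
      rw [herm_gam g.2, hyy, map_zero]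
    have e1 := cU_TT_eq hF hn (Cfsg.GU n F q).one_mem τ hyy h1
    have e2 := cU_TT_eq hF hn g.2 (RingEquiv.refl F) hyy h2
    have e3 : cU (Cfsg.GU n F q).one_mem τ = cU g.2 (RingEquiv.refl F) := h
    rw [e3, e2] at e1
    obtain ⟨κ, hκ, e4⟩ := par_of_TT_eq hF hn hn3 (gam_ne g.1 _ hy0) (gam_ne 1 τ hy0) h2 h1 e1
    refine ⟨κ, hκ, ?_⟩
    have e5 : gam 1 τ y = smap τ y := by
      rw [gam, Units.val_one, Matrix.one_mulVec]
    have e6 : gam g.1 (RingEquiv.refl F) y = (g.1 : Matrix (Fin n) (Fin n) F) *ᵥ y := rfl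
    rw [e5, e6] at e4
    rw [hU, gam, e4, Matrix.mulVec_smul, Matrix.mulVec_mulVec, gl_inv_mul', Matrix.one_mulVec]
  obtain ⟨lu, hlu0, hlu⟩ := key u hb.uu hu0
  obtain ⟨lv, hlv0, hlv⟩ := key v hb.vv hv0
  have he := single_mem_W hF hb h20 h21
  set e : Fin n → F := Pi.single i₂ 1 with hedef
  have hee : herm e e = 1 := by
    rw [hedef, herm_single_single hF, if_pos rfl]
  have hUe : herm (U e) u = 0 := by
    have h1 := hUform e u
    rw [he.1, map_zero, hlu, herm_smul_right hF] at h1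
    exact (mul_eq_zero.mp h1).resolve_left (pow_ne_zero _ hlu0)
  have hue : herm u e = 0 := herm_eq_zero_symm hF he.1
  have hve : herm v e = 0 := herm_eq_zero_symm hF he.2
  have main : ∀ s : F, τ s * herm (U e) e = lv * s := by
    intro s
    have hs1 : herm (s • e) u = 0 := by rw [herm_smul_left, he.1, mul_zero]
    have hs2 : herm (s • e) v = 0 := by rw [herm_smul_left, he.2, mul_zero]
    obtain ⟨b, A⟩ := exists_adm hF hb.uu hs1
    have hy := point_iso hF hn hb A hs2
    have hy0 := point_ne hF hn hb A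
    obtain ⟨κ, -, hκ⟩ := key _ hy hy0
    rw [hUadd, hUadd, hUsmul, hUsmul, hlu, hlv] at hκ
    have e1 := congrArg (fun t => herm t u) hκ
    simp only [herm_add_left, herm_smul_left, hb.vu, hb.uu, hUe, he.1, mul_zero, add_zero, mul_one] at e1
    have e2 := congrArg (fun t => herm t e) hκ
    simp only [herm_add_left, herm_smul_left, hve, hue, hee, mul_zero, add_zero, zero_add, mul_one] at e2
    rw [← e1] at e2
    exact e2
  have h1 := main 1
  rw [map_one, one_mul, mul_one] at h1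
  ext s
  have h2 := main s
  rw [h1] at h2
  have h3 : lv * (τ s - s) = 0 := by linear_combination h2
  exact sub_eq_zero.mp ((mul_eq_zero.mp h3).resolve_left hlv0)

end

end Cfsg.Agent.Lead.AutPSU
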