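import Cfsg.Agent.Lib.Lead.AutPSU16
/-! Automorphisms of `PSU`: the order of the automorphism group and the outer automorphism group. -/
set_option autoImplicit false
set_option linter.style.haveILetI false
set_option linter.unusedSimpArgs false
set_option linter.unusedSectionVars false
set_option linter.unusedVariables false
namespace Cfsg.Agent.Lead.AutPSU
open Matrix Cfsg.Agent.Lead Cfsg.Agent.Lead.PSU
open scoped MatrixGroups commutatorElement Pointwise

variable {F : Type*} [Field F] [Fintype F] {q n : ℕ}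

local notation "herm" => Cfsg.hermForm n F q
local notation "SUG" => Cfsg.SU n F q
local notation "PG" => (Cfsg.SU n F q ⧸ Subgroup.center (Cfsg.SU n F q))
local notation "pr" => (QuotientGroup.mk' (Subgroup.center (Cfsg.SU n F q)))

section
variable (hF : Fintype.card F = q ^ 2) (hn3 : 3 ≤ n)
include hF hn3

/-- uniqueness of the factorisation -/
lemma factorU_unique {g g' : Cfsg.GU n F q} {σ σ' : F ≃+* F}
    (h : (kkU g * fldU σ : MulAut PG) = kkU g' * fldU σ') : kkU g = (kkU g' : MulAut PG) ∧ σ = σ' := by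
  have h1 : fldU (σ' * σ⁻¹) = (kkU (g'⁻¹ * g) : MulAut PG) := by
    rw [map_mul, map_mul, map_inv, map_inv]
    have : (kkU g : MulAut PG) = kkU g' * fldU σ' * (fldU σ)⁻¹ := by
      rw [← h]; group
    rw [this]
    group
  have h2 := fldU_eq_kkU hF (by omega) hn3 h1
  have h3 : σ' = σ := by
    have := congrArg (fun t => t * σ) h2
    simpa using this
  subst h3
  exact ⟨mul_right_cancel h, rfl⟩

/-- the number of unitary scalars -/
lemma card_ker_kkU : Nat.card (kkU : Cfsg.GU n F q →* MulAut PG).ker = q + 1 := by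
  classical
  have hn : 0 < n := by omega
  have hq2 := two_le_q hF
  rw [← card_norm_one hF]
  symm
  have hz0 : ∀ z : {z : F // z ^ (q + 1) = 1}, (z : F) ≠ 0 := by
    rintro ⟨z, hz⟩ rfl
    rw [zero_pow (by omega)] at hz
    exact zero_ne_one hz
  let gz : {z : F // z ^ (q + 1) = 1} → GL (Fin n) F := fun z => Matrix.GeneralLinearGroup.scalar _ (Units.mk0 z.1 (hz0 z))
  have hgz : ∀ z, ((gz z : GL (Fin n) F) : Matrix (Fin n) (Fin n) F) = (z : F) • 1 := by
    intro z
    change Matrix.scalar _ (z : F) = _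
    ext i j
    simp [Matrix.scalar_apply, Matrix.diagonal_apply, Matrix.one_apply]
  have hmem : ∀ z, gz z ∈ Cfsg.GU n F q := fun z x y => by
    change herm (((gz z : GL (Fin n) F) : Matrix (Fin n) (Fin n) F) *ᵥ x) (((gz z : GL (Fin n) F) : Matrix (Fin n) (Fin n) F) *ᵥ y) = _
    rw [hgz, Matrix.smul_mulVec, Matrix.smul_mulVec, Matrix.one_mulVec, Matrix.one_mulVec, norm_smul_form hF, z.2, one_mul]
  have hker : ∀ z, (⟨gz z, hmem z⟩ : Cfsg.GU n F q) ∈ (kkU : Cfsg.GU n F q →* MulAut PG).ker := fun z => by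
    rw [MonoidHom.mem_ker]
    exact kkU_of_scalar (hgz z)
  apply Nat.card_eq_of_bijective (fun z => (⟨⟨gz z, hmem z⟩, hker z⟩ : (kkU : Cfsg.GU n F q →* MulAut PG).ker))
  constructor
  · intro a b hab
    have h1 := congrArg (fun g : (kkU : Cfsg.GU n F q →* MulAut PG).ker => ((g.1.1 : GL (Fin n) F) : Matrix (Fin n) (Fin n) F)) hab
    simp only [hgz] at h1
    have h2 := congrFun (congrFun h1 ⟨0, hn⟩) ⟨0, hn⟩
    simp at h2
    exact Subtype.ext h2
  · rintro ⟨g, hg⟩
    rw [MonoidHom.mem_ker] at hg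
    have h1 := kkU_eq_one hF hn hn3 hg
    set z := (g.1 : Matrix (Fin n) (Fin n) F) ⟨0, hn⟩ ⟨0, hn⟩ with hz
    have hz1 : z ^ (q + 1) = 1 := by
      have h2 := gu_form g.2 (Pi.single ⟨0, hn⟩ 1) (Pi.single ⟨0, hn⟩ 1)
      rw [h1, Matrix.smul_mulVec, Matrix.one_mulVec, norm_smul_form hF, herm_single_single hF, if_pos rfl, mul_one] at h2
      exact h2
    refine ⟨⟨z, hz1⟩, ?_⟩
    apply Subtype.ext
    apply Subtype.ext
    apply Units.ext
    change _ = (g.1 : Matrix (Fin n) (Fin n) F)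
    rw [h1]
    exact hgz _

/-- the order of the inner-diagonal part -/
lemma card_kkU_range : Nat.card (kkU : Cfsg.GU n F q →* MulAut PG).range = Nat.card (Cfsg.SU n F q) := by
  have h1 := Subgroup.card_eq_card_quotient_mul_card_subgroup (kkU : Cfsg.GU n F q →* MulAut PG).ker
  rw [Nat.card_congr (QuotientGroup.quotientKerEquivRange (kkU : Cfsg.GU n F q →* MulAut PG)).toEquiv,
    card_ker_kkU hF hn3, card_GU_eq hF (by omega), mul_comm] at h1
  exact (Nat.eq_of_mul_eq_mul_right (Nat.succ_pos q) h1).symm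

/-- the order of `Aut(PSU)` -/
theorem card_aut_PSU (hne : ¬ (n = 3 ∧ q = 2)) :
    Nat.card (MulAut PG) = Nat.card (Cfsg.SU n F q) * Nat.card (F ≃+* F) := by
  rw [← card_kkU_range hF hn3, ← Nat.card_prod]
  symm
  let f : (kkU : Cfsg.GU n F q →* MulAut PG).range × (F ≃+* F) → MulAut PG := fun x => x.1.1 * fldU x.2
  apply Nat.card_eq_of_bijective f
  constructor
  · rintro ⟨⟨_, g, rfl⟩, σ⟩ ⟨⟨_, g', rfl⟩, σ'⟩ h
    obtain ⟨h5, h6⟩ := factorU_unique hF hn3 h
    subst h6
    exact Prod.ext (Subtype.ext h5) rfl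
  · intro α
    obtain ⟨g, hg, σ, rfl⟩ := aut_eq_cU hF hn3 hne α
    exact ⟨(⟨kkU ⟨g, hg⟩, ⟨g, hg⟩, rfl⟩, σ), (cU_eq ⟨g, hg⟩ σ).symm⟩

/-- the order of `SU` -/
lemma card_SU_eq : Nat.card (Cfsg.SU n F q) = Nat.gcd n (q + 1) * Nat.card PG := by
  rw [Subgroup.card_eq_card_quotient_mul_card_subgroup (Subgroup.center (Cfsg.SU n F q)), card_center_SU hF (by omega), mul_comm]

/-- the inner automorphisms -/
lemma card_Inn : Nat.card (Cfsg.Inn PG) = Nat.card PG := by
  classical
  have hn : 0 < n := by omega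
  have hinj : Function.Injective (MulAut.conj : PG →* MulAut PG) := by
    rw [injective_iff_map_eq_one]
    intro x hx
    obtain ⟨s, rfl⟩ := QuotientGroup.mk'_surjective _ x
    have h1 : kkU (toGU s) = 1 := by rw [kkU_toGU]; exact hx
    have h2 := kkU_eq_one hF hn hn3 h1
    apply (QuotientGroup.eq_one_iff _).mpr
    apply scalar_central (mat s ⟨0, hn⟩ ⟨0, hn⟩)
    intro y
    have h3 : mat s = mat s ⟨0, hn⟩ ⟨0, hn⟩ • 1 := h2
    rw [act_eq_mat, h3, Matrix.smul_mulVec, Matrix.one_mulVec]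
    simp
  exact (Nat.card_congr (MonoidHom.ofInjective hinj).toEquiv).symm

/-- the retraction onto the field automorphisms -/
lemma exists_chi (hne : ¬ (n = 3 ∧ q = 2)) :
    ∃ χ : MulAut PG →* (F ≃+* F), χ.ker = (kkU : Cfsg.GU n F q →* MulAut PG).range ∧ ∀ σ, χ (fldU σ) = σ := by
  apply Cfsg.Agent.Lead.AutPSL.exists_hom_of_factor _ fldU
  · intro α
    obtain ⟨g, hg, σ, rfl⟩ := aut_eq_cU hF hn3 hne α
    exact ⟨kkU ⟨g, hg⟩, ⟨_, rfl⟩, σ, cU_eq ⟨g, hg⟩ σ⟩
  · rintro σ _ ⟨g, rfl⟩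
    rw [fldU_kkU hF, mul_inv_cancel_right]
    exact ⟨_, rfl⟩
  · rintro σ ⟨g, hg⟩
    exact fldU_eq_kkU hF (by omega) hn3 hg.symm

/-- the structure of `Out(PSU)` -/
theorem out_structure_PSU (hne : ¬ (n = 3 ∧ q = 2)) :
    ∃ χ' : Cfsg.Out PG →* (F ≃+* F), Function.Surjective χ' ∧ IsCyclic χ'.ker ∧ Nat.card χ'.ker = Nat.gcd n (q + 1) := by
  classical
  have hn : 0 < n := by omega
  obtain ⟨χ, hχ, hs⟩ := exists_chi hF hn3 hne
  have hI : Cfsg.Inn PG ≤ χ.ker := by
    rw [hχ]
    rintro _ ⟨x, rfl⟩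
    obtain ⟨s, rfl⟩ := QuotientGroup.mk'_surjective _ x
    exact ⟨toGU s, kkU_toGU s⟩
  let χ' : Cfsg.Out PG →* (F ≃+* F) := QuotientGroup.lift _ χ hI
  have hsurj : Function.Surjective χ' := by
    intro σ
    refine ⟨(QuotientGroup.mk (fldU σ : MulAut PG) : Cfsg.Out PG), ?_⟩
    exact hs σ
  refine ⟨χ', hsurj, ?_, ?_⟩
  · -- the kernel is a quotient of a cyclic group
    let D : Cfsg.GU n F q →* Cfsg.Out PG := (QuotientGroup.mk' (Cfsg.Inn PG)).comp kkU
    have hD : ∀ g, D g ∈ χ'.ker := by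
      intro g
      rw [MonoidHom.mem_ker]
      change χ (kkU g) = 1
      rw [← MonoidHom.mem_ker, hχ]
      exact ⟨g, rfl⟩
    let D' : Cfsg.GU n F q →* χ'.ker := D.codRestrict χ'.ker hD
    have hD'surj : Function.Surjective D' := by
      rintro ⟨x, hx⟩
      obtain ⟨α, rfl⟩ := QuotientGroup.mk_surjective x
      have h1 : χ α = 1 := hx
      rw [← MonoidHom.mem_ker, hχ] at h1
      obtain ⟨g, rfl⟩ := h1
      exact ⟨g, rfl⟩
    have hker : (guDet (n := n) (F := F) (q := q)).ker ≤ D'.ker := by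
      intro g hg
      rw [MonoidHom.mem_ker] at hg ⊢
      apply Subtype.ext
      change ((kkU g : MulAut PG) : Cfsg.Out PG) = 1
      rw [QuotientGroup.eq_one_iff]
      have h1 := congrArg Units.val hg
      have h2 : ((g.1 : GL (Fin n) F) : Matrix (Fin n) (Fin n) F).det = 1 := by
        simpa [guDet_coe] using h1
      let s : Cfsg.SU n F q := ⟨⟨(g.1 : Matrix (Fin n) (Fin n) F), h2⟩, g.2⟩
      have h3 : kkU g = MulAut.conj (pr s) := by
        rw [← kkU_toGU]
        congr 1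
        apply Subtype.ext
        apply Units.ext
        rfl
      rw [h3]
      exact ⟨pr s, rfl⟩
    let f : Cfsg.GU n F q ⧸ (guDet (n := n) (F := F) (q := q)).ker →* χ'.ker := QuotientGroup.lift _ D' hker
    have hf : Function.Surjective f := by
      intro y
      obtain ⟨g, rfl⟩ := hD'surj y
      exact ⟨(g : Cfsg.GU n F q ⧸ (guDet (n := n) (F := F) (q := q)).ker), rfl⟩
    haveI : IsCyclic (Cfsg.GU n F q ⧸ (guDet (n := n) (F := F) (q := q)).ker) :=
      isCyclic_of_surjective _ (QuotientGroup.quotientKerEquivRange (guDet (n := n) (F := F) (q := q))).symm.surjective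
    exact isCyclic_of_surjective f hf
  · -- the count
    have h1 := Subgroup.card_eq_card_quotient_mul_card_subgroup (Cfsg.Inn PG)
    have h2 := Subgroup.card_eq_card_quotient_mul_card_subgroup χ'.ker
    rw [Nat.card_congr (QuotientGroup.quotientKerEquivOfSurjective χ' hsurj).toEquiv] at h2
    have h3 : Nat.card (MulAut PG ⧸ Cfsg.Inn PG) = Nat.card (Cfsg.Out PG) := rfl
    rw [h3, h2, card_Inn hF hn3, card_aut_PSU hF hn3 hne, card_SU_eq hF hn3] at h1
    haveI : Finite (F ≃+* F) := Finite.of_injective (fun σ : F ≃+* F => (σ : F → F)) (fun a b h => by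
      ext x
      exact congrFun h x)
    have h4 : 0 < Nat.card (F ≃+* F) * Nat.card PG := Nat.mul_pos Nat.card_pos Nat.card_pos
    apply Nat.eq_of_mul_eq_mul_left h4
    linarith

end

end Cfsg.Agent.Lead.AutPSU
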