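import Cfsg.Agent.Lib.Lead.AutPSU1
/-! Automorphisms of `PSU`: the centre of a Sylow subgroup is a root group. -/
set_option autoImplicit false
set_option linter.style.haveILetI false
set_option linter.unusedSimpArgs false
set_option linter.unusedSectionVars false
set_option linter.unusedVariables false
namespace Cfsg.Agent.Lead.AutPSU
open Matrix Cfsg.Agent.Lead Cfsg.Agent.Lead.PSU
open Cfsg.Agent.Lead.AutPSL (zc image_zc)
open scoped MatrixGroups commutatorElement Pointwise

variable {F : Type*} [Field F] [Fintype F] {q n : ℕ}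

local notation "herm" => Cfsg.hermForm n F q
local notation "V" => (Fin n → F)
local notation "SUG" => Cfsg.SU n F q
local notation "PG" => (Cfsg.SU n F q ⧸ Subgroup.center (Cfsg.SU n F q))
local notation "pr" => (QuotientGroup.mk' (Subgroup.center (Cfsg.SU n F q)))

section
variable (hF : Fintype.card F = q ^ 2)
include hF

lemma exists_x0 {v : Fin n → F} (hv : v ≠ 0) : ∃ x₀ : Fin n → F, herm x₀ v = 1 := by
  obtain ⟨y, hy⟩ := Cfsg.Agent.H12.UTrans.exists_herm_one hF hv
  refine ⟨y, ?_⟩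
  rw [herm_conj hF, hy, one_pow]

lemma eq_zero_of_herm {y : Fin n → F} (h : ∀ z, herm y z = 0) : y = 0 := by
  by_contra h0
  obtain ⟨z, hz⟩ := herm_nondeg hF h0
  exact hz (h z)

/-- the double perpendicular of a vector -/
lemma perp_perp {v y : Fin n → F} (hv : v ≠ 0) (h : ∀ z, herm z v = 0 → herm y z = 0) : ∃ d : F, y = d • v := by
  obtain ⟨x₀, hx₀⟩ := exists_x0 hF hv
  refine ⟨herm y x₀, ?_⟩
  rw [← sub_eq_zero]
  apply eq_zero_of_herm hF
  intro z
  have h1 : herm (z - herm z v • x₀) v = 0 := by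
    rw [herm_sub_left hF, herm_smul_left, hx₀, mul_one, sub_self]
  have h2 := h _ h1
  rw [herm_sub_right hF, herm_smul_right hF] at h2
  rw [herm_sub_left hF, herm_smul_left, herm_conj hF z v]
  linear_combination h2

lemma char_dvd {p : ℕ} [hp : Fact p.Prime] [CharP F p] : p ∣ q := by
  obtain ⟨k, hpp, hk⟩ := FiniteField.card F p
  have h1 : p ∣ q ^ 2 := by
    rw [← hF, hk]
    exact dvd_pow_self p k.ne_zero
  exact hp.out.dvd_of_dvd_pow h1

variable (hn : 0 < n)
variable {p : ℕ} [hp : Fact p.Prime] [CharP F p]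
include hn

/-- the elements fixing a point normalize the radical -/
lemma mem_QQ_conj {s : Cfsg.SU n F q} {v : Fin n → F} {huu : herm v v = 0} {c : F} (hc : c ≠ 0) (hs : act s v = c • v)
    {x : PG} (hx : x ∈ QQ hF hn huu) : pr s * x * (pr s)⁻¹ ∈ QQ hF hn huu := by
  obtain ⟨a, b, h, rfl⟩ := (mem_QQ hF hn).mp hx
  obtain ⟨h', e⟩ := conj_E_fix hF hn s hc hs h
  refine (mem_QQ hF hn).mpr ⟨_, _, h', ?_⟩
  rw [← e, map_mul, map_mul, map_inv]

omit hn in
lemma act_inv_eigen {s : Cfsg.SU n F q} {v : Fin n → F} {c : F} (hc : c ≠ 0) (hs : act s v = c • v) : act s⁻¹ v = c⁻¹ • v := by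
  apply act_injective s
  rw [act_act_inv, act_smul, hs, smul_smul, inv_mul_cancel₀ hc, one_smul]

include p in
lemma QQ_le_of_fix (P : Sylow p PG) {v : Fin n → F} {huu : herm v v = 0} (hv : Fix (P : Subgroup PG) v) :
    QQ hF hn huu ≤ (P : Subgroup PG) := by
  have hN : (P : Subgroup PG) ≤ Subgroup.normalizer (QQ hF hn huu : Set PG) := by
    intro x hx
    obtain ⟨s, rfl⟩ := QuotientGroup.mk'_surjective _ x
    obtain ⟨c, hc, hsv⟩ := hv s hx
    rw [Subgroup.mem_normalizer_iff]
    intro h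
    constructor
    · intro h1
      exact mem_QQ_conj hF hn hc hsv h1
    · intro h1
      have h2 := mem_QQ_conj hF hn (s := s⁻¹) (inv_ne_zero hc) (act_inv_eigen hF hc hsv) h1
      have e : pr s⁻¹ * (pr s * h * (pr s)⁻¹) * (pr s⁻¹)⁻¹ = h := by
        rw [map_inv]
        group
      rwa [e] at h2
  have h1 := P.is_maximal' (P.isPGroup'.to_sup_of_normal_right' (isPGroup_QQ hF hn huu) hN) le_sup_left
  exact sup_eq_left.mp h1

include p in
/-- elements of a `p`-subgroup act on a fixed point by a scalar of norm one -/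
lemma norm_of_fix {P : Subgroup PG} (hP : IsPGroup p P) {v : Fin n → F} (hv0 : v ≠ 0)
    {s : Cfsg.SU n F q} (hs : pr s ∈ P) {c : F} (hc : act s v = c • v) : c ^ (q + 1) = 1 := by
  obtain ⟨k, hk⟩ := hP ⟨_, hs⟩
  have h1 : pr (1 : Cfsg.SU n F q) = pr (s ^ (p ^ k)) := by
    have := congrArg Subtype.val hk
    rw [map_pow, map_one]
    exact this.symm
  obtain ⟨d, hd, hx⟩ := (pr_eq_iff hF hn).mp h1
  have h2 := hx v
  rw [act_pow_eigen hc, act_one] at h2
  have h3 : c ^ p ^ k = d := by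
    have : (c ^ p ^ k - d) • v = 0 := by rw [sub_smul, h2, sub_self]
    exact sub_eq_zero.mp ((smul_eq_zero.mp this).resolve_right hv0)
  have h4 : ((c ^ (q + 1)) - 1) ^ p ^ k = 0 := by
    rw [sub_pow_char_pow, one_pow, ← pow_mul, mul_comm, pow_mul, h3, hd, sub_self]
  exact sub_eq_zero.mp (pow_eq_zero_iff (pow_ne_zero _ hp.out.ne_zero) |>.mp h4)

lemma TT_sub_zc (P : Sylow p PG) {v : Fin n → F} (hv0 : v ≠ 0) {huu : herm v v = 0} (hv : Fix (P : Subgroup PG) v) :
    (TT hF hn huu : Set PG) ⊆ zc (P : Subgroup PG) := by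
  intro x hx
  have hx' : x ∈ TT hF hn huu := hx
  refine ⟨QQ_le_of_fix hF hn P hv (TT_le_QQ hF hn huu hx'), fun y hy => ?_⟩
  obtain ⟨b, h, rfl⟩ := (mem_TT hF hn).mp hx'
  obtain ⟨s, rfl⟩ := QuotientGroup.mk'_surjective _ y
  obtain ⟨c, hc, hsv⟩ := hv s hy
  have hc2 := norm_of_fix hF hn P.isPGroup' hv0 hy hsv
  obtain ⟨h', e⟩ := conj_E_fix hF hn s hc hsv h
  have e2 : E hF hn v (c ^ q • act s 0) (c ^ (q + 1) * b) h' = E hF hn v 0 b h := by
    apply E_congr
    · rw [act_zero, smul_zero]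
    · rw [hc2, one_mul]
  rw [e2] at e
  have h1 : s * E hF hn v 0 b h = E hF hn v 0 b h * s := by
    conv_rhs => rw [← e]
    group
  rw [← map_mul, ← map_mul, ← h1]

/-- the centre of a Sylow subgroup fixing `v` lies in the root group of `v` -/
lemma zc_sub_TT (P : Sylow p PG) {v : Fin n → F} (hv0 : v ≠ 0) {huu : herm v v = 0} (hv : Fix (P : Subgroup PG) v) :
    zc (P : Subgroup PG) ⊆ (TT hF hn huu : Set PG) := by
  intro z hz
  obtain ⟨s, rfl⟩ := QuotientGroup.mk'_surjective _ z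
  obtain ⟨c, hc, hsv⟩ := hv s hz.1
  have hN := norm_of_fix hF hn P.isPGroup' hv0 hz.1 hsv
  have hq2 := two_le_q hF
  have hcc : c ^ q * c = 1 := by
    rw [← pow_succ]
    exact hN
  -- the main relation
  have key : ∀ (a : Fin n → F) (b : F) (h : Adm q v a b), ∀ x,
      Efun q v (c ^ q • act s a) b x = Efun q v a b x := by
    intro a b h x
    obtain ⟨h', e⟩ := conj_E_fix hF hn s hc hsv h
    have hb : c ^ (q + 1) * b = b := by rw [hN, one_mul]
    have h'' : Adm q v (c ^ q • act s a) b := by rwa [hb] at h'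
    have e2 : E hF hn v (c ^ q • act s a) (c ^ (q + 1) * b) h' = E hF hn v (c ^ q • act s a) b h'' :=
      E_congr hF hn _ _ rfl hb
    rw [e2] at e
    have hmem : pr (E hF hn v a b h) ∈ (P : Subgroup PG) :=
      QQ_le_of_fix hF hn P (huu := huu) hv ((mem_QQ hF hn).mpr ⟨a, b, h, rfl⟩)
    have hcm := hz.2 _ hmem
    have h1 : pr (E hF hn v a b h) = pr (E hF hn v (c ^ q • act s a) b h'') := by
      rw [← e, map_mul, map_mul, map_inv]
      have : pr s * pr (E hF hn v a b h) = pr (E hF hn v a b h) * pr s := hcm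
      rw [this]
      group
    obtain ⟨ζ, hζ, hx⟩ := (pr_eq_iff hF hn).mp h1
    have hv1 : act (E hF hn v a b h) v = v := act_E_fix hF hn h huu (herm_eq_zero_symm hF h.au)
    have hv2 : act (E hF hn v (c ^ q • act s a) b h'') v = v := act_E_fix hF hn h'' huu (herm_eq_zero_symm hF h''.au)
    have h3 := hx v
    rw [hv1, hv2] at h3
    have h4 : ζ = 1 := by
      have : (ζ - 1) • v = 0 := by
        rw [sub_smul, one_smul, ← h3, sub_self]
      exact sub_eq_zero.mp ((smul_eq_zero.mp this).resolve_right hv0)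
    have h5 := hx x
    rw [h4, one_smul, act_E, act_E] at h5
    exact h5
  obtain ⟨x₀, hx₀⟩ := exists_x0 hF hv0
  have star : ∀ a, herm a v = 0 → ∃ κ : F, κ ^ q = κ ∧ c ^ q • act s a = a + κ • v := by
    intro a ha
    obtain ⟨b, hb⟩ := exists_adm hF huu ha
    set a' := c ^ q • act s a with ha'
    have h1 := key a b hb
    have h2 := h1 x₀
    unfold Efun at h2
    rw [hx₀] at h2
    simp only [one_smul, mul_one] at h2
    set κ := herm x₀ a' - herm x₀ a with hκ
    have h3 : a' = a + κ • v := by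
      have h4 : x₀ + a' + (b - herm x₀ a') • v - (x₀ + a + (b - herm x₀ a) • v) = 0 := by
        rw [h2, sub_self]
      rw [hκ, sub_smul]
      rw [← sub_eq_zero]
      rw [← h4]
      simp only [sub_smul]
      abel
    refine ⟨κ, ?_, h3⟩
    have h5 : herm x₀ a' = herm x₀ a + κ ^ q * herm x₀ v := by
      rw [h3, herm_add_right hF, herm_smul_right hF]
    have h6 : herm x₀ v = 1 := hx₀
    rw [h6, mul_one] at h5
    rw [hκ] at *
    linear_combination -h5
  have star2 : ∀ a, herm a v = 0 → c ^ q • act s a = a := by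
    intro a ha
    obtain ⟨κ, hκ, e⟩ := star a ha
    obtain ⟨w, hw⟩ := exists_not_fixed hF
    have h1 : herm (w • a) v = 0 := by
      rw [herm_smul_left, ha, mul_zero]
    obtain ⟨κ', hκ', e'⟩ := star _ h1
    have h2 : w • (a + κ • v) = w • a + κ' • v := by
      rw [← e', ← e, act_smul, smul_comm]
    rw [smul_add, smul_smul] at h2
    have h3 : (w * κ - κ') • v = 0 := by
      rw [sub_smul]
      exact sub_eq_zero.mpr (add_left_cancel h2)
    have h4 : w * κ = κ' := sub_eq_zero.mp ((smul_eq_zero.mp h3).resolve_right hv0)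
    have h5 : (w ^ q - w) * κ = 0 := by
      have : (w * κ) ^ q = w * κ := by rw [h4, hκ']
      rw [mul_pow, hκ] at this
      linear_combination this
    have h6 : κ = 0 := (mul_eq_zero.mp h5).resolve_left (sub_ne_zero.mpr hw)
    rw [e, h6, zero_smul, add_zero]
  have hperp : ∀ z, herm z v = 0 → act s z = c • z := by
    intro z hz
    have h1 := star2 z hz
    have h2 := congrArg (fun t => c • t) h1
    simp only [smul_smul] at h2
    rw [mul_comm, hcc, one_smul] at h2
    exact h2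
  -- the image of `x₀`
  have hy : ∀ z, herm z v = 0 → herm (act s x₀ - c • x₀) z = 0 := by
    intro z hz
    have h1 := herm_act s x₀ z
    rw [hperp z hz, herm_smul_right hF] at h1
    rw [herm_sub_left hF, herm_smul_left]
    linear_combination c * h1 + (- herm (act s x₀) z) * hcc
  obtain ⟨d, hd⟩ := perp_perp hF hv0 hy
  have hsx₀ : act s x₀ = c • x₀ + d • v := by
    rw [← hd]
    abel
  set c' := d * c⁻¹ with hc'
  have hadm : c' + c' ^ q = 0 := by
    have h1 := herm_act s x₀ x₀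
    rw [hsx₀, herm_add_left, herm_add_right hF, herm_add_right hF, herm_smul_left, herm_smul_left, herm_smul_right hF,
      herm_smul_right hF, herm_smul_left, herm_smul_left, herm_smul_right hF, herm_smul_right hF, huu, hx₀] at h1
    have e1 : herm v x₀ = 1 := by rw [herm_conj hF, hx₀, one_pow]
    rw [e1] at h1
    have hcq : c ^ q = c⁻¹ := by
      exact eq_inv_of_mul_eq_one_left hcc
    rw [hc', mul_pow, inv_pow, hcq, inv_inv]
    rw [hcq] at h1
    have h2 : c * (d ^ q) + d * c⁻¹ = 0 := by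
      have h4 : c * c⁻¹ = 1 := mul_inv_cancel₀ hc
      linear_combination h1 - (herm x₀ x₀) * h4
    linear_combination h2
  have hA : Adm q v 0 c' := admT hF huu hadm
  have hfinal : ∀ x, act s x = c • act (E hF hn v 0 c' hA) x := by
    intro x
    have h1 : herm (x - herm x v • x₀) v = 0 := by
      rw [herm_sub_left hF, herm_smul_left, hx₀, mul_one, sub_self]
    have h2 := hperp _ h1
    rw [act_sub, act_smul, hsx₀] at h2
    have h3 : act s x = c • (x - herm x v • x₀) + herm x v • (c • x₀ + d • v) := by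
      rw [← h2]
      abel
    rw [h3, act_E]
    unfold Efun
    rw [herm_zero_right hF, smul_zero, add_zero, sub_zero, smul_sub, smul_add, smul_add, smul_smul, smul_smul, smul_smul, smul_smul]
    have e1 : c * (c' * herm x v) = herm x v * d := by
      rw [hc']
      field_simp
    rw [e1, mul_comm c (herm x v)]
    abel
  have hp1 : pr (E hF hn v 0 c' hA) = pr s := (pr_eq_iff hF hn).mpr ⟨c, hN, hfinal⟩
  exact (mem_TT hF hn).mpr ⟨c', hA, hp1⟩

omit hF hn in
/-- `E` on a vector -/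
lemma Efun_apply (u a : Fin n → F) (b : F) (x : Fin n → F) :
    Efun q u a b x = x + herm x u • a + (b * herm x u - herm x a) • u := rfl

/-- a Sylow subgroup containing the radical of `u` fixes only the point `u` -/
lemma par_of_fix {P : Subgroup PG} {u v : Fin n → F} {huu : herm u u = 0} (hu : u ≠ 0) (hv0 : v ≠ 0) (hv : Fix P v)
    (h : QQ hF hn huu ≤ P) : ∃ κ : F, κ ≠ 0 ∧ v = κ • u := by
  have hval : ∀ (d e : F), v + d • u = e • v → d ≠ 0 → ∃ κ : F, κ ≠ 0 ∧ v = κ • u := by
    intro d e e1 hd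
    have h1 : d • u = (e - 1) • v := by
      rw [sub_smul, one_smul, ← e1]; abel
    have he : e - 1 ≠ 0 := by
      intro h0
      rw [h0, zero_smul] at h1
      exact (smul_ne_zero hd hu) h1
    refine ⟨(e - 1)⁻¹ * d, mul_ne_zero (inv_ne_zero he) hd, ?_⟩
    rw [← smul_smul, h1, smul_smul, inv_mul_cancel₀ he, one_smul]
  by_cases h0 : herm v u = 0
  · by_cases h1 : ∀ a, herm a u = 0 → herm v a = 0
    · obtain ⟨d, hd⟩ := perp_perp hF hu h1
      refine ⟨d, ?_, hd⟩
      rintro rfl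
      rw [zero_smul] at hd
      exact hv0 hd
    · push Not at h1
      obtain ⟨a, ha, hne⟩ := h1
      obtain ⟨b, hb⟩ := exists_adm hF huu ha
      obtain ⟨e, he, e1⟩ := hv (E hF hn u a b hb) (h ((mem_QQ hF hn).mpr ⟨a, b, hb, rfl⟩))
      rw [act_E, Efun_apply, h0, zero_smul, add_zero, mul_zero, zero_sub] at e1
      exact hval _ _ e1 (neg_ne_zero.mpr hne)
  · obtain ⟨t, ht0, ht⟩ := exists_trace_zero hF
    have hA : Adm q u 0 t := admT hF huu ht
    obtain ⟨e, he, e1⟩ := hv (E hF hn u 0 t hA) (h ((mem_QQ hF hn).mpr ⟨0, t, hA, rfl⟩))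
    rw [act_E, Efun_apply, smul_zero, add_zero, herm_zero_right hF, sub_zero] at e1
    exact hval _ _ e1 (mul_ne_zero ht0 h0)

omit hF hn in
lemma Fix.of_par {P : Subgroup PG} {u v : Fin n → F} (hv : Fix P v) {κ : F} (hκ : κ ≠ 0) (e : v = κ • u) : Fix P u := by
  intro s hs
  obtain ⟨c, hc, h1⟩ := hv s hs
  refine ⟨c, hc, ?_⟩
  rw [e, act_smul, smul_comm] at h1
  exact smul_right_injective _ hκ h1

include p in
/-- each point is fixed by a Sylow subgroup -/
lemma exists_sylow_fix (hn2 : 2 ≤ n) {u : Fin n → F} (hu : u ≠ 0) (huu : herm u u = 0) : ∃ P : Sylow p PG, Fix (P : Subgroup PG) u := by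
  obtain ⟨P, hP⟩ := (isPGroup_QQ (p := p) hF hn huu).exists_le_sylow
  obtain ⟨v, hv0, hvv, hv⟩ := exists_fix hF hn (char_dvd (p := p) hF) hn2 P.isPGroup'
  obtain ⟨κ, hκ, e⟩ := par_of_fix hF hn hu hv0 hv hP
  exact ⟨P, Fix.of_par hv hκ e⟩

omit hF hn in
/-- the image of a Sylow subgroup under an automorphism -/
lemma exists_sylow_map (P : Sylow p PG) (α : MulAut PG) :
    ∃ Q : Sylow p PG, (Q : Subgroup PG) = (P : Subgroup PG).map α.toMonoidHom := by
  refine ⟨α • P, ?_⟩
  rw [Sylow.pointwise_smul_def]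
  ext x
  rw [Subgroup.mem_smul_pointwise_iff_exists]
  rfl

include p in
/-- **Step A**: automorphisms permute the root groups. -/
theorem stepA (hn2 : 2 ≤ n) (α : MulAut PG) {u : Fin n → F} (hu : u ≠ 0) (huu : herm u u = 0) :
    ∃ u' : Fin n → F, u' ≠ 0 ∧ ∃ hu' : herm u' u' = 0, (TT hF hn huu).map α.toMonoidHom = TT hF hn hu' := by
  obtain ⟨P, hP⟩ := exists_sylow_fix (p := p) hF hn hn2 hu huu
  obtain ⟨Q, hQ⟩ := exists_sylow_map P α
  obtain ⟨v, hv0, hvv, hv⟩ := exists_fix hF hn (char_dvd (p := p) hF) hn2 Q.isPGroup'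
  refine ⟨v, hv0, hvv, ?_⟩
  have h1 : (TT hF hn huu : Set PG) = zc (P : Subgroup PG) :=
    Set.Subset.antisymm (TT_sub_zc hF hn P hu hP) (zc_sub_TT hF hn P hu hP)
  have h2 : (TT hF hn hvv : Set PG) = zc (Q : Subgroup PG) :=
    Set.Subset.antisymm (TT_sub_zc hF hn Q hv0 hv) (zc_sub_TT hF hn Q hv0 hv)
  apply SetLike.coe_injective
  rw [h2, hQ, ← image_zc, ← h1]
  ext x
  simp

end

end Cfsg.Agent.Lead.AutPSU
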