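import Cfsg.Agent.Lib.Lead.AutPSU2
/-! Automorphisms of `PSU`: the geometry of root groups. -/
set_option autoImplicit false
set_option linter.style.haveILetI false
set_option linter.unusedSimpArgs false
set_option linter.unusedSectionVars false
set_option linter.unusedVariables false
namespace Cfsg.Agent.Lead.AutPSU
open Matrix Cfsg.Agent.Lead Cfsg.Agent.Lead.PSU
open scoped MatrixGroups commutatorElement Pointwise

variable {F : Type*} [Field F] [Fintype F] {q n : ℕ}

local notation "herm" => Cfsg.hermForm n F q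
local notation "V" => (Fin n → F)
local notation "SUG" => Cfsg.SU n F q
local notation "PG" => (Cfsg.SU n F q ⧸ Subgroup.center (Cfsg.SU n F q))
local notation "pr" => (QuotientGroup.mk' (Subgroup.center (Cfsg.SU n F q)))

section
variable (hF : Fintype.card F = q ^ 2)
include hF

/-- two vectors are perpendicular to a non-zero vector -/
lemma exists_perp2 (hn3 : 3 ≤ n) (x y : Fin n → F) : ∃ z : Fin n → F, z ≠ 0 ∧ herm z x = 0 ∧ herm z y = 0 := by
  classical
  let L : (Fin n → F) →ₗ[F] (Fin 2 → F) :=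
    { toFun := fun z => ![herm z x, herm z y]
      map_add' := by
        intro a b
        funext i
        fin_cases i
        · simp [herm_add_left]
        · simp [herm_add_left]
      map_smul' := by
        intro c a
        funext i
        fin_cases i
        · simp [herm_smul_left]
        · simp [herm_smul_left] }
  have h : LinearMap.ker L ≠ ⊥ := by
    apply LinearMap.ker_ne_bot_of_finrank_lt
    rw [Module.finrank_fin_fun, Module.finrank_fin_fun]
    omega
  obtain ⟨z, hz, hz0⟩ := (Submodule.ne_bot_iff _).mp h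
  refine ⟨z, hz0, ?_, ?_⟩
  · have := congrFun (LinearMap.mem_ker.mp hz) 0
    exact this
  · have := congrFun (LinearMap.mem_ker.mp hz) 1
    exact this

lemma Efun_zero (u : Fin n → F) (c : F) (x : Fin n → F) : Efun q u 0 c x = x + (c * herm x u) • u := by
  rw [Efun_apply, smul_zero, add_zero, herm_zero_right hF, sub_zero]

variable (hn : 0 < n)
include hn

/-- equality in the quotient of elements with a common fixed vector -/
lemma eq_of_pr_eq {s t : Cfsg.SU n F q} {z : Fin n → F} (hz : z ≠ 0) (h1 : act s z = z) (h2 : act t z = z)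
    (h : pr s = pr t) : s = t := by
  obtain ⟨ζ, hζ, hx⟩ := (pr_eq_iff hF hn).mp h
  have h3 := hx z
  rw [h1, h2] at h3
  have h4 : ζ = 1 := by
    have : (ζ - 1) • z = 0 := by
      rw [sub_smul, one_smul, ← h3, sub_self]
    exact sub_eq_zero.mp ((smul_eq_zero.mp this).resolve_right hz)
  apply su_ext
  intro x
  rw [hx, h4, one_smul]

/-- parallelism from equality of transvections -/
lemma par_of_E_eq {u u' : Fin n → F} {c c' : F} (hu : u ≠ 0) (hu' : u' ≠ 0) (hc : c ≠ 0) (h : Adm q u 0 c) (h' : Adm q u' 0 c')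
    (e : E hF hn u 0 c h = E hF hn u' 0 c' h') : ∃ κ : F, κ ≠ 0 ∧ u' = κ • u := by
  obtain ⟨x₀, hx₀⟩ := exists_x0 hF hu
  have h1 := congrArg (fun g => act g x₀) e
  simp only [act_E, Efun_zero hF, hx₀, mul_one] at h1
  have h2 := add_left_cancel h1
  have hd : c' * herm x₀ u' ≠ 0 := by
    intro h0
    rw [h0, zero_smul] at h2
    exact (smul_ne_zero hc hu) h2
  refine ⟨(c' * herm x₀ u')⁻¹ * c, mul_ne_zero (inv_ne_zero hd) hc, ?_⟩
  rw [← smul_smul, h2, smul_smul, inv_mul_cancel₀ hd, one_smul]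

omit hn in
lemma herm_act_self (s : Cfsg.SU n F q) {u : Fin n → F} (huu : herm u u = 0) : herm (act s u) (act s u) = 0 := by
  rw [herm_act]
  exact huu

/-- conjugation of root groups -/
lemma TT_conj (s : Cfsg.SU n F q) {u : Fin n → F} (huu : herm u u = 0) (h' : herm (act s u) (act s u) = 0) :
    (TT hF hn huu).map (MulAut.conj (pr s)).toMonoidHom = TT hF hn h' := by
  have e0 : ∀ (b : F) (h : Adm q u 0 b), ∃ h'' : Adm q (act s u) 0 b, s * E hF hn u 0 b h * s⁻¹ = E hF hn (act s u) 0 b h'' := by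
    intro b h
    have h'' : Adm q (act s u) 0 b := by
      have := Adm.conj hF s h
      rwa [act_zero] at this
    refine ⟨h'', ?_⟩
    rw [E_conj hF hn s h]
    exact E_congr hF hn _ _ (act_zero s) rfl
  ext x
  constructor
  · rintro ⟨y, hy, rfl⟩
    obtain ⟨b, h, rfl⟩ := (mem_TT hF hn).mp hy
    obtain ⟨h'', e⟩ := e0 b h
    refine (mem_TT hF hn).mpr ⟨b, h'', ?_⟩
    rw [← e, map_mul, map_mul, map_inv]
    rfl
  · intro hx
    obtain ⟨b, h, rfl⟩ := (mem_TT hF hn).mp hx
    have hA : Adm q u 0 b := ⟨huu, herm_zero_left hF u, by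
      have := h.tr
      rwa [herm_zero_left hF] at this ⊢⟩
    obtain ⟨h'', e⟩ := e0 b hA
    refine ⟨pr (E hF hn u 0 b hA), (mem_TT hF hn).mpr ⟨b, hA, rfl⟩, ?_⟩
    change pr s * pr (E hF hn u 0 b hA) * (pr s)⁻¹ = _
    rw [← map_inv, ← map_mul, ← map_mul, e]

/-- scaling does not change the root group -/
lemma TT_smul {u : Fin n → F} {κ : F} (hκ : κ ≠ 0) (huu : herm u u = 0) (h' : herm (κ • u) (κ • u) = 0) :
    TT hF hn h' = TT hF hn huu := by
  have hq2 := two_le_q hF
  have hinj : ∀ b : F, b + b ^ q = 0 → (κ ^ (q + 1) * b) + (κ ^ (q + 1) * b) ^ q = 0 := by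
    intro b hb
    rw [mul_pow, norm_fixed hF]
    linear_combination κ ^ (q + 1) * hb
  ext x
  constructor
  · intro hx
    obtain ⟨b, h, rfl⟩ := (mem_TT hF hn).mp hx
    have h2 := Adm.scale hF hκ h
    refine (mem_TT hF hn).mpr ⟨κ ^ (q + 1) * b, ?_, ?_⟩
    · have := h2
      rwa [smul_zero] at this
    · rw [E_scale hF hn hκ h]
      congr 1
      apply E_congr
      · rw [smul_zero]
      · rfl
  · intro hx
    obtain ⟨b, h, rfl⟩ := (mem_TT hF hn).mp hx
    have hnz : κ ^ (q + 1) ≠ 0 := pow_ne_zero _ hκ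
    have hb : b + b ^ q = 0 := by
      have := h.tr
      rw [herm_zero_left hF, add_zero] at this
      exact this
    set b₀ := (κ ^ (q + 1))⁻¹ * b with hb₀
    have hb₀2 : κ ^ (q + 1) * b₀ = b := by
      rw [hb₀, mul_inv_cancel_left₀ hnz]
    have hb₀3 : b₀ + b₀ ^ q = 0 := by
      rw [hb₀, mul_pow, inv_pow, norm_fixed hF]
      field_simp
      linear_combination hb
    have hA : Adm q (κ • u) 0 b₀ := ⟨h', herm_zero_left hF _, by
      rw [herm_zero_left hF, add_zero]
      exact hb₀3⟩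
    refine (mem_TT hF hn).mpr ⟨b₀, hA, ?_⟩
    rw [E_scale hF hn hκ hA]
    congr 1
    apply E_congr
    · rw [smul_zero]
    · exact hb₀2

/-- the root group determines the point -/
lemma par_of_TT_eq (hn3 : 3 ≤ n) {u u' : Fin n → F} (hu : u ≠ 0) (hu' : u' ≠ 0) (huu : herm u u = 0) (huu' : herm u' u' = 0)
    (e : TT hF hn huu = TT hF hn huu') : ∃ κ : F, κ ≠ 0 ∧ u' = κ • u := by
  obtain ⟨t, ht0, ht⟩ := exists_trace_zero hF
  have hA : Adm q u 0 t := admT hF huu ht
  have h1 : pr (E hF hn u 0 t hA) ∈ TT hF hn huu' := by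
    rw [← e]
    exact (mem_TT hF hn).mpr ⟨t, hA, rfl⟩
  obtain ⟨b, h, e2⟩ := (mem_TT hF hn).mp h1
  obtain ⟨z, hz0, hz1, hz2⟩ := exists_perp2 hF hn3 u u'
  have e3 := eq_of_pr_eq hF hn hz0 (act_E_fix hF hn h hz2 (herm_zero_right hF z)) (act_E_fix hF hn hA hz1 (herm_zero_right hF z)) e2
  exact par_of_E_eq hF hn hu hu' ht0 hA h e3.symm

/-- perpendicular root groups commute -/
lemma comm_of_perp {u u' : Fin n → F} (huu : herm u u = 0) (huu' : herm u' u' = 0) (hp : herm u' u = 0)
    {x y : PG} (hx : x ∈ TT hF hn huu) (hy : y ∈ TT hF hn huu') : x * y = y * x := by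
  obtain ⟨b, h, rfl⟩ := (mem_TT hF hn).mp hx
  obtain ⟨b', h', rfl⟩ := (mem_TT hF hn).mp hy
  have e : act (E hF hn u 0 b h) u' = u' := act_E_fix hF hn h hp (herm_zero_right hF _)
  have e2 : E hF hn u 0 b h * E hF hn u' 0 b' h' * (E hF hn u 0 b h)⁻¹ = E hF hn u' 0 b' h' := by
    rw [E_conj hF hn _ h']
    exact E_congr' hF hn _ _ e (act_zero _) rfl
  have e3 : E hF hn u 0 b h * E hF hn u' 0 b' h' = E hF hn u' 0 b' h' * E hF hn u 0 b h := by
    conv_rhs => rw [← e2]
    group
  rw [← map_mul, ← map_mul, e3]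

/-- non-perpendicular root groups do not commute -/
lemma not_comm_of_not_perp (hn3 : 3 ≤ n) {u u' : Fin n → F} (hu : u ≠ 0) (hu' : u' ≠ 0) (huu : herm u u = 0) (huu' : herm u' u' = 0)
    (hp : herm u' u ≠ 0) : ∃ x ∈ TT hF hn huu, ∃ y ∈ TT hF hn huu', x * y ≠ y * x := by
  obtain ⟨t, ht0, ht⟩ := exists_trace_zero hF
  have hA : Adm q u 0 t := admT hF huu ht
  have hA' : Adm q u' 0 t := admT hF huu' ht
  refine ⟨_, (mem_TT hF hn).mpr ⟨t, hA, rfl⟩, _, (mem_TT hF hn).mpr ⟨t, hA', rfl⟩, ?_⟩
  intro e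
  set s := E hF hn u 0 t hA with hs
  have h1 : act s u' = u' + (t * herm u' u) • u := by
    rw [hs, act_E, Efun_zero hF]
  have hw : herm (act s u') (act s u') = 0 := herm_act_self hF s huu'
  have hA2 : Adm q (act s u') 0 t := admT hF hw ht
  have e2 : s * E hF hn u' 0 t hA' * s⁻¹ = E hF hn (act s u') 0 t hA2 := by
    rw [E_conj hF hn s hA']
    exact E_congr hF hn _ _ (act_zero s) rfl
  have e3 : pr (E hF hn (act s u') 0 t hA2) = pr (E hF hn u' 0 t hA') := by
    rw [← e2, map_mul, map_mul, map_inv]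
    have : pr s * pr (E hF hn u' 0 t hA') = pr (E hF hn u' 0 t hA') * pr s := e
    rw [this]
    group
  obtain ⟨z, hz0, hz1, hz2⟩ := exists_perp2 hF hn3 u' (act s u')
  have e4 := eq_of_pr_eq hF hn hz0 (act_E_fix hF hn hA2 hz2 (herm_zero_right hF z)) (act_E_fix hF hn hA' hz1 (herm_zero_right hF z)) e3
  have hw0 : act s u' ≠ 0 := act_ne_zero hu'
  obtain ⟨κ, hκ, e5⟩ := par_of_E_eq hF hn hu' hw0 ht0 hA' hA2 e4.symm
  rw [h1] at e5
  have h6 : (t * herm u' u) • u = (κ - 1) • u' := by
    rw [sub_smul, one_smul, ← e5]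
    abel
  have h7 : herm u' ((t * herm u' u) • u) = 0 := by
    rw [h6, herm_smul_right hF, huu', mul_zero]
  rw [herm_smul_right hF] at h7
  have h8 : (t * herm u' u) ^ q ≠ 0 := pow_ne_zero _ (mul_ne_zero ht0 hp)
  exact hp ((mul_eq_zero.mp h7).resolve_left h8)

/-- a point on a line spanned by two points: its root group lies in the group they generate -/
lemma le_of_mem_span {x y w : Fin n → F} (hxx : herm x x = 0) (hyy : herm y y = 0) (hww : herm w w = 0)
    (hw0 : w ≠ 0) (hp : herm y x ≠ 0) {α β : F} (e : w = α • x + β • y) :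
    TT hF hn hww ≤ TT hF hn hxx ⊔ TT hF hn hyy := by
  have hq2 := two_le_q hF
  by_cases hβ : β = 0
  · have hα : α ≠ 0 := by
      rintro rfl
      rw [hβ, zero_smul, zero_smul, add_zero] at e
      exact hw0 e
    have e2 : w = α • x := by rw [e, hβ, zero_smul, add_zero]
    have hww' : herm (α • x) (α • x) = 0 := by rw [← e2]; exact hww
    subst e2
    rw [TT_smul hF hn hα hxx]
    exact le_sup_left
  · set κ := herm y x with hκ
    have hκq : herm x y = κ ^ q := herm_conj hF y x
    set c := α * β⁻¹ * κ⁻¹ with hc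
    have hwn : α * β ^ q * κ ^ q + β * α ^ q * κ = 0 := by
      have h1 := hww
      rw [e] at h1
      simp only [herm_add_left, herm_add_right hF, herm_smul_left, herm_smul_right hF, hxx, hyy, hκq] at h1
      linear_combination h1
    have hadm : c + c ^ q = 0 := by
      rw [hc, mul_pow, mul_pow, inv_pow, inv_pow]
      have hβq : β ^ q ≠ 0 := pow_ne_zero _ hβ
      have hκq0 : κ ^ q ≠ 0 := pow_ne_zero _ hp
      field_simp
      linear_combination hwn
    have hA : Adm q x 0 c := admT hF hxx hadm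
    set s := E hF hn x 0 c hA with hs
    have h1 : w = β • act s y := by
      rw [hs, act_E, Efun_zero hF, e, smul_add, smul_smul, hc, ← hκ]
      have : β * (α * β⁻¹ * κ⁻¹ * κ) = α := by
        field_simp
      rw [this]
      abel
    have hs0 : herm (act s y) (act s y) = 0 := herm_act_self hF s hyy
    have hww' : herm (β • act s y) (β • act s y) = 0 := by rw [← h1]; exact hww
    subst h1
    rw [TT_smul hF hn hβ hs0, ← TT_conj hF hn s hyy hs0]
    rintro _ ⟨z, hz, rfl⟩
    have hps : pr s ∈ TT hF hn hxx ⊔ TT hF hn hyy :=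
      Subgroup.mem_sup_left ((mem_TT hF hn).mpr ⟨c, hA, rfl⟩)
    have hz' : z ∈ TT hF hn hxx ⊔ TT hF hn hyy := Subgroup.mem_sup_right hz
    change pr s * z * (pr s)⁻¹ ∈ _
    exact Subgroup.mul_mem _ (Subgroup.mul_mem _ hps hz') (Subgroup.inv_mem _ hps)

/-- the converse -/
lemma mem_span_of_le (hn3 : 3 ≤ n) {x y w : Fin n → F} (hxx : herm x x = 0) (hyy : herm y y = 0) (hww : herm w w = 0)
    (hw0 : w ≠ 0) (hp : herm y x ≠ 0) (h : TT hF hn hww ≤ TT hF hn hxx ⊔ TT hF hn hyy) :
    ∃ α β : F, w = α • x + β • y := by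
  have hq2 := two_le_q hF
  let K : Subgroup (Cfsg.SU n F q) :=
    { carrier := {s | ∀ z, herm z x = 0 → herm z y = 0 → act s z = z}
      mul_mem' := by
        intro s t hs ht z h1 h2
        rw [act_mul, ht z h1 h2, hs z h1 h2]
      one_mem' := fun z _ _ => act_one z
      inv_mem' := by
        intro s hs z h1 h2
        have := hs z h1 h2
        apply act_injective s
        rw [act_act_inv, this] }
  have hK1 : Tsub hF hn hxx ≤ K := by
    rintro _ ⟨b, hb, rfl⟩ z h1 h2
    exact act_E_fix hF hn hb h1 (herm_zero_right hF z)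
  have hK2 : Tsub hF hn hyy ≤ K := by
    rintro _ ⟨b, hb, rfl⟩ z h1 h2
    exact act_E_fix hF hn hb h2 (herm_zero_right hF z)
  obtain ⟨t, ht0, ht⟩ := exists_trace_zero hF
  have hA : Adm q w 0 t := admT hF hww ht
  have h1 : pr (E hF hn w 0 t hA) ∈ (Tsub hF hn hxx ⊔ Tsub hF hn hyy).map pr := by
    rw [Subgroup.map_sup]
    exact h ((mem_TT hF hn).mpr ⟨t, hA, rfl⟩)
  obtain ⟨s, hs, e⟩ := h1
  have hsK : s ∈ K := (sup_le hK1 hK2) hs
  obtain ⟨ζ, hζ, hx⟩ := (pr_eq_iff hF hn).mp e
  -- `ζ = 1`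
  obtain ⟨z₀, hz₀, hz1, hz2⟩ := exists_perp2 hF hn3 x y
  have hact : ∀ z, herm z x = 0 → herm z y = 0 → z + (t * herm z w) • w = ζ • z := by
    intro z h1 h2
    have := hx z
    rw [act_E, Efun_zero hF, hsK z h1 h2] at this
    exact this
  have hζ1 : ζ = 1 := by
    by_contra hne
    have h3 := hact z₀ hz1 hz2
    have h4 : (ζ - 1) • z₀ = (t * herm z₀ w) • w := by
      rw [sub_smul, one_smul, ← h3]
      abel
    have h5 : z₀ = ((ζ - 1)⁻¹ * (t * herm z₀ w)) • w := by
      rw [← smul_smul, ← h4, smul_smul, inv_mul_cancel₀ (sub_ne_zero.mpr hne), one_smul]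
    have h6 : herm z₀ w = 0 := by
      rw [h5, herm_smul_left, hww, mul_zero]
    rw [h6, mul_zero, zero_smul] at h4
    exact hz₀ ((smul_eq_zero.mp h4).resolve_left (sub_ne_zero.mpr hne))
  have hperp : ∀ z, herm z x = 0 → herm z y = 0 → herm z w = 0 := by
    intro z h1 h2
    have h3 := hact z h1 h2
    rw [hζ1, one_smul] at h3
    have h4 : (t * herm z w) • w = 0 := by
      have := add_left_cancel (h3.trans (add_zero z).symm)
      exact this
    exact (mul_eq_zero.mp ((smul_eq_zero.mp h4).resolve_right hw0)).resolve_left ht0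
  set κ := herm y x with hκ
  have hκq : herm x y = κ ^ q := herm_conj hF y x
  have hκq0 : κ ^ q ≠ 0 := pow_ne_zero _ hp
  set α := herm w y * (κ ^ q)⁻¹ with hα
  set β := herm w x * κ⁻¹ with hβ
  refine ⟨α, β, ?_⟩
  rw [← sub_eq_zero]
  apply eq_zero_of_herm hF
  intro z
  set w' := w - (α • x + β • y) with hw'
  have hw'x : herm w' x = 0 := by
    rw [hw', herm_sub_left hF, herm_add_left, herm_smul_left, herm_smul_left, hxx, ← hκ, hβ]
    field_simp
    ring
  have hw'y : herm w' y = 0 := by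
    rw [hw', herm_sub_left hF, herm_add_left, herm_smul_left, herm_smul_left, hyy, hκq, hα]
    field_simp
    ring
  have hzw : herm z w' = 0 := by
    set a := herm z y * (κ ^ q)⁻¹ with ha
    set b := herm z x * κ⁻¹ with hb
    set z' := z - (a • x + b • y) with hz'
    have hz'x : herm z' x = 0 := by
      rw [hz', herm_sub_left hF, herm_add_left, herm_smul_left, herm_smul_left, hxx, ← hκ, hb]
      field_simp
      ring
    have hz'y : herm z' y = 0 := by
      rw [hz', herm_sub_left hF, herm_add_left, herm_smul_left, herm_smul_left, hyy, hκq, ha]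
      field_simp
      ring
    have hz'w : herm z' w' = 0 := by
      rw [hw', herm_sub_right hF, herm_add_right hF, herm_smul_right hF, herm_smul_right hF, hz'x, hz'y, hperp z' hz'x hz'y]
      ring
    have hxw' : herm x w' = 0 := herm_eq_zero_symm hF hw'x
    have hyw' : herm y w' = 0 := herm_eq_zero_symm hF hw'y
    have e1 : z = z' + (a • x + b • y) := by
      rw [hz']
      abel
    rw [e1, herm_add_left, herm_add_left, herm_smul_left, herm_smul_left, hz'w, hxw', hyw']
    ring
  exact herm_eq_zero_symm hF hzw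

end

end Cfsg.Agent.Lead.AutPSU
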