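import Cfsg.Agent.Lib.Lead.AutPSU3
/-! Automorphisms of `PSU`: the radical of a point stabilizer is characteristic. -/
set_option autoImplicit false
set_option linter.style.haveILetI false
set_option linter.unusedSimpArgs false
set_option linter.unusedSectionVars false
set_option linter.unusedVariables false
namespace Cfsg.Agent.Lead.AutPSU
open Matrix Cfsg.Agent.Lead Cfsg.Agent.Lead.PSU
open scoped MatrixGroups commutatorElement Pointwise

variable {F : Type*} [Field F] [Fintype F] {q n : ℕ}

local notation "herm" => Cfsg.hermForm n F q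
local notation "V" => (Fin n → F)
local notation "SUG" => Cfsg.SU n F q
local notation "PG" => (Cfsg.SU n F q ⧸ Subgroup.center (Cfsg.SU n F q))
local notation "pr" => (QuotientGroup.mk' (Subgroup.center (Cfsg.SU n F q)))

/-- hyperbolic pairs -/
structure Hyp (q : ℕ) (u v : Fin n → F) : Prop where
  uu : Cfsg.hermForm n F q u u = 0
  vv : Cfsg.hermForm n F q v v = 0
  vu : Cfsg.hermForm n F q v u = 1

section
variable (hF : Fintype.card F = q ^ 2)
include hF

/-- two transvections with non-perpendicular centres do not generate a `p`-group -/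
lemma not_p_of_nonperp (hn : 0 < n) (hn3 : 3 ≤ n) {p : ℕ} [hp : Fact p.Prime] [CharP F p]
    {w w' : Fin n → F} {c : F} (hw0 : w ≠ 0) (hc : c ≠ 0) (hκ : herm w' w ≠ 0) (A : Adm q w 0 c) (A' : Adm q w' 0 c) (k : ℕ) :
    (pr (E hF hn w 0 c A * E hF hn w' 0 c A')) ^ (p ^ k) ≠ 1 := by
  intro h
  set g := E hF hn w 0 c A * E hF hn w' 0 c A' with hg
  have hww := A.uu
  have hww' := A'.uu
  set κ := herm w' w with hκdef
  have hκ' : herm w w' = κ ^ q := herm_conj hF w' w
  have h1 : pr (1 : Cfsg.SU n F q) = pr (g ^ (p ^ k)) := by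
    rw [map_pow, map_one, h]
  obtain ⟨z, hz0, hz1, hz2⟩ := exists_perp2 hF hn3 w w'
  have hgz : act g z = z := by
    rw [hg, act_mul, act_E_fix hF hn A' hz2 (herm_zero_right hF z), act_E_fix hF hn A hz1 (herm_zero_right hF z)]
  have hgz2 : ∀ m, act (g ^ m) z = z := by
    intro m
    have := act_pow_eigen (s := g) (v := z) (c := 1) (by rw [one_smul]; exact hgz) m
    rwa [one_pow, one_smul] at this
  have h2 : g ^ (p ^ k) = 1 := (eq_of_pr_eq hF hn hz0 (act_one z) (hgz2 _) h1).symm
  -- the matrix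
  haveI : Nonempty (Fin n) := ⟨⟨0, hn⟩⟩
  set M := mat g with hM
  have hMk : M ^ (p ^ k) = 1 := by
    rw [hM, ← mat_pow, h2]
    rfl
  have hB : (M - 1) ^ (p ^ k) = 0 := by
    rw [sub_pow_char_pow_of_commute p k (Commute.one_right _), one_pow, hMk, sub_self]
  set r := c * c * κ * κ ^ q with hr
  have hMw : M *ᵥ w = (1 + r) • w + (c * κ ^ q) • w' := by
    change act g w = _
    rw [hg, act_mul, act_E, act_E, Efun_zero hF, Efun_zero hF, hκ', herm_add_left, herm_smul_left, hww, ← hκdef, zero_add, hr]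
    module
  have hMw' : M *ᵥ w' = w' + (c * κ) • w := by
    change act g w' = _
    rw [hg, act_mul, act_E, act_E, Efun_zero hF, Efun_zero hF, hww', mul_zero, zero_smul, add_zero, ← hκdef]
  have hr0 : r ≠ 0 := mul_ne_zero (mul_ne_zero (mul_ne_zero hc hc) hκ) (pow_ne_zero q hκ)
  have hsub : ∀ y, (M - 1) *ᵥ y = M *ᵥ y - y := by
    intro y
    rw [Matrix.sub_mulVec, Matrix.one_mulVec]
  have hB2 : (M - 1) *ᵥ ((M - 1) *ᵥ w) = r • (M *ᵥ w) := by
    have e1 : (M - 1) *ᵥ w = r • w + (c * κ ^ q) • w' := by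
      rw [hsub, hMw]
      module
    have e2 : (M - 1) *ᵥ w' = (c * κ) • w := by
      rw [hsub, hMw']
      abel
    rw [e1, Matrix.mulVec_add, Matrix.mulVec_smul, Matrix.mulVec_smul, e1, e2, hMw, hr]
    module
  have hcomm : ∀ m : ℕ, (M - 1) ^ m * M = M * (M - 1) ^ m := by
    intro m
    exact ((Commute.sub_left (Commute.refl M) (Commute.one_left M)).pow_left m).eq
  have hind : ∀ m : ℕ, ((M - 1) ^ (2 * m)) *ᵥ w = r ^ m • ((M ^ m) *ᵥ w) := by
    intro m
    induction m with
    | zero => simp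
    | succ m ih =>
      have e1 : (M - 1) ^ (2 * (m + 1)) = (M - 1) ^ (2 * m) * ((M - 1) * (M - 1)) := by
        rw [mul_add, pow_add, mul_one, pow_two]
      rw [e1, ← Matrix.mulVec_mulVec, ← Matrix.mulVec_mulVec, hB2, Matrix.mulVec_smul, Matrix.mulVec_mulVec, hcomm,
        ← Matrix.mulVec_mulVec, ih, Matrix.mulVec_smul, Matrix.mulVec_mulVec, smul_smul, pow_succ' M, pow_succ' r]
  have hfin := hind (p ^ k)
  have e3 : (M - 1) ^ (2 * p ^ k) = 0 := by
    rw [mul_comm, pow_mul, hB]
    simp
  rw [e3, hMk, Matrix.zero_mulVec, Matrix.one_mulVec] at hfin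
  exact (smul_ne_zero (pow_ne_zero _ hr0) hw0) hfin.symm

/-- the double perpendicular of a pair of vectors -/
lemma perp_perp2 {u w y : Fin n → F} (hu : u ≠ 0)
    (h : ∀ z, herm z u = 0 → herm z w = 0 → herm y z = 0) : ∃ α β : F, y = α • u + β • w := by
  by_cases hdep : ∃ d : F, w = d • u
  · obtain ⟨d, rfl⟩ := hdep
    obtain ⟨e, he⟩ := perp_perp hF hu (y := y) (fun z hz => h z hz (by rw [herm_smul_right hF, hz, mul_zero]))
    exact ⟨e, 0, by rw [he, zero_smul, add_zero]⟩
  · have hw : w ≠ 0 := by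
      rintro rfl
      exact hdep ⟨0, by rw [zero_smul]⟩
    -- a functional separating
    have hsep : ∀ {a b : Fin n → F}, a ≠ 0 → (¬ ∃ d : F, b = d • a) → ∃ x, herm x a = 0 ∧ herm x b = 1 := by
      intro a b ha hb
      by_contra hne
      push Not at hne
      have h1 : ∀ z, herm z a = 0 → herm b z = 0 := by
        intro z hz
        by_contra h0
        have h2 : herm z b ≠ 0 := fun h3 => h0 (herm_eq_zero_symm hF h3)
        apply hne ((herm z b)⁻¹ • z)
        · rw [herm_smul_left, hz, mul_zero]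
        · rw [herm_smul_left, inv_mul_cancel₀ h2]
      exact hb (perp_perp hF ha h1)
    obtain ⟨x₂, h21, h22⟩ := hsep hu hdep
    have hdep' : ¬ ∃ d : F, u = d • w := by
      rintro ⟨d, hd⟩
      have hd0 : d ≠ 0 := by
        rintro rfl
        rw [zero_smul] at hd
        exact hu hd
      apply hdep
      refine ⟨d⁻¹, ?_⟩
      rw [hd, smul_smul, inv_mul_cancel₀ hd0, one_smul]
    obtain ⟨x₁, h11, h12⟩ := hsep hw hdep'
    refine ⟨herm y x₁, herm y x₂, ?_⟩
    rw [← sub_eq_zero]
    apply eq_zero_of_herm hF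
    intro z
    set z' := z - (herm z u • x₁ + herm z w • x₂) with hz'
    have hz'u : herm z' u = 0 := by
      rw [hz', herm_sub_left hF, herm_add_left, herm_smul_left, herm_smul_left, h12, h21]
      ring
    have hz'w : herm z' w = 0 := by
      rw [hz', herm_sub_left hF, herm_add_left, herm_smul_left, herm_smul_left, h11, h22]
      ring
    have h3 := h z' hz'u hz'w
    rw [hz', herm_sub_right hF, herm_add_right hF, herm_smul_right hF, herm_smul_right hF] at h3
    rw [herm_sub_left hF, herm_add_left, herm_smul_left, herm_smul_left, herm_conj hF z u, herm_conj hF z w]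
    linear_combination h3

end

end Cfsg.Agent.Lead.AutPSU
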