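import Cfsg.Agent.Lib.Lead.AutPSU4
/-! Automorphisms of `PSU`: normal `p`-subgroups of a point stabilizer. -/
set_option autoImplicit false
set_option linter.style.haveILetI false
set_option linter.unusedSimpArgs false
set_option linter.unusedSectionVars false
set_option linter.unusedVariables false
namespace Cfsg.Agent.Lead.AutPSU
open Matrix Cfsg.Agent.Lead Cfsg.Agent.Lead.PSU
open scoped MatrixGroups commutatorElement Pointwise

variable {F : Type*} [Field F] [Fintype F] {q n : ℕ}

local notation "herm" => Cfsg.hermForm n F q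
local notation "V" => (Fin n → F)
local notation "SUG" => Cfsg.SU n F q
local notation "PG" => (Cfsg.SU n F q ⧸ Subgroup.center (Cfsg.SU n F q))
local notation "pr" => (QuotientGroup.mk' (Subgroup.center (Cfsg.SU n F q)))

/-- a hyperbolic pair spanning two coordinates -/
structure Base (q : ℕ) (i₀ i₁ : Fin n) (u v : Fin n → F) : Prop extends Hyp q u v where
  ne : i₀ ≠ i₁
  mem : ∀ a : Fin n → F, (Cfsg.hermForm n F q a u = 0 ∧ Cfsg.hermForm n F q a v = 0) ↔ (a i₀ = 0 ∧ a i₁ = 0)
  uz : ∀ i, i ≠ i₀ → i ≠ i₁ → u i = 0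
  vz : ∀ i, i ≠ i₀ → i ≠ i₁ → v i = 0

/-- `N` is normalized by the stabilizer of the point `⟨u⟩` -/
def StabNorm (u : Fin n → F) (N : Subgroup PG) : Prop :=
  ∀ s : Cfsg.SU n F q, (∃ c : F, c ≠ 0 ∧ act s u = c • u) → ∀ x ∈ N, pr s * x * (pr s)⁻¹ ∈ N

section
variable (hF : Fintype.card F = q ^ 2)
include hF

lemma Hyp.uv {u v : Fin n → F} (hb : Hyp q u v) : herm u v = 1 := by
  rw [herm_conj hF v u, hb.vu, one_pow]

/-- the orthogonal decomposition -/
lemma Hyp.proj {u v : Fin n → F} (hb : Hyp q u v) (x : Fin n → F) :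
    herm (x - (herm x v • u + herm x u • v)) u = 0 ∧ herm (x - (herm x v • u + herm x u • v)) v = 0 := by
  constructor
  · rw [herm_sub_left hF, herm_add_left, herm_smul_left, herm_smul_left, hb.uu, hb.vu]
    ring
  · rw [herm_sub_left hF, herm_add_left, herm_smul_left, herm_smul_left, hb.vv, hb.uv hF]
    ring

/-- the base pair exists -/
lemma exists_base (hn3 : 3 ≤ n) : ∃ (i₀ i₁ : Fin n) (u v : Fin n → F), Base q i₀ i₁ u v := by
  classical
  have hq2 := two_le_q hF
  obtain ⟨a₁, a₂, a₃, h12, h13, h23, ha₁, ha₂, ha₃⟩ := exists_three_norm hF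
  let i₀ : Fin n := ⟨0, by omega⟩
  let i₁ : Fin n := ⟨1, by omega⟩
  have hi : i₀ ≠ i₁ := by
    intro h
    have := congrArg Fin.val h
    simp [i₀, i₁] at this
  have ha0 : ∀ a : F, a ^ (q + 1) = -1 → a ≠ 0 := by
    rintro a ha rfl
    rw [zero_pow (by omega)] at ha
    have : (1 : F) = 0 := by linear_combination ha
    exact one_ne_zero this
  have hu₁ : ∀ a : F, a ^ (q + 1) = -1 → herm ((Pi.single i₀ 1 : Fin n → F) + a • Pi.single i₁ 1) ((Pi.single i₀ 1 : Fin n → F) + a • Pi.single i₁ 1) = 0 := by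
    intro a ha
    rw [herm_add_left, herm_add_right hF, herm_add_right hF, herm_smul_left, herm_smul_right hF,
      herm_smul_right hF, herm_smul_left, herm_single_single hF, herm_single_single hF,
      herm_single_single hF, herm_single_single hF, if_pos rfl, if_pos rfl, if_neg hi, if_neg (Ne.symm hi)]
    rw [pow_succ] at ha
    linear_combination ha
  set u : Fin n → F := Pi.single i₀ 1 + a₁ • Pi.single i₁ 1 with hu
  set v' : Fin n → F := Pi.single i₀ 1 + a₂ • Pi.single i₁ 1 with hv'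
  have hvu : herm v' u = 1 + a₂ * a₁ ^ q := by
    rw [hv', hu, herm_add_left, herm_add_right hF, herm_add_right hF, herm_smul_left, herm_smul_right hF,
      herm_smul_right hF, herm_smul_left, herm_single_single hF, herm_single_single hF,
      herm_single_single hF, herm_single_single hF, if_pos rfl, if_pos rfl, if_neg hi, if_neg (Ne.symm hi)]
    ring
  have hvu0 : herm v' u ≠ 0 := by
    rw [hvu]
    intro h0
    have hq1 : a₁ ^ q * a₁ = -1 := by
      rw [← pow_succ]
      exact ha₁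
    apply h12
    have : a₁ = a₂ := by
      have h3 : a₁ ^ q * (a₁ - a₂) = 0 := by
        linear_combination hq1 - h0
      have h4 := (mul_eq_zero.mp h3).resolve_left (pow_ne_zero _ (ha0 a₁ ha₁))
      exact sub_eq_zero.mp h4
    exact this
  refine ⟨i₀, i₁, u, (herm v' u)⁻¹ • v', ?_⟩
  have hval : ∀ x : Fin n → F, ∀ a : F, herm x ((Pi.single i₀ 1 : Fin n → F) + a • Pi.single i₁ 1) = x i₀ + x i₁ * a ^ q := by
    intro x a
    rw [herm_add_right hF, herm_smul_right hF, herm_single hF, herm_single hF]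
    ring
  have hvalu : ∀ x : Fin n → F, herm x u = x i₀ + x i₁ * a₁ ^ q := fun x => hval x a₁
  have hvalv : ∀ x : Fin n → F, herm x v' = x i₀ + x i₁ * a₂ ^ q := fun x => hval x a₂
  have hzero : ∀ (a : F) (i : Fin n), i ≠ i₀ → i ≠ i₁ → (((Pi.single i₀ 1 : Fin n → F) + a • Pi.single i₁ 1 : Fin n → F)) i = 0 := by
    intro a i h1 h2
    simp [Pi.single_apply, h1, h2]
  refine { uu := hu₁ a₁ ha₁, vv := ?_, vu := ?_, ne := hi, mem := ?_, uz := hzero a₁, vz := ?_ }
  · rw [herm_smul_left, herm_smul_right hF, hu₁ a₂ ha₂, mul_zero, mul_zero]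
  · rw [herm_smul_left, inv_mul_cancel₀ hvu0]
  · intro a
    rw [herm_smul_right hF, hvalu, hvalv]
    constructor
    · rintro ⟨h1, h2⟩
      have h3 : a i₀ + a i₁ * a₂ ^ q = 0 := by
        have := (mul_eq_zero.mp h2).resolve_left (pow_ne_zero _ (inv_ne_zero hvu0))
        exact this
      have h4 : a i₁ * (a₁ ^ q - a₂ ^ q) = 0 := by linear_combination h1 - h3
      have h5 : a₁ ^ q - a₂ ^ q ≠ 0 := by
        intro h0
        apply h12
        have := sub_eq_zero.mp h0
        have h6 := congrArg (fun t => t ^ q) this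
        simp only [pow_q_sq hF] at h6
        exact h6
      have h6 := (mul_eq_zero.mp h4).resolve_right h5
      refine ⟨?_, h6⟩
      rw [h6] at h1
      simpa using h1
    · rintro ⟨h1, h2⟩
      rw [h1, h2]
      simp
  · intro i h1 h2
    have h3 : v' i = 0 := hzero a₂ i h1 h2
    simp [Pi.smul_apply, h3]

variable (hn : 0 < n)
include hn

/-- the inverse of a transvection -/
lemma act_E_inv_zero {w : Fin n → F} {c : F} (A : Adm q w 0 c) (y : Fin n → F) :
    act (E hF hn w 0 c A)⁻¹ y = y - (c * herm y w) • w := by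
  apply act_injective (E hF hn w 0 c A)
  rw [act_act_inv, act_E, Efun_zero hF, herm_sub_left hF, herm_smul_left, A.uu]
  simp

variable {p : ℕ} [hp : Fact p.Prime] [CharP F p]
variable {i₀ i₁ : Fin n} {u v : Fin n → F} (hb : Base q i₀ i₁ u v) (hn3 : 3 ≤ n)
variable {N : Subgroup (Cfsg.SU n F q ⧸ Subgroup.center (Cfsg.SU n F q))} (hNp : IsPGroup p N)
  (hnorm : StabNorm u N)
include hb hn3 hNp hnorm

lemma E_fixes_u {w : Fin n → F} {b : F} (hwu : herm w u = 0) (A : Adm q w 0 b) : act (E hF hn w 0 b A) u = u :=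
  act_E_fix hF hn A (herm_eq_zero_symm hF hwu) (herm_zero_right hF u)

/-- Step A: an element of `N` moves an isotropic vector to a perpendicular one -/
lemma perp_of_N {s : Cfsg.SU n F q} (hs : pr s ∈ N) {w : Fin n → F} (hww : herm w w = 0) (hwu : herm w u = 0) :
    herm (act s w) w = 0 := by
  by_contra hne
  have hq2 := two_le_q hF
  have hw0 : w ≠ 0 := by
    rintro rfl
    apply hne
    exact herm_zero_right hF _
  obtain ⟨c, hc0, hc⟩ := exists_trace_zero hF
  have A : Adm q w 0 c := admT hF hww hc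
  have hw2 : herm (act s w) (act s w) = 0 := herm_act_self hF s hww
  have A' : Adm q (act s w) 0 c := admT hF hw2 hc
  have hle : TT hF hn hww ≤ Subgroup.normalizer (N : Set PG) := by
    intro x hx
    obtain ⟨b, h, rfl⟩ := (mem_TT hF hn).mp hx
    rw [Subgroup.mem_normalizer_iff]
    intro y
    constructor
    · intro hy
      exact hnorm _ ⟨1, one_ne_zero, by rw [one_smul]; exact E_fixes_u hF hn hb hn3 hNp hnorm hwu h⟩ y hy
    · intro hy
      have h1 : act (E hF hn w 0 b h)⁻¹ u = u := by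
        apply act_injective (E hF hn w 0 b h)
        rw [act_act_inv, E_fixes_u hF hn hb hn3 hNp hnorm hwu h]
      have h2 := hnorm _ ⟨1, one_ne_zero, by rw [one_smul]; exact h1⟩ _ hy
      have e : pr (E hF hn w 0 b h)⁻¹ * (pr (E hF hn w 0 b h) * y * (pr (E hF hn w 0 b h))⁻¹) * (pr (E hF hn w 0 b h)⁻¹)⁻¹ = y := by
        rw [map_inv]
        group
      rwa [e] at h2
  have hpT : IsPGroup p (TT hF hn hww) := (isPGroup_QQ hF hn hww).to_le (TT_le_QQ hF hn hww)
  have hR : IsPGroup p (TT hF hn hww ⊔ N : Subgroup PG) := hpT.to_sup_of_normal_right' hNp hle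
  have hconj : s * E hF hn w 0 c A * s⁻¹ = E hF hn (act s w) 0 c A' := by
    rw [E_conj hF hn s A]
    exact E_congr hF hn _ _ (act_zero s) rfl
  have hE1 : pr (E hF hn w 0 c A) ∈ (TT hF hn hww ⊔ N : Subgroup PG) :=
    Subgroup.mem_sup_left ((mem_TT hF hn).mpr ⟨c, A, rfl⟩)
  have hE2 : pr (E hF hn (act s w) 0 c A') ∈ (TT hF hn hww ⊔ N : Subgroup PG) := by
    rw [← hconj, map_mul, map_mul, map_inv]
    have h1 : pr s ∈ (TT hF hn hww ⊔ N : Subgroup PG) := Subgroup.mem_sup_right hs
    exact Subgroup.mul_mem _ (Subgroup.mul_mem _ h1 hE1) (Subgroup.inv_mem _ h1)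
  have hmem : pr (E hF hn w 0 c A * E hF hn (act s w) 0 c A') ∈ (TT hF hn hww ⊔ N : Subgroup PG) := by
    rw [map_mul]
    exact Subgroup.mul_mem _ hE1 hE2
  obtain ⟨k, hk⟩ := hR ⟨_, hmem⟩
  have hk2 := congrArg Subtype.val hk
  exact not_p_of_nonperp hF hn hn3 hw0 hc0 hne A A' k hk2

/-- Step B: an element of `N` moves an isotropic vector perpendicular to `u` within the line through `u` -/
lemma span_of_N {s : Cfsg.SU n F q} (hs : pr s ∈ N) (hc : ∃ c : F, c ≠ 0 ∧ act s u = c • u) {w : Fin n → F} (hww : herm w w = 0) (hwu : herm w u = 0) :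
    ∃ α β : F, act s w = α • u + β • w := by
  have hq2 := two_le_q hF
  obtain ⟨c₀, hc₀, hsu⟩ := hc
  have hu0 : u ≠ 0 := by
    rintro rfl
    have := hb.vu
    rw [herm_zero_right hF] at this
    exact zero_ne_one this
  set w₂ := act s w with hw₂
  have hw₂w₂ : herm w₂ w₂ = 0 := herm_act_self hF s hww
  have hw₂u : herm w₂ u = 0 := by
    have h1 := herm_act s w u
    rw [hwu, hsu, herm_smul_right hF] at h1
    exact (mul_eq_zero.mp h1).resolve_left (pow_ne_zero _ hc₀)
  have hw₂w : herm w₂ w = 0 := perp_of_N hF hn hb hn3 hNp hnorm hs hww hwu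
  have hww₂ : herm w w₂ = 0 := herm_eq_zero_symm hF hw₂w
  obtain ⟨c, hc0, hct⟩ := exists_trace_zero hF
  have A : Adm q w 0 c := admT hF hww hct
  have A' : Adm q w₂ 0 c := admT hF hw₂w₂ hct
  have hconj : s * E hF hn w 0 c A * s⁻¹ = E hF hn w₂ 0 c A' := by
    rw [E_conj hF hn s A]
    exact E_congr hF hn _ _ (act_zero s) rfl
  have hn0 : pr (s * E hF hn w 0 c A * s⁻¹ * (E hF hn w 0 c A)⁻¹) ∈ N := by
    have e : pr (s * E hF hn w 0 c A * s⁻¹ * (E hF hn w 0 c A)⁻¹) =
        pr s * (pr (E hF hn w 0 c A) * (pr s)⁻¹ * (pr (E hF hn w 0 c A))⁻¹) := by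
      simp only [map_mul, map_inv]
      group
    rw [e]
    refine Subgroup.mul_mem _ hs (hnorm _ ⟨1, one_ne_zero, ?_⟩ _ (Subgroup.inv_mem _ hs))
    rw [one_smul]
    exact E_fixes_u hF hn hb hn3 hNp hnorm hwu A
  have star : ∀ w', herm w' w' = 0 → herm w' u = 0 → (herm w' w₂) ^ (q + 1) = (herm w' w) ^ (q + 1) := by
    intro w' hw'w' hw'u
    have h1 := perp_of_N hF hn hb hn3 hNp hnorm hn0 hw'w' hw'u
    rw [hconj, act_mul, act_E_inv_zero hF hn, act_E, Efun_zero hF] at h1
    simp only [herm_add_left, herm_sub_left hF, herm_smul_left, hww, hww₂, hw'w'] at h1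
    have e1 : herm w w' = (herm w' w) ^ q := herm_conj hF w' w
    have e2 : herm w₂ w' = (herm w' w₂) ^ q := herm_conj hF w' w₂
    rw [e1, e2] at h1
    have h2 : c * ((herm w' w₂) ^ (q + 1) - (herm w' w) ^ (q + 1)) = 0 := by
      rw [pow_succ, pow_succ]
      linear_combination h1
    exact sub_eq_zero.mp ((mul_eq_zero.mp h2).resolve_left hc0)
  apply perp_perp2 hF hu0
  intro z hzu hzw
  by_contra hne
  have hzw₂ : herm z w₂ ≠ 0 := fun h0 => hne (herm_eq_zero_symm hF h0)
  obtain ⟨μ, hμ⟩ := iso_adjust hF hw₂w₂ hzw₂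
  have h1 := star _ hμ (by rw [herm_add_left, herm_smul_left, hzu, hw₂u]; ring)
  rw [herm_add_left, herm_add_left, herm_smul_left, herm_smul_left, hw₂w₂, hzw, hw₂w] at h1
  simp only [mul_zero, add_zero] at h1
  rw [zero_pow (by omega)] at h1
  exact hzw₂ ((pow_eq_zero_iff (by omega)).mp h1)

/-- Step C: the matrix is scalar on the complement of the two coordinates -/
lemma block_of_N {s : Cfsg.SU n F q} (hs : pr s ∈ N) (hc : ∃ c : F, c ≠ 0 ∧ act s u = c • u) {i j : Fin n}
    (hi0 : i ≠ i₀) (hi1 : i ≠ i₁) (hj0 : j ≠ i₀) (hj1 : j ≠ i₁) (hij : i ≠ j) :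
    mat s i j = 0 ∧ mat s i i = mat s j j := by
  classical
  obtain ⟨a₁, a₂, a₃, h12, h13, h23, ha₁, ha₂, ha₃⟩ := exists_three_norm hF
  set M := mat s with hM
  have hroot : ∀ a : F, a ^ (q + 1) = -1 → M i j * a ^ 2 + (M i i - M j j) * a - M j i = 0 := by
    intro a ha
    let w : Fin n → F := Pi.single i 1 + a • Pi.single j 1
    have hw : herm w w = 0 := by
      simp only [w]
      rw [herm_add_left, herm_add_right hF, herm_add_right hF, herm_smul_left, herm_smul_right hF,
        herm_smul_right hF, herm_smul_left, herm_single_single hF, herm_single_single hF,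
        herm_single_single hF, herm_single_single hF, if_pos rfl, if_pos rfl, if_neg hij,
        if_neg (Ne.symm hij)]
      rw [pow_succ] at ha
      linear_combination ha
    have hwi : w i = 1 := by simp [w, Pi.single_apply, Ne.symm hij]
    have hwj : w j = a := by simp [w, Pi.single_apply, hij]
    have hwu : herm w u = 0 ∧ herm w v = 0 := by
      rw [hb.mem]
      constructor
      · simp [w, Pi.single_apply, Ne.symm hi0, Ne.symm hj0]
      · simp [w, Pi.single_apply, Ne.symm hi1, Ne.symm hj1]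
    obtain ⟨α, β, e⟩ := span_of_N hF hn hb hn3 hNp hnorm hs hc hw hwu.1
    have hMw : act s w = fun k => M k i + a * M k j := by
      change M *ᵥ w = _
      simp only [w, Matrix.mulVec_add, Matrix.mulVec_smul, Matrix.mulVec_single_one]
      rfl
    rw [hMw] at e
    have e1 := congrFun e i
    have e2 := congrFun e j
    simp only [Pi.add_apply, Pi.smul_apply, smul_eq_mul, hwi, hwj, hb.uz i hi0 hi1, hb.uz j hj0 hj1, mul_zero, zero_add, mul_one] at e1 e2
    linear_combination a * e1 - e2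
  have r1 := hroot a₁ ha₁
  have r2 := hroot a₂ ha₂
  have r3 := hroot a₃ ha₃
  have d12 : a₁ - a₂ ≠ 0 := sub_ne_zero.2 h12
  have d13 : a₁ - a₃ ≠ 0 := sub_ne_zero.2 h13
  have d23 : a₂ - a₃ ≠ 0 := sub_ne_zero.2 h23
  have s1 : M i j * (a₁ + a₂) + (M i i - M j j) = 0 := by
    apply mul_left_cancel₀ d12
    linear_combination r1 - r2
  have s2 : M i j * (a₁ + a₃) + (M i i - M j j) = 0 := by
    apply mul_left_cancel₀ d13
    linear_combination r1 - r3
  have s3 : M i j = 0 := by
    apply mul_left_cancel₀ d23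
    linear_combination s1 - s2
  refine ⟨s3, ?_⟩
  rw [s3] at s1
  linear_combination s1

end

end Cfsg.Agent.Lead.AutPSU
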