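import Cfsg.Agent.Lib.Lead.AutPSU5
/-! Automorphisms of `PSU`: normal `p`-subgroups of a point stabilizer lie in the radical. -/
set_option autoImplicit false
set_option linter.style.haveILetI false
set_option linter.unusedSimpArgs false
set_option linter.unusedSectionVars false
set_option linter.unusedVariables false
namespace Cfsg.Agent.Lead.AutPSU
open Matrix Cfsg.Agent.Lead Cfsg.Agent.Lead.PSU
open scoped MatrixGroups commutatorElement Pointwise

variable {F : Type*} [Field F] [Fintype F] {q n : ℕ}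

local notation "herm" => Cfsg.hermForm n F q
local notation "V" => (Fin n → F)
local notation "SUG" => Cfsg.SU n F q
local notation "PG" => (Cfsg.SU n F q ⧸ Subgroup.center (Cfsg.SU n F q))
local notation "pr" => (QuotientGroup.mk' (Subgroup.center (Cfsg.SU n F q)))

section
variable (hF : Fintype.card F = q ^ 2) (hn : 0 < n)
include hF hn

variable {p : ℕ} [hp : Fact p.Prime] [CharP F p]
variable {i₀ i₁ : Fin n} {u v : Fin n → F} (hb : Base q i₀ i₁ u v) (hn3 : 3 ≤ n)
variable {N : Subgroup (Cfsg.SU n F q ⧸ Subgroup.center (Cfsg.SU n F q))} (hNp : IsPGroup p N)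
  (hnorm : StabNorm u N)
include hb hn3 hNp hnorm

/-- `s` acts on the complement of the hyperbolic pair by a scalar, modulo `u` -/
lemma complement_of_N {s : Cfsg.SU n F q} (hs : pr s ∈ N) {c₀ : F} (hc₀ : c₀ ≠ 0) (hsu : act s u = c₀ • u) {i₂ : Fin n}
    (h20 : i₂ ≠ i₀) (h21 : i₂ ≠ i₁) (a : Fin n → F) (ha0 : a i₀ = 0) (ha1 : a i₁ = 0) :
    ∃ ρ : F, act s a = mat s i₂ i₂ • a + ρ • u := by
  classical
  set ν := mat s i₂ i₂ with hν
  have hc : ∃ c : F, c ≠ 0 ∧ act s u = c • u := ⟨c₀, hc₀, hsu⟩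
  have hM : ∀ i j, i ≠ i₀ → i ≠ i₁ → j ≠ i₀ → j ≠ i₁ → mat s i j = if i = j then ν else 0 := by
    intro i j hi0 hi1 hj0 hj1
    by_cases hij : i = j
    · subst hij
      rw [if_pos rfl]
      by_cases h2 : i = i₂
      · rw [h2]
      · exact (block_of_N hF hn hb hn3 hNp hnorm hs hc hi0 hi1 h20 h21 h2).2
    · rw [if_neg hij]
      exact (block_of_N hF hn hb hn3 hNp hnorm hs hc hi0 hi1 hj0 hj1 hij).1
  set y := act s a - ν • a with hy
  have hyz : ∀ k, k ≠ i₀ → k ≠ i₁ → y k = 0 := by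
    intro k hk0 hk1
    have h1 : act s a k = ν * a k := by
      rw [act_eq_mat]
      change ∑ j, mat s k j * a j = _
      rw [Finset.sum_eq_single k]
      · rw [hM k k hk0 hk1 hk0 hk1, if_pos rfl]
      · intro j _ hjk
        by_cases hj0 : j = i₀
        · rw [hj0, ha0, mul_zero]
        · by_cases hj1 : j = i₁
          · rw [hj1, ha1, mul_zero]
          · rw [hM k j hk0 hk1 hj0 hj1, if_neg (Ne.symm hjk), zero_mul]
      · intro h
        exact absurd (Finset.mem_univ k) h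
    rw [hy, Pi.sub_apply, Pi.smul_apply, h1, smul_eq_mul, sub_self]
  have hau : herm a u = 0 := ((hb.mem a).mpr ⟨ha0, ha1⟩).1
  have hsau : herm (act s a) u = 0 := by
    have h1 := herm_act s a u
    rw [hau, hsu, herm_smul_right hF] at h1
    exact (mul_eq_zero.mp h1).resolve_left (pow_ne_zero _ hc₀)
  have hyu : herm y u = 0 := by
    rw [hy, herm_sub_left hF, herm_smul_left, hau, hsau]
    ring
  refine ⟨herm y v, ?_⟩
  obtain ⟨h1, h2⟩ := hb.toHyp.proj hF y
  obtain ⟨h3, h4⟩ := (hb.mem _).mp ⟨h1, h2⟩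
  have hzero : y - (herm y v • u + herm y u • v) = 0 := by
    funext k
    by_cases hk0 : k = i₀
    · rw [hk0]
      exact h3
    · by_cases hk1 : k = i₁
      · rw [hk1]
        exact h4
      · simp [hyz k hk0 hk1, hb.uz k hk0 hk1, hb.vz k hk0 hk1]
  rw [hyu, zero_smul, add_zero] at hzero
  have h5 : y = herm y v • u := sub_eq_zero.mp hzero
  have h6 : act s a = y + ν • a := by
    rw [hy]
    abel
  rw [h6, add_comm, ← h5]

/-- **Lemma N**: a normal `p`-subgroup of a point stabilizer lies in the radical. -/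
theorem N_le_QQ (hfix : Fix N u) : N ≤ QQ hF hn hb.uu := by
  classical
  intro x hx
  obtain ⟨s, rfl⟩ := QuotientGroup.mk'_surjective _ x
  have hs : pr s ∈ N := hx
  obtain ⟨c₀, hc₀, hsu⟩ := hfix s hs
  have huu := hb.uu
  have hvv := hb.vv
  have hvu := hb.vu
  have huv := hb.toHyp.uv hF
  have hu0 : u ≠ 0 := by
    rintro rfl
    rw [herm_zero_right hF] at hvu
    exact zero_ne_one hvu
  have hq2 := two_le_q hF
  have hN1 : c₀ ^ (q + 1) = 1 := norm_of_fix hF hn hNp hu0 hs hsu
  have hN2 : c₀ ^ q * c₀ = 1 := by rw [← pow_succ]; exact hN1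
  -- a third coordinate
  obtain ⟨i₂, h20, h21⟩ : ∃ i₂ : Fin n, i₂ ≠ i₀ ∧ i₂ ≠ i₁ := by
    by_contra hcon
    push Not at hcon
    have hsub : (Finset.univ : Finset (Fin n)) ⊆ {i₀, i₁} := by
      intro i _
      by_cases hi : i = i₀
      · simp [hi]
      · simp [hcon i hi]
    have h1 := Finset.card_le_card hsub
    rw [Finset.card_univ, Fintype.card_fin] at h1
    have h2 : ({i₀, i₁} : Finset (Fin n)).card ≤ 2 := Finset.card_le_two
    omega
  set ν := mat s i₂ i₂ with hν
  have hcompl := complement_of_N hF hn hb hn3 hNp hnorm hs hc₀ hsu h20 h21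
  -- the scalar is `c₀`
  have hνc : ν = c₀ := by
    obtain ⟨k, hk⟩ := hNp ⟨_, hs⟩
    have h1 : pr (1 : Cfsg.SU n F q) = pr (s ^ (p ^ k)) := by
      have := congrArg Subtype.val hk
      rw [map_pow, map_one]
      exact this.symm
    obtain ⟨ζ, hζ, hx'⟩ := (pr_eq_iff hF hn).mp h1
    set e₂ : Fin n → F := Pi.single i₂ 1 with he₂
    have he20 : e₂ i₀ = 0 := by simp [he₂, Pi.single_apply, Ne.symm h20]
    have he21 : e₂ i₁ = 0 := by simp [he₂, Pi.single_apply, Ne.symm h21]
    have he22 : e₂ i₂ = 1 := by simp [he₂]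
    obtain ⟨ρ, hρ⟩ := hcompl e₂ he20 he21
    have hind : ∀ m : ℕ, ∃ ρ' : F, act (s ^ m) e₂ = ν ^ m • e₂ + ρ' • u := by
      intro m
      induction m with
      | zero => exact ⟨0, by simp [act_one]⟩
      | succ m ih =>
        obtain ⟨ρ', e⟩ := ih
        refine ⟨ν ^ m * ρ + ρ' * c₀, ?_⟩
        rw [pow_succ', act_mul, e, act_add, act_smul, act_smul, hρ, hsu, pow_succ]
        module
    obtain ⟨ρ', e⟩ := hind (p ^ k)
    have h2 := hx' e₂
    rw [e, act_one] at h2
    have h3 := congrFun h2 i₂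
    simp only [Pi.add_apply, Pi.smul_apply, smul_eq_mul, he22, hb.uz i₂ h20 h21, mul_zero, add_zero, mul_one] at h3
    have h4 := hx' u
    rw [act_pow_eigen hsu, act_one] at h4
    have h5 : c₀ ^ p ^ k = ζ := by
      have : (c₀ ^ p ^ k - ζ) • u = 0 := by rw [sub_smul, h4, sub_self]
      exact sub_eq_zero.mp ((smul_eq_zero.mp this).resolve_right hu0)
    have h6 : (ν - c₀) ^ p ^ k = 0 := by
      rw [sub_pow_char_pow, h3, h5, sub_self]
    exact sub_eq_zero.mp (pow_eq_zero_iff (pow_ne_zero _ hp.out.ne_zero) |>.mp h6)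
  -- the image of `v`
  have hc₀inv : (c₀ ^ q)⁻¹ = c₀ := by
    exact inv_eq_of_mul_eq_one_right hN2
  set v₁ := c₀⁻¹ • act s v with hv₁
  have hv₁v₁ : herm v₁ v₁ = 0 := by
    rw [hv₁, norm_smul_form hF, herm_act, hvv, mul_zero]
  have hsvu : herm (act s v) u = c₀ := by
    have h1 := herm_act s v u
    rw [hsu, hvu, herm_smul_right hF] at h1
    have h2 : herm (act s v) u = (c₀ ^ q)⁻¹ := eq_inv_of_mul_eq_one_left (by rw [mul_comm]; exact h1)
    rw [h2, hc₀inv]
  have hv₁u : herm v₁ u = herm v u := by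
    rw [hv₁, herm_smul_left, hsvu, inv_mul_cancel₀ hc₀, hvu]
  obtain ⟨a, b, hab, -, hEv⟩ := exists_E_map hF huu hvv hv₁v₁ (by rw [hvu]; exact one_ne_zero) hv₁u
  refine (mem_QQ hF hn).mpr ⟨a, b, hab, ?_⟩
  refine (pr_eq_iff hF hn).mpr ⟨c₀, hN1, fun x => ?_⟩
  -- the three pieces
  have hua : herm u a = 0 := herm_eq_zero_symm hF hab.au
  have h1 : act s u = c₀ • act (E hF hn u a b hab) u := by
    rw [act_E_fix hF hn hab huu hua, hsu]
  have h2 : act s v = c₀ • act (E hF hn u a b hab) v := by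
    rw [act_E, hEv, hv₁, smul_smul, mul_inv_cancel₀ hc₀, one_smul]
  have h3 : ∀ a' : Fin n → F, a' i₀ = 0 → a' i₁ = 0 → act s a' = c₀ • act (E hF hn u a b hab) a' := by
    intro a' h10 h11
    obtain ⟨h4, h5⟩ := (hb.mem a').mpr ⟨h10, h11⟩
    obtain ⟨ρ, hρ⟩ := hcompl a' h10 h11
    rw [← hν, hνc] at hρ
    have h6 := herm_act s a' v
    rw [hρ, h2, act_E, Efun_apply, h5, herm_add_left, herm_smul_left, herm_smul_left] at h6
    simp only [herm_smul_right hF, herm_add_right hF, herm_sub_right hF] at h6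
    have hτ : ∃ τ, τ = (b * herm v u - herm v a) := ⟨_, rfl⟩
    obtain ⟨τ, hτ⟩ := hτ
    rw [← hτ] at h6
    simp only [herm_smul_right hF, h4, h5, huu, hua, huv, hvu, mul_zero, add_zero, zero_add, mul_one, one_smul, one_mul, zero_mul, one_pow] at h6
    have h7 : ρ = -(c₀ * herm a' a) := by
      have e1 : c₀ * (c₀ ^ q * herm a' a) + ρ * c₀ ^ q = 0 := h6
      have e2 : c₀ * c₀ ^ q = 1 := by rw [mul_comm]; exact hN2
      have e3 : (ρ + c₀ * herm a' a) * c₀ ^ q = 0 := by
        linear_combination e1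
      have e4 := (mul_eq_zero.mp e3).resolve_right (pow_ne_zero _ hc₀)
      linear_combination e4
    rw [hρ, act_E, Efun_apply, h4, zero_smul, add_zero, mul_zero, zero_sub, h7]
    module
  -- the decomposition
  obtain ⟨h4, h5⟩ := hb.toHyp.proj hF x
  obtain ⟨h6, h7⟩ := (hb.mem _).mp ⟨h4, h5⟩
  have h8 := h3 _ h6 h7
  have hx2 : x = (x - (herm x v • u + herm x u • v)) + (herm x v • u + herm x u • v) := by abel
  have e1 : act s x = act s (x - (herm x v • u + herm x u • v)) + (herm x v • act s u + herm x u • act s v) := by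
    conv_lhs => rw [hx2]
    rw [act_add, act_add, act_smul, act_smul]
  have e2 : act (E hF hn u a b hab) x = act (E hF hn u a b hab) (x - (herm x v • u + herm x u • v)) +
      (herm x v • act (E hF hn u a b hab) u + herm x u • act (E hF hn u a b hab) v) := by
    conv_lhs => rw [hx2]
    rw [act_add, act_add, act_smul, act_smul]
  rw [e1, e2, h8, h1, h2]
  module

end

end Cfsg.Agent.Lead.AutPSU
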