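import Cfsg.Agent.Lib.Lead.AutPSU6
import Cfsg.Agent.Lib.Lead.AutPSpInd
/-! Automorphisms of `PSU` induced by semilinear maps. -/
set_option autoImplicit false
set_option linter.style.haveILetI false
set_option linter.unusedSimpArgs false
set_option linter.unusedSectionVars false
set_option linter.unusedVariables false
namespace Cfsg.Agent.Lead.AutPSU
open Matrix Cfsg.Agent.Lead Cfsg.Agent.Lead.PSU
open Cfsg.Agent.Lead.AutPSp (liftC liftC_mk)
open scoped MatrixGroups commutatorElement Pointwise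

variable {F : Type*} [Field F] [Fintype F] {q n : ℕ}

local notation "herm" => Cfsg.hermForm n F q
local notation "SUG" => Cfsg.SU n F q
local notation "PG" => (Cfsg.SU n F q ⧸ Subgroup.center (Cfsg.SU n F q))
local notation "pr" => (QuotientGroup.mk' (Subgroup.center (Cfsg.SU n F q)))

/-- apply a field automorphism to the coordinates -/
def smap (σ : F ≃+* F) (x : Fin n → F) : Fin n → F := fun i => σ (x i)

lemma smap_add (σ : F ≃+* F) (x y : Fin n → F) : smap σ (x + y) = smap σ x + smap σ y := by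
  funext i; simp [smap]

lemma smap_smul (σ : F ≃+* F) (c : F) (x : Fin n → F) : smap σ (c • x) = σ c • smap σ x := by
  funext i; simp [smap]

lemma smap_symm (σ : F ≃+* F) (x : Fin n → F) : smap σ (smap σ.symm x) = x := by
  funext i; simp [smap]

lemma smap_symm' (σ : F ≃+* F) (x : Fin n → F) : smap σ.symm (smap σ x) = x := by
  funext i; simp [smap]

lemma smap_zero (σ : F ≃+* F) : smap σ (0 : Fin n → F) = 0 := by
  funext i; simp [smap]

lemma herm_smap (σ : F ≃+* F) (x y : Fin n → F) : herm (smap σ x) (smap σ y) = σ (herm x y) := by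
  simp only [Cfsg.hermForm, map_sum, map_mul, map_pow, smap]

lemma map_mulVec_smap (σ : F ≃+* F) (M : Matrix (Fin n) (Fin n) F) (x : Fin n → F) :
    (M.map σ) *ᵥ smap σ x = smap σ (M *ᵥ x) := by
  funext i
  simp only [Matrix.mulVec, dotProduct, smap, map_sum, map_mul, Matrix.map_apply]

lemma gl_mul_inv' (g : GL (Fin n) F) :
    (g : Matrix (Fin n) (Fin n) F) * ((g⁻¹ : GL (Fin n) F) : Matrix (Fin n) (Fin n) F) = 1 := by
  rw [← Units.val_mul, mul_inv_cancel, Units.val_one]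

lemma gl_inv_mul' (g : GL (Fin n) F) :
    ((g⁻¹ : GL (Fin n) F) : Matrix (Fin n) (Fin n) F) * (g : Matrix (Fin n) (Fin n) F) = 1 := by
  rw [← Units.val_mul, inv_mul_cancel, Units.val_one]

lemma gu_form {g : GL (Fin n) F} (hg : g ∈ Cfsg.GU n F q) (x y : Fin n → F) :
    herm ((g : Matrix (Fin n) (Fin n) F) *ᵥ x) ((g : Matrix (Fin n) (Fin n) F) *ᵥ y) = herm x y := hg x y

/-- the matrix of `s ↦ g σ(s) g⁻¹` -/
def cMat (g : GL (Fin n) F) (σ : F ≃+* F) (s : Cfsg.SU n F q) : Matrix (Fin n) (Fin n) F :=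
  (g : Matrix (Fin n) (Fin n) F) * (mat s).map σ * ((g⁻¹ : GL (Fin n) F) : Matrix (Fin n) (Fin n) F)

lemma cMat_mulVec (g : GL (Fin n) F) (σ : F ≃+* F) (s : Cfsg.SU n F q) (z : Fin n → F) :
    cMat g σ s *ᵥ z = (g : Matrix (Fin n) (Fin n) F) *ᵥ smap σ (act s (smap σ.symm (((g⁻¹ : GL (Fin n) F) : Matrix (Fin n) (Fin n) F) *ᵥ z))) := by
  rw [act_eq_mat, ← map_mulVec_smap, smap_symm, cMat, Matrix.mulVec_mulVec, Matrix.mulVec_mulVec]

lemma cMat_det (g : GL (Fin n) F) (σ : F ≃+* F) (s : Cfsg.SU n F q) : (cMat g σ s).det = 1 := by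
  have h1 : ((mat s).map σ).det = σ (mat s).det := by
    have := (RingHom.map_det σ.toRingHom (mat s))
    exact this.symm
  have h2 : (mat s).det = 1 := (s : SpecialLinearGroup (Fin n) F).2
  have h3 : ((g : Matrix (Fin n) (Fin n) F)).det * ((g⁻¹ : GL (Fin n) F) : Matrix (Fin n) (Fin n) F).det = 1 := by
    rw [← Matrix.det_mul, gl_mul_inv', Matrix.det_one]
  rw [cMat, Matrix.det_mul, Matrix.det_mul, h1, h2, map_one, mul_one, h3]

lemma cMat_form {g : GL (Fin n) F} (hg : g ∈ Cfsg.GU n F q) (σ : F ≃+* F) (s : Cfsg.SU n F q) (x y : Fin n → F) :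
    herm (cMat g σ s *ᵥ x) (cMat g σ s *ᵥ y) = herm x y := by
  rw [cMat_mulVec, cMat_mulVec, gu_form hg, herm_smap, herm_act, ← herm_smap, smap_symm, smap_symm, ← gu_form hg,
    Matrix.mulVec_mulVec, Matrix.mulVec_mulVec, gl_mul_inv', Matrix.one_mulVec, Matrix.one_mulVec]

/-- the homomorphism `s ↦ g σ(s) g⁻¹` -/
def cHomU {g : GL (Fin n) F} (hg : g ∈ Cfsg.GU n F q) (σ : F ≃+* F) : Cfsg.SU n F q →* Cfsg.SU n F q where
  toFun s := ⟨⟨cMat g σ s, cMat_det g σ s⟩, fun x y => cMat_form hg σ s x y⟩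
  map_one' := by
    apply Subtype.ext
    apply Subtype.ext
    change (g : Matrix (Fin n) (Fin n) F) * (1 : Matrix (Fin n) (Fin n) F).map σ * _ = 1
    rw [Matrix.map_one _ (map_zero σ) (map_one σ), Matrix.mul_one, gl_mul_inv']
  map_mul' s t := by
    apply Subtype.ext
    apply Subtype.ext
    change (g : Matrix (Fin n) (Fin n) F) * (mat s * mat t).map σ * _ =
      ((g : Matrix (Fin n) (Fin n) F) * (mat s).map σ * _) *
      ((g : Matrix (Fin n) (Fin n) F) * (mat t).map σ * _)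
    rw [Matrix.map_mul]
    simp only [Matrix.mul_assoc]
    rw [← Matrix.mul_assoc ((g⁻¹ : GL (Fin n) F) : Matrix (Fin n) (Fin n) F) (g : Matrix (Fin n) (Fin n) F), gl_inv_mul', Matrix.one_mul]

lemma act_cHomU {g : GL (Fin n) F} (hg : g ∈ Cfsg.GU n F q) (σ : F ≃+* F) (s : Cfsg.SU n F q) (x : Fin n → F) :
    act (cHomU hg σ s) x = (g : Matrix (Fin n) (Fin n) F) *ᵥ smap σ (act s (smap σ.symm (((g⁻¹ : GL (Fin n) F) : Matrix (Fin n) (Fin n) F) *ᵥ x))) :=
  cMat_mulVec g σ s x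

/-- the intertwining relation -/
lemma act_cHomU_gam {g : GL (Fin n) F} (hg : g ∈ Cfsg.GU n F q) (σ : F ≃+* F) (s : Cfsg.SU n F q) (x : Fin n → F) :
    act (cHomU hg σ s) ((g : Matrix (Fin n) (Fin n) F) *ᵥ smap σ x) = (g : Matrix (Fin n) (Fin n) F) *ᵥ smap σ (act s x) := by
  rw [act_cHomU, Matrix.mulVec_mulVec, gl_inv_mul', Matrix.one_mulVec, smap_symm']

section
variable (hF : Fintype.card F = q ^ 2) (hn : 0 < n)

lemma cHomU_inj {g : GL (Fin n) F} (hg : g ∈ Cfsg.GU n F q) (σ : F ≃+* F) : Function.Injective (cHomU hg σ) := by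
  rw [injective_iff_map_eq_one]
  intro s hs
  apply su_ext
  intro x
  have h1 := act_cHomU_gam hg σ s x
  rw [hs, act_one] at h1
  have h2 := congrArg (fun z => ((g⁻¹ : GL (Fin n) F) : Matrix (Fin n) (Fin n) F) *ᵥ z) h1
  simp only [Matrix.mulVec_mulVec, gl_inv_mul', Matrix.one_mulVec] at h2
  have h4 := congrArg (smap σ.symm) h2
  rw [smap_symm', smap_symm'] at h4
  rw [← h4, act_one]

/-- the automorphism of `SU` -/
noncomputable def cAutU {g : GL (Fin n) F} (hg : g ∈ Cfsg.GU n F q) (σ : F ≃+* F) : MulAut (Cfsg.SU n F q) :=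
  MulEquiv.ofBijective (cHomU hg σ) ⟨cHomU_inj hg σ, Finite.surjective_of_injective (cHomU_inj hg σ)⟩

/-- the automorphism of `PSU` -/
noncomputable def cU {g : GL (Fin n) F} (hg : g ∈ Cfsg.GU n F q) (σ : F ≃+* F) : MulAut PG :=
  liftC (cAutU hg σ)

lemma cU_pr {g : GL (Fin n) F} (hg : g ∈ Cfsg.GU n F q) (σ : F ≃+* F) (s : Cfsg.SU n F q) :
    cU hg σ (pr s) = pr (cHomU hg σ s) := rfl

/-- the map is induced -/
lemma cU_induced {g : GL (Fin n) F} (hg : g ∈ Cfsg.GU n F q) (σ : F ≃+* F) :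
    Cfsg.IsInducedBySemilinearPSU g σ (cU hg σ) := by
  intro s s' h
  have h1 : cHomU hg σ s = s' := by
    apply Subtype.ext
    apply Subtype.ext
    exact h.symm
  change pr (cHomU hg σ s) = pr s'
  rw [h1]

/-- the semilinear map of `cU` -/
def gam (g : GL (Fin n) F) (σ : F ≃+* F) (x : Fin n → F) : Fin n → F := (g : Matrix (Fin n) (Fin n) F) *ᵥ smap σ x

lemma gam_add (g : GL (Fin n) F) (σ : F ≃+* F) (x y : Fin n → F) : gam g σ (x + y) = gam g σ x + gam g σ y := by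
  rw [gam, smap_add, Matrix.mulVec_add]
  rfl

lemma gam_smul (g : GL (Fin n) F) (σ : F ≃+* F) (c : F) (x : Fin n → F) : gam g σ (c • x) = σ c • gam g σ x := by
  rw [gam, smap_smul, Matrix.mulVec_smul]
  rfl

lemma herm_gam {g : GL (Fin n) F} (hg : g ∈ Cfsg.GU n F q) (σ : F ≃+* F) (x y : Fin n → F) :
    herm (gam g σ x) (gam g σ y) = σ (herm x y) := by
  rw [gam, gam, gu_form hg, herm_smap]

lemma gam_surj (g : GL (Fin n) F) (σ : F ≃+* F) (x : Fin n → F) :
    gam g σ (smap σ.symm (((g⁻¹ : GL (Fin n) F) : Matrix (Fin n) (Fin n) F) *ᵥ x)) = x := by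
  rw [gam, smap_symm, Matrix.mulVec_mulVec, gl_mul_inv', Matrix.one_mulVec]

lemma Adm.gam_map {g : GL (Fin n) F} (hg : g ∈ Cfsg.GU n F q) (σ : F ≃+* F) {y a : Fin n → F} {b : F} (h : Adm q y a b) :
    Adm q (gam g σ y) (gam g σ a) (σ b) where
  uu := by rw [herm_gam hg, h.uu, map_zero]
  au := by rw [herm_gam hg, h.au, map_zero]
  tr := by
    have := congrArg σ h.tr
    rw [map_zero, map_add, map_add, map_pow] at this
    rw [herm_gam hg]
    exact this

/-- the image of an Eichler transformation -/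
lemma cHomU_E {g : GL (Fin n) F} (hg : g ∈ Cfsg.GU n F q) (σ : F ≃+* F) {y a : Fin n → F} {b : F} (h : Adm q y a b) :
    cHomU hg σ (E hF hn y a b h) = E hF hn (gam g σ y) (gam g σ a) (σ b) (Adm.gam_map hg σ h) := by
  apply su_ext
  intro x
  obtain ⟨x₀, rfl⟩ : ∃ x₀, x = gam g σ x₀ := ⟨_, (gam_surj g σ x).symm⟩
  change act (cHomU hg σ (E hF hn y a b h)) ((g : Matrix (Fin n) (Fin n) F) *ᵥ smap σ x₀) = _
  rw [act_cHomU_gam, act_E, act_E]
  change gam g σ (Efun q y a b x₀) = Efun q (gam g σ y) (gam g σ a) (σ b) (gam g σ x₀)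
  rw [Efun_apply, Efun_apply, gam_add, gam_add, gam_smul, gam_smul, herm_gam hg, herm_gam hg, map_sub, map_mul]

/-- the image of a conjugate root group -/
lemma cU_TT {g : GL (Fin n) F} (hg : g ∈ Cfsg.GU n F q) (σ : F ≃+* F) {y : Fin n → F} (hyy : herm y y = 0)
    (h' : herm (gam g σ y) (gam g σ y) = 0) :
    (TT hF hn hyy).map (cU hg σ).toMonoidHom ≤ TT hF hn h' := by
  rintro _ ⟨x, hx, rfl⟩
  obtain ⟨b, h, rfl⟩ := (mem_TT hF hn).mp hx
  have A := Adm.gam_map hg σ h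
  have e : gam g σ (0 : Fin n → F) = 0 := by
    rw [gam, smap_zero, Matrix.mulVec_zero]
  have A' : Adm q (gam g σ y) 0 (σ b) := by rwa [e] at A
  refine (mem_TT hF hn).mpr ⟨σ b, A', ?_⟩
  change pr _ = cU hg σ (pr _)
  rw [cU_pr, cHomU_E hF hn hg σ h]
  congr 1
  exact E_congr hF hn _ _ e.symm rfl

/-- the inner automorphisms -/
def toGL (s : Cfsg.SU n F q) : GL (Fin n) F := Matrix.SpecialLinearGroup.toGL (s : SpecialLinearGroup (Fin n) F)

lemma toGL_coe (s : Cfsg.SU n F q) : ((toGL s : GL (Fin n) F) : Matrix (Fin n) (Fin n) F) = mat s := rfl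

lemma toGL_mem (s : Cfsg.SU n F q) : toGL s ∈ Cfsg.GU n F q := fun x y => s.2 x y

lemma toGL_inv (s : Cfsg.SU n F q) : ((toGL s)⁻¹ : GL (Fin n) F) = toGL s⁻¹ := by
  exact (map_inv (Matrix.SpecialLinearGroup.toGL (n := Fin n) (R := F)) _).symm

end

end Cfsg.Agent.Lead.AutPSU
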