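import Cfsg.Agent.Lib.Lead.AutPSU7
/-! Automorphisms of `PSU`: coordinates on the radical of a point stabilizer. -/
set_option autoImplicit false
set_option linter.style.haveILetI false
set_option linter.unusedSimpArgs false
set_option linter.unusedSectionVars false
set_option linter.unusedVariables false
namespace Cfsg.Agent.Lead.AutPSU
open Matrix Cfsg.Agent.Lead Cfsg.Agent.Lead.PSU
open scoped MatrixGroups commutatorElement Pointwise

variable {F : Type*} [Field F] [Fintype F] {q n : ℕ}

local notation "herm" => Cfsg.hermForm n F q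
local notation "SUG" => Cfsg.SU n F q
local notation "PG" => (Cfsg.SU n F q ⧸ Subgroup.center (Cfsg.SU n F q))
local notation "pr" => (QuotientGroup.mk' (Subgroup.center (Cfsg.SU n F q)))

/-- `α` preserves `T` -/
def Pres (α : MulAut PG) (T : Subgroup PG) : Prop := ∀ x, α x ∈ T ↔ x ∈ T

omit [Fintype F] in
lemma Pres.of_map {α : MulAut PG} {T : Subgroup PG} (h : T.map α.toMonoidHom = T) : Pres α T := by
  intro x
  constructor
  · intro hx
    rw [← h] at hx
    obtain ⟨y, hy, e⟩ := hx
    have e' : y = x := α.injective e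
    rwa [← e']
  · intro hx
    rw [← h]
    exact ⟨x, hx, rfl⟩

omit [Fintype F] in
lemma Pres.map_eq {α : MulAut PG} {T : Subgroup PG} (h : Pres α T) : T.map α.toMonoidHom = T := by
  ext x
  constructor
  · rintro ⟨y, hy, rfl⟩
    exact (h y).mpr hy
  · intro hx
    refine ⟨α.symm x, ?_, α.apply_symm_apply x⟩
    apply (h _).mp
    rw [MulEquiv.apply_symm_apply]
    exact hx

omit [Fintype F] in
lemma Pres.symm {α : MulAut PG} {T : Subgroup PG} (h : Pres α T) : Pres α⁻¹ T := by
  intro x
  have h1 := h (α⁻¹ x)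
  have e : α (α⁻¹ x) = x := α.apply_symm_apply x
  rw [e] at h1
  exact h1.symm

omit [Fintype F] in
lemma Pres.mul {α β : MulAut PG} {T : Subgroup PG} (h : Pres α T) (h' : Pres β T) : Pres (α * β) T := by
  intro x
  exact (h (β x)).trans (h' x)

omit [Fintype F] in
lemma Pres.conj_map {α : MulAut PG} {T : Subgroup PG} (h : Pres α T) {x : PG} (hx : Pres (MulAut.conj x) T) :
    Pres (MulAut.conj (α x)) T := by
  intro y
  obtain ⟨y₀, rfl⟩ := α.surjective y
  have e : MulAut.conj (α x) (α y₀) = α (MulAut.conj x y₀) := by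
    simp [MulAut.conj_apply]
  rw [e, h, hx, h]

section
variable (hF : Fintype.card F = q ^ 2) (hn : 0 < n)
include hF hn

lemma TT_congr {x y : Fin n → F} (e : x = y) (hx : herm x x = 0) (hy : herm y y = 0) : TT hF hn hx = TT hF hn hy := by
  subst e
  rfl

lemma fix_of_pres (hn3 : 3 ≤ n) {u : Fin n → F} (hu : u ≠ 0) (huu : herm u u = 0) {s : Cfsg.SU n F q}
    (h : Pres (MulAut.conj (pr s)) (TT hF hn huu)) : ∃ c : F, c ≠ 0 ∧ act s u = c • u := by
  have h0 := h.map_eq
  have h1 := herm_act_self hF s huu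
  rw [TT_conj hF hn s huu h1] at h0
  exact par_of_TT_eq hF hn hn3 hu (act_ne_zero hu) huu h1 h0.symm

lemma pres_of_fix {u : Fin n → F} (huu : herm u u = 0) {s : Cfsg.SU n F q} {c : F} (hc : c ≠ 0) (hs : act s u = c • u) :
    Pres (MulAut.conj (pr s)) (TT hF hn huu) := by
  apply Pres.of_map
  have h1 := herm_act_self hF s huu
  rw [TT_conj hF hn s huu h1]
  have h2 : herm (c • u) (c • u) = 0 := by rw [← hs]; exact h1
  rw [TT_congr hF hn hs h1 h2, TT_smul hF hn hc huu h2]

variable {p : ℕ} [hp : Fact p.Prime] [CharP F p]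
variable {i₀ i₁ : Fin n} {u v : Fin n → F} (hb : Base q i₀ i₁ u v) (hn3 : 3 ≤ n)
include hb hn3

lemma Base.u_ne : u ≠ 0 := by
  rintro rfl
  have := hb.vu
  rw [herm_zero_right hF] at this
  exact zero_ne_one this

lemma Base.v_ne : v ≠ 0 := by
  rintro rfl
  have := hb.vu
  rw [herm_zero_left hF] at this
  exact zero_ne_one this

include p in
/-- automorphisms preserving the root group preserve the radical -/
lemma QQ_map_le {α : MulAut PG} (hα : Pres α (TT hF hn hb.uu)) {x : PG} (hx : x ∈ QQ hF hn hb.uu) :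
    α x ∈ QQ hF hn hb.uu := by
  have hu0 := Base.u_ne hF hn hb hn3
  let N : Subgroup PG := (QQ hF hn hb.uu).map α.toMonoidHom
  have hNp : IsPGroup p N := (isPGroup_QQ hF hn hb.uu).map _
  have hfix : Fix N u := by
    intro s hs
    obtain ⟨y, hy, e⟩ := hs
    obtain ⟨a, b, h, rfl⟩ := (mem_QQ hF hn).mp hy
    apply fix_of_pres hF hn hn3 hu0 hb.uu
    have e' : pr s = α (pr (E hF hn u a b h)) := e.symm
    rw [e']
    apply hα.conj_map
    exact pres_of_fix hF hn hb.uu one_ne_zero (by
      rw [one_smul]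
      exact act_E_fix hF hn h hb.uu (herm_eq_zero_symm hF h.au))
  have hnorm : StabNorm u N := by
    intro s hs x hx
    obtain ⟨c, hc, hsu⟩ := hs
    obtain ⟨y, hy, rfl⟩ := hx
    have h1 := pres_of_fix hF hn hb.uu hc hsu
    obtain ⟨t, ht⟩ := QuotientGroup.mk'_surjective _ (α⁻¹ (pr s))
    have h2 : Pres (MulAut.conj (pr t)) (TT hF hn hb.uu) := by
      rw [ht]
      exact hα.symm.conj_map h1
    obtain ⟨c', hc', htu⟩ := fix_of_pres hF hn hn3 hu0 hb.uu h2
    have h3 := mem_QQ_conj hF hn hc' htu hy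
    refine ⟨_, h3, ?_⟩
    have e : α (pr t) = pr s := by
      rw [ht]
      exact α.apply_symm_apply _
    change α (pr t * y * (pr t)⁻¹) = _
    rw [map_mul, map_mul, map_inv, e]
    rfl
  exact N_le_QQ hF hn hb hn3 hNp hnorm hfix ⟨x, hx, rfl⟩

include p in
lemma QQ_pres {α : MulAut PG} (hα : Pres α (TT hF hn hb.uu)) : Pres α (QQ hF hn hb.uu) := by
  intro x
  constructor
  · intro h
    have := QQ_map_le (p := p) hF hn hb hn3 hα.symm h
    have e : α⁻¹ (α x) = x := α.symm_apply_apply x
    rwa [e] at this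
  · exact QQ_map_le (p := p) hF hn hb hn3 hα

omit hn hn3 in
lemma Base.uv : herm u v = 1 := hb.toHyp.uv hF

omit hn hn3 in
/-- vectors are determined on pieces -/
lemma Base.eq_of_forms {x : Fin n → F} (h1 : herm x u = 0) (h2 : herm x v = 0) (h3 : ∀ i, i ≠ i₀ → i ≠ i₁ → x i = 0) : x = 0 := by
  obtain ⟨h4, h5⟩ := (hb.mem x).mp ⟨h1, h2⟩
  funext i
  by_cases h6 : i = i₀
  · rw [h6]
    exact h4
  · by_cases h7 : i = i₁
    · rw [h7]
      exact h5
    · exact h3 i h6 h7

omit hn3 in
/-- normal form of an Eichler transformation -/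
lemma E_normal {a₁ : Fin n → F} {b₁ : F} (h : Adm q u a₁ b₁) :
    ∃ (a : Fin n → F) (b : F) (h' : Adm q u a b), herm a u = 0 ∧ herm a v = 0 ∧ E hF hn u a₁ b₁ h = E hF hn u a b h' := by
  have hq2 := two_le_q hF
  have huu := hb.uu
  have huv := Base.uv hF hb
  set κ := herm a₁ v with hκ
  set a := a₁ - κ • u with ha
  have hau : herm a u = 0 := by
    rw [ha, herm_sub_left hF, herm_smul_left, h.au, huu]
    ring
  have hav : herm a v = 0 := by
    rw [ha, herm_sub_left hF, herm_smul_left, huv, ← hκ]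
    ring
  have hua₁ : herm u a₁ = 0 := herm_eq_zero_symm hF h.au
  have haa : herm a a = herm a₁ a₁ := by
    rw [ha, herm_sub_left hF, herm_sub_right hF, herm_sub_right hF, herm_smul_left, herm_smul_right hF,
      herm_smul_right hF, herm_smul_left, h.au, hua₁, huu]
    ring
  have A : Adm q u a (b₁ + κ - κ ^ q) := by
    refine ⟨huu, hau, ?_⟩
    have := h.tr
    rw [haa, pow_sub_q hF, pow_add_q hF, pow_q_sq hF]
    linear_combination this
  refine ⟨a, _, A, hau, hav, ?_⟩
  apply su_ext
  intro x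
  rw [act_E, act_E, Efun_apply, Efun_apply]
  have e : herm x a₁ = herm x a + κ ^ q * herm x u := by
    rw [ha, herm_sub_right hF, herm_smul_right hF]
    ring
  rw [e, ha]
  module

omit hn3 in
/-- the value at `v` -/
lemma E_value {a : Fin n → F} {b : F} (h : Adm q u a b) (hav : herm a v = 0) :
    act (E hF hn u a b h) v = v + a + b • u := by
  rw [act_E, Efun_apply, hb.vu, herm_eq_zero_symm hF hav]
  simp

omit hn3 in
/-- uniqueness of the normal form -/
lemma E_unique {a a' : Fin n → F} {b b' : F} (h : Adm q u a b) (h' : Adm q u a' b') (hav : herm a v = 0) (hav' : herm a' v = 0)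
    (e : pr (E hF hn u a b h) = pr (E hF hn u a' b' h')) : a = a' ∧ b = b' := by
  have hu0 : u ≠ 0 := by
    rintro rfl
    have := hb.vu
    rw [herm_zero_right hF] at this
    exact zero_ne_one this
  have huv := Base.uv hF hb
  have e1 := eq_of_pr_eq hF hn hu0 (act_E_fix hF hn h hb.uu (herm_eq_zero_symm hF h.au))
    (act_E_fix hF hn h' hb.uu (herm_eq_zero_symm hF h'.au)) e
  have e2 := congrArg (fun t => act t v) e1
  simp only [E_value hF hn hb h hav, E_value hF hn hb h' hav'] at e2
  have e3 : a - a' = (b' - b) • u := by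
    have : v + a + b • u - (v + a' + b' • u) = 0 := sub_eq_zero.mpr e2
    rw [sub_smul]
    linear_combination (norm := module) this
  have e4 : herm (a - a') v = 0 := by
    rw [herm_sub_left hF, hav, hav', sub_zero]
  rw [e3, herm_smul_left, huv, mul_one] at e4
  have e5 : b = b' := (sub_eq_zero.mp e4).symm
  rw [e4, zero_smul] at e3
  exact ⟨sub_eq_zero.mp e3, e5⟩

end

/-- coordinates of an automorphism -/
structure Coord (hF : Fintype.card F = q ^ 2) (hn : 0 < n) {u : Fin n → F} (v : Fin n → F) (huu : herm u u = 0)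
    (α : MulAut PG) (φ : (Fin n → F) → (Fin n → F)) : Prop where
  mapW : ∀ a, herm a u = 0 → herm a v = 0 → herm (φ a) u = 0 ∧ herm (φ a) v = 0
  val : ∀ a b (h : Adm q u a b), herm a v = 0 → ∃ b' : F, ∃ h' : Adm q u (φ a) b', α (pr (E hF hn u a b h)) = pr (E hF hn u (φ a) b' h')

section
variable (hF : Fintype.card F = q ^ 2) (hn : 0 < n)
include hF hn

variable {p : ℕ} [hp : Fact p.Prime] [CharP F p]
variable {i₀ i₁ : Fin n} {u v : Fin n → F} (hb : Base q i₀ i₁ u v) (hn3 : 3 ≤ n)
include hb hn3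

include p in
/-- the coordinates exist -/
lemma exists_coord {α : MulAut PG} (hα : Pres α (TT hF hn hb.uu)) : ∃ φ, Coord hF hn v hb.uu α φ := by
  have key : ∀ a : Fin n → F, ∃ a', (herm a u = 0 → herm a v = 0 → herm a' u = 0 ∧ herm a' v = 0 ∧
      ∀ b (h : Adm q u a b), ∃ b' : F, ∃ h' : Adm q u a' b', α (pr (E hF hn u a b h)) = pr (E hF hn u a' b' h')) := by
    intro a
    by_cases hau : herm a u = 0
    · by_cases hav : herm a v = 0
      · obtain ⟨b₀, A₀⟩ := exists_adm hF hb.uu hau
        have h1 := QQ_map_le (p := p) hF hn hb hn3 hα ((mem_QQ hF hn).mpr ⟨a, b₀, A₀, rfl⟩)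
        obtain ⟨a₁, b₁, A₁, e₁⟩ := (mem_QQ hF hn).mp h1
        obtain ⟨a₂, b₂, A₂, h2, h3, e₂⟩ := E_normal hF hn hb A₁
        refine ⟨a₂, fun _ _ => ⟨h2, h3, fun b h => ?_⟩⟩
        -- the trace-zero difference
        have hd : (b - b₀) + (b - b₀) ^ q = 0 := by
          have t1 := h.tr
          have t2 := A₀.tr
          rw [pow_sub_q hF]
          linear_combination t1 - t2
        have Ad : Adm q u 0 (b - b₀) := admT hF hb.uu hd
        have e3 : E hF hn u a b h = E hF hn u a b₀ A₀ * E hF hn u 0 (b - b₀) Ad := by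
          rw [E_mul hF hn A₀ Ad]
          apply E_congr
          · rw [add_zero]
          · rw [herm_zero_left hF]
            ring
        have h4 : α (pr (E hF hn u 0 (b - b₀) Ad)) ∈ TT hF hn hb.uu :=
          (hα _).mpr ((mem_TT hF hn).mpr ⟨_, Ad, rfl⟩)
        obtain ⟨c, Ac, e4⟩ := (mem_TT hF hn).mp h4
        have A5 := Adm.mul hF A₂ Ac
        rw [add_zero] at A5
        refine ⟨_, A5, ?_⟩
        rw [e3, map_mul, map_mul, ← e₁, ← e4, e₂, ← map_mul, E_mul hF hn A₂ Ac]
        congr 1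
        apply E_congr
        · rw [add_zero]
        · rfl
      · exact ⟨0, fun _ h => absurd h hav⟩
    · exact ⟨0, fun h => absurd h hau⟩
  choose φ hφ using key
  refine ⟨φ, ?_, ?_⟩
  · intro a h1 h2
    exact ⟨(hφ a h1 h2).1, (hφ a h1 h2).2.1⟩
  · intro a b h hav
    exact (hφ a h.au hav).2.2 b h

end

end Cfsg.Agent.Lead.AutPSU
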