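import Cfsg.Agent.Lib.Lead.AutPSU8
/-! Automorphisms of `PSU`: properties of the coordinates. -/
set_option autoImplicit false
set_option linter.style.haveILetI false
set_option linter.unusedSimpArgs false
set_option linter.unusedSectionVars false
set_option linter.unusedVariables false
namespace Cfsg.Agent.Lead.AutPSU
open Matrix Cfsg.Agent.Lead Cfsg.Agent.Lead.PSU
open scoped MatrixGroups commutatorElement Pointwise

variable {F : Type*} [Field F] [Fintype F] {q n : ℕ}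

local notation "herm" => Cfsg.hermForm n F q
local notation "SUG" => Cfsg.SU n F q
local notation "PG" => (Cfsg.SU n F q ⧸ Subgroup.center (Cfsg.SU n F q))
local notation "pr" => (QuotientGroup.mk' (Subgroup.center (Cfsg.SU n F q)))

section
variable (hF : Fintype.card F = q ^ 2) (hn : 0 < n)
include hF hn

/-- the image of a conjugate root group -/
lemma TT_map_conj {α : MulAut PG} {v : Fin n → F} (hvv : herm v v = 0) (hα : Pres α (TT hF hn hvv)) {s s' : Cfsg.SU n F q}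
    (e : α (pr s) = pr s') (h1 : herm (act s v) (act s v) = 0) (h2 : herm (act s' v) (act s' v) = 0) :
    (TT hF hn h1).map α.toMonoidHom = TT hF hn h2 := by
  rw [← TT_conj hF hn s hvv h1, ← TT_conj hF hn s' hvv h2]
  ext x
  constructor
  · rintro ⟨_, ⟨y, hy, rfl⟩, rfl⟩
    refine ⟨α y, (hα y).mpr hy, ?_⟩
    change pr s' * α y * (pr s')⁻¹ = α (pr s * y * (pr s)⁻¹)
    rw [map_mul, map_mul, map_inv, e]
  · rintro ⟨y, hy, rfl⟩
    obtain ⟨y₀, rfl⟩ := α.surjective y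
    refine ⟨_, ⟨y₀, (hα y₀).mp hy, rfl⟩, ?_⟩
    change α (pr s * y₀ * (pr s)⁻¹) = pr s' * α y₀ * (pr s')⁻¹
    rw [map_mul, map_mul, map_inv, e]

/-- perpendicularity is preserved -/
lemma perp_map (hn3 : 3 ≤ n) {α : MulAut PG} {x y x' y' : Fin n → F} (hx : x ≠ 0) (hy : y ≠ 0) (hx' : x' ≠ 0) (hy' : y' ≠ 0)
    (hxx : herm x x = 0) (hyy : herm y y = 0) (hxx' : herm x' x' = 0) (hyy' : herm y' y' = 0)
    (ex : (TT hF hn hxx).map α.toMonoidHom = TT hF hn hxx') (ey : (TT hF hn hyy).map α.toMonoidHom = TT hF hn hyy')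
    (h : herm y x = 0) : herm y' x' = 0 := by
  by_contra hne
  obtain ⟨a, ha, b, hb, hab⟩ := not_comm_of_not_perp hF hn hn3 hx' hy' hxx' hyy' hne
  rw [← ex] at ha
  rw [← ey] at hb
  obtain ⟨a₀, ha₀, rfl⟩ := ha
  obtain ⟨b₀, hb₀, rfl⟩ := hb
  apply hab
  have := comm_of_perp hF hn hxx hyy h ha₀ hb₀
  change α a₀ * α b₀ = α b₀ * α a₀
  rw [← map_mul, ← map_mul, this]

/-- non-perpendicularity is preserved -/
lemma nonperp_map (hn3 : 3 ≤ n) {α : MulAut PG} {x y x' y' : Fin n → F} (hx : x ≠ 0) (hy : y ≠ 0) (hx' : x' ≠ 0) (hy' : y' ≠ 0)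
    (hxx : herm x x = 0) (hyy : herm y y = 0) (hxx' : herm x' x' = 0) (hyy' : herm y' y' = 0)
    (ex : (TT hF hn hxx).map α.toMonoidHom = TT hF hn hxx') (ey : (TT hF hn hyy).map α.toMonoidHom = TT hF hn hyy')
    (h : herm y x ≠ 0) : herm y' x' ≠ 0 := by
  intro hne
  apply h
  refine perp_map hF hn hn3 (α := α⁻¹) hx' hy' hx hy hxx' hyy' hxx hyy ?_ ?_ hne
  · rw [← ex]
    ext z
    constructor
    · rintro ⟨_, ⟨w, hw, rfl⟩, rfl⟩
      have e : α⁻¹ (α w) = w := α.symm_apply_apply w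
      change α⁻¹ (α w) ∈ _
      rwa [e]
    · intro hz
      refine ⟨α z, ⟨z, hz, rfl⟩, α.symm_apply_apply z⟩
  · rw [← ey]
    ext z
    constructor
    · rintro ⟨_, ⟨w, hw, rfl⟩, rfl⟩
      have e : α⁻¹ (α w) = w := α.symm_apply_apply w
      change α⁻¹ (α w) ∈ _
      rwa [e]
    · intro hz
      refine ⟨α z, ⟨z, hz, rfl⟩, α.symm_apply_apply z⟩

/-- lines are preserved -/
lemma line_map (hn3 : 3 ≤ n) {α : MulAut PG} {x y w x' y' w' : Fin n → F} (hx : x ≠ 0) (hy : y ≠ 0) (hw : w ≠ 0) (hx' : x' ≠ 0) (hy' : y' ≠ 0) (hw' : w' ≠ 0)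
    (hxx : herm x x = 0) (hyy : herm y y = 0) (hww : herm w w = 0) (hxx' : herm x' x' = 0) (hyy' : herm y' y' = 0) (hww' : herm w' w' = 0)
    (ex : (TT hF hn hxx).map α.toMonoidHom = TT hF hn hxx') (ey : (TT hF hn hyy).map α.toMonoidHom = TT hF hn hyy')
    (ew : (TT hF hn hww).map α.toMonoidHom = TT hF hn hww')
    (hp : herm y x ≠ 0) {c d : F} (e : w = c • x + d • y) : ∃ c' d' : F, w' = c' • x' + d' • y' := by
  apply mem_span_of_le hF hn hn3 hxx' hyy' hww' hw' (nonperp_map hF hn hn3 hx hy hx' hy' hxx hyy hxx' hyy' ex ey hp)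
  rw [← ex, ← ey, ← ew, ← Subgroup.map_sup]
  exact Subgroup.map_mono (le_of_mem_span hF hn hxx hyy hww hw hp e)

variable {p : ℕ} [hp : Fact p.Prime] [CharP F p]
variable {i₀ i₁ : Fin n} {u v : Fin n → F} (hb : Base q i₀ i₁ u v) (hn3 : 3 ≤ n)
variable {α : MulAut (Cfsg.SU n F q ⧸ Subgroup.center (Cfsg.SU n F q))} {φ : (Fin n → F) → (Fin n → F)} (hc : Coord hF hn v hb.uu α φ)
include hb hc

/-- the coordinates are additive -/
lemma Coord.add {a a' : Fin n → F} (hau : herm a u = 0) (hav : herm a v = 0) (hau' : herm a' u = 0) (hav' : herm a' v = 0) :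
    φ (a + a') = φ a + φ a' := by
  obtain ⟨b, A⟩ := exists_adm hF hb.uu hau
  obtain ⟨b', A'⟩ := exists_adm hF hb.uu hau'
  have A₁ := Adm.mul hF A A'
  have hav₁ : herm (a + a') v = 0 := by rw [herm_add_left, hav, hav', add_zero]
  obtain ⟨b₁, B, e⟩ := hc.val _ _ A hav
  obtain ⟨b₂, B', e'⟩ := hc.val _ _ A' hav'
  obtain ⟨b₃, B₁, e₁⟩ := hc.val _ _ A₁ hav₁
  have e₂ : pr (E hF hn u (a + a') _ A₁) = pr (E hF hn u a b A) * pr (E hF hn u a' b' A') := by
    rw [← map_mul, E_mul hF hn A A']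
  have e₃ : α (pr (E hF hn u (a + a') _ A₁)) = pr (E hF hn u (φ a + φ a') _ (Adm.mul hF B B')) := by
    rw [e₂, map_mul, e, e', ← map_mul, E_mul hF hn B B']
  rw [e₁] at e₃
  have h1 := hc.mapW _ hau hav
  have h2 := hc.mapW _ hau' hav'
  have h3 := hc.mapW _ (herm_add_left (n := n) (F := F) (q := q) a a' u ▸ by rw [hau, hau', add_zero]) hav₁
  exact (E_unique hF hn hb B₁ _ h3.2 (by rw [herm_add_left, h1.2, h2.2, add_zero]) e₃).1

/-- the coordinates are injective -/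
lemma Coord.zero_of {x : Fin n → F} (hα : Pres α (TT hF hn hb.uu)) (hxu : herm x u = 0) (hxv : herm x v = 0) (h0 : φ x = 0) : x = 0 := by
  obtain ⟨b, A⟩ := exists_adm hF hb.uu hxu
  obtain ⟨b', B, e⟩ := hc.val _ _ A hxv
  have B' : Adm q u 0 b' := by
    rw [← h0]
    exact B
  have e2 : E hF hn u (φ x) b' B = E hF hn u 0 b' B' := E_congr hF hn _ _ h0 rfl
  rw [e2] at e
  have h1 : α (pr (E hF hn u x b A)) ∈ TT hF hn hb.uu := by
    rw [e]
    exact (mem_TT hF hn).mpr ⟨b', B', rfl⟩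
  have h2 := (hα _).mp h1
  obtain ⟨c, C, e3⟩ := (mem_TT hF hn).mp h2
  exact (E_unique hF hn hb C A (herm_zero_left hF v) hxv e3).1.symm

lemma Coord.zero (hn3 : 3 ≤ n) : φ 0 = 0 := by
  have h := Coord.add hF hn hb hc (a := 0) (a' := 0) (herm_zero_left hF u) (herm_zero_left hF v) (herm_zero_left hF u) (herm_zero_left hF v)
  rw [add_zero] at h
  exact left_eq_add.mp h

/-- the coordinates are injective -/
lemma Coord.inj (hα : Pres α (TT hF hn hb.uu)) {x y : Fin n → F} (hxu : herm x u = 0) (hxv : herm x v = 0) (hyu : herm y u = 0) (hyv : herm y v = 0)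
    (e : φ x = φ y) : x = y := by
  have h1 : herm (x - y) u = 0 := by rw [herm_sub_left hF, hxu, hyu, sub_zero]
  have h2 : herm (x - y) v = 0 := by rw [herm_sub_left hF, hxv, hyv, sub_zero]
  have h3 := Coord.add hF hn hb hc h1 h2 hyu hyv
  rw [sub_add_cancel, e] at h3
  have h4 : φ (x - y) = 0 := by
    exact (left_eq_add.mp (h3.trans (add_comm _ _))).symm ▸ rfl
  exact sub_eq_zero.mp (Coord.zero_of hF hn hb hc hα h1 h2 h4)

include p hn3 in
/-- the coordinates are surjective -/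
lemma Coord.surj (hα : Pres α (TT hF hn hb.uu)) {y : Fin n → F} (hyu : herm y u = 0) (hyv : herm y v = 0) :
    ∃ x, herm x u = 0 ∧ herm x v = 0 ∧ φ x = y := by
  obtain ⟨φ', hc'⟩ := exists_coord (p := p) hF hn hb hn3 hα.symm
  obtain ⟨h1, h2⟩ := hc'.mapW y hyu hyv
  refine ⟨φ' y, h1, h2, ?_⟩
  obtain ⟨b, A⟩ := exists_adm hF hb.uu hyu
  obtain ⟨b', B, e⟩ := hc'.val _ _ A hyv
  obtain ⟨b₂, C, e₂⟩ := hc.val _ _ B h2
  have e₃ : pr (E hF hn u y b A) = pr (E hF hn u (φ (φ' y)) b₂ C) := by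
    rw [← e₂, ← e]
    exact (α.apply_symm_apply _).symm
  exact (E_unique hF hn hb A C hyv (hc.mapW _ h1 h2).2 e₃).1.symm

/-- the action on root groups -/
lemma Coord.map_TT (hαv : Pres α (TT hF hn hb.vv)) {a : Fin n → F} {b b' : F} (A : Adm q u a b) (B : Adm q u (φ a) b') (hav : herm a v = 0)
    (e : α (pr (E hF hn u a b A)) = pr (E hF hn u (φ a) b' B))
    (h1 : herm (v + a + b • u) (v + a + b • u) = 0) (h2 : herm (v + φ a + b' • u) (v + φ a + b' • u) = 0) :
    (TT hF hn h1).map α.toMonoidHom = TT hF hn h2 := by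
  have hav' := (hc.mapW _ A.au hav).2
  have e1 := E_value hF hn hb A hav
  have e2 := E_value hF hn hb B hav'
  have h3 := herm_act_self hF (E hF hn u a b A) hb.vv
  have h4 := herm_act_self hF (E hF hn u (φ a) b' B) hb.vv
  rw [TT_congr hF hn e1.symm h1 h3, TT_congr hF hn e2.symm h2 h4]
  exact TT_map_conj hF hn hb.vv hαv e h3 h4

omit hc in
/-- the point of a normal form is isotropic -/
lemma point_iso {a : Fin n → F} {b : F} (A : Adm q u a b) (hav : herm a v = 0) : herm (v + a + b • u) (v + a + b • u) = 0 := by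
  rw [← E_value hF hn hb A hav]
  exact herm_act_self hF _ hb.vv

omit hc in
lemma point_ne {a : Fin n → F} {b : F} (A : Adm q u a b) : v + a + b • u ≠ 0 := by
  intro h
  have h1 := congrArg (fun t => herm t u) h
  simp only [herm_add_left, herm_smul_left, hb.vu, hb.uu, A.au, herm_zero_left hF, add_zero, mul_zero] at h1
  exact one_ne_zero h1

/-- a trace-zero map on the root group -/
lemma Coord.exists_tau (hα : Pres α (TT hF hn hb.uu)) :
    ∃ τ : F → F, ∀ (c : F) (h : Adm q u 0 c), ∃ h' : Adm q u 0 (τ c), α (pr (E hF hn u 0 c h)) = pr (E hF hn u 0 (τ c) h') := by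
  have key : ∀ c : F, ∃ c' : F, ∀ h : Adm q u 0 c, ∃ h' : Adm q u 0 c', α (pr (E hF hn u 0 c h)) = pr (E hF hn u 0 c' h') := by
    intro c
    by_cases hc' : Adm q u 0 c
    · have h1 := (hα _).mpr ((mem_TT hF hn).mpr ⟨c, hc', rfl⟩)
      obtain ⟨c', C, e⟩ := (mem_TT hF hn).mp h1
      exact ⟨c', fun h => ⟨C, e.symm⟩⟩
    · exact ⟨0, fun h => absurd h hc'⟩
  choose τ hτ using key
  exact ⟨τ, fun c h => hτ c h⟩

/-- the commutator relation -/
lemma Coord.comm_rel {τ : F → F} (hτ : ∀ (c : F) (h : Adm q u 0 c), ∃ h' : Adm q u 0 (τ c), α (pr (E hF hn u 0 c h)) = pr (E hF hn u 0 (τ c) h'))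
    {a a' : Fin n → F} (hau : herm a u = 0) (hav : herm a v = 0) (hau' : herm a' u = 0) (hav' : herm a' v = 0) :
    τ (herm a a' - herm a' a) = herm (φ a) (φ a') - herm (φ a') (φ a) := by
  obtain ⟨b, A⟩ := exists_adm hF hb.uu hau
  obtain ⟨b', A'⟩ := exists_adm hF hb.uu hau'
  obtain ⟨b₁, B, e⟩ := hc.val _ _ A hav
  obtain ⟨b₂, B', e'⟩ := hc.val _ _ A' hav'
  have h0 := adm_comm hF A A'
  obtain ⟨h', e₁⟩ := hτ _ h0
  have e₂ : pr (E hF hn u 0 _ h0) = ⁅pr (E hF hn u a b A), pr (E hF hn u a' b' A')⁆ := by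
    rw [← E_commutator hF hn A A', map_commutatorElement]
  have e₃ : α (pr (E hF hn u 0 _ h0)) = pr (E hF hn u 0 _ (adm_comm hF B B')) := by
    rw [e₂, map_commutatorElement, e, e', ← map_commutatorElement, E_commutator hF hn B B']
  rw [e₁] at e₃
  exact (E_unique hF hn hb h' _ (herm_zero_left hF v) (herm_zero_left hF v) e₃).2

end

end Cfsg.Agent.Lead.AutPSU
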