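import Cfsg.Agent.Lib.Lead.AutPSpOut
/-! `Out(PSp₄(2^f))` is cyclic of order `2f`. -/
set_option autoImplicit false
set_option linter.style.haveILetI false
set_option linter.unusedSimpArgs false
set_option linter.unusedSectionVars false
set_option linter.unusedVariables false
namespace Cfsg.Agent.Lead.AutPSp
open Matrix

variable {F : Type*} [Field F] [Fintype F]

local notation "P2" => (symplecticGroup (Fin 2) F ⧸ Subgroup.center (symplecticGroup (Fin 2) F))

/-- the field part of a conformal-semilinear automorphism is read off on a root group -/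
lemma field_part {σ τ : F ≃+* F} {g : Cfsg.GSp 2 F} {e : I4 → F} (he : e ≠ 0) (hfix : smap σ e = e)
    (H : ∀ a : F, (kk g * fldS σ : MulAut P2) (pr (Fin 2) F (sympT e a)) = pr (Fin 2) F (sympT e (τ a))) : σ = τ := by
  classical
  have key : ∀ a : F, sympT e (τ a) = sympT ((g.1 : Matrix I4 I4 F) *ᵥ e) ((mulC g : F)⁻¹ * σ a) := by
    intro a
    have h1 := H a
    change kk g (fldS σ (pr (Fin 2) F (sympT e a))) = _ at h1
    rw [fldS_sympT, kk_sympT, hfix] at h1
    exact (pr_sympT_inj h1).symm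
  have h1 := key 1
  rw [map_one, map_one] at h1
  obtain ⟨k, hk, e1⟩ := par_of_sympT_eq one_ne_zero he h1
  have h2 : (g.1 : Matrix I4 I4 F) *ᵥ e = k⁻¹ • e := by
    calc (g.1 : Matrix I4 I4 F) *ᵥ e
        = k⁻¹ • (k • (g.1 : Matrix I4 I4 F) *ᵥ e) := by
          rw [smul_smul, inv_mul_cancel₀ hk, one_smul]
      _ = k⁻¹ • e := by rw [← e1]
  simp only [h2, sympT_smul] at key
  have hinj : ∀ a b : F, sympT e a = sympT e b → a = b := by
    intro a b hab
    obtain ⟨z, hz⟩ := exists_x0 he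
    have h3 := congrArg (fun t => ap t z) hab
    simp only [ap_sympT, hz, mul_one] at h3
    have h4 := add_left_cancel h3
    have h5 : (a - b) • e = 0 := by rw [sub_smul, h4, sub_self]
    exact sub_eq_zero.mp ((smul_eq_zero.mp h5).resolve_right he)
  have h3 : (mulC g : F)⁻¹ * (k⁻¹) ^ 2 = 1 := by
    have := hinj _ _ (key 1)
    rw [map_one, map_one, mul_one] at this
    exact this.symm
  ext a
  have h4 := hinj _ _ (key a)
  rw [h4]
  calc σ a = ((mulC g : F)⁻¹ * (k⁻¹) ^ 2) * σ a := by rw [h3, one_mul]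
    _ = _ := by ring

/-- squaring in characteristic two -/
noncomputable def sqHom (h2 : (2 : F) = 0) : F →+* F where
  toFun x := x ^ 2
  map_one' := one_pow 2
  map_mul' x y := mul_pow x y 2
  map_zero' := by simp
  map_add' x y := by linear_combination (x * y) * h2

/-- the Frobenius automorphism -/
noncomputable def Fr (h2 : (2 : F) = 0) : F ≃+* F :=
  RingEquiv.ofBijective (sqHom h2)
    ⟨(sqHom h2).injective, Finite.surjective_of_injective (sqHom h2).injective⟩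

lemma Fr_apply (h2 : (2 : F) = 0) (x : F) : Fr h2 x = x ^ 2 := rfl

lemma Fr_pow_apply (h2 : (2 : F) = 0) (j : ℕ) (x : F) : (Fr h2 ^ j) x = x ^ (2 ^ j) := by
  induction j generalizing x with
  | zero => simp
  | succ j ih =>
    rw [pow_succ]
    change (Fr h2 ^ j) (Fr h2 x) = _
    rw [ih, Fr_apply, ← pow_mul, pow_succ, mul_comm]

lemma orderOf_Fr {f : ℕ} (hF : Fintype.card F = 2 ^ f) (hf : 1 ≤ f) (h2 : (2 : F) = 0) :
    orderOf (Fr h2) = f := by
  haveI : Fact (Nat.Prime 2) := ⟨Nat.prime_two⟩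
  haveI : Finite (F ≃+* F) := Finite.of_injective (fun σ : F ≃+* F => (σ : F → F)) DFunLike.coe_injective
  have h1 : orderOf (Fr h2) ∣ f := by
    have := orderOf_dvd_natCard (Fr h2)
    rwa [Cfsg.Agent.Lead.AutPSL.card_ringAut hF hf] at this
  apply Nat.le_antisymm (Nat.le_of_dvd (by omega) h1)
  set j := orderOf (Fr h2) with hj
  have hj0 : 0 < j := orderOf_pos _
  have h3 : Fr h2 ^ j = 1 := pow_orderOf_eq_one _
  have h4 : ∀ x : Fˣ, x ^ (2 ^ j - 1) = 1 := by
    intro x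
    have h5 : (x : F) ^ (2 ^ j) = x := by
      rw [← Fr_pow_apply h2, h3]
      rfl
    have h6 : 2 ^ j = (2 ^ j - 1) + 1 := by
      have : 1 ≤ 2 ^ j := Nat.one_le_two_pow
      omega
    apply Units.ext
    rw [h6, pow_succ] at h5
    have h7 : (x : F) ^ (2 ^ j - 1) * x = 1 * x := by
      rw [one_mul]
      exact h5
    have h8 := mul_right_cancel₀ x.ne_zero h7
    simpa using h8
  have h5 := (FiniteField.forall_pow_eq_one_iff F (2 ^ j - 1)).mp h4
  have h6 : 0 < 2 ^ j - 1 := by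
    have : 2 ^ 1 ≤ 2 ^ j := Nat.pow_le_pow_right (by norm_num) hj0
    omega
  have h7 := Nat.le_of_dvd h6 h5
  rw [hF] at h7
  have h8 : 1 ≤ 2 ^ f := Nat.one_le_two_pow
  have h9 : 2 ^ f ≤ 2 ^ j := by omega
  exact (Nat.pow_le_pow_iff_right (by norm_num)).mp h9

lemma Fr_pow_eq_one {f j : ℕ} (hF : Fintype.card F = 2 ^ f) (hf : 1 ≤ f) (h2 : (2 : F) = 0)
    (h : Fr h2 ^ j = 1) : f ∣ j := by
  rw [← orderOf_Fr hF hf h2]
  exact orderOf_dvd_of_pow_eq_one h

lemma smap_e0 (σ : F ≃+* F) : smap σ (e0 : I4 → F) = e0 := by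
  funext i
  by_cases hi : i = iA
  · subst hi; simp [smap, e0]
  · simp [smap, e0, Pi.single_apply, hi]

/-- the square of the exceptional automorphism has field part Frobenius -/
lemma psiB_sq_eq {p : ℕ} [Fact p.Prime] [CharP F p] (h2 : (2 : F) = 0) :
    ∃ g : Cfsg.GSp 2 F, (psiB h2 * psiB h2 : MulAut P2) = kk g * fldS (Fr h2) := by
  obtain ⟨g, σ, e⟩ := adm_factor (p := p) le_rfl h2 (psiB_sq_adm h2)
  refine ⟨g, ?_⟩
  have : σ = Fr h2 := by
    apply field_part e0_ne (smap_e0 σ) (g := g)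
    intro a
    rw [← e, psiB_sq_T0]
    rfl
  rw [e, this]

/-- the order of `Out` -/
theorem card_out_two {f : ℕ} (hF : Fintype.card F = 2 ^ f) (hf : 1 ≤ f) (h2 : (2 : F) = 0) :
    Nat.card (Cfsg.Out (Cfsg.PSp 2 F)) = 2 * f := by
  haveI : Fact (Nat.Prime 2) := ⟨Nat.prime_two⟩
  haveI : CharP F 2 := Cfsg.Agent.Lead.AutPSL.charP_of_card hF hf
  have h3 := Subgroup.card_eq_card_quotient_mul_card_subgroup (Cfsg.Inn (Cfsg.PSp 2 F))
  have h4 : Nat.card (Cfsg.Inn (Cfsg.PSp 2 F)) = Nat.card (symplecticGroup (Fin 2) F) := by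
    have := range_kk_eq_inn (m := 2) (F := F) h2
    change Nat.card ↥(Cfsg.Inn P2) = _
    rw [← this]
    exact card_kk_range
  rw [h4] at h3
  have h5 : Nat.card (MulAut (Cfsg.PSp 2 F)) = _ := card_aut_exc (p := 2) h2
  rw [h5, Cfsg.Agent.Lead.AutPSL.card_ringAut hF hf] at h3
  have h6 : 0 < Nat.card (symplecticGroup (Fin 2) F) := Nat.card_pos
  apply Nat.eq_of_mul_eq_mul_right h6
  change _ = Nat.card (MulAut P2 ⧸ Cfsg.Inn P2) * _ at h3
  change Nat.card (MulAut P2 ⧸ Cfsg.Inn P2) * _ = _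
  rw [← h3]
  ring

/-- the order of the class of the exceptional automorphism -/
theorem dvd_orderOf_psiB {f : ℕ} (hF : Fintype.card F = 2 ^ f) (hf : 1 ≤ f) (h2 : (2 : F) = 0) :
    2 * f ∣ orderOf ((QuotientGroup.mk (psiB h2) : Cfsg.Out (Cfsg.PSp 2 F))) := by
  haveI : Fact (Nat.Prime 2) := ⟨Nat.prime_two⟩
  haveI : CharP F 2 := Cfsg.Agent.Lead.AutPSL.charP_of_card hF hf
  set n := orderOf ((QuotientGroup.mk (psiB h2) : Cfsg.Out (Cfsg.PSp 2 F))) with hn
  let q : MulAut P2 →* Cfsg.Out (Cfsg.PSp 2 F) := QuotientGroup.mk' (Cfsg.Inn P2)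
  have hq : ∀ x : MulAut P2, q x = 1 ↔ x ∈ Cfsg.Inn P2 := fun x => QuotientGroup.eq_one_iff x
  have h1 : (q (psiB h2)) ^ n = 1 := pow_orderOf_eq_one _
  obtain ⟨g₁, hg₁⟩ := psiB_sq_eq (p := 2) h2
  have hK : ∀ g : Cfsg.GSp 2 F, q (kk g) = 1 := by
    intro g
    rw [hq, ← range_kk_eq_inn h2]
    exact ⟨g, rfl⟩
  have h3 : q (psiB h2) * q (psiB h2) = q (fldS (Fr h2)) := by
    rw [← map_mul, hg₁, map_mul, hK, one_mul]
  rcases Nat.even_or_odd' n with ⟨j, hj | hj⟩
  · -- even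
    rw [hj]
    apply Nat.mul_dvd_mul_left
    apply Fr_pow_eq_one hF hf h2
    rw [hj, pow_mul, pow_two, h3, ← map_pow, ← map_pow, hq, ← range_kk_eq_inn h2] at h1
    obtain ⟨g, hg⟩ := h1
    exact fldS_eq_kk hg.symm
  · -- odd
    exfalso
    have h4 : q ((psiB h2 * psiB h2) ^ j * psiB h2) = 1 := by
      rw [map_mul, map_pow, map_mul, ← pow_two, ← pow_mul, ← pow_succ, ← hj]
      exact h1
    rw [hq, ← range_kk_eq_inn h2] at h4
    obtain ⟨g, hg⟩ := h4
    have h5 : (psiB h2 * psiB h2) ^ j * psiB h2 ∈ admS (Fin 2) F := by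
      rw [← hg]
      exact kk_adm g
    have h6 : (psiB h2 * psiB h2) ^ j ∈ admS (Fin 2) F := Subgroup.pow_mem _ (psiB_sq_adm h2) j
    have h7 := (Subgroup.mul_mem_cancel_left _ h6).mp h5
    exact psiB_not_adm h2 h7

/-- `Out(PSp₄(2^f))` is cyclic of order `2f` -/
theorem out_two {f : ℕ} (hf : 1 ≤ f) (hF : Fintype.card F = 2 ^ f) :
    IsCyclic (Cfsg.Out (Cfsg.PSp 2 F)) ∧ Nat.card (Cfsg.Out (Cfsg.PSp 2 F)) = 2 * f := by
  classical
  haveI : Fact (Nat.Prime 2) := ⟨Nat.prime_two⟩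
  haveI : CharP F 2 := Cfsg.Agent.Lead.AutPSL.charP_of_card hF hf
  have h2 : (2 : F) = 0 := by
    have := CharP.cast_eq_zero F 2
    exact_mod_cast this
  have hc := card_out_two hF hf h2
  refine ⟨?_, hc⟩
  haveI : Finite (Cfsg.Out (Cfsg.PSp 2 F)) := inferInstance
  haveI : Fintype (Cfsg.Out (Cfsg.PSp 2 F)) := Fintype.ofFinite _
  apply isCyclic_of_orderOf_eq_card (QuotientGroup.mk (psiB h2) : Cfsg.Out (Cfsg.PSp 2 F))
  change _ = Nat.card (Cfsg.Out (Cfsg.PSp 2 F))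
  rw [hc]
  apply Nat.dvd_antisymm
  · rw [← hc]
    exact orderOf_dvd_natCard _
  · exact dvd_orderOf_psiB hF hf h2

end Cfsg.Agent.Lead.AutPSp
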