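import Mathlib
/-! The `p`-adic valuation of `|GL_n(q)|`. -/
set_option autoImplicit false
set_option linter.unusedSimpArgs false
namespace Cfsg.Agent.Lead
open Matrix
open scoped MatrixGroups

/-- `p`-adic valuation of `|GL_n(q)|`. -/
theorem factorization_prod_GL (p f q n : ℕ) (hp : p.Prime) (hf : f ≠ 0) (hq : q = p ^ f) :
    (∏ i : Fin n, (q ^ n - q ^ (i : ℕ))).factorization p = f * (n * (n - 1) / 2) := by
  have hq2 : 2 ≤ q := by
    rw [hq]; exact le_trans hp.two_le (Nat.le_self_pow hf p)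
  have hqpos : 0 < q := by omega
  have hterm : ∀ i : Fin n, (q ^ n - q ^ (i : ℕ)) = q ^ (i : ℕ) * (q ^ (n - i : ℕ) - 1) := by
    intro i
    have hi : (i : ℕ) ≤ n := i.2.le
    rw [Nat.mul_sub, mul_one, ← pow_add]
    congr 2
    omega
  have hne : ∀ i : Fin n, q ^ (n - i : ℕ) - 1 ≠ 0 := by
    intro i
    have hi : 0 < n - (i : ℕ) := Nat.sub_pos_of_lt i.2
    have : 2 ≤ q ^ (n - i : ℕ) := le_trans hq2 (Nat.le_self_pow hi.ne' q)
    omega
  have hnd : ∀ i : Fin n, ¬ p ∣ q ^ (n - i : ℕ) - 1 := by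
    intro i h
    have hi : 0 < n - (i : ℕ) := Nat.sub_pos_of_lt i.2
    have h1 : p ∣ q := by rw [hq]; exact dvd_pow_self p hf
    have h2 : p ∣ q ^ (n - i : ℕ) := dvd_pow h1 hi.ne'
    have hle : 1 ≤ q ^ (n - i : ℕ) := Nat.one_le_pow _ _ hqpos
    have := (Nat.dvd_sub_iff_right hle h2).1 h
    exact hp.one_lt.ne' (Nat.dvd_one.1 this)
  have hval : ∀ i : Fin n, (q ^ n - q ^ (i : ℕ)).factorization p = f * (i : ℕ) := by
    intro i
    rw [hterm, Nat.factorization_mul (pow_ne_zero _ hqpos.ne') (hne i)]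
    simp only [Finsupp.coe_add, Pi.add_apply]
    rw [Nat.factorization_eq_zero_of_not_dvd (hnd i), add_zero, Nat.factorization_pow, hq,
      Nat.factorization_pow]
    simp [hp.factorization]
    ring
  have hprod : (∏ i : Fin n, (q ^ n - q ^ (i : ℕ))) ≠ 0 := by
    apply Finset.prod_ne_zero_iff.2
    intro i _
    rw [hterm]
    exact mul_ne_zero (pow_ne_zero _ hqpos.ne') (hne i)
  rw [Nat.factorization_prod_apply (fun i _ => by
    rw [hterm]; exact mul_ne_zero (pow_ne_zero _ hqpos.ne') (hne i))]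
  simp only [hval]
  rw [← Finset.mul_sum, Fin.sum_univ_eq_sum_range (fun i => i) n, Finset.sum_range_id]

end Cfsg.Agent.Lead
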