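import Cfsg.Agent.Lib.Lead.LangPSL3
import Cfsg.Agent.Lib.Lead.OrthoOrder
/-! Graph automorphisms of `PSL_n` and bilinear forms: conjugacy and centralizers. -/
set_option autoImplicit false
set_option linter.style.haveILetI false
set_option linter.unusedSimpArgs false
set_option linter.unusedSectionVars false
set_option linter.unusedVariables false
set_option linter.deprecated false
namespace Cfsg.Agent.Lead.Fm
open Matrix Matrix.SpecialLinearGroup Module
open Cfsg.Agent.Lead.AutPSL Cfsg.Agent.Lead.Lang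
open scoped MatrixGroups

variable {F : Type*} [Field F]

section Bf
variable {ι : Type*} [Fintype ι] [DecidableEq ι]

/-- the bilinear form with Gram matrix `G` -/
def bf (G : Matrix ι ι F) (x y : ι → F) : F := x ⬝ᵥ (G *ᵥ y)

lemma bf_mat (M P : Matrix ι ι F) (x y : ι → F) : bf M (P *ᵥ x) (P *ᵥ y) = bf (Pᵀ * M * P) x y := by
  unfold bf
  rw [← Matrix.mulVec_mulVec, ← Matrix.mulVec_mulVec, Matrix.dotProduct_mulVec x, Matrix.vecMul_transpose]

lemma mat_ext {M N : Matrix ι ι F} (h : ∀ x y, bf M x y = bf N x y) : M = N := by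
  ext i j
  have := h (Pi.single i 1) (Pi.single j 1)
  simpa [bf, Matrix.mulVec_single, single_dotProduct] using this

lemma bf_smul_mat (c : F) (M : Matrix ι ι F) (x y : ι → F) : bf (c • M) x y = c * bf M x y := by
  unfold bf
  rw [Matrix.smul_mulVec, dotProduct_smul, smul_eq_mul]

lemma bf_transpose (M : Matrix ι ι F) (x y : ι → F) : bf Mᵀ x y = bf M y x := by
  unfold bf
  rw [Matrix.mulVec_transpose, dotProduct_comm, Matrix.dotProduct_mulVec]

lemma bf_add_left (M : Matrix ι ι F) (x y z : ι → F) : bf M (x + y) z = bf M x z + bf M y z := by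
  unfold bf
  rw [add_dotProduct]

lemma bf_add_right (M : Matrix ι ι F) (x y z : ι → F) : bf M x (y + z) = bf M x y + bf M x z := by
  unfold bf
  rw [Matrix.mulVec_add, dotProduct_add]

lemma bf_smul_left (M : Matrix ι ι F) (c : F) (x z : ι → F) : bf M (c • x) z = c * bf M x z := by
  unfold bf
  rw [smul_dotProduct, smul_eq_mul]

lemma bf_smul_right (M : Matrix ι ι F) (c : F) (x z : ι → F) : bf M x (c • z) = c * bf M x z := by
  unfold bf
  rw [Matrix.mulVec_smul, dotProduct_smul, smul_eq_mul]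

end Bf

section Transport
variable {ι ι' : Type} [Fintype ι] [DecidableEq ι] [Fintype ι'] [DecidableEq ι']

/-- the matrix of a linear equivalence -/
noncomputable def matL (L : (ι' → F) ≃ₗ[F] (ι → F)) : Matrix ι ι' F := LinearMap.toMatrix' L.toLinearMap

lemma matL_mulVec (L : (ι' → F) ≃ₗ[F] (ι → F)) (v : ι' → F) : matL L *ᵥ v = L v := by
  unfold matL
  rw [LinearMap.toMatrix'_mulVec]
  rfl

lemma matL_mul (L : (ι' → F) ≃ₗ[F] (ι → F)) : matL L * matL L.symm = 1 := by
  apply Matrix.mulVec_injective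
  funext v
  rw [← Matrix.mulVec_mulVec, matL_mulVec, matL_mulVec, Matrix.one_mulVec, LinearEquiv.apply_symm_apply]

lemma matL_mul' (L : (ι' → F) ≃ₗ[F] (ι → F)) : matL L.symm * matL L = 1 := by
  apply Matrix.mulVec_injective
  funext v
  rw [← Matrix.mulVec_mulVec, matL_mulVec, matL_mulVec, Matrix.one_mulVec, LinearEquiv.symm_apply_apply]

/-- conjugation by a linear equivalence -/
noncomputable def cL (L : (ι' → F) ≃ₗ[F] (ι → F)) : GL ι' F ≃* GL ι F where
  toFun g := ⟨matL L * g.val * matL L.symm, matL L * (g⁻¹).val * matL L.symm, by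
      calc matL L * g.val * matL L.symm * (matL L * (g⁻¹).val * matL L.symm)
          = matL L * g.val * (matL L.symm * matL L) * (g⁻¹).val * matL L.symm := by simp only [Matrix.mul_assoc]
        _ = 1 := by
          rw [matL_mul', Matrix.mul_one, Matrix.mul_assoc (matL L), ← Units.val_mul, mul_inv_cancel, Units.val_one, Matrix.mul_one, matL_mul], by
      calc matL L * (g⁻¹).val * matL L.symm * (matL L * g.val * matL L.symm)
          = matL L * (g⁻¹).val * (matL L.symm * matL L) * g.val * matL L.symm := by simp only [Matrix.mul_assoc]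
        _ = 1 := by
          rw [matL_mul', Matrix.mul_one, Matrix.mul_assoc (matL L), ← Units.val_mul, inv_mul_cancel, Units.val_one, Matrix.mul_one, matL_mul]⟩
  invFun h := ⟨matL L.symm * h.val * matL L, matL L.symm * (h⁻¹).val * matL L, by
      calc matL L.symm * h.val * matL L * (matL L.symm * (h⁻¹).val * matL L)
          = matL L.symm * h.val * (matL L * matL L.symm) * (h⁻¹).val * matL L := by simp only [Matrix.mul_assoc]
        _ = 1 := by
          rw [matL_mul, Matrix.mul_one, Matrix.mul_assoc (matL L.symm), ← Units.val_mul, mul_inv_cancel, Units.val_one, Matrix.mul_one, matL_mul'], by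
      calc matL L.symm * (h⁻¹).val * matL L * (matL L.symm * h.val * matL L)
          = matL L.symm * (h⁻¹).val * (matL L * matL L.symm) * h.val * matL L := by simp only [Matrix.mul_assoc]
        _ = 1 := by
          rw [matL_mul, Matrix.mul_one, Matrix.mul_assoc (matL L.symm), ← Units.val_mul, inv_mul_cancel, Units.val_one, Matrix.mul_one, matL_mul']⟩
  left_inv g := by
    apply Units.ext
    change matL L.symm * (matL L * g.val * matL L.symm) * matL L = g.val
    calc matL L.symm * (matL L * g.val * matL L.symm) * matL L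
        = (matL L.symm * matL L) * g.val * (matL L.symm * matL L) := by simp only [Matrix.mul_assoc]
      _ = g.val := by rw [matL_mul']; simp
  right_inv h := by
    apply Units.ext
    change matL L * (matL L.symm * h.val * matL L) * matL L.symm = h.val
    calc matL L * (matL L.symm * h.val * matL L) * matL L.symm
        = (matL L * matL L.symm) * h.val * (matL L * matL L.symm) := by simp only [Matrix.mul_assoc]
      _ = h.val := by rw [matL_mul]; simp
  map_mul' a b := by
    apply Units.ext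
    change matL L * (a * b).val * matL L.symm = (matL L * a.val * matL L.symm) * (matL L * b.val * matL L.symm)
    calc matL L * (a * b).val * matL L.symm = matL L * a.val * (matL L.symm * matL L) * b.val * matL L.symm := by
          rw [matL_mul', Units.val_mul]
          simp only [Matrix.mul_one, Matrix.mul_assoc]
      _ = _ := by simp only [Matrix.mul_assoc]

lemma cL_val (L : (ι' → F) ≃ₗ[F] (ι → F)) (g : GL ι' F) : (cL L g).val = matL L * g.val * matL L.symm := rfl

lemma cL_mulVec (L : (ι' → F) ≃ₗ[F] (ι → F)) (g : GL ι' F) (v : ι → F) :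
    (cL L g).val *ᵥ v = L (g.val *ᵥ L.symm v) := by
  rw [cL_val, ← Matrix.mulVec_mulVec, ← Matrix.mulVec_mulVec, matL_mulVec, matL_mulVec]

lemma cL_symm_mulVec (L : (ι' → F) ≃ₗ[F] (ι → F)) (h : GL ι F) (v : ι' → F) :
    ((cL L).symm h).val *ᵥ v = L.symm (h.val *ᵥ L v) := by
  change (matL L.symm * h.val * matL L) *ᵥ v = _
  rw [← Matrix.mulVec_mulVec, ← Matrix.mulVec_mulVec, matL_mulVec, matL_mulVec]

/-- the group element given by a linear equivalence -/
noncomputable def glOf (L : (ι → F) ≃ₗ[F] (ι → F)) : GL ι F :=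
  ⟨matL L, matL L.symm, matL_mul L, matL_mul' L⟩

lemma glOf_mulVec (L : (ι → F) ≃ₗ[F] (ι → F)) (v : ι → F) : (glOf L).val *ᵥ v = L v := matL_mulVec L v

end Transport

section Core
variable {n : ℕ}

local notation "PS" => ProjectiveSpecialLinearGroup (Fin n) F

/-- the graph automorphism of a form -/
noncomputable def gg (G : GL (Fin n) F) : MulAut PS := cc G⁻¹ * gam

/-- `P ↦ Pᵀ` -/
def trG (P : GL (Fin n) F) : GL (Fin n) F := (invT P)⁻¹

lemma trG_val (P : GL (Fin n) F) : (trG P).val = (P.val)ᵀ := rfl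

lemma cc_eq_cc_iff [Nontrivial (Fin n)] (g h : GL (Fin n) F) : (cc g : MulAut PS) = cc h ↔ ∃ u : Fˣ, g = sc u * h := by
  constructor
  · intro e
    have e1 : (cc (g * h⁻¹) : MulAut PS) = 1 := by
      rw [map_mul, e, map_inv, mul_inv_cancel]
    rw [cc_eq_one_iff, Matrix.GeneralLinearGroup.center_eq_range_scalar] at e1
    obtain ⟨u, hu⟩ := e1
    refine ⟨u, ?_⟩
    have hu' : (sc u : GL (Fin n) F) = g * h⁻¹ := hu
    rw [hu', inv_mul_cancel_right]
  · rintro ⟨u, rfl⟩
    rw [map_mul, cc_sc, one_mul]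

lemma gam_inv_cc (P : GL (Fin n) F) : (gam * (cc P)⁻¹ : MulAut PS) = cc (trG P) * gam := by
  have e := gam_cc (ι := Fin n) (F := F) P
  have e1 : (cc (trG P) : MulAut PS) = (cc (invT P))⁻¹ := by
    rw [trG, map_inv]
  rw [e1, eq_inv_mul_iff_mul_eq, ← mul_assoc, ← e, mul_assoc, mul_inv_cancel, mul_one]

lemma conj_gg (P G : GL (Fin n) F) : (cc P * gg G * (cc P)⁻¹ : MulAut PS) = cc (P * G⁻¹ * trG P) * gam := by
  unfold gg
  rw [mul_assoc, mul_assoc, gam_inv_cc, map_mul, map_mul]
  group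

lemma key_group {A : Type*} [Group A] (z : A) (hz : ∀ g, z * g = g * z) (P G G' T : A) :
    P * G⁻¹ * T = z * G'⁻¹ ↔ T * G' * P = z * G := by
  constructor
  · intro h
    have e1 : G⁻¹ = P⁻¹ * (z * G'⁻¹) * T⁻¹ := by
      rw [← h]
      group
    have e2 : G = T * G' * z⁻¹ * P := by
      have : G = (G⁻¹)⁻¹ := (inv_inv G).symm
      rw [this, e1]
      group
    rw [e2]
    calc T * G' * P = (T * G') * z * z⁻¹ * P := by group
      _ = z * (T * G') * z⁻¹ * P := by rw [hz]
      _ = z * (T * G' * z⁻¹ * P) := by group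
  · intro h
    have e1 : G = z⁻¹ * (T * G' * P) := by
      rw [h]
      group
    have e2 : (z⁻¹ * (T * G' * P))⁻¹ = P⁻¹ * G'⁻¹ * T⁻¹ * z := by group
    rw [e1, e2]
    calc P * (P⁻¹ * G'⁻¹ * T⁻¹ * z) * T = G'⁻¹ * T⁻¹ * (z * T) := by group
      _ = G'⁻¹ * T⁻¹ * (T * z) := by rw [hz]
      _ = G'⁻¹ * z := by group
      _ = z * G'⁻¹ := (hz _).symm

lemma key_iff (P G G' : GL (Fin n) F) (u : Fˣ) :
    P * G⁻¹ * trG P = sc u * G'⁻¹ ↔ trG P * G' * P = sc u * G :=
  key_group _ (sc_comm u) P G G' (trG P)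

lemma form_iff (P G G' : GL (Fin n) F) (u : Fˣ) :
    trG P * G' * P = sc u * G ↔ ∀ x y, bf G'.val (P.val *ᵥ x) (P.val *ᵥ y) = u * bf G.val x y := by
  constructor
  · intro h x y
    rw [bf_mat, ← bf_smul_mat]
    congr 1
    have := congrArg Units.val h
    rw [Units.val_mul, Units.val_mul, Units.val_mul, sc_coe, trG_val] at this
    rw [this]
    ext i j
    simp [Matrix.smul_apply]
  · intro h
    apply Units.ext
    rw [Units.val_mul, Units.val_mul, Units.val_mul, sc_coe, trG_val]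
    apply mat_ext
    intro x y
    rw [← bf_mat, h, ← bf_smul_mat]
    congr 1
    ext i j
    simp [Matrix.smul_apply]

/-- a similarity of forms conjugates the graph automorphisms -/
lemma conj_of_form [Nontrivial (Fin n)] (P G G' : GL (Fin n) F) (u : Fˣ)
    (h : ∀ x y, bf G'.val (P.val *ᵥ x) (P.val *ᵥ y) = u * bf G.val x y) :
    (cc P * gg G * (cc P)⁻¹ : MulAut PS) = gg G' := by
  rw [conj_gg, (key_iff P G G' u).2 ((form_iff P G G' u).2 h), map_mul, cc_sc, one_mul]
  rfl

/-- conjugate graph automorphisms come from similar forms -/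
lemma form_of_conj [Nontrivial (Fin n)] (P G G' : GL (Fin n) F)
    (h : (cc P * gg G * (cc P)⁻¹ : MulAut PS) = gg G') :
    ∃ u : Fˣ, ∀ x y, bf G'.val (P.val *ᵥ x) (P.val *ᵥ y) = u * bf G.val x y := by
  rw [conj_gg] at h
  have e := mul_right_cancel (b := (gam : MulAut PS)) h
  obtain ⟨u, hu⟩ := (cc_eq_cc_iff _ _).1 e
  exact ⟨u, (form_iff P G G' u).1 ((key_iff P G G' u).1 hu)⟩

lemma comm_iff [Nontrivial (Fin n)] (g G : GL (Fin n) F) :
    (cc g * gg G : MulAut PS) = gg G * cc g ↔ ∃ u : Fˣ, ∀ x y, bf G.val (g.val *ᵥ x) (g.val *ᵥ y) = u * bf G.val x y := by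
  constructor
  · intro h
    apply form_of_conj g G G
    rw [h, mul_inv_cancel_right]
  · rintro ⟨u, hu⟩
    have := conj_of_form g G G u hu
    rw [mul_inv_eq_iff_eq_mul] at this
    exact this

lemma gg_sq (G : GL (Fin n) F) : (gg G * gg G : MulAut PS) = cc (G⁻¹ * invT G⁻¹) := by
  unfold gg
  calc (cc G⁻¹ * gam * (cc G⁻¹ * gam) : MulAut PS) = cc G⁻¹ * (gam * cc G⁻¹) * gam := by group
    _ = cc G⁻¹ * (cc (invT G⁻¹) * gam) * gam := by rw [gam_cc]
    _ = cc G⁻¹ * cc (invT G⁻¹) * (gam * gam) := by group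
    _ = _ := by rw [gam_sq, mul_one, map_mul]

lemma invT_inv_val (G : GL (Fin n) F) : (invT G⁻¹).val = (G.val)ᵀ := by
  change (((G⁻¹)⁻¹ : GL (Fin n) F).val)ᵀ = _
  rw [inv_inv]

lemma gg_sq_iff [Nontrivial (Fin n)] (G : GL (Fin n) F) :
    (gg G * gg G : MulAut PS) = 1 ↔ ∃ u : Fˣ, (G.val)ᵀ = (u : F) • G.val := by
  rw [gg_sq, cc_eq_one_iff, Matrix.GeneralLinearGroup.center_eq_range_scalar]
  constructor
  · rintro ⟨u, hu⟩
    refine ⟨u, ?_⟩
    have hu' : (sc u : GL (Fin n) F) = G⁻¹ * invT G⁻¹ := hu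
    have e1 : invT G⁻¹ = G * sc u := by
      rw [hu', mul_inv_cancel_left]
    rw [← invT_inv_val, e1, Units.val_mul, sc_coe, Matrix.mul_smul, Matrix.mul_one]
  · rintro ⟨u, hu⟩
    refine ⟨u, ?_⟩
    change (sc u : GL (Fin n) F) = G⁻¹ * invT G⁻¹
    have e1 : invT G⁻¹ = G * sc u := by
      apply Units.ext
      rw [invT_inv_val, hu, Units.val_mul, sc_coe, Matrix.mul_smul, Matrix.mul_one]
    rw [e1, inv_mul_cancel_left]

lemma sym_or_anti [Nonempty (Fin n)] (G : GL (Fin n) F) {u : Fˣ} (h : (G.val)ᵀ = (u : F) • G.val) : (u : F) = 1 ∨ (u : F) = -1 := by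
  have e1 : G.val = (u : F) ^ 2 • G.val := by
    have e2 := congrArg Matrix.transpose h
    rw [Matrix.transpose_transpose, Matrix.transpose_smul, h, smul_smul] at e2
    rw [sq]
    exact e2
  have hne : G.val ≠ 0 := by
    intro e0
    have := G.mul_inv
    rw [e0, zero_mul] at this
    exact zero_ne_one this
  have e3 : ((u : F) ^ 2 - 1) • G.val = 0 := by
    rw [sub_smul, one_smul, ← e1, sub_self]
  have e4 : (u : F) ^ 2 - 1 = 0 := (smul_eq_zero.1 e3).resolve_right hne
  have e5 : ((u : F) - 1) * ((u : F) + 1) = 0 := by linear_combination e4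
  rcases mul_eq_zero.1 e5 with e | e
  · left
    linear_combination e
  · right
    linear_combination e

lemma gg_ne_one (hn : 3 ≤ n) (G : GL (Fin n) F) : (gg G : MulAut PS) ≠ 1 := by
  intro h
  apply gam_not hn G (1 : F ≃+* F)
  unfold gg at h
  rw [map_one, mul_one, map_inv] at *
  exact (inv_mul_eq_one.1 h).symm

lemma orderOf_gg (hn : 3 ≤ n) [Nontrivial (Fin n)] (G : GL (Fin n) F) {u : Fˣ} (h : (G.val)ᵀ = (u : F) • G.val) :
    orderOf (gg G : MulAut PS) = 2 := by
  haveI : Fact (Nat.Prime 2) := ⟨Nat.prime_two⟩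
  refine orderOf_eq_prime ?_ (gg_ne_one hn G)
  rw [sq]
  exact (gg_sq_iff G).2 ⟨u, h⟩

lemma isGraph_gg (hn : 3 ≤ n) (G : GL (Fin n) F) : Cfsg.IsGraphAutClassPSL (gg G : MulAut PS) :=
  ⟨hn, cc G⁻¹, gam, (isInner_iff _).2 ⟨_, rfl⟩, (invT_iff _).2 rfl, rfl⟩

lemma eq_gg_of_graph {γ : MulAut PS} (h : Cfsg.IsGraphAutClassPSL γ) : ∃ G : GL (Fin n) F, γ = gg G := by
  obtain ⟨-, δ, γ', hδ, hγ', rfl⟩ := h
  obtain ⟨g, rfl⟩ := (isInner_iff _).1 hδ
  rw [(invT_iff _).1 hγ']
  exact ⟨g⁻¹, by rw [gg, inv_inv]⟩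

/-- **The centralizer of a graph automorphism as a projective similarity group.** -/
theorem cen_iso [Nontrivial (Fin n)] {ι' : Type} [Fintype ι'] [DecidableEq ι'] (G : GL (Fin n) F)
    (f' : (ι' → F) → (ι' → F) → F) (L : (ι' → F) ≃ₗ[F] (Fin n → F)) (d : Fˣ)
    (hf : ∀ x y, f' x y = d * bf G.val (L x) (L y)) :
    Nonempty (↥((cc : GL (Fin n) F →* MulAut PS).range ⊓ Subgroup.centralizer {(gg G : MulAut PS)}) ≃*
      Cfsg.projQuot (Cfsg.Geo.similarityGroup f')) := by
  classical
  have hd : (d : F) ≠ 0 := d.ne_zero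
  have hmem : ∀ g : Cfsg.Geo.similarityGroup f', (cc (cL L g.1) : MulAut PS) ∈
      (cc : GL (Fin n) F →* MulAut PS).range ⊓ Subgroup.centralizer {(gg G : MulAut PS)} := by
    rintro ⟨g, c, hc⟩
    refine Subgroup.mem_inf.mpr ⟨⟨_, rfl⟩, Subgroup.mem_centralizer_singleton_iff.mpr ?_⟩
    refine (comm_iff _ _).2 ⟨c, fun x y => ?_⟩
    rw [cL_mulVec, cL_mulVec]
    have e1 := hf (g.val *ᵥ L.symm x) (g.val *ᵥ L.symm y)
    have e2 := hf (L.symm x) (L.symm y)
    rw [LinearEquiv.apply_symm_apply, LinearEquiv.apply_symm_apply] at e2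
    have e3 := hc (L.symm x) (L.symm y)
    rw [e1, e2] at e3
    apply mul_left_cancel₀ hd
    rw [e3]
    ring
  let Φ : Cfsg.Geo.similarityGroup f' →* ↥((cc : GL (Fin n) F →* MulAut PS).range ⊓ Subgroup.centralizer {(gg G : MulAut PS)}) :=
    MonoidHom.codRestrict ((cc.comp (cL L).toMonoidHom).comp (Cfsg.Geo.similarityGroup f').subtype) _ hmem
  have hΦ : ∀ h : Cfsg.Geo.similarityGroup f', ((Φ h : ↥((cc : GL (Fin n) F →* MulAut PS).range ⊓ Subgroup.centralizer {(gg G : MulAut PS)})) : MulAut PS) =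
      cc (cL L h.1) := fun h => rfl
  have hsurj : Function.Surjective Φ := by
    rintro ⟨_, ⟨h, rfl⟩, hz⟩
    have hz' : (cc h * gg G : MulAut PS) = gg G * cc h := Subgroup.mem_centralizer_singleton_iff.mp hz
    obtain ⟨u, hu⟩ := (comm_iff _ _).1 hz'
    have hg : (cL L).symm h ∈ Cfsg.Geo.similarityGroup f' := by
      refine ⟨u, fun x y => ?_⟩
      rw [cL_symm_mulVec, cL_symm_mulVec, hf, hf, LinearEquiv.apply_symm_apply, LinearEquiv.apply_symm_apply, hu]
      ring
    refine ⟨⟨_, hg⟩, ?_⟩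
    apply Subtype.ext
    rw [hΦ]
    simp
  have hker : Φ.ker = (Cfsg.Geo.scalars ι' F).subgroupOf (Cfsg.Geo.similarityGroup f') := by
    ext g
    rw [MonoidHom.mem_ker, Subgroup.mem_subgroupOf, Cfsg.Geo.mem_scalars_iff]
    have e1 : Φ g = 1 ↔ (cc (cL L g.1) : MulAut PS) = 1 := by
      constructor
      · intro h
        exact congrArg Subtype.val h
      · intro h
        exact Subtype.ext h
    rw [e1, cc_eq_one_iff, Matrix.GeneralLinearGroup.center_eq_range_scalar]
    constructor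
    · rintro ⟨c, hc⟩
      refine ⟨c, ?_⟩
      have hc2 : (sc c : GL (Fin n) F) = cL L g.1 := hc
      apply Matrix.mulVec_injective
      funext v
      have e2 := cL_mulVec L g.1 (L v)
      rw [← hc2, sc_coe, Matrix.smul_mulVec, Matrix.one_mulVec, LinearEquiv.symm_apply_apply] at e2
      apply L.injective
      rw [← e2, Matrix.smul_mulVec, Matrix.one_mulVec, map_smul]
    · rintro ⟨c, hc⟩
      refine ⟨c, ?_⟩
      apply Units.ext
      change ((sc c : GL (Fin n) F) : Matrix (Fin n) (Fin n) F) = (cL L g.1).val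
      apply Matrix.mulVec_injective
      funext v
      rw [cL_mulVec, hc, sc_coe, Matrix.smul_mulVec, Matrix.smul_mulVec, Matrix.one_mulVec, Matrix.one_mulVec, map_smul,
        LinearEquiv.apply_symm_apply]
  exact ⟨(QuotientGroup.quotientKerEquivOfSurjective Φ hsurj).symm.trans (QuotientGroup.quotientMulEquivOfEq hker)⟩

end Core

end Cfsg.Agent.Lead.Fm
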