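import Cfsg.Agent.Lib.Lead.LangGF9
/-! Graph-field automorphisms: the number of classes and the final statement. -/
set_option autoImplicit false
set_option linter.style.haveILetI false
set_option linter.unusedSimpArgs false
set_option linter.unusedSectionVars false
set_option linter.unusedVariables false
set_option linter.deprecated false
namespace Cfsg.Agent.Lead.LangOm
open Matrix Module Cfsg.Agent.Lead.Ortho Cfsg.Agent.Lead.Omega Cfsg.Agent.H01.Om Cfsg.Agent.Lead.Lang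
open Cfsg.Agent.H11 (IsMTS Rf Pb triangle minusForm minusForm_coe Rf_isom plusForm U0 U0_mts mem_U0 plus_nondeg' card_sum finrank_ts_le_minus)

section Abstract
variable {A B : Type*} [Group A] [Group B]

/-- inner automorphisms under an isomorphism -/
lemma congr_inn_iff (ψ : A ≃* B) (β : MulAut A) : MulAut.congr ψ β ∈ Cfsg.Inn B ↔ β ∈ Cfsg.Inn A := by
  constructor
  · rintro ⟨z, hz⟩
    refine ⟨ψ.symm z, ?_⟩
    ext w
    have e := congrArg (fun γ : MulAut B => ψ.symm (γ (ψ w))) hz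
    simp only [MulAut.congr] at e
    simpa using e
  · rintro ⟨z, rfl⟩
    refine ⟨ψ z, ?_⟩
    ext w
    simp [MulAut.congr]

/-- centralizers under an isomorphism -/
lemma mem_cen_iff (E : A ≃* B) (x β : A) : E β ∈ Subgroup.centralizer {E x} ↔ β ∈ Subgroup.centralizer {x} := by
  rw [Subgroup.mem_centralizer_singleton_iff, Subgroup.mem_centralizer_singleton_iff, ← map_mul, ← map_mul]
  exact E.injective.eq_iff

end Abstract

section Count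
variable {F : Type*} [Field F] [Fintype F] {F₀ : Type*} [Field F₀] [Fintype F₀] {n : ℕ}
variable {ε : F₀ →+* F} {σ : F ≃+* F} {a₀ b₀ : F₀}
variable {t₀' : Fin (n + 1) → ((Fin n ⊕ Fin n) ⊕ Fin 2 → F) × ((Fin n ⊕ Fin n) ⊕ Fin 2 → F)}
variable {t₀ : Fin (n + 1) → (Fin (n + 1) ⊕ Fin (n + 1) → F) × (Fin (n + 1) ⊕ Fin (n + 1) → F)}
variable {t₁ : Fin n → ((Fin n ⊕ Fin n) ⊕ Fin 2 → F₀) × ((Fin n ⊕ Fin n) ⊕ Fin 2 → F₀)}

set_option maxHeartbeats 4000000 in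
/-- **The number of classes at the model involution.** -/
theorem count_model (L : ((Fin n ⊕ Fin n) ⊕ Fin 2 → F) ≃ₗ[F] (Fin (n + 1) ⊕ Fin (n + 1) → F))
    (hL : ∀ v, Cfsg.quadFormPlus (n + 1) F (L v) = Cfsg.quadFormMinus n F (ε a₀) (ε b₀) v)
    (C : Cx (Cfsg.quadFormPlus (n + 1) F) (polarPlus (n + 1) F) t₀)
    {C' : Cx (Cfsg.quadFormMinus n F (ε a₀) (ε b₀)) (polarMinus n F (ε a₀) (ε b₀)) t₀'} (X' : SD C')
    {C₁ : Cx (Cfsg.quadFormMinus n F₀ a₀ b₀) (polarMinus n F₀ a₀ b₀) t₁} (X₁ : SD C₁)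
    (hq : Odd (Fintype.card F)) (hq₀ : Odd (Fintype.card F₀)) (hcard : Fintype.card F = (Fintype.card F₀) ^ 2)
    (hσ2 : ∀ a, σ (σ a) = a) (hε : ∀ a, σ a = a ↔ a ∈ Set.range ε)
    (hab₀ : ∀ z₁ z₂ : F₀, z₁ ^ 2 + a₀ * z₁ * z₂ + b₀ * z₂ ^ 2 = 0 → z₁ = 0 ∧ z₂ = 0)
    (hQσ : ∀ x, Cfsg.quadFormMinus n F (ε a₀) (ε b₀) (smap σ x) = σ (Cfsg.quadFormMinus n F (ε a₀) (ε b₀) x))
    (hneg : negO C'.h ∈ SS C'.h) (hq4 : Fintype.card F % 4 = 1) (hm : 3 ≤ n + 1) :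
    ((Even n ∧ Fintype.card F₀ % 4 = 1) → Cfsg.splitClassCount (Cfsg.inndiagPOmegaPlus (n + 1) F) (Cfsg.Inn (Cfsg.POmega F (Cfsg.quadFormPlus (n + 1) F)))
        (Th C.h C.nd (transS2 L hL (sigT σ hQσ))) = 4) ∧
    (¬ (Even n ∧ Fintype.card F₀ % 4 = 1) → Cfsg.splitClassCount (Cfsg.inndiagPOmegaPlus (n + 1) F) (Cfsg.Inn (Cfsg.POmega F (Cfsg.quadFormPlus (n + 1) F)))
        (Th C.h C.nd (transS2 L hL (sigT σ hQσ))) = 2) := by
  classical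
  have hc := eV_Q_minus (m := n) ε a₀ b₀
  obtain ⟨ν₀, w0, w1, δ₀, hν₀, hw, hδ, hδ1, hδ2⟩ := exists_delta0 hq₀ hab₀ C₁
  have hν0 : ν₀ ≠ 0 := by
    rintro rfl
    exact hν₀ IsSquare.zero
  have hran := cen_range_odd L hL C X' C₁ hq₀ hcard hc hQσ hε
  obtain ⟨E, hE⟩ : ∃ E, E = MulAut.congr (poIso2 L hL) := ⟨_, rfl⟩
  have hφ : E (Th C'.h C'.nd (sigT σ hQσ)) = Th C.h C.nd (transS2 L hL (sigT σ hQσ)) := by
    rw [hE]
    exact congr_Th C.h C.nd C'.h C'.nd L hL _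
  have hmem : ∀ β, β ∈ IPr L hL ⊓ Subgroup.centralizer {Th C'.h C'.nd (sigT σ hQσ)} ↔
      E β ∈ Cfsg.inndiagPOmegaPlus (n + 1) F ⊓ Subgroup.centralizer {Th C.h C.nd (transS2 L hL (sigT σ hQσ))} := by
    intro β
    rw [Subgroup.mem_inf, Subgroup.mem_inf, mem_IPr, ← hE, ← hφ, mem_cen_iff]
  have hδH : δ₀ ∈ HMo (Cfsg.quadFormMinus n F₀ a₀ b₀) (n + 1) := ⟨ν₀, hν0, hδ1, hδ2⟩
  have hξ : Th C'.h C'.nd (simG _ (liftS C₁.h C'.h hc δ₀)) ∈ IPr L hL ⊓ Subgroup.centralizer {Th C'.h C'.nd (sigT σ hQσ)} := by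
    rw [← hran]
    exact ⟨δ₀, hδH, rfl⟩
  have hΞ := (hmem _).1 hξ
  have hcase : ∀ y ∈ Cfsg.inndiagPOmegaPlus (n + 1) F ⊓ Subgroup.centralizer {Th C.h C.nd (transS2 L hL (sigT σ hQσ))},
      y ∈ Cfsg.Inn (Cfsg.POmega F (Cfsg.quadFormPlus (n + 1) F)) ∨
      y * E (Th C'.h C'.nd (simG _ (liftS C₁.h C'.h hc δ₀))) ∈ Cfsg.Inn (Cfsg.POmega F (Cfsg.quadFormPlus (n + 1) F)) := by
    intro y hy
    have h1 : E.symm y ∈ IPr L hL ⊓ Subgroup.centralizer {Th C'.h C'.nd (sigT σ hQσ)} := (hmem _).2 (by simpa using hy)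
    rw [← hran] at h1
    obtain ⟨g₁, hg₁, e⟩ := h1
    have h2 := cen_cases hq₀ hcard X' X₁ hc δ₀ hν₀ hδ1 hδ2 g₁ hg₁
    have ey : y = E (Th C'.h C'.nd (simG _ (liftS C₁.h C'.h hc g₁))) := by
      have e' : Th C'.h C'.nd (simG _ (liftS C₁.h C'.h hc g₁)) = E.symm y := e
      rw [e', E.apply_symm_apply]
    rcases h2 with h2 | h2
    · left
      rw [ey, hE, congr_inn_iff]
      exact h2
    · right
      rw [ey, ← map_mul, hE, congr_inn_iff]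
      exact h2
  have hxi := xi_inn_iff hσ2 hε hq₀ hcard hab₀ X' hneg C₁ hc δ₀ hν₀ hw hδ
  have hidx := index_inn_plus (F := F) hq hq4 hm
  obtain ⟨h4, h2⟩ := index_cover _ _ _ (inn_le_inndiag_plus hm) inf_le_left hΞ hcase hidx
  rw [split_eq_relIndex _ _ (inn_le_inndiag_plus hm)]
  refine ⟨fun h => h4 ?_, fun h => h2 ?_⟩
  · rw [hE, congr_inn_iff, hxi]
    exact h
  · rw [hE, congr_inn_iff, hxi]
    exact h

end Count

section Final
variable {F : Type*} [Field F] [Fintype F] {F₀ : Type*} [Field F₀] [Fintype F₀]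

/-- an irreducible Artin-Schreier polynomial -/
lemma exists_zeta (K : Type*) [Field K] [Fintype K] : ∃ ζ : K, ∀ t : K, t ^ 2 + t + ζ ≠ 0 := by
  classical
  have hni : ¬ Function.Injective (fun t : K => t ^ 2 + t) := by
    intro hi
    have e : (fun t : K => t ^ 2 + t) 0 = (fun t : K => t ^ 2 + t) (-1) := by
      simp
    have := hi e
    exact one_ne_zero (by simpa using this.symm : (1 : K) = 0)
  have hns : ¬ Function.Surjective (fun t : K => t ^ 2 + t) := fun hs => hni (Finite.injective_iff_surjective.2 hs)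
  simp only [Function.Surjective, not_forall, not_exists] at hns
  obtain ⟨c, hc⟩ := hns
  refine ⟨-c, fun t e => hc t ?_⟩
  linear_combination e

set_option maxHeartbeats 4000000 in
/-- **Involutory graph-field automorphisms of the plus type.** -/
theorem gf_aut_plus {p f : ℕ} [Fact p.Prime] (hF : Fintype.card F = p ^ f) (hf : 1 ≤ f) {m : ℕ} (hm : 5 ≤ m)
    (x : MulAut (Cfsg.POmega F (Cfsg.quadFormPlus m F))) (hx : Cfsg.IsGraphFieldAutClassPOmegaPlus m x) (hx2 : orderOf x = 2)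
    (hF₀ : Fintype.card F₀ = p ^ (f / 2)) :
    Even f ∧ (∀ y : MulAut (Cfsg.POmega F (Cfsg.quadFormPlus m F)), Cfsg.IsGraphFieldAutClassPOmegaPlus m y → orderOf y = 2 → Cfsg.IsConjUnder (Cfsg.inndiagPOmegaPlus m F) x y) ∧
      (∃ a₀ b₀ : F₀, (∀ z₁ z₂ : F₀, z₁ ^ 2 + a₀ * z₁ * z₂ + b₀ * z₂ ^ 2 = 0 → z₁ = 0 ∧ z₂ = 0) ∧
        Nonempty (↥(Cfsg.inndiagPOmegaPlus m F ⊓ Subgroup.centralizer {x}) ≃* ↥(Cfsg.inndiagPOmegaMinus (m - 1) F₀ a₀ b₀))) ∧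
      (p = 2 → Cfsg.splitClassCount (Cfsg.inndiagPOmegaPlus m F) (Cfsg.Inn (Cfsg.POmega F (Cfsg.quadFormPlus m F))) x = 1) ∧
      ((p ≠ 2 ∧ Odd m ∧ p ^ (f / 2) % 4 = 1) → Cfsg.splitClassCount (Cfsg.inndiagPOmegaPlus m F) (Cfsg.Inn (Cfsg.POmega F (Cfsg.quadFormPlus m F))) x = 4) ∧
      ((p ≠ 2 ∧ ¬ (Odd m ∧ p ^ (f / 2) % 4 = 1)) → Cfsg.splitClassCount (Cfsg.inndiagPOmegaPlus m F) (Cfsg.Inn (Cfsg.POmega F (Cfsg.quadFormPlus m F))) x = 2) := by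
  classical
  obtain ⟨n, rfl⟩ : ∃ n, m = n + 1 := ⟨m - 1, by omega⟩
  have hn : 4 ≤ n := by omega
  have hn3 : 3 ≤ n := by omega
  have hm3 : 3 ≤ n + 1 := by omega
  obtain ⟨t₀, C⟩ := plus_ctx (F := F) (m := n + 1) hm3
  obtain ⟨T₁, σ, κ, H₁, hord, h₁₂, hp, hxT⟩ := gf_normal hm C hx hx2
  obtain ⟨hdvd, ε, hε, hcard⟩ := field_setup (F₀ := F₀) hF hf σ hord Nat.prime_two hF₀
  have hσ2 : ∀ a, σ (σ a) = a := by
    intro a
    have e1 := pow_orderOf_eq_one σ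
    rw [hord] at e1
    have e : (σ ^ 2) a = a := by
      rw [e1]
      rfl
    exact e
  obtain ⟨ζ₀, hζ₀⟩ := exists_zeta F₀
  have hab₀ := aniso_of_zeta hζ₀
  obtain ⟨L, hL⟩ := exists_L ε hcard hab₀ n
  obtain ⟨t₀', C', hRS'⟩ := exists_cx_model ε (by omega : 2 ≤ n) L hL
  obtain ⟨t₁, ⟨C₁⟩⟩ := minus_cx (F := F₀) hn3 hab₀
  have hs1 : σ (ε 1) = ε 1 := (hε _).2 ⟨1, rfl⟩
  have hs2 : σ (ε ζ₀) = ε ζ₀ := (hε _).2 ⟨ζ₀, rfl⟩
  have hQσ : ∀ x, Cfsg.quadFormMinus n F (ε 1) (ε ζ₀) (smap σ x) = σ (Cfsg.quadFormMinus n F (ε 1) (ε ζ₀) x) := by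
    intro x
    simp only [Cfsg.quadFormMinus, smap, map_sum, map_mul, map_add, map_pow, hs1, hs2]
  have hframe := frame_model hε hζ₀ L hL hQσ
  have h₀₂ : ∀ y, (transS2 L hL (sigT σ hQσ) : Equiv.Perm (Fin (n + 1) ⊕ Fin (n + 1) → F))
      ((transS2 L hL (sigT σ hQσ) : Equiv.Perm (Fin (n + 1) ⊕ Fin (n + 1) → F)) y) = y := by
    intro y
    change L (smap σ (L.symm (L (smap σ (L.symm y))))) = y
    rw [LinearEquiv.symm_apply_apply]
    have e : smap σ (smap σ (L.symm y)) = L.symm y := by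
      funext i
      exact hσ2 _
    rw [e, LinearEquiv.apply_symm_apply]
  have hf₁ := gf_frame hm C T₁ H₁ hord h₁₂ hp
  obtain ⟨P, hPI, eP⟩ := conj_frames C (by omega) H₁ (transS2_semi L hL (sigT_semi σ hQσ)) hord h₁₂ h₀₂ hf₁ hframe
  haveI hnor : (Cfsg.inndiagPOmegaPlus (n + 1) F).Normal := inndiag_plus_normal hm C
  have hcount : ∀ k, Cfsg.splitClassCount (Cfsg.inndiagPOmegaPlus (n + 1) F) (Cfsg.Inn (Cfsg.POmega F (Cfsg.quadFormPlus (n + 1) F)))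
      (Th C.h C.nd (transS2 L hL (sigT σ hQσ))) = k →
      Cfsg.splitClassCount (Cfsg.inndiagPOmegaPlus (n + 1) F) (Cfsg.Inn (Cfsg.POmega F (Cfsg.quadFormPlus (n + 1) F))) x = k := by
    intro k hk
    rw [split_conj _ _ (Th C.h C.nd P) x, hxT, ← eP]
    exact hk
  have hcardodd : p ≠ 2 → Odd (Fintype.card F) := by
    intro hp2
    rw [hF]
    exact (((Fact.out : p.Prime).eq_two_or_odd').resolve_left hp2).pow
  have h2F : p = 2 → (2 : F) = 0 := by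
    intro hp2
    by_contra h2
    have h3 := odd_card_of_two_ne h2
    rw [hF, hp2] at h3
    exact (Nat.not_even_iff_odd.2 h3) ((even_two).pow_of_ne_zero (by omega))
  have hodd : p ≠ 2 → (((Even n ∧ Fintype.card F₀ % 4 = 1) → Cfsg.splitClassCount (Cfsg.inndiagPOmegaPlus (n + 1) F) (Cfsg.Inn (Cfsg.POmega F (Cfsg.quadFormPlus (n + 1) F))) x = 4) ∧
      (¬ (Even n ∧ Fintype.card F₀ % 4 = 1) → Cfsg.splitClassCount (Cfsg.inndiagPOmegaPlus (n + 1) F) (Cfsg.Inn (Cfsg.POmega F (Cfsg.quadFormPlus (n + 1) F))) x = 2)) := by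
    intro hp2
    have hq := hcardodd hp2
    have h2 : (2 : F) ≠ 0 := two_ne_zero_of_odd rfl hq
    have hq₀ : Odd (Fintype.card F₀) := by
      have hq' := hq
      rw [hcard] at hq'
      exact Nat.Odd.of_mul_right (by rwa [sq] at hq')
    have h2₀ : (2 : F₀) ≠ 0 := two_ne_zero_of_odd rfl hq₀
    have hq4 : Fintype.card F % 4 = 1 := by
      obtain ⟨k, hk⟩ := hq₀
      have e : (2 * k + 1) ^ 2 = 4 * (k ^ 2 + k) + 1 := by ring
      rw [hcard, hk, e]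
      omega
    have hΔ : 4 * ε ζ₀ - ε 1 ^ 2 ≠ 0 := by
      have := (map_ne_zero ε).2 (disc_ne hab₀)
      rwa [map_sub, map_pow, map_mul, map_ofNat] at this
    have X' : SD C' := ⟨⟨minusForm n F (ε 1) (ε ζ₀), minus_Qq _ _, minus_nondeg3 n _ _ hΔ⟩, h2, by
      simp only [Fintype.card_sum, Fintype.card_fin]
      omega, hRS'⟩
    have X₁ : SD C₁ := ⟨⟨minusForm n F₀ 1 ζ₀, minus_Qq _ _, minus_nd hab₀⟩, h2₀, by
      simp only [Fintype.card_sum, Fintype.card_fin]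
      omega, minus_hRS hn3 hab₀ C₁.h⟩
    have hneg : negO C'.h ∈ SS C'.h := by
      rw [← C'.hΩ]
      exact neg_transport C.h C'.h L hL (neg_plus_mem hq hq4 hm3 C.h)
    obtain ⟨c4, c2⟩ := count_model L hL C X' X₁ hq hq₀ hcard hσ2 hε hab₀ hQσ hneg hq4 hm3
    exact ⟨fun h => hcount _ (c4 h), fun h => hcount _ (c2 h)⟩
  have hoe : Odd (n + 1) ↔ Even n := by
    rw [Nat.odd_add_one, Nat.not_odd_iff_even]
  refine ⟨(even_iff_two_dvd).2 hdvd, ?_, ⟨1, ζ₀, hab₀, ?_⟩, ?_, ?_, ?_⟩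
  · -- conjugacy
    intro y hy hy2
    obtain ⟨T₂, σ₂, κ₂, H₂, hord₂, h₂₂, hp₂, hyT⟩ := gf_normal hm C hy hy2
    obtain rfl : σ₂ = σ := invol_unique hF hf hord₂ hord
    obtain ⟨P₂, hP₂, e₂⟩ := conj_frames C (by omega) H₁ H₂ hord h₁₂ h₂₂ hf₁ (gf_frame hm C T₂ H₂ hord h₂₂ hp₂)
    refine ⟨Th C.h C.nd P₂, hP₂, ?_⟩
    rw [hyT, hxT]
    exact e₂
  · -- the centralizer
    have hφ : MulAut.congr (poIso2 L hL) (Th C'.h C'.nd (sigT σ hQσ)) = Th C.h C.nd (transS2 L hL (sigT σ hQσ)) :=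
      congr_Th C.h C.nd C'.h C'.nd L hL _
    obtain ⟨E1⟩ := centralizer_conj_equiv (Cfsg.inndiagPOmegaPlus (n + 1) F) (Th C.h C.nd P) x
    obtain ⟨E2⟩ := cen_congr (MulAut.congr (poIso2 L hL)) (IPr L hL) (Cfsg.inndiagPOmegaPlus (n + 1) F) (mem_IPr L hL) (Th C'.h C'.nd (sigT σ hQσ))
    rw [hxT, ← eP] at E1
    rw [← hxT] at E1
    rw [hφ] at E2
    have hsub : (n + 1 - 1) = n := rfl
    by_cases h2 : (2 : F) = 0
    · have h2₀ : (2 : F₀) = 0 := ε.injective (by rw [map_ofNat, map_zero]; exact h2)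
      obtain ⟨E3⟩ := cen_model_two L hL C C' C₁ h2₀ hn3 hab₀ hQσ hε
      exact ⟨E1.trans (E2.symm.trans E3)⟩
    · have hq := odd_card_of_two_ne h2
      have hq₀ : Odd (Fintype.card F₀) := by
        rw [hcard] at hq
        exact Nat.Odd.of_mul_right (by rwa [sq] at hq)
      have hΔ : 4 * ε ζ₀ - ε 1 ^ 2 ≠ 0 := by
        have := (map_ne_zero ε).2 (disc_ne hab₀)
        rwa [map_sub, map_pow, map_mul, map_ofNat] at this
      have X' : SD C' := ⟨⟨minusForm n F (ε 1) (ε ζ₀), minus_Qq _ _, minus_nondeg3 n _ _ hΔ⟩, h2, by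
        simp only [Fintype.card_sum, Fintype.card_fin]
        omega, hRS'⟩
      obtain ⟨E3⟩ := cen_model_odd L hL C X' C₁ hq₀ hcard hn3 hab₀ hQσ hε
      exact ⟨E1.trans (E2.symm.trans E3)⟩
  · -- characteristic two
    intro hp2
    rw [inndiag_plus_two hm3 (h2F hp2), split_eq_relIndex _ _ le_rfl x]
    have htop : (Cfsg.Inn (Cfsg.POmega F (Cfsg.quadFormPlus (n + 1) F)) ⊔ (Cfsg.Inn (Cfsg.POmega F (Cfsg.quadFormPlus (n + 1) F)) ⊓ Subgroup.centralizer {x})).subgroupOf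
        (Cfsg.Inn (Cfsg.POmega F (Cfsg.quadFormPlus (n + 1) F))) = ⊤ := by
      rw [Subgroup.subgroupOf_eq_top]
      exact le_sup_left
    rw [htop, Subgroup.index_top]
  · rintro ⟨hp2, ho, h4⟩
    exact (hodd hp2).1 ⟨hoe.1 ho, by rw [hF₀]; exact h4⟩
  · rintro ⟨hp2, hne⟩
    refine (hodd hp2).2 (fun h => hne ⟨hoe.2 h.1, ?_⟩)
    rw [← hF₀]
    exact h.2

end Final

end Cfsg.Agent.Lead.LangOm
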