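import Cfsg.Agent.Lib.Lead.LangFm1
import Cfsg.Agent.Lib.Lead.LangGF10
import Cfsg.Agent.S0752
/-! Graph automorphisms of `PSL_n` and bilinear forms: models of the forms. -/
set_option autoImplicit false
set_option linter.style.haveILetI false
set_option linter.unusedSimpArgs false
set_option linter.unusedSectionVars false
set_option linter.unusedVariables false
set_option linter.deprecated false
namespace Cfsg.Agent.Lead.Fm
open Matrix Matrix.SpecialLinearGroup Module
open Cfsg.Agent.Lead.AutPSL Cfsg.Agent.Lead.Lang Cfsg.Agent.Lead.Ortho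
open scoped MatrixGroups

variable {F : Type*} [Field F]

section Gram
variable {n : ℕ} {ι' : Type} [Fintype ι'] [DecidableEq ι']

/-- the reindexing of the coordinates -/
noncomputable abbrev LR (e : Fin n ≃ ι') : (ι' → F) ≃ₗ[F] (Fin n → F) := LinearEquiv.funCongrLeft F F e

/-- the Gram matrix of a nondegenerate form -/
theorem exists_gram (e : Fin n ≃ ι') (B' : (ι' → F) → (ι' → F) → F)
    (h1 : ∀ x y z, B' (x + y) z = B' x z + B' y z) (h2 : ∀ (a : F) x z, B' (a • x) z = a * B' x z)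
    (h3 : ∀ x y z, B' x (y + z) = B' x y + B' x z) (h4 : ∀ (a : F) x z, B' x (a • z) = a * B' x z)
    (hnd : ∀ x, x ≠ 0 → ∃ y, B' x y ≠ 0) :
    ∃ G : GL (Fin n) F, ∀ x y, B' x y = bf G.val (LR e x) (LR e y) := by
  classical
  obtain ⟨L, hL⟩ : ∃ L : (ι' → F) ≃ₗ[F] (Fin n → F), L = LR e := ⟨_, rfl⟩
  let B₀ : LinearMap.BilinForm F (Fin n → F) := LinearMap.mk₂ F (fun x y => B' (L.symm x) (L.symm y))
    (fun x x' y => by rw [map_add, h1]) (fun c x y => by rw [map_smul, h2]; rfl)
    (fun x y y' => by rw [map_add, h3]) (fun c x y => by rw [map_smul, h4]; rfl)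
  have hB₀ : ∀ x y, B₀ x y = B' (L.symm x) (L.symm y) := fun x y => rfl
  obtain ⟨M, hMd⟩ : ∃ M, M = LinearMap.BilinForm.toMatrix' B₀ := ⟨_, rfl⟩
  have hM : ∀ x y, B₀ x y = bf M x y := by
    intro x y
    have e1 : Matrix.toBilin' M = B₀ := by
      rw [hMd]
      exact Matrix.toBilin'_toMatrix' B₀
    rw [← e1, Matrix.toBilin'_apply']
    rfl
  have hdet : M.det ≠ 0 := by
    intro h0
    obtain ⟨v, hv, hv0⟩ := Matrix.exists_vecMul_eq_zero_iff.2 h0
    have hne : L.symm v ≠ 0 := fun e => hv ((map_eq_zero_iff _ L.symm.injective).1 e)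
    obtain ⟨y, hy⟩ := hnd _ hne
    apply hy
    have e2 := hM v (L y)
    rw [hB₀, LinearEquiv.symm_apply_apply] at e2
    rw [e2, bf, Matrix.dotProduct_mulVec, hv0, zero_dotProduct]
  refine ⟨Matrix.GeneralLinearGroup.mkOfDetNeZero M hdet, fun x y => ?_⟩
  have e3 := hM (L x) (L y)
  rw [hB₀, LinearEquiv.symm_apply_apply, LinearEquiv.symm_apply_apply] at e3
  rw [e3, ← hL]
  rfl

/-- the similarity group of a quadratic form and of its polar form -/
lemma quadSim_eq {Q : (ι' → F) → F} {B : (ι' → F) → (ι' → F) → F} (h : QF Q B) (h2 : (2 : F) ≠ 0) :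
    Cfsg.Geo.quadSimilarityGroup Q = Cfsg.Geo.similarityGroup B := by
  have hB : ∀ x, B x x = 2 * Q x := by
    intro x
    have e1 := h.add x x
    have e2 := h.smul 2 x
    rw [two_smul] at e2
    rw [e2] at e1
    linear_combination -e1
  ext g
  constructor
  · rintro ⟨c, hc⟩
    refine ⟨c, fun x y => ?_⟩
    have e1 := h.add ((g : Matrix ι' ι' F) *ᵥ x) ((g : Matrix ι' ι' F) *ᵥ y)
    have e2 := h.add x y
    rw [← Matrix.mulVec_add, hc, hc, hc, e2] at e1
    linear_combination -e1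
  · rintro ⟨c, hc⟩
    refine ⟨c, fun x => ?_⟩
    have e1 := hc x x
    rw [hB, hB] at e1
    apply mul_left_cancel₀ h2
    rw [e1]
    ring

end Gram

section Model
variable {n : ℕ} {ι' : Type} [Fintype ι'] [DecidableEq ι']
local notation "PS" => ProjectiveSpecialLinearGroup (Fin n) F

/-- the linear equivalence of an invertible matrix -/
noncomputable def lOf {ι : Type} [Fintype ι] [DecidableEq ι] (P : GL ι F) : (ι → F) ≃ₗ[F] (ι → F) :=
  LinearEquiv.ofLinear (Matrix.mulVecLin P.val) (Matrix.mulVecLin (P⁻¹).val)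
    (LinearMap.ext fun v => by
      simp only [LinearMap.comp_apply, Matrix.mulVecLin_apply, LinearMap.id_apply, Matrix.mulVec_mulVec]
      rw [← Units.val_mul, mul_inv_cancel, Units.val_one, Matrix.one_mulVec])
    (LinearMap.ext fun v => by
      simp only [LinearMap.comp_apply, Matrix.mulVecLin_apply, LinearMap.id_apply, Matrix.mulVec_mulVec]
      rw [← Units.val_mul, inv_mul_cancel, Units.val_one, Matrix.one_mulVec])

lemma lOf_apply {ι : Type} [Fintype ι] [DecidableEq ι] (P : GL ι F) (x : ι → F) : lOf P x = P.val *ᵥ x := rfl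

/-- the graph automorphism of a quadratic form -/
theorem pgo_model [Fintype F] [Nontrivial (Fin n)] (e : Fin n ≃ ι') {Q : (ι' → F) → F} {B : (ι' → F) → (ι' → F) → F} (h : QF Q B)
    (hnd : ∀ x, x ≠ 0 → ∃ y, B x y ≠ 0) (h2 : (2 : F) ≠ 0) :
    ∃ G : GL (Fin n) F, (∀ x y, B x y = bf G.val (LR e x) (LR e y)) ∧ (G.val)ᵀ = G.val ∧
      Nonempty (↥((cc : GL (Fin n) F →* MulAut PS).range ⊓ Subgroup.centralizer {(gg G : MulAut PS)}) ≃* Cfsg.PGO F Q) := by
  classical
  obtain ⟨G, hG⟩ := exists_gram (F := F) e B h.add_left h.smul_left h.add_right h.smul_right hnd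
  refine ⟨G, hG, ?_, ?_⟩
  · apply mat_ext
    intro x y
    rw [bf_transpose]
    have e1 := hG ((LR e).symm x) ((LR e).symm y)
    have e2 := hG ((LR e).symm y) ((LR e).symm x)
    rw [LinearEquiv.apply_symm_apply, LinearEquiv.apply_symm_apply] at e1 e2
    rw [← e1, ← e2, h.symm]
  · obtain ⟨E⟩ := cen_iso G B (LR e) 1 (fun x y => by
      rw [hG, Units.val_one, one_mul])
    have hq : Cfsg.Geo.quadSimilarityGroup Q = Cfsg.Geo.similarityGroup B := quadSim_eq h h2
    change Nonempty (_ ≃* Cfsg.projQuot (Cfsg.Geo.quadSimilarityGroup Q))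
    rw [hq]
    exact ⟨E⟩

/-- a symmetric form isometric to a standard form -/
lemma conj_sym [Nontrivial (Fin n)] (h2 : (2 : F) ≠ 0) (G₀ G₁ : GL (Fin n) F) (hs : (G₀.val)ᵀ = G₀.val)
    {Q : (ι' → F) → F} {B : (ι' → F) → (ι' → F) → F} (h : QF Q B) (L : (ι' → F) ≃ₗ[F] (Fin n → F))
    (hG : ∀ x y, B x y = bf G₁.val (L x) (L y)) (g : (Fin n → F) ≃ₗ[F] (ι' → F))
    (hg : ∀ v, bf G₀.val v v = Q (g v)) :
    ∃ P : GL (Fin n) F, (cc P * gg G₀ * (cc P)⁻¹ : MulAut PS) = gg G₁ := by
  refine ⟨glOf (g.trans L), conj_of_form _ _ _ (Units.mk0 2 h2) (fun x y => ?_)⟩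
  rw [glOf_mulVec, glOf_mulVec, LinearEquiv.trans_apply, LinearEquiv.trans_apply, ← hG]
  have e1 := h.add (g x) (g y)
  rw [← map_add, ← hg, ← hg, ← hg, bf_add_left, bf_add_right, bf_add_right] at e1
  have e2 : bf G₀.val y x = bf G₀.val x y := by
    rw [← bf_transpose, hs]
  rw [e2] at e1
  rw [Units.val_mk0]
  linear_combination -e1

/-- forms of different symmetry are not similar -/
lemma not_conj_anti [Nontrivial (Fin n)] (h2 : (2 : F) ≠ 0) (G₁ G₂ : GL (Fin n) F) (h₁ : (G₁.val)ᵀ = -G₁.val)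
    (h₂ : (G₂.val)ᵀ = G₂.val) : ¬ Cfsg.IsConjUnder (cc : GL (Fin n) F →* MulAut PS).range (gg G₁) (gg G₂) := by
  rintro ⟨_, ⟨P, rfl⟩, e⟩
  obtain ⟨u, hu⟩ := form_of_conj P G₁ G₂ e.symm
  have hne : G₁.val ≠ 0 := by
    intro e0
    have := G₁.mul_inv
    rw [e0, zero_mul] at this
    exact zero_ne_one this
  apply hne
  apply mat_ext
  intro x y
  have e1 := hu x y
  have e2 := hu y x
  rw [← bf_transpose G₂.val, h₂, e1] at e2
  have e3 : bf G₁.val y x = - bf G₁.val x y := by
    rw [← bf_transpose, h₁]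
    unfold bf
    rw [Matrix.neg_mulVec, dotProduct_neg]
  rw [e3] at e2
  have e4 : (2 : F) * u * bf G₁.val x y = 0 := by linear_combination e2
  have hu0 : (u : F) ≠ 0 := u.ne_zero
  have e5 := (mul_eq_zero.1 e4).resolve_left (mul_ne_zero h2 hu0)
  rw [e5]
  simp [bf]

/-- a nondegenerate alternating form has symplectic coordinates -/
lemma exists_symp_coords' {m : ℕ} (hn : n = 2 * m) (G₀ : GL (Fin n) F) (hself : ∀ x, bf G₀.val x x = 0) :
    ∃ g : (Fin n → F) ≃ₗ[F] (Fin m ⊕ Fin m → F), ∀ x y, Cfsg.sympForm m F (g x) (g y) = - bf G₀.val x y := by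
  classical
  have hnd : ∀ x, (∀ y, bf G₀.val x y = 0) → x = 0 := by
    intro x hx
    have e1 : x ᵥ* G₀.val = 0 := by
      funext i
      have e2 := hx (Pi.single i 1)
      have e3 : (x ᵥ* G₀.val) i = x ⬝ᵥ (G₀.val).col i := rfl
      rw [e3, Pi.zero_apply]
      simpa [bf, Matrix.mulVec_single] using e2
    have e2 : x ᵥ* (G₀.val * (G₀⁻¹).val) = 0 := by
      rw [← Matrix.vecMul_vecMul, e1, Matrix.zero_vecMul]
    rw [← Units.val_mul, mul_inv_cancel, Units.val_one, Matrix.vecMul_one] at e2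
    exact e2
  obtain ⟨B, hB⟩ : ∃ B : LinearMap.BilinForm F (Fin n → F), ∀ x y, B x y = bf G₀.val x y :=
    ⟨Matrix.toBilin' G₀.val, fun x y => Matrix.toBilin'_apply' _ _ _⟩
  have hA : B.IsAlt := fun x => by rw [hB, hself]
  obtain ⟨m', k, b, h1, h3, h4, h5⟩ := Cfsg.Agent.S0752.result B hA
  have hk : k = 0 := by
    by_contra hk0
    have hkpos : 0 < k := Nat.pos_of_ne_zero hk0
    apply b.ne_zero (Sum.inr ⟨0, hkpos⟩)
    apply hnd
    intro y
    rw [← hB]
    exact h5 _ y
  subst hk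
  have hcard : m' = m := by
    have e1 := Module.finrank_eq_card_basis b
    rw [Module.finrank_fintype_fun_eq_card] at e1
    simp only [Fintype.card_fin, Fintype.card_sum] at e1
    omega
  subst hcard
  let eι : (Fin m' ⊕ Fin m') ⊕ Fin 0 ≃ Fin m' ⊕ Fin m' := Equiv.sumEmpty _ _
  let b' : Module.Basis (Fin m' ⊕ Fin m') F (Fin n → F) := b.reindex eι
  have hb' : ∀ i, b' i = b (Sum.inl i) := by
    intro i
    simp only [b', Module.Basis.reindex_apply]
    rfl
  refine ⟨b'.equivFun, ?_⟩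
  -- both sides are bilinear
  let S : LinearMap.BilinForm F (Fin n → F) :=
    ((Matrix.toBilin' (Matrix.J (Fin m') F)).compl₁₂ b'.equivFun.toLinearMap b'.equivFun.toLinearMap)
  have hS : ∀ x y, S x y = Cfsg.sympForm m' F (b'.equivFun x) (b'.equivFun y) := by
    intro x y
    simp only [S, LinearMap.compl₁₂_apply, Matrix.toBilin'_apply']
    rfl
  have hSB : S = -B := by
    apply LinearMap.BilinForm.ext_basis b'
    intro i j
    rw [hS, LinearMap.BilinForm.neg_apply]
    simp only [Module.Basis.equivFun_apply, Module.Basis.repr_self]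
    rw [hb', hb']
    have hsf : ∀ u v : Fin m' ⊕ Fin m' → F, Cfsg.sympForm m' F u v = ∑ i, (u (Sum.inr i) * v (Sum.inl i) - u (Sum.inl i) * v (Sum.inr i)) :=
      fun u v => Cfsg.Agent.Lead.sympForm_apply u v
    rw [hsf]
    rcases i with i | i <;> rcases j with j | j
    · rw [h3]
      simp [Finsupp.single_apply]
    · rw [h1]
      by_cases hij : i = j
      · subst hij
        simp [Finsupp.single_apply, Finset.sum_ite_eq]
      · simp [Finsupp.single_apply, hij, Ne.symm hij]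
    · have e1 := hA.neg_eq (b (Sum.inl (Sum.inl j))) (b (Sum.inl (Sum.inr i)))
      rw [h1] at e1
      rw [← e1]
      by_cases hij : i = j
      · subst hij
        simp [Finsupp.single_apply, Finset.sum_ite_eq]
      · simp [Finsupp.single_apply, hij, Ne.symm hij]
    · rw [h4]
      simp [Finsupp.single_apply]
  intro x y
  rw [← hS, hSB, LinearMap.BilinForm.neg_apply, hB]

/-- a nondegenerate alternating form has symplectic coordinates -/
lemma exists_symp_coords (h2 : (2 : F) ≠ 0) {m : ℕ} (hn : n = 2 * m) (G₀ : GL (Fin n) F) (h₀ : (G₀.val)ᵀ = -G₀.val) :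
    ∃ g : (Fin n → F) ≃ₗ[F] (Fin m ⊕ Fin m → F), ∀ x y, Cfsg.sympForm m F (g x) (g y) = - bf G₀.val x y := by
  have hanti : ∀ x y, bf G₀.val y x = - bf G₀.val x y := by
    intro x y
    rw [← bf_transpose, h₀]
    unfold bf
    rw [Matrix.neg_mulVec, dotProduct_neg]
  refine exists_symp_coords' hn G₀ (fun x => ?_)
  have e1 := hanti x x
  have e2 : (2 : F) * bf G₀.val x x = 0 := by linear_combination e1
  exact (mul_eq_zero.1 e2).resolve_left h2

end Model

end Cfsg.Agent.Lead.Fm
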