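import Cfsg.Agent.Lib.Lead.LangFm2
/-! Graph automorphisms of `PSL_n`, `n` even, `q` odd: the three classes. -/
set_option autoImplicit false
set_option linter.style.haveILetI false
set_option linter.unusedSimpArgs false
set_option linter.unusedSectionVars false
set_option linter.unusedVariables false
set_option linter.deprecated false
namespace Cfsg.Agent.Lead.Fm
open Matrix Matrix.SpecialLinearGroup Module
open Cfsg.Agent.Lead.AutPSL Cfsg.Agent.Lead.Lang Cfsg.Agent.Lead.Ortho Cfsg.Agent.Lead.LangOm Cfsg.Agent.H01.Om Cfsg.Agent.Lead.Omega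
open Cfsg.Agent.H11 (minusForm minusForm_coe plusForm U0 U0_mts finrank_ts_le_minus)
open scoped MatrixGroups

variable {F : Type*} [Field F] [Fintype F]

lemma qf_self {V : Type*} [AddCommGroup V] [Module F V] {Q : V → F} {B : V → V → F} (h : QF Q B) (x : V) : B x x = 2 * Q x := by
  have e1 := h.add x x
  have e2 := h.smul 2 x
  rw [two_smul] at e2
  rw [e2] at e1
  linear_combination -e1

section
variable {n : ℕ}
local notation "PS" => ProjectiveSpecialLinearGroup (Fin n) F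

/-- the quadratic form of a symmetric Gram matrix -/
noncomputable def qOf (G : GL (Fin n) F) : QuadraticForm F (Fin n → F) :=
  (Matrix.toBilin' G.val).toQuadraticMap

lemma qOf_apply (G : GL (Fin n) F) (v : Fin n → F) : qOf G v = bf G.val v v := by
  simp only [qOf, LinearMap.BilinMap.toQuadraticMap_apply, Matrix.toBilin'_apply']
  rfl

lemma qOf_nondeg (h2 : (2 : F) ≠ 0) (G : GL (Fin n) F) (hs : (G.val)ᵀ = G.val) :
    (QuadraticMap.polarBilin (qOf G)).Nondegenerate := by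
  apply Cfsg.Agent.H11.nondeg_of_left
  intro x hx
  have e0 : ∀ y, bf G.val x y = 0 := by
    intro y
    have e1 := hx y
    rw [QuadraticMap.polar, qOf_apply, qOf_apply, qOf_apply, bf_add_left, bf_add_right, bf_add_right] at e1
    have e2 : bf G.val y x = bf G.val x y := by
      rw [← bf_transpose, hs]
    rw [e2] at e1
    have e3 : (2 : F) * bf G.val x y = 0 := by linear_combination e1
    exact (mul_eq_zero.1 e3).resolve_left h2
  have e1 : x ᵥ* G.val = 0 := by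
    funext i
    have e2 := e0 (Pi.single i 1)
    have e3 : (x ᵥ* G.val) i = x ⬝ᵥ (G.val).col i := rfl
    rw [e3, Pi.zero_apply]
    simpa [bf, Matrix.mulVec_single] using e2
  have e2 : x ᵥ* (G.val * (G⁻¹).val) = 0 := by
    rw [← Matrix.vecMul_vecMul, e1, Matrix.zero_vecMul]
  rw [← Units.val_mul, mul_inv_cancel, Units.val_one, Matrix.vecMul_one] at e2
  exact e2

/-- plus and minus forms are not similar -/
lemma not_conj_plus_minus [Nontrivial (Fin n)] {m : ℕ} (hm : 1 ≤ m) {a b : F}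
    (hab : ∀ z₁ z₂ : F, z₁ ^ 2 + a * z₁ * z₂ + b * z₂ ^ 2 = 0 → z₁ = 0 ∧ z₂ = 0) (h2 : (2 : F) ≠ 0)
    (G₂ G₃ : GL (Fin n) F) (L₂ : (Fin m ⊕ Fin m → F) ≃ₗ[F] (Fin n → F))
    (L₃ : ((Fin (m - 1) ⊕ Fin (m - 1)) ⊕ Fin 2 → F) ≃ₗ[F] (Fin n → F))
    (h₂ : ∀ x y, polarPlus m F x y = bf G₂.val (L₂ x) (L₂ y))
    (h₃ : ∀ x y, polarMinus (m - 1) F a b x y = bf G₃.val (L₃ x) (L₃ y)) :
    ¬ Cfsg.IsConjUnder (cc : GL (Fin n) F →* MulAut PS).range (gg G₂) (gg G₃) := by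
  rintro ⟨_, ⟨P, rfl⟩, e⟩
  obtain ⟨u, hu⟩ := form_of_conj P G₂ G₃ e.symm
  obtain ⟨T, hT⟩ : ∃ T : (Fin m ⊕ Fin m → F) ≃ₗ[F] ((Fin (m - 1) ⊕ Fin (m - 1)) ⊕ Fin 2 → F),
      T = L₂.trans ((lOf P).trans L₃.symm) := ⟨_, rfl⟩
  have hTv : ∀ x, L₃ (T x) = P.val *ᵥ L₂ x := by
    intro x
    rw [hT]
    simp [lOf_apply]
  have hts : ∀ z ∈ (U0 m F).map T.toLinearMap, Cfsg.quadFormMinus (m - 1) F a b z = 0 := by
    rintro _ ⟨x, hx, rfl⟩
    have e1 := qf_self (qfMinus (F := F) (m - 1) a b) (T x)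
    rw [h₃] at e1
    change bf G₃.val (L₃ (T x)) (L₃ (T x)) = _ at e1
    rw [hTv, hu, ← h₂, qf_self (qfPlus (F := F) m)] at e1
    have e2 : Cfsg.quadFormPlus m F x = 0 := (U0_mts (F := F) m).sing x hx
    rw [e2, mul_zero, mul_zero] at e1
    have e3 := (mul_eq_zero.1 e1.symm).resolve_left h2
    exact e3
  have h1 := finrank_ts_le_minus a b hab ((U0 m F).map T.toLinearMap) hts
  rw [LinearEquiv.finrank_map_eq, (U0_mts (F := F) m).card] at h1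
  omega

end

section Main

/-- **The three classes of graph involutions.** -/
theorem psl_graph_odd (hodd : Odd (Fintype.card F)) {n m : ℕ} (hm : 2 ≤ m) (hnm : n = 2 * m) :
    ∃ (γ₁ γ₂ γ₃ : MulAut (Matrix.ProjectiveSpecialLinearGroup (Fin n) F)) (a b : F), (∀ z₁ z₂ : F, z₁ ^ 2 + a * z₁ * z₂ + b * z₂ ^ 2 = 0 → z₁ = 0 ∧ z₂ = 0) ∧ Cfsg.IsGraphAutClassPSL γ₁ ∧ orderOf γ₁ = 2 ∧ Cfsg.IsGraphAutClassPSL γ₂ ∧ orderOf γ₂ = 2 ∧ Cfsg.IsGraphAutClassPSL γ₃ ∧ orderOf γ₃ = 2 ∧ ¬ Cfsg.IsConjUnder (Cfsg.inndiagPSL n F) γ₁ γ₂ ∧ ¬ Cfsg.IsConjUnder (Cfsg.inndiagPSL n F) γ₁ γ₃ ∧ ¬ Cfsg.IsConjUnder (Cfsg.inndiagPSL n F) γ₂ γ₃ ∧ (∀ γ : MulAut (Matrix.ProjectiveSpecialLinearGroup (Fin n) F), Cfsg.IsGraphAutClassPSL γ → orderOf γ = 2 → Cfsg.IsConjUnder (Cfsg.inndiagPSL n F) γ₁ γ ∨ Cfsg.IsConjUnder (Cfsg.inndiagPSL n F) γ₂ γ ∨ Cfsg.IsConjUnder (Cfsg.inndiagPSL n F) γ₃ γ) ∧ Nonempty (↥(Cfsg.inndiagPSL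 n F ⊓ Subgroup.centralizer {γ₁}) ≃* Cfsg.PGSp m F) ∧ Nonempty (↥(Cfsg.inndiagPSL n F ⊓ Subgroup.centralizer {γ₂}) ≃* Cfsg.PGO F (Cfsg.quadFormPlus m F)) ∧ Nonempty (↥(Cfsg.inndiagPSL n F ⊓ Subgroup.centralizer {γ₃}) ≃* Cfsg.PGO F (Cfsg.quadFormMinus (m - 1) F a b)) := by
  classical
  subst hnm
  have h2 : (2 : F) ≠ 0 := two_ne_zero_of_odd rfl hodd
  have hn3 : 3 ≤ 2 * m := by omega
  haveI : Nontrivial (Fin (2 * m)) := Fin.nontrivial_iff_two_le.2 (by omega)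
  haveI : Nonempty (Fin (2 * m)) := ⟨⟨0, by omega⟩⟩
  obtain ⟨e₂⟩ : Nonempty (Fin (2 * m) ≃ (Fin m ⊕ Fin m)) := ⟨(Fintype.equivFinOfCardEq (Cfsg.Agent.H11.card_sum m)).symm⟩
  obtain ⟨e₃⟩ : Nonempty (Fin (2 * m) ≃ ((Fin (m - 1) ⊕ Fin (m - 1)) ⊕ Fin 2)) :=
    ⟨(Fintype.equivFinOfCardEq (by simp only [Fintype.card_sum, Fintype.card_fin]; omega)).symm⟩
  obtain ⟨ζ, hζ⟩ := exists_zeta F
  have hab := aniso_of_zeta hζ
  obtain ⟨G₂, hG₂, hs₂, hE₂⟩ := pgo_model e₂ (qfPlus (F := F) m) (fun x hx => by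
    obtain ⟨y, -, hy⟩ := ndPlus (F := F) m x Submodule.mem_top hx
    exact ⟨y, hy⟩) h2
  obtain ⟨G₃, hG₃, hs₃, hE₃⟩ := pgo_model e₃ (qfMinus (F := F) (m - 1) 1 ζ) (fun x hx => by
    obtain ⟨y, -, hy⟩ := ndMinus (F := F) (m - 1) 1 ζ hab x Submodule.mem_top hx
    exact ⟨y, hy⟩) h2
  obtain ⟨G₁, hG₁⟩ := exists_gram (F := F) e₂ (Cfsg.sympForm m F)
    (fun x y z => Cfsg.Agent.Lead.sympForm_add_left x y z) (fun a x z => Cfsg.Agent.Lead.sympForm_smul_left a x z)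
    (fun x y z => Cfsg.Agent.Lead.sympForm_add_right x y z) (fun a x z => Cfsg.Agent.Lead.sympForm_smul_right a x z)
    (fun x hx => by
      obtain ⟨y, hy⟩ := Cfsg.Agent.Lead.sympForm_nondeg hx
      exact ⟨y, hy⟩)
  have hanti : ∀ x y, bf G₁.val y x = - bf G₁.val x y := by
    intro x y
    have e1 := hG₁ ((LR e₂).symm x) ((LR e₂).symm y)
    have e2 := hG₁ ((LR e₂).symm y) ((LR e₂).symm x)
    rw [LinearEquiv.apply_symm_apply, LinearEquiv.apply_symm_apply] at e1 e2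
    rw [← e1, ← e2]
    exact Cfsg.Agent.Lead.sympForm_swap _ _
  have hs₁ : (G₁.val)ᵀ = -G₁.val := by
    apply mat_ext
    intro x y
    rw [bf_transpose, hanti]
    unfold bf
    rw [Matrix.neg_mulVec, dotProduct_neg]
  rw [inndiag_eq]
  have hone : ((1 : Fˣ) : F) = 1 := rfl
  refine ⟨gg G₁, gg G₂, gg G₃, 1, ζ, hab, isGraph_gg hn3 _, orderOf_gg hn3 G₁ (u := -1) (by
      rw [hs₁, Units.val_neg, Units.val_one, neg_smul, one_smul]), isGraph_gg hn3 _, orderOf_gg hn3 G₂ (u := 1) (by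
      rw [hs₂, Units.val_one, one_smul]), isGraph_gg hn3 _, orderOf_gg hn3 G₃ (u := 1) (by
      rw [hs₃, Units.val_one, one_smul]), not_conj_anti h2 G₁ G₂ hs₁ hs₂, not_conj_anti h2 G₁ G₃ hs₁ hs₃,
      not_conj_plus_minus (m := m) (by omega) hab h2 G₂ G₃ (LR e₂) (LR e₃) hG₂ hG₃, ?_,
      cen_iso G₁ (Cfsg.sympForm m F) (LR e₂) 1 (fun x y => by rw [hG₁, Units.val_one, one_mul]), hE₂, hE₃⟩
  intro γ hγ hγ2
  obtain ⟨G, rfl⟩ := eq_gg_of_graph hγ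
  have hsq : (gg G * gg G : MulAut _) = 1 := by
    have e0 := pow_orderOf_eq_one (gg G)
    rw [hγ2, sq] at e0
    exact e0
  obtain ⟨u, hu⟩ := (gg_sq_iff G).1 hsq
  have key : ∀ G', (∃ P : GL (Fin (2 * m)) F, (cc P * gg G * (cc P)⁻¹ : MulAut (ProjectiveSpecialLinearGroup (Fin (2 * m)) F)) = gg G') →
      Cfsg.IsConjUnder (cc : GL (Fin (2 * m)) F →* MulAut (ProjectiveSpecialLinearGroup (Fin (2 * m)) F)).range (gg G') (gg G) := by
    rintro G' ⟨P, hP⟩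
    refine ⟨(cc P)⁻¹, Subgroup.inv_mem _ ⟨P, rfl⟩, ?_⟩
    rw [← hP]
    group
  rcases sym_or_anti G hu with h1 | h1
  · have hs : (G.val)ᵀ = G.val := by rw [hu, h1, one_smul]
    rcases Cfsg.Agent.H11.exists_isometry_standard (m := m) (by omega) (by rw [Module.finrank_fintype_fun_eq_card, Fintype.card_fin]) (qOf G) (qOf_nondeg h2 G hs) with ⟨g, hg⟩ | ⟨g, ζ', hζ', hg⟩
    · right
      left
      exact key _ (conj_sym h2 G G₂ hs (qfPlus m) (LR e₂) hG₂ g (fun v => by rw [← qOf_apply]; exact hg v))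
    · right
      right
      obtain ⟨L', hL'⟩ := exists_minus_iso hab (aniso_of_zeta hζ') (m - 1)
      exact key _ (conj_sym h2 G G₃ hs (qfMinus (m - 1) 1 ζ) (LR e₃) hG₃ (g.trans L') (fun v => by
        rw [← qOf_apply, hg, LinearEquiv.trans_apply, hL']))
  · left
    have h₀ : (G.val)ᵀ = -G.val := by rw [hu, h1, neg_smul, one_smul]
    obtain ⟨g, hg⟩ := exists_symp_coords h2 rfl G h₀
    refine key _ ⟨glOf (g.trans (LR e₂)), conj_of_form _ _ _ (-1) (fun x y => ?_)⟩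
    rw [glOf_mulVec, glOf_mulVec, LinearEquiv.trans_apply, LinearEquiv.trans_apply, ← hG₁, hg]
    simp

end Main

end Cfsg.Agent.Lead.Fm
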