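import Cfsg.Agent.Lib.Lead.LangFm3
import Cfsg.Agent.Lib.H09.SymForm
import Cfsg.Agent.Lib.H11.SpReg
import Cfsg.Agent.Lib.Lead.AutPSpBase
/-! Graph automorphisms of `PSL_n`, `n` even, characteristic two. -/
set_option autoImplicit false
set_option linter.style.haveILetI false
set_option linter.unusedSimpArgs false
set_option linter.unusedSectionVars false
set_option linter.unusedVariables false
set_option linter.deprecated false
namespace Cfsg.Agent.Lead.Fm
open Matrix Matrix.SpecialLinearGroup Module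
open Cfsg.Agent.Lead.AutPSL Cfsg.Agent.Lead.Lang Cfsg.Agent.Lead.Ortho Cfsg.Agent.Lead.LangOm
open scoped MatrixGroups

variable {F : Type*} [Field F]

section General
variable {n : ℕ} {ι' : Type} [Fintype ι'] [DecidableEq ι']
local notation "PS" => ProjectiveSpecialLinearGroup (Fin n) F

lemma cL_sc (L : (ι' → F) ≃ₗ[F] (Fin n → F)) (u : Fˣ) : cL L (sc u : GL ι' F) = sc u := by
  apply Units.ext
  apply Matrix.mulVec_injective
  funext v
  rw [cL_mulVec, sc_coe, sc_coe, Matrix.smul_mulVec, Matrix.smul_mulVec, Matrix.one_mulVec, Matrix.one_mulVec, map_smul,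
    LinearEquiv.apply_symm_apply]

/-- the centralizer of a graph automorphism as a group of normalised similarities -/
theorem cen_K [Nontrivial (Fin n)] (G : GL (Fin n) F) (f' : (ι' → F) → (ι' → F) → F) (L : (ι' → F) ≃ₗ[F] (Fin n → F)) (d : Fˣ)
    (hf : ∀ x y, f' x y = d * bf G.val (L x) (L y)) {K : Type*} [Group K] (φ : K →* GL ι' F)
    (h1 : ∀ k, φ k ∈ Cfsg.Geo.similarityGroup f')
    (h2 : ∀ g ∈ Cfsg.Geo.similarityGroup f', ∃ (u : Fˣ) (k : K), (sc u : GL ι' F) * g = φ k)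
    (h3 : ∀ k, φ k ∈ Cfsg.Geo.scalars ι' F → k = 1) :
    Nonempty (↥((cc : GL (Fin n) F →* MulAut PS).range ⊓ Subgroup.centralizer {(gg G : MulAut PS)}) ≃* K) := by
  classical
  have hd : (d : F) ≠ 0 := d.ne_zero
  have hmem : ∀ k : K, (cc (cL L (φ k)) : MulAut PS) ∈
      (cc : GL (Fin n) F →* MulAut PS).range ⊓ Subgroup.centralizer {(gg G : MulAut PS)} := by
    intro k
    obtain ⟨c, hc⟩ := h1 k
    refine Subgroup.mem_inf.mpr ⟨⟨_, rfl⟩, Subgroup.mem_centralizer_singleton_iff.mpr ?_⟩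
    refine (comm_iff _ _).2 ⟨c, fun x y => ?_⟩
    rw [cL_mulVec, cL_mulVec]
    have e1 := hf ((φ k).val *ᵥ L.symm x) ((φ k).val *ᵥ L.symm y)
    have e2 := hf (L.symm x) (L.symm y)
    rw [LinearEquiv.apply_symm_apply, LinearEquiv.apply_symm_apply] at e2
    have e3 := hc (L.symm x) (L.symm y)
    rw [e1, e2] at e3
    apply mul_left_cancel₀ hd
    rw [e3]
    ring
  let Φ : K →* ↥((cc : GL (Fin n) F →* MulAut PS).range ⊓ Subgroup.centralizer {(gg G : MulAut PS)}) :=
    MonoidHom.codRestrict ((cc.comp (cL L).toMonoidHom).comp φ) _ hmem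
  have hΦ : ∀ k, ((Φ k : ↥((cc : GL (Fin n) F →* MulAut PS).range ⊓ Subgroup.centralizer {(gg G : MulAut PS)})) : MulAut PS) =
      cc (cL L (φ k)) := fun h => rfl
  have hinj : Function.Injective Φ := by
    rw [injective_iff_map_eq_one]
    intro k hk
    apply h3
    have e1 : (cc (cL L (φ k)) : MulAut PS) = 1 := congrArg Subtype.val hk
    rw [cc_eq_one_iff, Matrix.GeneralLinearGroup.center_eq_range_scalar] at e1
    obtain ⟨c, hc⟩ := e1
    have hc2 : (sc c : GL (Fin n) F) = cL L (φ k) := hc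
    rw [← cL_sc L c] at hc2
    have e2 := (cL L).injective hc2
    rw [← e2]
    exact ⟨c, rfl⟩
  have hsurj : Function.Surjective Φ := by
    rintro ⟨_, ⟨h, rfl⟩, hz⟩
    have hz' : (cc h * gg G : MulAut PS) = gg G * cc h := Subgroup.mem_centralizer_singleton_iff.mp hz
    obtain ⟨u, hu⟩ := (comm_iff _ _).1 hz'
    have hg : (cL L).symm h ∈ Cfsg.Geo.similarityGroup f' := by
      refine ⟨u, fun x y => ?_⟩
      rw [cL_symm_mulVec, cL_symm_mulVec, hf, hf, LinearEquiv.apply_symm_apply, LinearEquiv.apply_symm_apply, hu]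
      ring
    obtain ⟨u', k, hk⟩ := h2 _ hg
    refine ⟨k, ?_⟩
    apply Subtype.ext
    rw [hΦ, ← hk, map_mul, cL_sc, map_mul, cc_sc, one_mul, MulEquiv.apply_symm_apply]
  exact ⟨(MulEquiv.ofBijective Φ ⟨hinj, hsurj⟩).symm⟩

end General

section Two
variable [Fintype F] [CharP F 2] {m n : ℕ}
local notation "II" => (Fin m ⊕ Fin m)
local notation "om" => Cfsg.Agent.Lead.sympForm (l := Fin m) (F := F)

lemma sq_inj₂ {a b : F} (h : a ^ 2 = b ^ 2) : a = b := by
  have h2 : (2 : F) = 0 := CharTwo.two_eq_zero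
  have e : (a - b) ^ 2 = 0 := by linear_combination h + (b * b - a * b) * h2
  exact sub_eq_zero.1 (pow_eq_zero_iff (by norm_num) |>.1 e)

lemma exists_sqrt (c : F) : ∃ d : F, d * d = c := by
  obtain ⟨d, hd⟩ := FiniteField.isSquare_of_char_two (CharP.ringChar_of_prime_eq_zero Nat.prime_two (by
    exact_mod_cast (CharTwo.two_eq_zero : (2 : F) = 0))) c
  exact ⟨d, hd.symm⟩

/-- symplectic matrices as elements of `GL` -/
def spToGL : symplecticGroup (Fin m) F →* GL II F where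
  toFun A := ⟨A.1, (A⁻¹).1, by
      rw [← Submonoid.coe_mul, mul_inv_cancel]
      rfl, by
      rw [← Submonoid.coe_mul, inv_mul_cancel]
      rfl⟩
  map_one' := Units.ext rfl
  map_mul' a b := Units.ext rfl

lemma spToGL_val (A : symplecticGroup (Fin m) F) : (spToGL A).val = A.1 := rfl

/-- orthonormal coordinates for a non-alternating form -/
lemma exists_orth_coords (G : GL (Fin n) F) (hs : (G.val)ᵀ = G.val) (hna : ∃ x, bf G.val x x ≠ 0) :
    ∃ g : (Fin n → F) ≃ₗ[F] (Fin n → F), ∀ x y, bf (1 : Matrix (Fin n) (Fin n) F) (g x) (g y) = bf G.val x y := by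
  classical
  obtain ⟨B, hB⟩ : ∃ B : LinearMap.BilinForm F (Fin n → F), ∀ x y, B x y = bf G.val x y :=
    ⟨Matrix.toBilin' G.val, fun x y => Matrix.toBilin'_apply' _ _ _⟩
  have hnd : ∀ x, (∀ y, B x y = 0) → x = 0 := by
    intro x hx
    have e1 : x ᵥ* G.val = 0 := by
      funext i
      have e2 := hx (Pi.single i 1)
      rw [hB] at e2
      have e3 : (x ᵥ* G.val) i = x ⬝ᵥ (G.val).col i := rfl
      rw [e3, Pi.zero_apply]
      simpa [bf, Matrix.mulVec_single] using e2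
    have e2 : x ᵥ* (G.val * (G⁻¹).val) = 0 := by
      rw [← Matrix.vecMul_vecMul, e1, Matrix.zero_vecMul]
    rw [← Units.val_mul, mul_inv_cancel, Units.val_one, Matrix.vecMul_one] at e2
    exact e2
  obtain ⟨e, he⟩ := Cfsg.Agent.H09.SF.orthonormal_family (F := F) (fun d => exists_sqrt d) n (Fin n → F) B
    (by rw [Module.finrank_fintype_fun_eq_card, Fintype.card_fin])
    (fun x y => by
      rw [hB, hB, ← bf_transpose, hs])
    hnd (Or.inr (by
      obtain ⟨x, hx⟩ := hna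
      exact ⟨x, by rw [hB]; exact hx⟩))
  let P : Matrix (Fin n) (Fin n) F := Matrix.of fun i j => e j i
  have hP : Pᵀ * G.val * P = 1 := by
    ext i j
    have e1 := he i j
    rw [hB] at e1
    have e2 : e i = P.col i := rfl
    have e3 : e j = P.col j := rfl
    rw [e2, e3] at e1
    have e4 : (Pᵀ * G.val * P) i j = P.col i ⬝ᵥ (G.val *ᵥ P.col j) := by
      rw [Matrix.mul_apply]
      simp only [Matrix.mul_apply, dotProduct, Matrix.mulVec, Matrix.col_apply, Matrix.transpose_apply]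
      simp only [Finset.sum_mul, Finset.mul_sum]
      rw [Finset.sum_comm]
      refine Finset.sum_congr rfl fun a _ => Finset.sum_congr rfl fun b _ => ?_
      ring
    rw [e4]
    rw [Matrix.one_apply]
    exact e1
  have hR : (Pᵀ * G.val) * P = 1 := hP
  have hR' : P * (Pᵀ * G.val) = 1 := mul_eq_one_comm.1 hR
  let Rg : GL (Fin n) F := ⟨Pᵀ * G.val, P, hR, hR'⟩
  refine ⟨lOf Rg, fun x y => ?_⟩
  rw [lOf_apply, lOf_apply, bf_mat]
  congr 1
  change (Pᵀ * G.val)ᵀ * 1 * (Pᵀ * G.val) = G.val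
  rw [Matrix.mul_one, Matrix.transpose_mul, Matrix.transpose_transpose, hs, Matrix.mul_assoc, hR', Matrix.mul_one]

/-- the symmetric form of a transvection -/
def bT (v x y : II → F) : F := om x y + om x v * om y v

lemma bT_add_left (v x y z : II → F) : bT v (x + y) z = bT v x z + bT v y z := by
  simp only [bT, Cfsg.Agent.Lead.sympForm_add_left]
  ring

lemma bT_add_right (v x y z : II → F) : bT v x (y + z) = bT v x y + bT v x z := by
  simp only [bT, Cfsg.Agent.Lead.sympForm_add_left, Cfsg.Agent.Lead.sympForm_add_right]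
  ring

lemma bT_smul_left (v : II → F) (a : F) (x z : II → F) : bT v (a • x) z = a * bT v x z := by
  simp only [bT, Cfsg.Agent.Lead.sympForm_smul_left]
  ring

lemma bT_smul_right (v : II → F) (a : F) (x z : II → F) : bT v x (a • z) = a * bT v x z := by
  simp only [bT, Cfsg.Agent.Lead.sympForm_smul_left, Cfsg.Agent.Lead.sympForm_smul_right]
  ring

lemma om_symm (x y : II → F) : om x y = om y x := by
  rw [Cfsg.Agent.Lead.sympForm_swap, CharTwo.neg_eq]

lemma bT_symm (v x y : II → F) : bT v x y = bT v y x := by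
  simp only [bT]
  rw [om_symm x y]
  ring

lemma bT_self (v x : II → F) : bT v x x = om x v ^ 2 := by
  simp only [bT, Cfsg.Agent.Lead.sympForm_self]
  ring

lemma bT_eq (v x y : II → F) : bT v x y = om (x + om x v • v) y := by
  simp only [bT, Cfsg.Agent.Lead.sympForm_add_left, Cfsg.Agent.Lead.sympForm_smul_left]
  rw [om_symm v y]

lemma bT_nd (v x : II → F) (hx : x ≠ 0) : ∃ y, bT v x y ≠ 0 := by
  by_contra hall
  push Not at hall
  have e1 : x + om x v • v = 0 := by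
    by_contra hne
    obtain ⟨y, hy⟩ := Cfsg.Agent.Lead.sympForm_nondeg hne
    apply hy
    rw [← bT_eq]
    exact hall y
  have e4 : om x v = 0 := by
    have e5 : om (x + om x v • v) v = 0 := by
      rw [e1]
      simp [Cfsg.Agent.Lead.sympForm]
    rw [Cfsg.Agent.Lead.sympForm_add_left, Cfsg.Agent.Lead.sympForm_smul_left, Cfsg.Agent.Lead.sympForm_self, mul_zero, add_zero] at e5
    exact e5
  rw [e4, zero_smul, add_zero] at e1
  exact hx e1

lemma sp_scalar_one (A : symplecticGroup (Fin m) F) (hA : spToGL A ∈ Cfsg.Geo.scalars II F) [Nonempty (Fin m)] : A = 1 := by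
  rw [Cfsg.Geo.mem_scalars_iff] at hA
  obtain ⟨c, hc⟩ := hA
  have e0 : (A.1 : Matrix II II F) = (c : F) • (1 : Matrix II II F) := hc
  obtain ⟨i⟩ := ‹Nonempty (Fin m)›
  have e1 := Cfsg.Agent.Lead.sympForm_mulVec A.2 (Pi.single (Sum.inl i) 1) (Pi.single (Sum.inr i) 1)
  rw [e0, Matrix.smul_mulVec, Matrix.smul_mulVec, Matrix.one_mulVec, Matrix.one_mulVec, Cfsg.Agent.Lead.sympForm_smul_left,
    Cfsg.Agent.Lead.sympForm_smul_right] at e1
  have e2 : om (Pi.single (Sum.inl i) 1) (Pi.single (Sum.inr i) 1) = -1 := by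
    rw [Cfsg.Agent.Lead.sympForm_apply]
    simp [Pi.single_apply]
  rw [e2] at e1
  have e3 : (c : F) ^ 2 = 1 ^ 2 := by linear_combination -e1
  have e4 : (c : F) = 1 := sq_inj₂ e3
  apply Subtype.ext
  rw [e0, e4, one_smul]
  rfl

/-- the obligations for the alternating form -/
theorem alt_obligations [Nonempty (Fin m)] : (∀ k, spToGL k ∈ Cfsg.Geo.similarityGroup om) ∧
    (∀ g ∈ Cfsg.Geo.similarityGroup om, ∃ (u : Fˣ) (k : symplecticGroup (Fin m) F), (sc u : GL II F) * g = spToGL k) ∧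
    (∀ k, spToGL k ∈ Cfsg.Geo.scalars II F → k = 1) := by
  refine ⟨(fun k => ⟨1, fun u v => ?_⟩), ?_, (fun k hk => sp_scalar_one k hk)⟩
  · rw [Units.val_one, one_mul]
    exact Cfsg.Agent.Lead.sympForm_mulVec k.2 u v
  · rintro g ⟨c, hc⟩
    obtain ⟨e, he⟩ := exists_sqrt (c : F)
    have he0 : e ≠ 0 := by
      rintro rfl
      rw [zero_mul] at he
      exact c.ne_zero he.symm
    have hA : (e⁻¹ • (g.val)) ∈ symplecticGroup (Fin m) F := by
      apply Cfsg.Agent.H11.mem_symplectic_of_preserves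
      intro x y
      rw [Matrix.smul_mulVec, Matrix.smul_mulVec]
      change om (e⁻¹ • (g.val *ᵥ x)) (e⁻¹ • (g.val *ᵥ y)) = om x y
      rw [Cfsg.Agent.Lead.sympForm_smul_left, Cfsg.Agent.Lead.sympForm_smul_right]
      have e1 : om (g.val *ᵥ x) (g.val *ᵥ y) = c * om x y := hc x y
      rw [e1, ← he]
      field_simp
    refine ⟨Units.mk0 e⁻¹ (inv_ne_zero he0), ⟨_, hA⟩, ?_⟩
    apply Units.ext
    rw [Units.val_mul, sc_coe, spToGL_val, Units.val_mk0, Matrix.smul_mul, Matrix.one_mul]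

/-- the centralizer of the alternating graph automorphism -/
theorem cen_alt [Nontrivial (Fin n)] [Nonempty (Fin m)] (G : GL (Fin n) F) (L : (II → F) ≃ₗ[F] (Fin n → F)) (d : Fˣ)
    (hf : ∀ x y, om x y = d * bf G.val (L x) (L y)) :
    Nonempty (↥((cc : GL (Fin n) F →* MulAut (ProjectiveSpecialLinearGroup (Fin n) F)).range ⊓
      Subgroup.centralizer {(gg G : MulAut (ProjectiveSpecialLinearGroup (Fin n) F))}) ≃* ↥(symplecticGroup (Fin m) F)) :=
  cen_K G om L d hf spToGL alt_obligations.1 alt_obligations.2.1 alt_obligations.2.2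

/-- the obligations for the non-alternating form -/
theorem nonalt_obligations [Nonempty (Fin m)] (v : II → F) :
    (∀ k, (spToGL.comp (Subgroup.centralizer ({Cfsg.Agent.Lead.sympT v 1} : Set ↥(symplecticGroup (Fin m) F))).subtype) k ∈ Cfsg.Geo.similarityGroup (bT v)) ∧
    (∀ g ∈ Cfsg.Geo.similarityGroup (bT v), ∃ (u : Fˣ) (k : ↥(Subgroup.centralizer ({Cfsg.Agent.Lead.sympT v 1} : Set ↥(symplecticGroup (Fin m) F)))),
      (sc u : GL II F) * g = (spToGL.comp (Subgroup.centralizer ({Cfsg.Agent.Lead.sympT v 1} : Set ↥(symplecticGroup (Fin m) F))).subtype) k) ∧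
    (∀ k, (spToGL.comp (Subgroup.centralizer ({Cfsg.Agent.Lead.sympT v 1} : Set ↥(symplecticGroup (Fin m) F))).subtype) k ∈ Cfsg.Geo.scalars II F → k = 1) := by
  have hap : ∀ x, (Cfsg.Agent.Lead.sympT v 1 : symplecticGroup (Fin m) F).1 *ᵥ x = x + om x v • v := by
    intro x
    rw [Cfsg.Agent.Lead.sympT_coe, Cfsg.Agent.Lead.sympTmat_mulVec, one_mul]
  refine ⟨(fun k => ⟨1, fun x y => ?_⟩), ?_, (fun k hk => Subtype.ext (sp_scalar_one k.1 hk))⟩
  · rw [Units.val_one, one_mul]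
    obtain ⟨A, hAc⟩ := k
    have hcomm : A * Cfsg.Agent.Lead.sympT v 1 = Cfsg.Agent.Lead.sympT v 1 * A := by
      have := Subgroup.mem_centralizer_singleton_iff.1 hAc
      exact this
    have hc2 : ∀ z, A.1 *ᵥ ((Cfsg.Agent.Lead.sympT v 1 : symplecticGroup (Fin m) F).1 *ᵥ z) =
        (Cfsg.Agent.Lead.sympT v 1 : symplecticGroup (Fin m) F).1 *ᵥ (A.1 *ᵥ z) := by
      intro z
      rw [Matrix.mulVec_mulVec, Matrix.mulVec_mulVec]
      have e := congrArg Subtype.val hcomm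
      rw [Submonoid.coe_mul, Submonoid.coe_mul] at e
      rw [e]
    change bT v (A.1 *ᵥ x) (A.1 *ᵥ y) = bT v x y
    rw [bT_eq, bT_eq, ← hap, ← hap, ← hc2]
    exact Cfsg.Agent.Lead.sympForm_mulVec A.2 _ _
  · rintro g ⟨c, hc⟩
    obtain ⟨e, he⟩ := exists_sqrt (c : F)
    have he0 : e ≠ 0 := by
      rintro rfl
      rw [zero_mul] at he
      exact c.ne_zero he.symm
    obtain ⟨A, hAd⟩ : ∃ A : Matrix II II F, A = e⁻¹ • g.val := ⟨_, rfl⟩
    have hAv : ∀ x, A *ᵥ x = e⁻¹ • (g.val *ᵥ x) := by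
      intro x
      rw [hAd, Matrix.smul_mulVec]
    have h1 : ∀ x y, bT v (A *ᵥ x) (A *ᵥ y) = bT v x y := by
      intro x y
      rw [hAv, hAv, bT_smul_left, bT_smul_right]
      have e1 : bT v (g.val *ᵥ x) (g.val *ᵥ y) = c * bT v x y := hc x y
      rw [e1, ← he]
      field_simp
    have h2 : ∀ x, om (A *ᵥ x) v = om x v := by
      intro x
      apply sq_inj₂
      rw [← bT_self, ← bT_self, h1]
    have h3 : ∀ x y, om (A *ᵥ x) (A *ᵥ y) = om x y := by
      intro x y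
      have e1 := h1 x y
      simp only [bT] at e1
      rw [h2, h2] at e1
      exact add_right_cancel e1
    have hA : A ∈ symplecticGroup (Fin m) F := Cfsg.Agent.H11.mem_symplectic_of_preserves h3
    have hsurj : ∀ y, ∃ z, A *ᵥ z = y := by
      intro y
      refine ⟨e • ((g⁻¹).val *ᵥ y), ?_⟩
      rw [hAv, Matrix.mulVec_smul, Matrix.mulVec_mulVec, ← Units.val_mul, mul_inv_cancel, Units.val_one, Matrix.one_mulVec, smul_smul,
        inv_mul_cancel₀ he0, one_smul]
    have h4 : A *ᵥ v = v := by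
      by_contra hne
      have hne' : A *ᵥ v - v ≠ 0 := sub_ne_zero.2 hne
      obtain ⟨z, hz⟩ := Cfsg.Agent.Lead.sympForm_nondeg hne'
      obtain ⟨w, rfl⟩ := hsurj z
      apply hz
      have e1 : om (A *ᵥ v) (A *ᵥ w) = om v w := h3 v w
      have e2 : om (A *ᵥ w) v = om w v := h2 w
      have e3 : om (A *ᵥ v - v) (A *ᵥ w) = om (A *ᵥ v) (A *ᵥ w) - om v (A *ᵥ w) := by
        rw [Cfsg.Agent.Lead.sympForm_swap, Cfsg.Agent.Lead.sympForm_sub_right, neg_sub, Cfsg.Agent.Lead.sympForm_swap (A *ᵥ w) v,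
          Cfsg.Agent.Lead.sympForm_swap (A *ᵥ w) (A *ᵥ v)]
        ring
      rw [e3, e1, om_symm v (A *ᵥ w), e2, om_symm w v, sub_self]
    have hcomm : (⟨A, hA⟩ : symplecticGroup (Fin m) F) * Cfsg.Agent.Lead.sympT v 1 = Cfsg.Agent.Lead.sympT v 1 * ⟨A, hA⟩ := by
      apply Subtype.ext
      apply Matrix.mulVec_injective
      funext x
      rw [Submonoid.coe_mul, Submonoid.coe_mul, ← Matrix.mulVec_mulVec, ← Matrix.mulVec_mulVec, hap, hap, Matrix.mulVec_add, Matrix.mulVec_smul, h4, h2]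
    refine ⟨Units.mk0 e⁻¹ (inv_ne_zero he0), ⟨⟨A, hA⟩, Subgroup.mem_centralizer_singleton_iff.2 hcomm⟩, ?_⟩
    apply Units.ext
    rw [Units.val_mul, sc_coe, Units.val_mk0, Matrix.smul_mul, Matrix.one_mul]
    exact hAd.symm

/-- the centralizer of the non-alternating graph automorphism -/
theorem cen_nonalt [Nontrivial (Fin n)] [Nonempty (Fin m)] (G : GL (Fin n) F) (L : (II → F) ≃ₗ[F] (Fin n → F)) (d : Fˣ) (v : II → F)
    (hf : ∀ x y, bT v x y = d * bf G.val (L x) (L y)) :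
    Nonempty (↥((cc : GL (Fin n) F →* MulAut (ProjectiveSpecialLinearGroup (Fin n) F)).range ⊓
      Subgroup.centralizer {(gg G : MulAut (ProjectiveSpecialLinearGroup (Fin n) F))}) ≃*
        ↥(Subgroup.centralizer ({Cfsg.Agent.Lead.sympT v 1} : Set ↥(symplecticGroup (Fin m) F)))) :=
  cen_K G (bT v) L d hf (spToGL.comp (Subgroup.centralizer ({Cfsg.Agent.Lead.sympT v 1} : Set ↥(symplecticGroup (Fin m) F))).subtype)
    (nonalt_obligations v).1 (nonalt_obligations v).2.1 (nonalt_obligations v).2.2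

/-- a symplectic transvection is a transvection -/
lemma isTransvection_sympT {v : II → F} (hv : v ≠ 0) :
    Cfsg.IsTransvection ((Cfsg.Agent.Lead.sympT v 1 : symplecticGroup (Fin m) F) : Matrix II II F) := by
  classical
  have hN : ∀ x, ((Cfsg.Agent.Lead.sympT v 1 : symplecticGroup (Fin m) F).1 - 1 : Matrix II II F) *ᵥ x = om x v • v := by
    intro x
    rw [Matrix.sub_mulVec, Matrix.one_mulVec, Cfsg.Agent.Lead.sympT_coe, Cfsg.Agent.Lead.sympTmat_mulVec, one_mul, add_sub_cancel_left]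
  constructor
  · have hr : LinearMap.range (Matrix.mulVecLin ((Cfsg.Agent.Lead.sympT v 1 : symplecticGroup (Fin m) F).1 - 1 : Matrix II II F)) = Submodule.span F {v} := by
      apply le_antisymm
      · rintro _ ⟨x, rfl⟩
        rw [Matrix.mulVecLin_apply, hN]
        exact Submodule.smul_mem _ _ (Submodule.mem_span_singleton_self v)
      · rw [Submodule.span_singleton_le_iff_mem]
        obtain ⟨z, hz⟩ := Cfsg.Agent.Lead.sympForm_nondeg hv
        refine ⟨(om z v)⁻¹ • z, ?_⟩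
        have hz' : om z v ≠ 0 := by
          rw [om_symm]
          exact hz
        rw [Matrix.mulVecLin_apply, hN, Cfsg.Agent.Lead.sympForm_smul_left, inv_mul_cancel₀ hz', one_smul]
    unfold Matrix.rank
    rw [hr]
    exact finrank_span_singleton hv
  · apply Matrix.mulVec_injective
    funext x
    rw [← Matrix.mulVec_mulVec, hN, hN, Cfsg.Agent.Lead.sympForm_smul_left, Cfsg.Agent.Lead.sympForm_self, mul_zero, zero_smul,
      Matrix.zero_mulVec]

/-- **The two classes of graph involutions in characteristic two.** -/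
theorem psl_graph_two (hm : 2 ≤ m) (hnm : n = 2 * m) :
    ∃ (γ₁ γ₃ : MulAut (Matrix.ProjectiveSpecialLinearGroup (Fin n) F)) (t : ↥(Matrix.symplecticGroup (Fin m) F)), Cfsg.IsTransvection (t : Matrix (Fin m ⊕ Fin m) (Fin m ⊕ Fin m) F) ∧ Cfsg.IsGraphAutClassPSL γ₁ ∧ orderOf γ₁ = 2 ∧ Cfsg.IsGraphAutClassPSL γ₃ ∧ orderOf γ₃ = 2 ∧ ¬ Cfsg.IsConjUnder (Cfsg.inndiagPSL n F) γ₁ γ₃ ∧ (∀ γ : MulAut (Matrix.ProjectiveSpecialLinearGroup (Fin n) F), Cfsg.IsGraphAutClassPSL γ → orderOf γ = 2 → Cfsg.IsConjUnder (Cfsg.inndiagPSL n F) γ₁ γ ∨ Cfsg.IsConjUnder (Cfsg.inndiagPSL n F) γ₃ γ) ∧ Nonempty (↥(Cfsg.inndiagPSL n F ⊓ Subgroup.centralizer {γ₁}) ≃* ↥(Matrix.symplecticGroup (Fin m) F)) ∧ Nonempty (↥(Cfsg.inndiagPSL n F ⊓ Subgroup.centralizer {γ₃}) ≃* ↥(Subgroup.centralizer ({t} : Set ↥(Matrix.symplecticGroup (Fin m) F)))) := by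
  classical
  subst hnm
  have hn3 : 3 ≤ 2 * m := by omega
  haveI : Nontrivial (Fin (2 * m)) := Fin.nontrivial_iff_two_le.2 (by omega)
  haveI : Nonempty (Fin (2 * m)) := ⟨⟨0, by omega⟩⟩
  haveI : Nonempty (Fin m) := ⟨⟨0, by omega⟩⟩
  obtain ⟨e₂⟩ : Nonempty (Fin (2 * m) ≃ II) := ⟨(Fintype.equivFinOfCardEq (Cfsg.Agent.H11.card_sum m)).symm⟩
  obtain ⟨v, hvd⟩ : ∃ v : II → F, v = Pi.single (Sum.inl ⟨0, by omega⟩) 1 := ⟨_, rfl⟩
  have hv : v ≠ 0 := by
    rw [hvd]
    intro e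
    have := congrFun e (Sum.inl ⟨0, by omega⟩)
    simp at this
  obtain ⟨G₃, hG₃⟩ := exists_gram (F := F) e₂ (bT v) (bT_add_left v) (bT_smul_left v) (bT_add_right v) (bT_smul_right v) (bT_nd v)
  obtain ⟨G₁, hG₁⟩ := exists_gram (F := F) e₂ om
    (fun x y z => Cfsg.Agent.Lead.sympForm_add_left x y z) (fun a x z => Cfsg.Agent.Lead.sympForm_smul_left a x z)
    (fun x y z => Cfsg.Agent.Lead.sympForm_add_right x y z) (fun a x z => Cfsg.Agent.Lead.sympForm_smul_right a x z)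
    (fun x hx => Cfsg.Agent.Lead.sympForm_nondeg hx)
  obtain ⟨L, hL⟩ : ∃ L : (II → F) ≃ₗ[F] (Fin (2 * m) → F), L = LR e₂ := ⟨_, rfl⟩
  rw [← hL] at hG₃ hG₁
  have hs₃ : (G₃.val)ᵀ = G₃.val := by
    apply mat_ext
    intro x y
    rw [bf_transpose]
    have e1 := hG₃ (L.symm x) (L.symm y)
    have e2 := hG₃ (L.symm y) (L.symm x)
    rw [LinearEquiv.apply_symm_apply, LinearEquiv.apply_symm_apply] at e1 e2
    rw [← e1, ← e2, bT_symm]
  have hs₁ : (G₁.val)ᵀ = G₁.val := by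
    apply mat_ext
    intro x y
    rw [bf_transpose]
    have e1 := hG₁ (L.symm x) (L.symm y)
    have e2 := hG₁ (L.symm y) (L.symm x)
    rw [LinearEquiv.apply_symm_apply, LinearEquiv.apply_symm_apply] at e1 e2
    rw [← e1, ← e2, om_symm]
  have hself₁ : ∀ x, bf G₁.val x x = 0 := by
    intro x
    have e1 := hG₁ (L.symm x) (L.symm x)
    rw [LinearEquiv.apply_symm_apply, Cfsg.Agent.Lead.sympForm_self] at e1
    exact e1.symm
  have hna₃ : ∃ x, bf G₃.val x x ≠ 0 := by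
    obtain ⟨z, hz⟩ := Cfsg.Agent.Lead.sympForm_nondeg hv
    refine ⟨L z, ?_⟩
    rw [← hG₃, bT_self]
    refine pow_ne_zero _ ?_
    rw [om_symm]
    exact hz
  rw [inndiag_eq]
  refine ⟨gg G₁, gg G₃, Cfsg.Agent.Lead.sympT v 1, isTransvection_sympT hv, isGraph_gg hn3 _, orderOf_gg hn3 G₁ (u := 1) (by
      rw [hs₁, Units.val_one, one_smul]), isGraph_gg hn3 _, orderOf_gg hn3 G₃ (u := 1) (by
      rw [hs₃, Units.val_one, one_smul]), ?_, ?_,
      cen_alt G₁ L 1 (fun x y => by rw [hG₁, Units.val_one, one_mul]),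
      cen_nonalt G₃ L 1 v (fun x y => by rw [hG₃, Units.val_one, one_mul])⟩
  · rintro ⟨_, ⟨P, rfl⟩, e⟩
    obtain ⟨u, hu⟩ := form_of_conj P G₁ G₃ e.symm
    obtain ⟨x, hx⟩ := hna₃
    apply hx
    have e1 := hu ((P⁻¹).val *ᵥ x) ((P⁻¹).val *ᵥ x)
    rw [Matrix.mulVec_mulVec, ← Units.val_mul, mul_inv_cancel, Units.val_one, Matrix.one_mulVec, hself₁, mul_zero] at e1
    exact e1
  · intro γ hγ hγ2
    obtain ⟨G, rfl⟩ := eq_gg_of_graph hγ
    have hsq : (gg G * gg G : MulAut _) = 1 := by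
      have e0 := pow_orderOf_eq_one (gg G)
      rw [hγ2, sq] at e0
      exact e0
    obtain ⟨u, hu⟩ := (gg_sq_iff G).1 hsq
    have hs : (G.val)ᵀ = G.val := by
      rcases sym_or_anti G hu with h1 | h1
      · rw [hu, h1, one_smul]
      · rw [hu, h1, CharTwo.neg_eq, one_smul]
    have key : ∀ G', (∃ P : GL (Fin (2 * m)) F, (cc P * gg G * (cc P)⁻¹ : MulAut (ProjectiveSpecialLinearGroup (Fin (2 * m)) F)) = gg G') →
        Cfsg.IsConjUnder (cc : GL (Fin (2 * m)) F →* MulAut (ProjectiveSpecialLinearGroup (Fin (2 * m)) F)).range (gg G') (gg G) := by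
      rintro G' ⟨P, hP⟩
      refine ⟨(cc P)⁻¹, Subgroup.inv_mem _ ⟨P, rfl⟩, ?_⟩
      rw [← hP]
      group
    by_cases hA : ∀ x, bf G.val x x = 0
    · left
      obtain ⟨g, hg⟩ := exists_symp_coords' rfl G hA
      refine key _ ⟨glOf (g.trans L), conj_of_form _ _ _ (-1) (fun x y => ?_)⟩
      rw [glOf_mulVec, glOf_mulVec, LinearEquiv.trans_apply, LinearEquiv.trans_apply, ← hG₁]
      have e1 := hg x y
      rw [Units.val_neg, Units.val_one, neg_one_mul]
      exact e1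
    · right
      push Not at hA
      obtain ⟨g₁, hg₁⟩ := exists_orth_coords G hs hA
      obtain ⟨g₃, hg₃⟩ := exists_orth_coords G₃ hs₃ hna₃
      refine key _ ⟨glOf (g₁.trans g₃.symm), conj_of_form _ _ _ 1 (fun x y => ?_)⟩
      rw [glOf_mulVec, glOf_mulVec, LinearEquiv.trans_apply, LinearEquiv.trans_apply, ← hg₃, LinearEquiv.apply_symm_apply,
        LinearEquiv.apply_symm_apply, hg₁, Units.val_one, one_mul]

end Two

end Cfsg.Agent.Lead.Fm
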