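import Cfsg.Agent.Lib.Lead.LangFm4
import Cfsg.Agent.S2618
import Cfsg.Agent.Lib.H02.OSp
/-! Graph automorphisms of `PSL_n`, `n` odd. -/
set_option autoImplicit false
set_option linter.style.haveILetI false
set_option linter.unusedSimpArgs false
set_option linter.unusedSectionVars false
set_option linter.unusedVariables false
set_option linter.deprecated false
namespace Cfsg.Agent.Lead.Fm
open Matrix Matrix.SpecialLinearGroup Module
open Cfsg.Agent.Lead.AutPSL Cfsg.Agent.Lead.Lang Cfsg.Agent.Lead.Ortho Cfsg.Agent.Lead.LangOm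
open scoped MatrixGroups

variable {F : Type*} [Field F] [Fintype F]

section Odd
variable {n m : ℕ}

/-- the polar form of the odd form as a bilinear form -/
noncomputable def pOdd (m : ℕ) (F : Type*) [Field F] [Fintype F] : LinearMap.BilinForm F (Unit ⊕ (Fin m ⊕ Fin m) → F) :=
  LinearMap.mk₂ F (polarOdd m F) (qfOdd m).add_left (qfOdd m).smul_left (qfOdd m).add_right (qfOdd m).smul_right

lemma pOdd_apply (x y : Unit ⊕ (Fin m ⊕ Fin m) → F) : pOdd m F x y = polarOdd m F x y := rfl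

/-- coordinates of an odd-dimensional symmetric form -/
lemma odd_coords (h2 : (2 : F) ≠ 0) (hn : n = 2 * m + 1) (G : GL (Fin n) F) (hs : (G.val)ᵀ = G.val) :
    ∃ (g : (Fin n → F) ≃ₗ[F] (Unit ⊕ (Fin m ⊕ Fin m) → F)) (u : Fˣ), ∀ x y, polarOdd m F (g x) (g y) = u * bf G.val x y := by
  classical
  have hV : finrank F (Fin n → F) = 2 * m + 1 := by
    rw [Module.finrank_fintype_fun_eq_card, Fintype.card_fin, hn]
  obtain ⟨b, h0, h1, h3, h4, h5⟩ := Cfsg.Agent.S2618.result hV (qOf G) (qOf_nondeg h2 G hs)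
  obtain ⟨a, ha⟩ : ∃ a, a = qOf G (b (Sum.inl ())) := ⟨_, rfl⟩
  rw [← ha] at h0
  obtain ⟨a', ha'⟩ : ∃ a' : Fˣ, (a' : F) = a := ⟨Units.mk0 a h0, rfl⟩
  let w : Unit ⊕ (Fin m ⊕ Fin m) → Fˣ := Sum.elim (fun _ => 1) (Sum.elim (fun _ => a') (fun _ => 1))
  let b' := b.unitsSMul w
  have hb₀ : b' (Sum.inl ()) = b (Sum.inl ()) := by
    simp [b', w, Module.Basis.unitsSMul_apply]
  have hb₁ : ∀ i, b' (Sum.inr (Sum.inl i)) = a • b (Sum.inr (Sum.inl i)) := by
    intro i
    simp only [b', w, Module.Basis.unitsSMul_apply, Sum.elim_inr, Sum.elim_inl]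
    rw [← ha']
    rfl
  have hb₂ : ∀ i, b' (Sum.inr (Sum.inr i)) = b (Sum.inr (Sum.inr i)) := by
    intro i
    simp [b', w, Module.Basis.unitsSMul_apply]
  have hE : ∀ α, b'.equivFun (b' α) = Pi.single α 1 := by
    intro α
    funext j
    rw [Module.Basis.equivFun_self, Pi.single_apply]
    by_cases h : α = j
    · simp [h]
    · simp [h, Ne.symm h]
  have hPol : QuadraticMap.polarBilin (qOf G) = a • ((pOdd m F).compl₁₂ b'.equivFun.toLinearMap b'.equivFun.toLinearMap) := by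
    apply LinearMap.BilinForm.ext_basis b'
    intro α β
    rw [LinearMap.smul_apply, LinearMap.smul_apply, LinearMap.compl₁₂_apply]
    simp only [LinearEquiv.coe_coe]
    rw [QuadraticMap.polarBilin_apply_apply, hE, hE, pOdd_apply, smul_eq_mul]
    have hs1 : ∀ {x y : Fin n → F}, QuadraticMap.polar (qOf G) x y = QuadraticMap.polar (qOf G) y x := fun {x y} => QuadraticMap.polar_comm _ _ _
    rcases α with ⟨⟩ | α | α <;> rcases β with ⟨⟩ | β | β
    · rw [hb₀, QuadraticMap.polar_self, ← ha]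
      simp [polarOdd, Pi.single_apply]
      ring
    · rw [hb₀, hb₁, QuadraticMap.polar_smul_right, (h1 β).1]
      simp [polarOdd, Pi.single_apply]
    · rw [hb₀, hb₂, (h1 β).2]
      simp [polarOdd, Pi.single_apply]
    · rw [hb₀, hb₁, hs1, QuadraticMap.polar_smul_right, (h1 α).1]
      simp [polarOdd, Pi.single_apply]
    · rw [hb₁, hb₁, QuadraticMap.polar_smul_right, QuadraticMap.polar_smul_left, (h5 α β).1]
      simp [polarOdd, Pi.single_apply]
    · rw [hb₁, hb₂, QuadraticMap.polar_smul_left, h4]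
      by_cases hab : α = β
      · subst hab
        simp [polarOdd, Pi.single_apply, Finset.sum_ite_eq]
      · simp [polarOdd, Pi.single_apply, hab, Ne.symm hab]
    · rw [hb₀, hb₂, hs1, (h1 α).2]
      simp [polarOdd, Pi.single_apply]
    · rw [hb₂, hb₁, hs1, QuadraticMap.polar_smul_left, h4]
      by_cases hab : α = β
      · subst hab
        simp [polarOdd, Pi.single_apply, Finset.sum_ite_eq]
      · simp [polarOdd, Pi.single_apply, hab, Ne.symm hab]
    · rw [hb₂, hb₂, (h5 α β).2]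
      simp [polarOdd, Pi.single_apply]
  refine ⟨b'.equivFun, Units.mk0 (a⁻¹ * 2) (mul_ne_zero (inv_ne_zero h0) h2), fun x y => ?_⟩
  have e1 := congrArg (fun B : LinearMap.BilinForm F (Fin n → F) => B x y) hPol
  simp only [LinearMap.smul_apply, LinearMap.compl₁₂_apply, LinearEquiv.coe_coe, smul_eq_mul] at e1
  rw [QuadraticMap.polarBilin_apply_apply, pOdd_apply, QuadraticMap.polar, qOf_apply, qOf_apply, qOf_apply, bf_add_left, bf_add_right, bf_add_right] at e1
  have e2 : bf G.val y x = bf G.val x y := by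
    rw [← bf_transpose, hs]
  rw [e2] at e1
  rw [Units.val_mk0]
  field_simp
  linear_combination -e1

/-- an odd dimension forces symmetry -/
lemma sym_of_odd (h2 : (2 : F) ≠ 0) (hn : n = 2 * m + 1) (G : GL (Fin n) F) (h₀ : (G.val)ᵀ = -G.val) : False := by
  have e1 := congrArg Matrix.det h₀
  rw [Matrix.det_transpose, Matrix.det_neg, Fintype.card_fin] at e1
  have hodd : Odd n := ⟨m, hn⟩
  rw [hodd.neg_one_pow] at e1
  have hd : (G.val).det ≠ 0 := by
    have := (Matrix.isUnit_iff_isUnit_det _).1 G.isUnit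
    exact this.ne_zero
  apply hd
  have e2 : (2 : F) * (G.val).det = 0 := by linear_combination e1
  exact (mul_eq_zero.1 e2).resolve_left h2

/-- the common statement, odd characteristic -/
theorem model_ne_two [Nontrivial (Fin n)] (h2 : (2 : F) ≠ 0) (hn : n = 2 * m + 1) :
    ∃ G₀ : GL (Fin n) F, Nonempty (↥((cc : GL (Fin n) F →* MulAut (ProjectiveSpecialLinearGroup (Fin n) F)).range ⊓
        Subgroup.centralizer {(gg G₀ : MulAut (ProjectiveSpecialLinearGroup (Fin n) F))}) ≃* Cfsg.PGO F (Cfsg.quadFormOdd m F)) ∧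
      ∀ G : GL (Fin n) F, (gg G * gg G : MulAut (ProjectiveSpecialLinearGroup (Fin n) F)) = 1 →
        ∃ P : GL (Fin n) F, (cc P * gg G * (cc P)⁻¹ : MulAut (ProjectiveSpecialLinearGroup (Fin n) F)) = gg G₀ := by
  classical
  obtain ⟨e⟩ : Nonempty (Fin n ≃ (Unit ⊕ (Fin m ⊕ Fin m))) :=
    ⟨(Fintype.equivFinOfCardEq (by simp only [Fintype.card_sum, Fintype.card_unit, Fintype.card_fin]; omega)).symm⟩
  obtain ⟨G₀, hG₀, hs₀, hE⟩ := pgo_model e (qfOdd (F := F) m) (fun x hx => by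
    obtain ⟨y, -, hy⟩ := ndOdd (F := F) m h2 x Submodule.mem_top hx
    exact ⟨y, hy⟩) h2
  refine ⟨G₀, hE, fun G hsq => ?_⟩
  obtain ⟨u, hu⟩ := (gg_sq_iff G).1 hsq
  have hs : (G.val)ᵀ = G.val := by
    rcases sym_or_anti G hu with h1 | h1
    · rw [hu, h1, one_smul]
    · exact (sym_of_odd h2 hn G (by rw [hu, h1, neg_smul, one_smul])).elim
  obtain ⟨g, v, hg⟩ := odd_coords h2 hn G hs
  refine ⟨glOf (g.trans (LR e)), conj_of_form _ _ _ v (fun x y => ?_)⟩
  rw [glOf_mulVec, glOf_mulVec, LinearEquiv.trans_apply, LinearEquiv.trans_apply, ← hG₀, hg]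

end Odd

section Two
variable [CharP F 2] {m n : ℕ}
local notation "II" => (Fin m ⊕ Fin m)
local notation "om" => Cfsg.Agent.Lead.sympForm (l := Fin m) (F := F)

/-- the tail of a vector -/
def rr (x : Unit ⊕ II → F) : II → F := fun k => x (Sum.inr k)

/-- the head of a vector -/
def hh (x : Unit ⊕ II → F) : F := x (Sum.inl ())

/-- the model bilinear form -/
def fT (x y : Unit ⊕ II → F) : F := hh x * hh y + om (rr x) (rr y)

lemma rr_add (x y : Unit ⊕ II → F) : rr (x + y) = rr x + rr y := rfl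
lemma rr_smul (a : F) (x : Unit ⊕ II → F) : rr (a • x) = a • rr x := rfl
lemma hh_add (x y : Unit ⊕ II → F) : hh (x + y) = hh x + hh y := rfl
lemma hh_smul (a : F) (x : Unit ⊕ II → F) : hh (a • x) = a * hh x := rfl

lemma fT_add_left (x y z : Unit ⊕ II → F) : fT (x + y) z = fT x z + fT y z := by
  rw [fT, fT, fT, rr_add, hh_add, Cfsg.Agent.Lead.sympForm_add_left]
  ring

lemma fT_add_right (x y z : Unit ⊕ II → F) : fT x (y + z) = fT x y + fT x z := by
  rw [fT, fT, fT, rr_add, hh_add, Cfsg.Agent.Lead.sympForm_add_right]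
  ring

lemma fT_smul_left (a : F) (x z : Unit ⊕ II → F) : fT (a • x) z = a * fT x z := by
  rw [fT, fT, rr_smul, hh_smul, Cfsg.Agent.Lead.sympForm_smul_left]
  ring

lemma fT_smul_right (a : F) (x z : Unit ⊕ II → F) : fT x (a • z) = a * fT x z := by
  rw [fT, fT, rr_smul, hh_smul, Cfsg.Agent.Lead.sympForm_smul_right]
  ring

lemma fT_symm (x y : Unit ⊕ II → F) : fT x y = fT y x := by
  rw [fT, fT, om_symm, mul_comm]

lemma fT_self (x : Unit ⊕ II → F) : fT x x = hh x ^ 2 := by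
  rw [fT, Cfsg.Agent.Lead.sympForm_self]
  ring

lemma ext_hh {x y : Unit ⊕ II → F} (h1 : hh x = hh y) (h2 : rr x = rr y) : x = y := by
  funext k
  rcases k with ⟨⟩ | k
  · exact h1
  · exact congrFun h2 k

lemma fT_nd (x : Unit ⊕ II → F) (hx : x ≠ 0) : ∃ y, fT x y ≠ 0 := by
  by_cases h0 : hh x = 0
  · have hr : rr x ≠ 0 := by
      intro hr
      apply hx
      apply ext_hh h0 hr
    obtain ⟨z, hz⟩ := Cfsg.Agent.Lead.sympForm_nondeg hr
    refine ⟨Sum.elim (fun _ => 0) z, ?_⟩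
    rw [fT, h0, zero_mul, zero_add]
    exact hz
  · refine ⟨Sum.elim (fun _ => 1) 0, ?_⟩
    rw [fT]
    have e1 : rr (Sum.elim (fun _ => 1) 0 : Unit ⊕ II → F) = 0 := rfl
    have e2 : hh (Sum.elim (fun _ => 1) 0 : Unit ⊕ II → F) = 1 := rfl
    rw [e1, e2, mul_one]
    have e3 : om (rr x) 0 = 0 := by
      have := Cfsg.Agent.Lead.sympForm_smul_right (0 : F) (rr x) (0 : II → F)
      rwa [zero_smul, zero_mul] at this
    rw [e3, add_zero]
    exact h0

/-- block-diagonal extension of a matrix -/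
def dgM : Matrix II II F →* Matrix (Unit ⊕ II) (Unit ⊕ II) F where
  toFun A := fromBlocks 1 0 0 A
  map_one' := fromBlocks_one
  map_mul' A B := by
    rw [fromBlocks_multiply]
    simp

lemma dgM_apply (A : Matrix II II F) : dgM A = fromBlocks 1 0 0 A := rfl

lemma hh_dgM (A : Matrix II II F) (x : Unit ⊕ II → F) : hh (dgM A *ᵥ x) = hh x := by
  rw [dgM_apply, fromBlocks_mulVec]
  simp [hh, Matrix.mulVec, dotProduct]

lemma rr_dgM (A : Matrix II II F) (x : Unit ⊕ II → F) : rr (dgM A *ᵥ x) = A *ᵥ rr x := by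
  rw [dgM_apply, fromBlocks_mulVec]
  funext k
  simp [rr, Function.comp_def]
  rfl

/-- the block-diagonal symplectic group -/
def dgSp : symplecticGroup (Fin m) F →* GL (Unit ⊕ II) F := (Units.map dgM).comp spToGL

lemma dgSp_val (A : symplecticGroup (Fin m) F) : (dgSp A).val = dgM A.1 := rfl

/-- the block-diagonal symplectic group is the similarity group of the model form, modulo scalars -/
theorem dg_obligations : (∀ k, dgSp k ∈ Cfsg.Geo.similarityGroup (fT (F := F) (m := m))) ∧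
    (∀ g ∈ Cfsg.Geo.similarityGroup (fT (F := F) (m := m)), ∃ (u : Fˣ) (k : symplecticGroup (Fin m) F), (sc u : GL (Unit ⊕ II) F) * g = dgSp k) ∧
    (∀ k, dgSp k ∈ Cfsg.Geo.scalars (Unit ⊕ II) F → k = 1) := by
  classical
  refine ⟨fun k => ⟨1, fun x y => ?_⟩, ?_, ?_⟩
  · rw [Units.val_one, one_mul, dgSp_val]
    rw [fT, fT, hh_dgM, hh_dgM, rr_dgM, rr_dgM, Cfsg.Agent.Lead.sympForm_mulVec k.2]
  · rintro g ⟨c, hc⟩
    obtain ⟨e, he⟩ := exists_sqrt (c : F)
    have he0 : e ≠ 0 := by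
      rintro rfl
      rw [zero_mul] at he
      exact c.ne_zero he.symm
    obtain ⟨A, hAd⟩ : ∃ A : Matrix (Unit ⊕ II) (Unit ⊕ II) F, A = e⁻¹ • g.val := ⟨_, rfl⟩
    have hAv : ∀ x, A *ᵥ x = e⁻¹ • (g.val *ᵥ x) := by
      intro x
      rw [hAd, Matrix.smul_mulVec]
    have h1 : ∀ x y, fT (A *ᵥ x) (A *ᵥ y) = fT x y := by
      intro x y
      rw [hAv, hAv, fT_smul_left, fT_smul_right]
      have e1 : fT (g.val *ᵥ x) (g.val *ᵥ y) = c * fT x y := hc x y
      rw [e1, ← he]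
      field_simp
    have hA0 : ∀ x, hh (A *ᵥ x) = hh x := by
      intro x
      apply sq_inj₂
      rw [← fT_self, ← fT_self, h1]
    have hsurj : ∀ y, ∃ z, A *ᵥ z = y := by
      intro y
      refine ⟨e • ((g⁻¹).val *ᵥ y), ?_⟩
      rw [hAv, Matrix.mulVec_smul, Matrix.mulVec_mulVec, ← Units.val_mul, mul_inv_cancel, Units.val_one, Matrix.one_mulVec, smul_smul,
        inv_mul_cancel₀ he0, one_smul]
    obtain ⟨v₀, hv₀⟩ : ∃ v₀ : Unit ⊕ II → F, v₀ = Sum.elim (fun _ => 1) 0 := ⟨_, rfl⟩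
    have hom0 : ∀ w : II → F, om 0 w = 0 := by
      intro w
      have := Cfsg.Agent.Lead.sympForm_smul_left (0 : F) (0 : II → F) w
      rwa [zero_smul, zero_mul] at this
    have hfv : ∀ y, fT v₀ y = hh y := by
      intro y
      have e1 : rr v₀ = 0 := by rw [hv₀]; rfl
      have e2 : hh v₀ = 1 := by rw [hv₀]; rfl
      rw [fT, e1, e2, one_mul, hom0, add_zero]
    have hAv₀ : A *ᵥ v₀ = v₀ := by
      by_contra hne
      have hne' : A *ᵥ v₀ - v₀ ≠ 0 := sub_ne_zero.2 hne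
      obtain ⟨z, hz⟩ := fT_nd _ hne'
      obtain ⟨w, rfl⟩ := hsurj z
      apply hz
      have e1 : fT (A *ᵥ v₀ - v₀) (A *ᵥ w) = fT (A *ᵥ v₀) (A *ᵥ w) - fT v₀ (A *ᵥ w) := by
        have := fT_add_left (A *ᵥ v₀ - v₀) v₀ (A *ᵥ w)
        rw [sub_add_cancel] at this
        rw [this]
        ring
      rw [e1, h1, hfv, hfv, hA0, sub_self]
    obtain ⟨B, hB⟩ : ∃ B : Matrix II II F, B = A.submatrix Sum.inr Sum.inr := ⟨_, rfl⟩
    have hv₀' : v₀ = Pi.single (Sum.inl ()) 1 := by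
      rw [hv₀]
      funext k
      rcases k with ⟨⟩ | k
      · simp
      · simp [Pi.single_apply]
    have hcol : ∀ i j, A i j = (A *ᵥ Pi.single j 1) i := by
      intro i j
      rw [Matrix.mulVec_single_one]
      rfl
    have hblock : A = dgM B := by
      ext i j
      rw [dgM_apply]
      rcases j with ⟨⟩ | j
      · rw [hcol, ← hv₀', hAv₀, hv₀]
        rcases i with ⟨⟩ | i
        · simp
        · simp
      · rcases i with ⟨⟩ | i
        · rw [hcol]
          have e1 := hA0 (Pi.single (Sum.inr j) 1)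
          simp only [hh] at e1
          rw [e1]
          simp
        · rw [hB]
          simp
    have hpres : ∀ u v : II → F, om (B *ᵥ u) (B *ᵥ v) = om u v := by
      intro u v
      have e1 := h1 (Sum.elim (fun _ => 0) u) (Sum.elim (fun _ => 0) v)
      rw [hblock, fT, fT, hh_dgM, hh_dgM, rr_dgM, rr_dgM] at e1
      have e2 : hh (Sum.elim (fun _ => 0) u : Unit ⊕ II → F) = 0 := rfl
      have e3 : rr (Sum.elim (fun _ => 0) u : Unit ⊕ II → F) = u := rfl
      have e4 : rr (Sum.elim (fun _ => 0) v : Unit ⊕ II → F) = v := rfl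
      rw [e2, e3, e4, zero_mul, zero_add, zero_add] at e1
      exact e1
    have hBS : B ∈ symplecticGroup (Fin m) F := Cfsg.Agent.H11.mem_symplectic_of_preserves hpres
    refine ⟨Units.mk0 e⁻¹ (inv_ne_zero he0), ⟨B, hBS⟩, Units.ext ?_⟩
    rw [Units.val_mul, sc_coe, dgSp_val, smul_mul_assoc, one_mul, Units.val_mk0]
    change e⁻¹ • g.val = dgM B
    rw [← hAd, hblock]
  · intro k hk
    obtain ⟨c, hc⟩ := (Cfsg.Geo.mem_scalars_iff _).1 hk
    rw [dgSp_val] at hc
    have e1 := congrFun (congrFun hc (Sum.inl ())) (Sum.inl ())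
    rw [dgM_apply] at e1
    simp at e1
    apply Subtype.ext
    ext i j
    have e2 := congrFun (congrFun hc (Sum.inr i)) (Sum.inr j)
    rw [dgM_apply] at e2
    by_cases hij : i = j
    · subst hij
      simp [← e1] at e2
      simpa using e2
    · simp [hij] at e2
      simpa [hij, Matrix.one_apply] using e2

/-- the centralizer in terms of the symplectic group -/
theorem cen_odd_two [Nontrivial (Fin n)] (G : GL (Fin n) F) (L : ((Unit ⊕ II) → F) ≃ₗ[F] (Fin n → F)) (d : Fˣ)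
    (hf : ∀ x y, fT x y = d * bf G.val (L x) (L y)) :
    Nonempty (↥((cc : GL (Fin n) F →* MulAut (ProjectiveSpecialLinearGroup (Fin n) F)).range ⊓
      Subgroup.centralizer {(gg G : MulAut (ProjectiveSpecialLinearGroup (Fin n) F))}) ≃* ↥(symplecticGroup (Fin m) F)) :=
  cen_K G fT L d hf dgSp dg_obligations.1 dg_obligations.2.1 dg_obligations.2.2

/-- the projective similarity group of the odd form is its isometry group -/
theorem pgo_iso_isom (m : ℕ) : Nonempty (Cfsg.PGO F (Cfsg.quadFormOdd m F) ≃* Cfsg.isometryGroup F (Cfsg.quadFormOdd m F)) := by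
  classical
  have hle : Cfsg.isometryGroup F (Cfsg.quadFormOdd m F) ≤ Cfsg.Geo.quadSimilarityGroup (F := F) (Cfsg.quadFormOdd m F) := by
    intro g hg
    refine ⟨1, fun v => ?_⟩
    have e1 := hg v v
    rw [Units.val_one, one_mul]
    exact e1
  let ψ : Cfsg.isometryGroup F (Cfsg.quadFormOdd m F) →* Cfsg.PGO F (Cfsg.quadFormOdd m F) :=
    (QuotientGroup.mk' _).comp (Subgroup.inclusion hle)
  have hinj : Function.Injective ψ := by
    rw [injective_iff_map_eq_one]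
    rintro ⟨g, hg⟩ hk
    have h1 : (Subgroup.inclusion hle ⟨g, hg⟩) ∈ (Cfsg.Geo.scalars (Unit ⊕ (Fin m ⊕ Fin m)) F).subgroupOf (Cfsg.Geo.quadSimilarityGroup (F := F) (Cfsg.quadFormOdd m F)) :=
      (QuotientGroup.eq_one_iff _).1 hk
    rw [Subgroup.mem_subgroupOf] at h1
    obtain ⟨c, hc⟩ := (Cfsg.Geo.mem_scalars_iff _).1 h1
    have hc' : (g : Matrix (Unit ⊕ (Fin m ⊕ Fin m)) (Unit ⊕ (Fin m ⊕ Fin m)) F) = (c : F) • (1 : Matrix (Unit ⊕ (Fin m ⊕ Fin m)) (Unit ⊕ (Fin m ⊕ Fin m)) F) := hc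
    have e1 := hg (Sum.elim (fun _ => 1) 0) (Sum.elim (fun _ => 1) 0)
    have e2 : ((Units.coeHom (Matrix (Unit ⊕ (Fin m ⊕ Fin m)) (Unit ⊕ (Fin m ⊕ Fin m)) F)) g) = (c : F) • (1 : Matrix (Unit ⊕ (Fin m ⊕ Fin m)) (Unit ⊕ (Fin m ⊕ Fin m)) F) := hc'
    simp only [e2, Matrix.smul_mulVec, Matrix.one_mulVec] at e1
    have e3 := (qfOdd (F := F) m).smul (c : F) (Sum.elim (fun _ => 1) 0)
    have e4 : Cfsg.quadFormOdd m F (Sum.elim (fun _ => 1) 0) = 1 := by
      simp [Cfsg.quadFormOdd]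
    rw [e1, e4, mul_one] at e3
    have e5 : (c : F) = 1 := sq_inj₂ (by rw [← e3, one_pow])
    apply Subtype.ext
    apply Units.ext
    change (g : Matrix (Unit ⊕ (Fin m ⊕ Fin m)) (Unit ⊕ (Fin m ⊕ Fin m)) F) = 1
    rw [hc', e5, one_smul]
  have hsurj : Function.Surjective ψ := by
    intro y
    obtain ⟨⟨g, c, hc⟩, rfl⟩ := QuotientGroup.mk_surjective y
    obtain ⟨e, he⟩ := exists_sqrt (c : F)
    have he0 : e ≠ 0 := by
      rintro rfl
      rw [zero_mul] at he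
      exact c.ne_zero he.symm
    obtain ⟨u, hu⟩ : ∃ u : Fˣ, (u : F) = e⁻¹ := ⟨Units.mk0 e⁻¹ (inv_ne_zero he0), rfl⟩
    have hmem : (sc u : GL _ F) * g ∈ Cfsg.isometryGroup F (Cfsg.quadFormOdd m F) := by
      intro v w
      change Cfsg.quadFormOdd m F (((sc u : GL _ F) * g).val *ᵥ v) = Cfsg.quadFormOdd m F v
      rw [Units.val_mul, sc_coe, smul_mul_assoc, one_mul, Matrix.smul_mulVec, (qfOdd (F := F) m).smul, hc, hu, ← he]
      field_simp
    refine ⟨⟨_, hmem⟩, ?_⟩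
    change (QuotientGroup.mk _ : Cfsg.PGO F (Cfsg.quadFormOdd m F)) = _
    rw [QuotientGroup.eq, Subgroup.mem_subgroupOf]
    rw [Cfsg.Geo.mem_scalars_iff]
    refine ⟨u⁻¹, ?_⟩
    change (((sc u : GL _ F) * g)⁻¹ * g).val = _
    have e1 : ((sc u : GL _ F) * g)⁻¹ * g = sc u⁻¹ := by
      rw [_root_.mul_inv_rev, ← map_inv, mul_assoc, sc_comm, inv_mul_cancel_left]
    rw [e1, sc_coe]
  exact ⟨(MulEquiv.ofBijective ψ ⟨hinj, hsurj⟩).symm⟩

lemma not_alt_odd (hn : n = 2 * m + 1) (G₀ : GL (Fin n) F) (hself : ∀ x, bf G₀.val x x = 0) : False := by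
  classical
  have hnd : ∀ x, (∀ y, bf G₀.val x y = 0) → x = 0 := by
    intro x hx
    have e1 : x ᵥ* G₀.val = 0 := by
      funext i
      have e2 := hx (Pi.single i 1)
      have e3 : (x ᵥ* G₀.val) i = x ⬝ᵥ (G₀.val).col i := rfl
      rw [e3, Pi.zero_apply]
      simpa [bf, Matrix.mulVec_single] using e2
    have e2 : x ᵥ* (G₀.val * (G₀⁻¹).val) = 0 := by
      rw [← Matrix.vecMul_vecMul, e1, Matrix.zero_vecMul]
    rw [← Units.val_mul, mul_inv_cancel, Units.val_one, Matrix.vecMul_one] at e2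
    exact e2
  obtain ⟨B, hB⟩ : ∃ B : LinearMap.BilinForm F (Fin n → F), ∀ x y, B x y = bf G₀.val x y :=
    ⟨Matrix.toBilin' G₀.val, fun x y => Matrix.toBilin'_apply' _ _ _⟩
  have hA : B.IsAlt := fun x => by rw [hB, hself]
  obtain ⟨m', k, b, h1, h3, h4, h5⟩ := Cfsg.Agent.S0752.result B hA
  have hk : k = 0 := by
    by_contra hk0
    have hkpos : 0 < k := Nat.pos_of_ne_zero hk0
    apply b.ne_zero (Sum.inr ⟨0, hkpos⟩)
    apply hnd
    intro y
    rw [← hB]
    exact h5 _ y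
  subst hk
  have e1 := Module.finrank_eq_card_basis b
  rw [Module.finrank_fintype_fun_eq_card] at e1
  simp only [Fintype.card_fin, Fintype.card_sum] at e1
  omega

/-- the common statement, characteristic two -/
theorem model_two [Nontrivial (Fin n)] (hn : n = 2 * m + 1) :
    ∃ G₀ : GL (Fin n) F, Nonempty (↥((cc : GL (Fin n) F →* MulAut (ProjectiveSpecialLinearGroup (Fin n) F)).range ⊓
        Subgroup.centralizer {(gg G₀ : MulAut (ProjectiveSpecialLinearGroup (Fin n) F))}) ≃* Cfsg.PGO F (Cfsg.quadFormOdd m F)) ∧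
      ∀ G : GL (Fin n) F, (gg G * gg G : MulAut (ProjectiveSpecialLinearGroup (Fin n) F)) = 1 →
        ∃ P : GL (Fin n) F, (cc P * gg G * (cc P)⁻¹ : MulAut (ProjectiveSpecialLinearGroup (Fin n) F)) = gg G₀ := by
  classical
  obtain ⟨e⟩ : Nonempty (Fin n ≃ (Unit ⊕ (Fin m ⊕ Fin m))) :=
    ⟨(Fintype.equivFinOfCardEq (by simp only [Fintype.card_sum, Fintype.card_unit, Fintype.card_fin]; omega)).symm⟩
  obtain ⟨G₀, hG₀⟩ := exists_gram (F := F) e fT fT_add_left fT_smul_left fT_add_right fT_smul_right fT_nd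
  obtain ⟨L, hL⟩ : ∃ L : ((Unit ⊕ II) → F) ≃ₗ[F] (Fin n → F), L = LR e := ⟨_, rfl⟩
  rw [← hL] at hG₀
  have hs₀ : (G₀.val)ᵀ = G₀.val := by
    apply mat_ext
    intro x y
    rw [bf_transpose]
    have e1 := hG₀ (L.symm x) (L.symm y)
    have e2 := hG₀ (L.symm y) (L.symm x)
    rw [LinearEquiv.apply_symm_apply, LinearEquiv.apply_symm_apply] at e1 e2
    rw [← e1, ← e2, fT_symm]
  have hna₀ : ∃ x, bf G₀.val x x ≠ 0 := by
    refine ⟨L (Sum.elim (fun _ => 1) 0), ?_⟩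
    rw [← hG₀, fT_self]
    have e2 : hh (Sum.elim (fun _ => 1) 0 : Unit ⊕ II → F) = 1 := rfl
    rw [e2, one_pow]
    exact one_ne_zero
  obtain ⟨E₁⟩ := cen_odd_two G₀ L 1 (fun x y => by rw [hG₀, Units.val_one, one_mul])
  obtain ⟨E₂⟩ := Cfsg.Agent.H02.OSp.main (F := F) m
  obtain ⟨E₃⟩ := pgo_iso_isom (F := F) m
  refine ⟨G₀, ⟨E₁.trans (E₂.symm.trans E₃.symm)⟩, fun G hsq => ?_⟩
  obtain ⟨u, hu⟩ := (gg_sq_iff G).1 hsq
  have hs : (G.val)ᵀ = G.val := by
    rcases sym_or_anti G hu with h1 | h1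
    · rw [hu, h1, one_smul]
    · rw [hu, h1, CharTwo.neg_eq, one_smul]
  have hA : ∃ x, bf G.val x x ≠ 0 := by
    by_contra hA
    push Not at hA
    exact not_alt_odd hn G hA
  obtain ⟨g₁, hg₁⟩ := exists_orth_coords G hs hA
  obtain ⟨g₃, hg₃⟩ := exists_orth_coords G₀ hs₀ hna₀
  refine ⟨glOf (g₁.trans g₃.symm), conj_of_form _ _ _ 1 (fun x y => ?_)⟩
  rw [glOf_mulVec, glOf_mulVec, LinearEquiv.trans_apply, LinearEquiv.trans_apply, ← hg₃, LinearEquiv.apply_symm_apply,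
    LinearEquiv.apply_symm_apply, hg₁, Units.val_one, one_mul]

end Two

/-- S2699 -/
theorem psl_graph_odd_all {p f : ℕ} [Fact p.Prime] (hF : Fintype.card F = p ^ f) (hf : 1 ≤ f) {n : ℕ} (hn : 3 ≤ n) {m : ℕ} (hnm : n = 2 * m + 1)
    (γ γ' : MulAut (Matrix.ProjectiveSpecialLinearGroup (Fin n) F)) (hγ : Cfsg.IsGraphAutClassPSL γ) (hγ2 : orderOf γ = 2)
    (hγ' : Cfsg.IsGraphAutClassPSL γ') (hγ'2 : orderOf γ' = 2) :
    Nonempty (↥(Cfsg.inndiagPSL n F ⊓ Subgroup.centralizer {γ}) ≃* Cfsg.PGO F (Cfsg.quadFormOdd m F)) ∧ Cfsg.IsConjUnder (Cfsg.inndiagPSL n F) γ γ' := by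
  classical
  haveI : Nontrivial (Fin n) := Fin.nontrivial_iff_two_le.2 (by omega)
  haveI : Nonempty (Fin n) := ⟨⟨0, by omega⟩⟩
  obtain ⟨G₀, hE, hconj⟩ : ∃ G₀ : GL (Fin n) F, Nonempty (↥((cc : GL (Fin n) F →* MulAut (ProjectiveSpecialLinearGroup (Fin n) F)).range ⊓
        Subgroup.centralizer {(gg G₀ : MulAut (ProjectiveSpecialLinearGroup (Fin n) F))}) ≃* Cfsg.PGO F (Cfsg.quadFormOdd m F)) ∧
      ∀ G : GL (Fin n) F, (gg G * gg G : MulAut (ProjectiveSpecialLinearGroup (Fin n) F)) = 1 →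
        ∃ P : GL (Fin n) F, (cc P * gg G * (cc P)⁻¹ : MulAut (ProjectiveSpecialLinearGroup (Fin n) F)) = gg G₀ := by
    by_cases h2 : (2 : F) = 0
    · haveI : CharP F 2 := CharTwo.of_one_ne_zero_of_two_eq_zero one_ne_zero h2
      exact model_two hnm
    · exact model_ne_two h2 hnm
  rw [inndiag_eq]
  haveI := cc_range_normal (F := F) (n := n) hF hf (by omega)
  obtain ⟨G, rfl⟩ := eq_gg_of_graph hγ
  obtain ⟨G', rfl⟩ := eq_gg_of_graph hγ'
  have hsq : (gg G * gg G : MulAut _) = 1 := by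
    have e0 := pow_orderOf_eq_one (gg G)
    rw [hγ2, sq] at e0
    exact e0
  have hsq' : (gg G' * gg G' : MulAut _) = 1 := by
    have e0 := pow_orderOf_eq_one (gg G')
    rw [hγ'2, sq] at e0
    exact e0
  obtain ⟨P, hP⟩ := hconj G hsq
  obtain ⟨P', hP'⟩ := hconj G' hsq'
  constructor
  · obtain ⟨E⟩ := hE
    rw [← hP] at E
    obtain ⟨E'⟩ := centralizer_conj_equiv (cc : GL (Fin n) F →* MulAut (ProjectiveSpecialLinearGroup (Fin n) F)).range (cc P) (gg G)
    exact ⟨(E'.trans E)⟩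
  · refine ⟨(cc P')⁻¹ * cc P, Subgroup.mul_mem _ (Subgroup.inv_mem _ ⟨P', rfl⟩) ⟨P, rfl⟩, ?_⟩
    have e1 : (gg G' : MulAut (ProjectiveSpecialLinearGroup (Fin n) F)) = (cc P')⁻¹ * gg G₀ * cc P' := by
      rw [← hP']
      group
    rw [e1, ← hP]
    group

end Cfsg.Agent.Lead.Fm
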