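import Cfsg.Agent.Lib.Lead.LangFm3
/-! The centralizer of the inverse-transpose automorphism, `n` even, `q` odd. -/
set_option autoImplicit false
set_option linter.style.haveILetI false
set_option linter.unusedSimpArgs false
set_option linter.unusedSectionVars false
set_option linter.unusedVariables false
set_option linter.deprecated false
namespace Cfsg.Agent.Lead.Fm
open Matrix Matrix.SpecialLinearGroup Module
open Cfsg.Agent.Lead.AutPSL Cfsg.Agent.Lead.Lang Cfsg.Agent.Lead.Ortho Cfsg.Agent.Lead.LangOm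
open scoped MatrixGroups

variable {F : Type*} [Field F] [Fintype F]

section
variable {n : ℕ} {ι' : Type} [Fintype ι'] [DecidableEq ι']

/-- a form isometric to the dot product has square discriminant -/
lemma isSq_det (h2 : (2 : F) ≠ 0) (e : Fin n ≃ ι') {Q : (ι' → F) → F} {B : (ι' → F) → (ι' → F) → F} (h : QF Q B)
    (M : Matrix ι' ι' F) (hM : ∀ x y, B x y = x ⬝ᵥ (M *ᵥ y)) (g : (Fin n → F) ≃ₗ[F] (ι' → F))
    (hg : ∀ v, bf (1 : Matrix (Fin n) (Fin n) F) v v = Q (g v)) (hn : Even n) : IsSquare M.det := by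
  classical
  obtain ⟨k, hk⟩ := hn
  obtain ⟨Mn, hMn⟩ : ∃ Mn : Matrix (Fin n) (Fin n) F, Mn = M.submatrix e e := ⟨_, rfl⟩
  have hdet : Mn.det = M.det := by rw [hMn, Matrix.det_submatrix_equiv_self]
  have hbf : ∀ x y, bf Mn (LR e x) (LR e y) = B x y := by
    intro x y
    rw [hM, hMn]
    change (x ∘ e) ⬝ᵥ ((M.submatrix e e) *ᵥ (y ∘ e)) = _
    rw [Matrix.submatrix_mulVec_equiv]
    have e0 : (y ∘ e) ∘ e.symm = y := by
      funext i
      simp
    rw [e0]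
    exact Equiv.sum_comp e (fun i => x i * (M *ᵥ y) i)
  obtain ⟨P, hP⟩ : ∃ P : GL (Fin n) F, P = glOf (g.trans (LR e)) := ⟨_, rfl⟩
  have hkey : (P.val)ᵀ * Mn * P.val = (2 : F) • (1 : Matrix (Fin n) (Fin n) F) := by
    apply mat_ext
    intro u v
    rw [← bf_mat, hP, glOf_mulVec, glOf_mulVec, LinearEquiv.trans_apply, LinearEquiv.trans_apply, hbf, bf_smul_mat]
    have e1 := h.add (g u) (g v)
    rw [← map_add, ← hg, ← hg, ← hg, bf_add_left, bf_add_right, bf_add_right] at e1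
    have e2 : bf (1 : Matrix (Fin n) (Fin n) F) v u = bf 1 u v := by
      rw [← bf_transpose, Matrix.transpose_one]
    rw [e2] at e1
    linear_combination -e1
  have hd := congrArg Matrix.det hkey
  rw [Matrix.det_mul, Matrix.det_mul, Matrix.det_transpose, Matrix.det_smul, Matrix.det_one, mul_one, Fintype.card_fin] at hd
  have hP0 : (P.val).det ≠ 0 := ((Matrix.isUnit_iff_isUnit_det _).1 P.isUnit).ne_zero
  refine ⟨2 ^ k / (P.val).det, ?_⟩
  rw [← hdet]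
  have e3 : (2 : F) ^ n = 2 ^ k * 2 ^ k := by rw [← pow_add, ← hk]
  rw [e3] at hd
  field_simp
  linear_combination hd

/-- the centralizer from coordinates -/
lemma cen_of_coords [Nontrivial (Fin n)] (h2 : (2 : F) ≠ 0) {Q : (ι' → F) → F} {B : (ι' → F) → (ι' → F) → F} (h : QF Q B)
    (g : (Fin n → F) ≃ₗ[F] (ι' → F)) (hg : ∀ v, bf (1 : Matrix (Fin n) (Fin n) F) v v = Q (g v)) :
    Nonempty (↥((cc : GL (Fin n) F →* MulAut (ProjectiveSpecialLinearGroup (Fin n) F)).range ⊓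
      Subgroup.centralizer {(gg 1 : MulAut (ProjectiveSpecialLinearGroup (Fin n) F))}) ≃* Cfsg.PGO F Q) := by
  obtain ⟨E⟩ := cen_iso (1 : GL (Fin n) F) B g.symm (Units.mk0 2 h2) (fun x y => by
    rw [Units.val_mk0, Units.val_one]
    have e1 := h.add x y
    obtain ⟨u, rfl⟩ := g.surjective x
    obtain ⟨v, rfl⟩ := g.surjective y
    rw [← map_add, ← hg, ← hg, ← hg, bf_add_left, bf_add_right, bf_add_right] at e1
    have e2 : bf (1 : Matrix (Fin n) (Fin n) F) v u = bf 1 u v := by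
      rw [← bf_transpose, Matrix.transpose_one]
    rw [e2] at e1
    rw [LinearEquiv.symm_apply_apply, LinearEquiv.symm_apply_apply]
    linear_combination -e1)
  have hq : Cfsg.Geo.quadSimilarityGroup Q = Cfsg.Geo.similarityGroup B := quadSim_eq h h2
  change Nonempty (_ ≃* Cfsg.projQuot (Cfsg.Geo.quadSimilarityGroup Q))
  rw [hq]
  exact ⟨E⟩

end

lemma det_hyp (m : ℕ) : (fromBlocks 0 1 1 0 : Matrix (Fin m ⊕ Fin m) (Fin m ⊕ Fin m) F).det = (-1) ^ m := by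
  have e1 : (fromBlocks 0 1 1 0 : Matrix (Fin m ⊕ Fin m) (Fin m ⊕ Fin m) F) * fromBlocks 1 1 0 1 = fromBlocks 0 1 1 1 := by
    rw [fromBlocks_multiply]
    simp
  have e2 := congrArg Matrix.det e1
  rw [Matrix.det_mul, Matrix.det_fromBlocks_zero₂₁, Matrix.det_one, mul_one, mul_one, Matrix.det_fromBlocks_one₂₂] at e2
  rw [e2]
  simp [Matrix.det_neg]

lemma hyp_mulVec (m : ℕ) (x y : Fin m ⊕ Fin m → F) : polarPlus m F x y = x ⬝ᵥ ((fromBlocks 0 1 1 0 : Matrix (Fin m ⊕ Fin m) (Fin m ⊕ Fin m) F) *ᵥ y) := by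
  rw [polarPlus, fromBlocks_mulVec]
  simp only [dotProduct, Fintype.sum_sum_type, Sum.elim_inl, Sum.elim_inr, Matrix.zero_mulVec, zero_add, add_zero, Matrix.one_mulVec,
    Function.comp, Finset.sum_add_distrib, mul_comm]

lemma det_minus (m : ℕ) (a b : F) : (fromBlocks (fromBlocks 0 1 1 0) 0 0 !![2, a; a, 2 * b] : Matrix ((Fin m ⊕ Fin m) ⊕ Fin 2) ((Fin m ⊕ Fin m) ⊕ Fin 2) F).det = (-1) ^ m * (4 * b - a ^ 2) := by
  rw [Matrix.det_fromBlocks_zero₂₁, det_hyp, Matrix.det_fin_two_of]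
  ring

lemma minus_mulVec (m : ℕ) (a b : F) (x y : (Fin m ⊕ Fin m) ⊕ Fin 2 → F) : polarMinus m F a b x y = x ⬝ᵥ ((fromBlocks (fromBlocks 0 1 1 0) 0 0 !![2, a; a, 2 * b] : Matrix ((Fin m ⊕ Fin m) ⊕ Fin 2) ((Fin m ⊕ Fin m) ⊕ Fin 2) F) *ᵥ y) := by
  rw [polarMinus, fromBlocks_mulVec]
  simp only [dotProduct, Fintype.sum_sum_type, Sum.elim_inl, Sum.elim_inr, Matrix.zero_mulVec, zero_add, add_zero, Matrix.one_mulVec,
    Function.comp, fromBlocks_mulVec, Fin.sum_univ_two, Matrix.mulVec, Matrix.of_apply, Matrix.cons_val', Matrix.cons_val_zero, Matrix.cons_val_one,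
    Matrix.cons_val_fin_one, Finset.sum_add_distrib, Matrix.one_apply, Finset.sum_const_zero, Matrix.zero_apply, zero_mul]
  have e1 : ∑ i, y (Sum.inl (Sum.inl i)) * x (Sum.inl (Sum.inr i)) = ∑ i, x (Sum.inl (Sum.inr i)) * y (Sum.inl (Sum.inl i)) :=
    Finset.sum_congr rfl (fun i _ => mul_comm _ _)
  rw [e1]
  ring

lemma even_iff_sq (hodd : Odd (Fintype.card F)) (m : ℕ) : Even (2 * m * (Fintype.card F - 1) / 4) ↔ IsSquare ((-1 : F) ^ m) := by
  obtain ⟨k, hk⟩ := hodd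
  have e1 : 2 * m * (Fintype.card F - 1) / 4 = m * k := by
    rw [hk]
    have : 2 * m * (2 * k + 1 - 1) = 4 * (m * k) := by
      rw [Nat.add_sub_cancel]
      ring
    rw [this, Nat.mul_div_cancel_left _ (by norm_num)]
  rw [e1, Nat.even_mul]
  have e2 : IsSquare (-1 : F) ↔ Even k := by
    rw [FiniteField.isSquare_neg_one_iff, Nat.even_iff]
    omega
  rcases Nat.even_or_odd m with hm | hm
  · simp only [hm, true_or, true_iff]
    rw [hm.neg_one_pow]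
    exact IsSquare.one
  · rw [hm.neg_one_pow, e2]
    simp [Nat.not_even_iff_odd.2 hm]

/-- the discriminant of a binary anisotropic form -/
lemma not_sq_disc (h2 : (2 : F) ≠ 0) {ζ : F} (hζ : ∀ t : F, t ^ 2 + t + ζ ≠ 0) : ¬ IsSquare (1 - 4 * ζ) := by
  rintro ⟨s, hs⟩
  apply hζ ((-1 + s) / 2)
  have e4 : (4 : F) = 2 * 2 := by norm_num
  field_simp
  rw [e4] at hs
  linear_combination (-1 : F) * hs

/-- S2703 -/
theorem psl_invT (hodd : Odd (Fintype.card F)) {n m : ℕ} (hm : 2 ≤ m) (hnm : n = 2 * m)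
    (ι : MulAut (Matrix.ProjectiveSpecialLinearGroup (Fin n) F)) (hι : Cfsg.IsInverseTransposeAutPSL ι) :
    (Even (n * (Fintype.card F - 1) / 4) → Nonempty (↥(Cfsg.inndiagPSL n F ⊓ Subgroup.centralizer {ι}) ≃* Cfsg.PGO F (Cfsg.quadFormPlus m F))) ∧ (¬ Even (n * (Fintype.card F - 1) / 4) → ∃ a b : F, (∀ z₁ z₂ : F, z₁ ^ 2 + a * z₁ * z₂ + b * z₂ ^ 2 = 0 → z₁ = 0 ∧ z₂ = 0) ∧ Nonempty (↥(Cfsg.inndiagPSL n F ⊓ Subgroup.centralizer {ι}) ≃* Cfsg.PGO F (Cfsg.quadFormMinus (m - 1) F a b))) := by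
  classical
  subst hnm
  have h2 : (2 : F) ≠ 0 := two_ne_zero_of_odd rfl hodd
  haveI : Nontrivial (Fin (2 * m)) := Fin.nontrivial_iff_two_le.2 (by omega)
  have hgam : ι = gg 1 := by
    rw [(invT_iff ι).1 hι, gg, inv_one, map_one, one_mul]
  rw [inndiag_eq, hgam, even_iff_sq hodd m]
  have h1s : ((1 : GL (Fin (2 * m)) F).val)ᵀ = (1 : GL (Fin (2 * m)) F).val := by
    rw [Units.val_one, Matrix.transpose_one]
  obtain ⟨e₂⟩ : Nonempty (Fin (2 * m) ≃ (Fin m ⊕ Fin m)) := ⟨(Fintype.equivFinOfCardEq (Cfsg.Agent.H11.card_sum m)).symm⟩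
  obtain ⟨e₃⟩ : Nonempty (Fin (2 * m) ≃ ((Fin (m - 1) ⊕ Fin (m - 1)) ⊕ Fin 2)) :=
    ⟨(Fintype.equivFinOfCardEq (by simp only [Fintype.card_sum, Fintype.card_fin]; omega)).symm⟩
  have hone : ∀ v : Fin (2 * m) → F, qOf (1 : GL (Fin (2 * m)) F) v = bf (1 : Matrix (Fin (2 * m)) (Fin (2 * m)) F) v v := by
    intro v
    rw [qOf_apply, Units.val_one]
  have hcases := Cfsg.Agent.H11.exists_isometry_standard (m := m) (by omega)
    (by rw [Module.finrank_fintype_fun_eq_card, Fintype.card_fin]) (qOf (1 : GL (Fin (2 * m)) F)) (qOf_nondeg h2 1 h1s)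
  have hpl : ∀ g : (Fin (2 * m) → F) ≃ₗ[F] (Fin m ⊕ Fin m → F), (∀ v, qOf (1 : GL (Fin (2 * m)) F) v = Cfsg.quadFormPlus m F (g v)) → IsSquare ((-1 : F) ^ m) := by
    intro g hg
    have := isSq_det h2 e₂ (qfPlus (F := F) m) _ (hyp_mulVec m) g (fun v => by rw [← hg, hone]) ⟨m, two_mul m⟩
    rwa [det_hyp] at this
  have hmi : ∀ (g : (Fin (2 * m) → F) ≃ₗ[F] ((Fin (m - 1) ⊕ Fin (m - 1)) ⊕ Fin 2 → F)) (ζ : F), (∀ t : F, t ^ 2 + t + ζ ≠ 0) →
      (∀ v, qOf (1 : GL (Fin (2 * m)) F) v = Cfsg.quadFormMinus (m - 1) F 1 ζ (g v)) → ¬ IsSquare ((-1 : F) ^ m) := by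
    intro g ζ hζ hg hsq
    have h3 := isSq_det h2 e₃ (qfMinus (F := F) (m - 1) 1 ζ) _ (minus_mulVec (m - 1) 1 ζ) g (fun v => by rw [← hg, hone]) ⟨m, two_mul m⟩
    rw [det_minus] at h3
    obtain ⟨t, ht⟩ := hsq
    obtain ⟨s, hs⟩ := h3
    have hmm : (-1 : F) ^ m = (-1) ^ (m - 1) * (-1) := by
      rw [← pow_succ, Nat.sub_add_cancel (by omega)]
    have ht0 : t ≠ 0 := by
      rintro rfl
      rw [mul_zero] at ht
      exact pow_ne_zero m (neg_ne_zero.2 one_ne_zero) ht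
    apply not_sq_disc h2 hζ
    refine ⟨s / t, ?_⟩
    field_simp
    linear_combination hs - (1 - 4 * ζ) * ht + (1 - 4 * ζ) * hmm
  constructor
  · intro hE
    rcases hcases with ⟨g, hg⟩ | ⟨g, ζ, hζ, hg⟩
    · exact cen_of_coords h2 (qfPlus (F := F) m) g (fun v => by rw [← hg, hone])
    · exact (hmi g ζ hζ hg hE).elim
  · intro hE
    rcases hcases with ⟨g, hg⟩ | ⟨g, ζ, hζ, hg⟩
    · exact (hE (hpl g hg)).elim
    · exact ⟨1, ζ, aniso_of_zeta hζ, cen_of_coords h2 (qfMinus (F := F) (m - 1) 1 ζ) g (fun v => by rw [← hg, hone])⟩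

end Cfsg.Agent.Lead.Fm
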