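import Cfsg.Agent.Lib.Lead.LangFm6
import Cfsg.Agent.Lib.Lead.LangFm4
import Cfsg.Agent.Lib.Lead.SpGen
import Cfsg.Agent.Lib.Lead.SpOrder
/-! Determinants of similitudes; the splitting of classes of graph automorphisms of `PSL_n`. -/
set_option autoImplicit false
set_option linter.style.haveILetI false
set_option linter.unusedSimpArgs false
set_option linter.unusedSectionVars false
set_option linter.unusedVariables false
set_option linter.deprecated false
namespace Cfsg.Agent.Lead.Fm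
open Matrix Matrix.SpecialLinearGroup Module
open Cfsg.Agent.Lead.AutPSL Cfsg.Agent.Lead.Lang Cfsg.Agent.Lead.Ortho Cfsg.Agent.Lead.LangOm
open scoped MatrixGroups

variable {F : Type*} [Field F] [Fintype F]

lemma det_one_add_vec {ι : Type*} [Fintype ι] [DecidableEq ι] (a : F) (u v : ι → F) :
    (1 + a • vecMulVec u v).det = 1 + a * (v ⬝ᵥ u) := by
  have e1 : a • vecMulVec u v = replicateCol Unit (a • u) * replicateRow Unit v := by
    ext i j
    simp [vecMulVec_apply, Matrix.mul_apply, mul_assoc]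
  rw [e1, det_one_add_replicateCol_mul_replicateRow]
  simp [dotProduct_smul]

/-- the symplectic group lies in the special linear group -/
lemma sp_det_one {m : ℕ} (A : symplecticGroup (Fin m) F) : A.1.det = 1 := by
  classical
  obtain ⟨P, hP⟩ : ∃ P : Subgroup (symplecticGroup (Fin m) F), P = (Matrix.GeneralLinearGroup.det.comp (spToGL (F := F) (m := m))).ker := ⟨_, rfl⟩
  have htop : P = ⊤ := by
    apply Cfsg.Agent.Lead.sp_induction
    intro u c
    rw [hP, MonoidHom.mem_ker]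
    apply Units.ext
    change (sympTmat u c).det = 1
    rw [sympTmat, det_one_add_vec]
    have : (J (Fin m) F *ᵥ u) ⬝ᵥ u = u ⬝ᵥ (J (Fin m) F *ᵥ u) := dotProduct_comm _ _
    rw [this]
    have e2 : u ⬝ᵥ (J (Fin m) F *ᵥ u) = 0 := Cfsg.Agent.Lead.sympForm_self u
    rw [e2, mul_zero, add_zero]
  have hA : A ∈ P := by
    rw [htop]
    exact Subgroup.mem_top _
  rw [hP, MonoidHom.mem_ker] at hA
  have := congrArg Units.val hA
  exact this


section Dets
variable {n : ℕ}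
local notation "PS" => ProjectiveSpecialLinearGroup (Fin n) F

lemma sim_mat (G g : GL (Fin n) F) (c : Fˣ) (h : ∀ x y, bf G.val (g.val *ᵥ x) (g.val *ᵥ y) = c * bf G.val x y) :
    (g.val)ᵀ * G.val * g.val = (c : F) • G.val := by
  apply mat_ext
  intro x y
  rw [← bf_mat, bf_smul_mat, h]

lemma gl_det_ne (G : GL (Fin n) F) : G.val.det ≠ 0 :=
  ((Matrix.isUnit_iff_isUnit_det _).1 G.isUnit).ne_zero

/-- the determinant of a similitude, squared -/
lemma det_sq_sim (G g : GL (Fin n) F) (c : Fˣ) (h : ∀ x y, bf G.val (g.val *ᵥ x) (g.val *ᵥ y) = c * bf G.val x y) :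
    (Matrix.GeneralLinearGroup.det g) ^ 2 = c ^ n := by
  apply Units.ext
  have e := congrArg Matrix.det (sim_mat G g c h)
  rw [Matrix.det_mul, Matrix.det_mul, Matrix.det_transpose, Matrix.det_smul, Fintype.card_fin] at e
  have e2 : ((Matrix.GeneralLinearGroup.det g : Fˣ) : F) = g.val.det := rfl
  rw [Units.val_pow_eq_pow_val, Units.val_pow_eq_pow_val, e2]
  apply mul_right_cancel₀ (gl_det_ne G)
  linear_combination e

lemma comm_sc [Nontrivial (Fin n)] (G : GL (Fin n) F) (u : Fˣ) : (cc (sc u) * gg G : MulAut PS) = gg G * cc (sc u) := by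
  refine (comm_iff _ _).2 ⟨u * u, fun x y => ?_⟩
  rw [sc_coe, Matrix.smul_mulVec, Matrix.smul_mulVec, Matrix.one_mulVec, Matrix.one_mulVec, bf_smul_left, bf_smul_right, Units.val_mul, mul_assoc]

/-- the dets of similitudes when `n` is odd or the characteristic is two -/
lemma D_all [Nontrivial (Fin n)] (h : Odd n ∨ (2 : F) = 0) (G : GL (Fin n) F) (w : Fˣ) :
    w ∈ (powMonoidHom n : Fˣ →* Fˣ).range ↔ ∃ g : GL (Fin n) F, Matrix.GeneralLinearGroup.det g = w ∧ (cc g * gg G : MulAut PS) = gg G * cc g := by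
  constructor
  · rintro ⟨u, rfl⟩
    exact ⟨sc u, det_sc u, comm_sc G u⟩
  · rintro ⟨g, rfl, hg⟩
    obtain ⟨c, hc⟩ := (comm_iff g G).1 hg
    have hsq := det_sq_sim G g c hc
    obtain ⟨w, hw⟩ : ∃ w, w = Matrix.GeneralLinearGroup.det g := ⟨_, rfl⟩
    rw [← hw] at hsq ⊢
    rcases h with hodd | h2
    · obtain ⟨k, hk⟩ := hodd
      obtain ⟨l, hl⟩ : ∃ l : Fˣ, l = c ^ (k + 1) * w⁻¹ := ⟨_, rfl⟩
      have hl2 : l ^ 2 = c := by
        rw [hl, mul_pow, inv_pow, hsq, hk]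
        have : c ^ (k + 1) * c ^ (k + 1) = c * c ^ (2 * k + 1) := by
          rw [← pow_add, ← pow_succ']
          congr 1
          ring
        rw [sq, this, mul_assoc, mul_inv_cancel, mul_one]
      have e : w ^ 2 = (l ^ n) ^ 2 := by
        rw [hsq, ← pow_mul, mul_comm n 2, pow_mul, hl2]
      have e' : (w : F) ^ 2 = ((l ^ n : Fˣ) : F) ^ 2 := by
        have := congrArg Units.val e
        simpa using this
      rcases sq_eq_sq_iff_eq_or_eq_neg.1 e' with e1 | e1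
      · exact ⟨l, (Units.ext e1).symm⟩
      · refine ⟨-l, Units.ext ?_⟩
        have hodd' : Odd n := ⟨k, hk⟩
        change (((-l) ^ n : Fˣ) : F) = w
        rw [hodd'.neg_pow, e1]
        simp
    · haveI : CharP F 2 := CharTwo.of_one_ne_zero_of_two_eq_zero one_ne_zero h2
      obtain ⟨d, hd⟩ := exists_sqrt (c : F)
      have d0 : d ≠ 0 := by
        rintro rfl
        rw [mul_zero] at hd
        exact c.ne_zero hd.symm
      refine ⟨Units.mk0 d d0, Units.ext ?_⟩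
      apply sq_inj₂
      have e := congrArg Units.val hsq
      rw [Units.val_pow_eq_pow_val, Units.val_pow_eq_pow_val, ← hd] at e
      change ((d ^ n : F)) ^ 2 = _
      rw [e, ← pow_mul, mul_comm n 2, pow_mul, sq]

end Dets

section Anti
variable {m : ℕ}
local notation "II" => (Fin m ⊕ Fin m)

/-- the diagonal symplectic similitude -/
def dcGL (c : Fˣ) : GL II F :=
  ⟨fromBlocks ((c : F) • 1) 0 0 1, fromBlocks (((c⁻¹ : Fˣ) : F) • 1) 0 0 1, by
    rw [fromBlocks_multiply]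
    simp [smul_smul], by
    rw [fromBlocks_multiply]
    simp [smul_smul]⟩

lemma dcGL_det (c : Fˣ) : (dcGL (m := m) c).val.det = (c : F) ^ m := by
  change (fromBlocks ((c : F) • (1 : Matrix (Fin m) (Fin m) F)) 0 0 1).det = _
  rw [Matrix.det_fromBlocks_zero₂₁, Matrix.det_smul, Matrix.det_one, Fintype.card_fin]
  simp

lemma dcGL_form (c : Fˣ) (x y : II → F) :
    Cfsg.sympForm m F ((dcGL c).val *ᵥ x) ((dcGL c).val *ᵥ y) = (c : F) * Cfsg.sympForm m F x y := by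
  have e1 : ∀ z : II → F, ∀ i, ((dcGL c).val *ᵥ z) (Sum.inl i) = (c : F) * z (Sum.inl i) := by
    intro z i
    change (fromBlocks ((c : F) • (1 : Matrix (Fin m) (Fin m) F)) 0 0 1 *ᵥ z) (Sum.inl i) = _
    simp [Matrix.mulVec, dotProduct, Fintype.sum_sum_type, Matrix.one_apply, Matrix.smul_apply]
  have e2 : ∀ z : II → F, ∀ i, ((dcGL c).val *ᵥ z) (Sum.inr i) = z (Sum.inr i) := by
    intro z i
    change (fromBlocks ((c : F) • (1 : Matrix (Fin m) (Fin m) F)) 0 0 1 *ᵥ z) (Sum.inr i) = _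
    simp [Matrix.mulVec, dotProduct, Fintype.sum_sum_type, Matrix.one_apply]
  change Cfsg.Agent.Lead.sympForm _ _ = _ * Cfsg.Agent.Lead.sympForm _ _
  rw [Cfsg.Agent.Lead.sympForm_apply, Cfsg.Agent.Lead.sympForm_apply, Finset.mul_sum]
  refine Finset.sum_congr rfl fun i _ => ?_
  rw [e1, e1, e2, e2]
  ring

/-- a similitude of the standard alternating form has determinant `c ^ m` -/
lemma det_sim_std (P : GL II F) (c : Fˣ) (h : ∀ x y, Cfsg.sympForm m F (P.val *ᵥ x) (P.val *ᵥ y) = c * Cfsg.sympForm m F x y) :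
    P.val.det = (c : F) ^ m := by
  have hmem : (P * (dcGL c)⁻¹).val ∈ symplecticGroup (Fin m) F := by
    apply Cfsg.Agent.H11.mem_symplectic_of_preserves
    intro x y
    have e0 : ∀ z : II → F, (dcGL c).val *ᵥ (((dcGL c)⁻¹).val *ᵥ z) = z := by
      intro z
      rw [Matrix.mulVec_mulVec, ← Units.val_mul, mul_inv_cancel, Units.val_one, Matrix.one_mulVec]
    have e1 := dcGL_form c (((dcGL c)⁻¹).val *ᵥ x) (((dcGL c)⁻¹).val *ᵥ y)
    rw [e0, e0] at e1
    rw [Units.val_mul, ← Matrix.mulVec_mulVec, ← Matrix.mulVec_mulVec, h, e1]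
  have h1 := sp_det_one ⟨_, hmem⟩
  change (P * (dcGL c)⁻¹).val.det = 1 at h1
  have h2 : (P * (dcGL c)⁻¹ * dcGL c).val.det = P.val.det := by
    rw [inv_mul_cancel_right]
  rw [Units.val_mul, Matrix.det_mul, h1, one_mul, dcGL_det] at h2
  exact h2.symm

variable {n : ℕ}
local notation "PS" => ProjectiveSpecialLinearGroup (Fin n) F

/-- similitudes of an alternating form: the determinant -/
lemma det_sim_anti (h2 : (2 : F) ≠ 0) (hn : n = 2 * m) (G : GL (Fin n) F) (h₀ : (G.val)ᵀ = -G.val) (g : GL (Fin n) F) (c : Fˣ)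
    (h : ∀ x y, bf G.val (g.val *ᵥ x) (g.val *ᵥ y) = c * bf G.val x y) : g.val.det = (c : F) ^ m := by
  obtain ⟨ψ, hψ⟩ := exists_symp_coords h2 hn G h₀
  have e1 : (cL ψ g).val.det = g.val.det := by
    rw [cL_val]
    exact Matrix.det_conj_of_mul_eq_one (matL_mul ψ) (matL_mul' ψ)
  rw [← e1]
  apply det_sim_std
  intro x y
  have e2 := hψ (ψ.symm x) (ψ.symm y)
  rw [LinearEquiv.apply_symm_apply, LinearEquiv.apply_symm_apply] at e2
  rw [cL_mulVec, cL_mulVec, hψ, h, e2]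
  ring

/-- similitudes of an alternating form: every multiplier occurs -/
lemma exists_sim_anti (h2 : (2 : F) ≠ 0) (hn : n = 2 * m) (G : GL (Fin n) F) (h₀ : (G.val)ᵀ = -G.val) (c : Fˣ) :
    ∃ g : GL (Fin n) F, ∀ x y, bf G.val (g.val *ᵥ x) (g.val *ᵥ y) = c * bf G.val x y := by
  obtain ⟨ψ, hψ⟩ := exists_symp_coords h2 hn G h₀
  refine ⟨(cL ψ).symm (dcGL c), fun x y => ?_⟩
  rw [cL_symm_mulVec, cL_symm_mulVec]
  have e1 := hψ (ψ.symm ((dcGL c).val *ᵥ ψ x)) (ψ.symm ((dcGL c).val *ᵥ ψ y))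
  rw [LinearEquiv.apply_symm_apply, LinearEquiv.apply_symm_apply, dcGL_form, hψ] at e1
  linear_combination e1

/-- the dets of similitudes of an alternating form -/
lemma D_anti [Nontrivial (Fin n)] (h2 : (2 : F) ≠ 0) (hn : n = 2 * m) (G : GL (Fin n) F) (h₀ : (G.val)ᵀ = -G.val) (w : Fˣ) :
    w ∈ (powMonoidHom m : Fˣ →* Fˣ).range ↔ ∃ g : GL (Fin n) F, Matrix.GeneralLinearGroup.det g = w ∧ (cc g * gg G : MulAut PS) = gg G * cc g := by
  constructor
  · rintro ⟨c, rfl⟩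
    obtain ⟨g, hg⟩ := exists_sim_anti h2 hn G h₀ c
    exact ⟨g, Units.ext (det_sim_anti h2 hn G h₀ g c hg), (comm_iff _ _).2 ⟨c, hg⟩⟩
  · rintro ⟨g, rfl, hg⟩
    obtain ⟨c, hc⟩ := (comm_iff g G).1 hg
    exact ⟨c, Units.ext (det_sim_anti h2 hn G h₀ g c hc).symm⟩

end Anti


section Sym
variable {n : ℕ} {ι' : Type} [Fintype ι'] [DecidableEq ι']
local notation "PS" => ProjectiveSpecialLinearGroup (Fin n) F

/-- a similitude by polarization -/
lemma polar_sim (h2 : (2 : F) ≠ 0) (G : GL (Fin n) F) (hs : (G.val)ᵀ = G.val) (P : Matrix (Fin n) (Fin n) F) (c : F)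
    (h : ∀ v, bf G.val (P *ᵥ v) (P *ᵥ v) = c * bf G.val v v) (x y : Fin n → F) :
    bf G.val (P *ᵥ x) (P *ᵥ y) = c * bf G.val x y := by
  have hsw : ∀ a b, bf G.val b a = bf G.val a b := by
    intro a b
    rw [← bf_transpose, hs]
  have e1 := h (x + y)
  rw [Matrix.mulVec_add, bf_add_left, bf_add_right, bf_add_right, bf_add_left, bf_add_right, bf_add_right,
    h x, h y, hsw (P *ᵥ x) (P *ᵥ y), hsw x y] at e1
  apply mul_left_cancel₀ h2
  linear_combination e1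

/-- the reflection -/
lemma exists_refl [Nonempty (Fin n)] (h2 : (2 : F) ≠ 0) (G : GL (Fin n) F) (hs : (G.val)ᵀ = G.val) :
    ∃ R : GL (Fin n) F, (∀ x y, bf G.val (R.val *ᵥ x) (R.val *ᵥ y) = bf G.val x y) ∧ R.val.det = -1 := by
  have hsw : ∀ a b, bf G.val b a = bf G.val a b := by
    intro a b
    rw [← bf_transpose, hs]
  obtain ⟨v, hv⟩ : ∃ v, bf G.val v v ≠ 0 := by
    by_contra hcon
    push Not at hcon
    have e0 : G.val = 0 := by
      apply mat_ext
      intro x y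
      have e1 := hcon (x + y)
      rw [bf_add_left, bf_add_right, bf_add_right, hcon, hcon, hsw x y] at e1
      have e2 : (2 : F) * bf G.val x y = 0 := by linear_combination e1
      rw [(mul_eq_zero.1 e2).resolve_left h2]
      simp [bf]
    exact gl_det_ne G (by rw [e0]; exact Matrix.det_zero)
  obtain ⟨b, hb⟩ : ∃ b, b = bf G.val v v := ⟨_, rfl⟩
  rw [← hb] at hv
  obtain ⟨a, ha⟩ : ∃ a, a = -2 / b := ⟨_, rfl⟩
  have hab : a * b = -2 := by
    rw [ha]
    field_simp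
  have hdet : (1 + a • vecMulVec v (G.val *ᵥ v)).det = -1 := by
    rw [det_one_add_vec, dotProduct_comm]
    change 1 + a * bf G.val v v = -1
    rw [← hb]
    linear_combination hab
  have hact : ∀ y, (1 + a • vecMulVec v (G.val *ᵥ v)) *ᵥ y = y + (a * bf G.val v y) • v := by
    intro y
    rw [Matrix.add_mulVec, Matrix.one_mulVec, Matrix.smul_mulVec, Matrix.vecMulVec_mulVec]
    congr 1
    have e0 : bf G.val v y = (G.val *ᵥ v) ⬝ᵥ y := by
      rw [← hsw, dotProduct_comm]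
      rfl
    rw [e0]
    funext k
    simp [Pi.smul_apply, smul_eq_mul, MulOpposite.smul_eq_mul_unop, mul_comm, mul_assoc, mul_left_comm]
  refine ⟨Matrix.GeneralLinearGroup.mkOfDetNeZero _ (by rw [hdet]; exact neg_ne_zero.2 one_ne_zero), fun x y => ?_, hdet⟩
  change bf G.val ((1 + a • vecMulVec v (G.val *ᵥ v)) *ᵥ x) ((1 + a • vecMulVec v (G.val *ᵥ v)) *ᵥ y) = _
  rw [hact, hact, bf_add_left, bf_add_right, bf_add_right, bf_smul_left, bf_smul_right, bf_smul_left, bf_smul_right, ← hb, hsw x v]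
  have e2 : a * (a * b) = a * (-2) := by rw [hab]
  linear_combination (bf G.val x v * bf G.val v y) * e2

/-- a form isometric to a model has the discriminant of the model, up to squares -/
lemma isSq_det_G (h2 : (2 : F) ≠ 0) (e : Fin n ≃ ι') {Q : (ι' → F) → F} {B : (ι' → F) → (ι' → F) → F} (h : QF Q B)
    (M : Matrix ι' ι' F) (hM : ∀ x y, B x y = x ⬝ᵥ (M *ᵥ y)) (G : GL (Fin n) F) (hs : (G.val)ᵀ = G.val) (g : (Fin n → F) ≃ₗ[F] (ι' → F))
    (hg : ∀ v, bf G.val v v = Q (g v)) (hn : Even n) : IsSquare (M.det * G.val.det) := by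
  classical
  obtain ⟨k, hk⟩ := hn
  obtain ⟨Mn, hMn⟩ : ∃ Mn : Matrix (Fin n) (Fin n) F, Mn = M.submatrix e e := ⟨_, rfl⟩
  have hdet : Mn.det = M.det := by rw [hMn, Matrix.det_submatrix_equiv_self]
  have hbf : ∀ x y, bf Mn (LR e x) (LR e y) = B x y := by
    intro x y
    rw [hM, hMn]
    change (x ∘ e) ⬝ᵥ ((M.submatrix e e) *ᵥ (y ∘ e)) = _
    rw [Matrix.submatrix_mulVec_equiv]
    have e0 : (y ∘ e) ∘ e.symm = y := by
      funext i
      simp
    rw [e0]
    exact Equiv.sum_comp e (fun i => x i * (M *ᵥ y) i)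
  obtain ⟨P, hP⟩ : ∃ P : GL (Fin n) F, P = glOf (g.trans (LR e)) := ⟨_, rfl⟩
  have hkey : (P.val)ᵀ * Mn * P.val = (2 : F) • G.val := by
    apply mat_ext
    intro u v
    rw [← bf_mat, hP, glOf_mulVec, glOf_mulVec, LinearEquiv.trans_apply, LinearEquiv.trans_apply, hbf, bf_smul_mat]
    have e1 := h.add (g u) (g v)
    rw [← map_add, ← hg, ← hg, ← hg, bf_add_left, bf_add_right, bf_add_right] at e1
    have e2 : bf G.val v u = bf G.val u v := by
      rw [← bf_transpose, hs]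
    rw [e2] at e1
    linear_combination -e1
  have hd := congrArg Matrix.det hkey
  rw [Matrix.det_mul, Matrix.det_mul, Matrix.det_transpose, Matrix.det_smul, Fintype.card_fin] at hd
  have e3 : (2 : F) ^ n = 2 ^ k * 2 ^ k := by rw [← pow_add, ← hk]
  rw [e3] at hd
  have h2k : (2 : F) ^ k ≠ 0 := pow_ne_zero k h2
  refine ⟨M.det * (P.val).det / 2 ^ k, ?_⟩
  rw [← hdet]
  field_simp
  linear_combination (-Mn.det) * hd

lemma sq_combine {x y A C : F} (hA : A ≠ 0) (hC : C ≠ 0) (h1 : IsSquare (x * A)) (h2 : IsSquare (y * (C ^ 2 * A))) : IsSquare (x * y) := by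
  obtain ⟨s, hs⟩ := h1
  obtain ⟨t, ht⟩ := h2
  refine ⟨s * t / (C * A), ?_⟩
  field_simp
  linear_combination (y * C ^ 2 * A) * hs + (s * s) * ht


/-- every multiplier occurs for a symmetric form -/
lemma exists_sim_sym (h2 : (2 : F) ≠ 0) {m : ℕ} (hm : 1 ≤ m) (G : GL (Fin (2 * m)) F) (hs : (G.val)ᵀ = G.val) (c : Fˣ) :
    ∃ P : GL (Fin (2 * m)) F, ∀ x y, bf G.val (P.val *ᵥ x) (P.val *ᵥ y) = c * bf G.val x y := by
  classical
  obtain ⟨G', hG'⟩ : ∃ G' : GL (Fin (2 * m)) F, G' = sc c * G := ⟨_, rfl⟩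
  have hG'v : G'.val = (c : F) • G.val := by
    rw [hG', Units.val_mul, sc_coe, Matrix.smul_mul, Matrix.one_mul]
  have hs' : (G'.val)ᵀ = G'.val := by
    rw [hG'v, Matrix.transpose_smul, hs]
  have hbf' : ∀ v, qOf G' v = c * bf G.val v v := by
    intro v
    rw [qOf_apply, hG'v, bf_smul_mat]
  have hdet' : G'.val.det = ((c : F) ^ m) ^ 2 * G.val.det := by
    rw [hG'v, Matrix.det_smul, Fintype.card_fin, ← pow_mul, mul_comm m 2]
  have hfr : finrank F (Fin (2 * m) → F) = 2 * m := by rw [Module.finrank_fintype_fun_eq_card, Fintype.card_fin]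
  obtain ⟨e₂⟩ : Nonempty (Fin (2 * m) ≃ (Fin m ⊕ Fin m)) := ⟨(Fintype.equivFinOfCardEq (Cfsg.Agent.H11.card_sum m)).symm⟩
  obtain ⟨e₃⟩ : Nonempty (Fin (2 * m) ≃ ((Fin (m - 1) ⊕ Fin (m - 1)) ⊕ Fin 2)) :=
    ⟨(Fintype.equivFinOfCardEq (by simp only [Fintype.card_sum, Fintype.card_fin]; omega)).symm⟩
  have hev : Even (2 * m) := ⟨m, two_mul m⟩
  have hmm : (-1 : F) ^ m = (-1) ^ (m - 1) * (-1) := by
    rw [← pow_succ, Nat.sub_add_cancel hm]
  have hmm2 : (-1 : F) ^ (m - 1) * (-1) ^ (m - 1) = 1 := by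
    rw [← mul_pow]
    simp
  have hcm : (c : F) ^ m ≠ 0 := pow_ne_zero m c.ne_zero
  rcases Cfsg.Agent.H11.exists_isometry_standard (m := m) hm hfr (qOf G) (qOf_nondeg h2 G hs) with ⟨g₁, hg₁⟩ | ⟨g₁, ζ₁, hζ₁, hg₁⟩ <;>
  rcases Cfsg.Agent.H11.exists_isometry_standard (m := m) hm hfr (qOf G') (qOf_nondeg h2 G' hs') with ⟨g₂, hg₂⟩ | ⟨g₂, ζ₂, hζ₂, hg₂⟩
  · refine ⟨glOf (g₂.trans g₁.symm), polar_sim h2 G hs _ _ (fun v => ?_)⟩
    rw [glOf_mulVec, ← qOf_apply, hg₁, LinearEquiv.trans_apply, LinearEquiv.apply_symm_apply, ← hg₂, hbf']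
  · exfalso
    have s1 := isSq_det_G h2 e₂ (qfPlus (F := F) m) _ (hyp_mulVec m) G hs g₁ (fun v => by rw [← qOf_apply]; exact hg₁ v) hev
    have s2 := isSq_det_G h2 e₃ (qfMinus (F := F) (m - 1) 1 ζ₂) _ (minus_mulVec (m - 1) 1 ζ₂) G' hs' g₂ (fun v => by rw [← qOf_apply]; exact hg₂ v) hev
    rw [det_hyp] at s1
    rw [det_minus, hdet'] at s2
    have s3 := sq_combine (gl_det_ne G) hcm s1 s2
    apply not_sq_disc h2 hζ₂
    have e5 : (-1 : F) ^ m * ((-1) ^ (m - 1) * (4 * ζ₂ - 1 ^ 2)) = 1 - 4 * ζ₂ := by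
      rw [hmm]
      linear_combination (1 - 4 * ζ₂) * hmm2
    rwa [e5] at s3
  · exfalso
    have s1 := isSq_det_G h2 e₃ (qfMinus (F := F) (m - 1) 1 ζ₁) _ (minus_mulVec (m - 1) 1 ζ₁) G hs g₁ (fun v => by rw [← qOf_apply]; exact hg₁ v) hev
    have s2 := isSq_det_G h2 e₂ (qfPlus (F := F) m) _ (hyp_mulVec m) G' hs' g₂ (fun v => by rw [← qOf_apply]; exact hg₂ v) hev
    rw [det_minus] at s1
    rw [det_hyp, hdet'] at s2
    have s3 := sq_combine (gl_det_ne G) hcm s1 s2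
    apply not_sq_disc h2 hζ₁
    have e5 : (-1 : F) ^ (m - 1) * (4 * ζ₁ - 1 ^ 2) * (-1) ^ m = 1 - 4 * ζ₁ := by
      rw [hmm]
      linear_combination (1 - 4 * ζ₁) * hmm2
    rwa [e5] at s3
  · obtain ⟨L, hL⟩ := exists_minus_iso (aniso_of_zeta hζ₁) (aniso_of_zeta hζ₂) (m - 1)
    refine ⟨glOf ((g₂.trans L).trans g₁.symm), polar_sim h2 G hs _ _ (fun v => ?_)⟩
    rw [glOf_mulVec, ← qOf_apply, hg₁, LinearEquiv.trans_apply, LinearEquiv.apply_symm_apply, LinearEquiv.trans_apply, hL, ← hg₂, hbf']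

/-- the dets of similitudes of a symmetric form -/
lemma D_sym [Nontrivial (Fin (2 * n))] (h2 : (2 : F) ≠ 0) (hm : 1 ≤ n) (G : GL (Fin (2 * n)) F) (hs : (G.val)ᵀ = G.val) (w : Fˣ) :
    (∃ c : Fˣ, w = c ^ n ∨ w = - c ^ n) ↔ ∃ g : GL (Fin (2 * n)) F, Matrix.GeneralLinearGroup.det g = w ∧
      (cc g * gg G : MulAut (ProjectiveSpecialLinearGroup (Fin (2 * n)) F)) = gg G * cc g := by
  haveI : Nonempty (Fin (2 * n)) := ⟨⟨0, by omega⟩⟩
  constructor
  · rintro ⟨c, hw⟩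
    obtain ⟨P, hP⟩ := exists_sim_sym h2 hm G hs c
    obtain ⟨R, hR, hRd⟩ := exists_refl h2 G hs
    have hsq := det_sq_sim G P c hP
    have hsq' : ((Matrix.GeneralLinearGroup.det P : Fˣ) : F) ^ 2 = ((c ^ n : Fˣ) : F) ^ 2 := by
      have := congrArg Units.val hsq
      rw [pow_mul' c 2 n] at this
      simpa [sq] using this
    have hPR : ∀ x y, bf G.val ((P * R).val *ᵥ x) ((P * R).val *ᵥ y) = c * bf G.val x y := by
      intro x y
      rw [Units.val_mul, ← Matrix.mulVec_mulVec, ← Matrix.mulVec_mulVec, hP, hR]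
    have hdPR : ((Matrix.GeneralLinearGroup.det (P * R) : Fˣ) : F) = - ((Matrix.GeneralLinearGroup.det P : Fˣ) : F) := by
      rw [map_mul, Units.val_mul]
      have : ((Matrix.GeneralLinearGroup.det R : Fˣ) : F) = -1 := hRd
      rw [this]
      ring
    -- one of `P`, `PR` has determinant `w`
    rcases sq_eq_sq_iff_eq_or_eq_neg.1 hsq' with e1 | e1 <;> rcases hw with rfl | rfl
    · exact ⟨P, Units.ext e1, (comm_iff _ _).2 ⟨c, hP⟩⟩
    · exact ⟨P * R, Units.ext (by rw [hdPR, e1]; simp), (comm_iff _ _).2 ⟨c, hPR⟩⟩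
    · exact ⟨P * R, Units.ext (by rw [hdPR, e1]; simp), (comm_iff _ _).2 ⟨c, hPR⟩⟩
    · exact ⟨P, Units.ext (by rw [e1]; simp), (comm_iff _ _).2 ⟨c, hP⟩⟩
  · rintro ⟨g, rfl, hg⟩
    obtain ⟨c, hc⟩ := (comm_iff g G).1 hg
    have hsq := det_sq_sim G g c hc
    refine ⟨c, ?_⟩
    have hsq' : ((Matrix.GeneralLinearGroup.det g : Fˣ) : F) ^ 2 = ((c ^ n : Fˣ) : F) ^ 2 := by
      have := congrArg Units.val hsq
      rw [pow_mul' c 2 n] at this
      simpa [sq] using this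
    rcases sq_eq_sq_iff_eq_or_eq_neg.1 hsq' with e1 | e1
    · exact Or.inl (Units.ext e1)
    · exact Or.inr (Units.ext (by rw [e1]; simp))


end Sym

section Index

lemma unit_sq_one {x : Fˣ} (h : x ^ 2 = 1) : x = 1 ∨ x = -1 := by
  have e : (x : F) * x = 1 := by
    have := congrArg Units.val h
    simpa [sq] using this
  rcases mul_self_eq_one_iff.1 e with e1 | e1
  · exact Or.inl (Units.ext e1)
  · exact Or.inr (Units.ext (by rw [e1]; simp))

/-- the group of `± c ^ m` -/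
lemma pm_range {h m : ℕ} (hc : Nat.card Fˣ = 2 * h) (hh : 0 < h) (w : Fˣ) :
    (∃ c : Fˣ, w = c ^ m ∨ w = - c ^ m) ↔ w ∈ (powMonoidHom (Nat.gcd m h) : Fˣ →* Fˣ).range := by
  have hpow : ∀ c : Fˣ, (c ^ h) ^ 2 = 1 := by
    intro c
    rw [← pow_mul, mul_comm, ← hc]
    exact pow_card_eq_one'
  constructor
  · rintro ⟨c, hw⟩
    obtain ⟨a, ha⟩ : Nat.gcd m h ∣ m := Nat.gcd_dvd_left m h
    obtain ⟨b, hb⟩ : Nat.gcd m h ∣ h := Nat.gcd_dvd_right m h
    obtain ⟨ζ, hζ⟩ := IsCyclic.exists_generator (α := Fˣ)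
    have hord : orderOf ζ = 2 * h := by
      rw [← hc]
      exact orderOf_eq_card_of_forall_mem_zpowers hζ
    have hζh : ζ ^ h = -1 := by
      rcases unit_sq_one (hpow ζ) with e | e
      · exfalso
        have := orderOf_dvd_of_pow_eq_one e
        rw [hord] at this
        have := Nat.le_of_dvd hh this
        omega
      · exact e
    rcases hw with rfl | rfl
    · refine ⟨c ^ a, ?_⟩
      change (c ^ a) ^ Nat.gcd m h = c ^ m
      rw [← pow_mul, mul_comm, ← ha]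
    · refine ⟨c ^ a * ζ ^ b, ?_⟩
      change (c ^ a * ζ ^ b) ^ Nat.gcd m h = - c ^ m
      rw [mul_pow, ← pow_mul, ← pow_mul, mul_comm a, ← ha, mul_comm b, ← hb, hζh]
      simp
  · rintro ⟨c, rfl⟩
    change ∃ c' : Fˣ, c ^ Nat.gcd m h = c' ^ m ∨ c ^ Nat.gcd m h = - c' ^ m
    have hb := Nat.gcd_eq_gcd_ab m h
    obtain ⟨t, ht⟩ : ∃ t : Fˣ, t = (c ^ h) ^ (Nat.gcdB m h) := ⟨_, rfl⟩
    have ht2 : t ^ 2 = 1 := by
      rw [ht, ← zpow_natCast, ← zpow_natCast, ← _root_.zpow_mul, mul_comm, _root_.zpow_mul, zpow_natCast, zpow_natCast, hpow]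
      simp
    have e1 : c ^ Nat.gcd m h = (c ^ (Nat.gcdA m h)) ^ m * t := by
      have a1 : c ^ ((m : ℤ) * Nat.gcdA m h) = (c ^ (Nat.gcdA m h)) ^ m := by
        rw [mul_comm, _root_.zpow_mul, zpow_natCast]
      have a2 : c ^ ((h : ℤ) * Nat.gcdB m h) = (c ^ h) ^ (Nat.gcdB m h) := by
        rw [_root_.zpow_mul, zpow_natCast]
      rw [← zpow_natCast c (Nat.gcd m h), hb, _root_.zpow_add, ht, a1, a2]
    refine ⟨c ^ (Nat.gcdA m h), ?_⟩
    rcases unit_sq_one ht2 with e | e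
    · left
      rw [e1, e, mul_one]
    · right
      rw [e1, e]
      simp

end Index

section Mult
variable {ι : Type} [Fintype ι] [DecidableEq ι]

/-- the multiplier of a similitude -/
noncomputable def multHom (f : (ι → F) → (ι → F) → F) (u₀ v₀ : ι → F) (h : f u₀ v₀ ≠ 0) : Cfsg.Geo.similarityGroup f →* Fˣ :=
  MonoidHom.mk' (fun g => Units.mk0 (f (g.1.val *ᵥ u₀) (g.1.val *ᵥ v₀) / f u₀ v₀) (by
      obtain ⟨c, hc⟩ := g.2
      rw [hc, mul_div_cancel_right₀ _ h]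
      exact c.ne_zero)) (by
    intro a b
    apply Units.ext
    obtain ⟨c, hc⟩ := a.2
    obtain ⟨d, hd⟩ := b.2
    simp only [Units.val_mk0, Units.val_mul, Subgroup.coe_mul]
    rw [← Matrix.mulVec_mulVec, ← Matrix.mulVec_mulVec, hc, hd, hc]
    field_simp)

lemma multHom_spec (f : (ι → F) → (ι → F) → F) (u₀ v₀ : ι → F) (h : f u₀ v₀ ≠ 0) (g : Cfsg.Geo.similarityGroup f) (a b : ι → F) :
    f (g.1.val *ᵥ a) (g.1.val *ᵥ b) = (multHom f u₀ v₀ h g : F) * f a b := by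
  obtain ⟨c, hc⟩ := g.2
  change _ = (f (g.1.val *ᵥ u₀) (g.1.val *ᵥ v₀) / f u₀ v₀) * f a b
  rw [hc, hc, mul_div_cancel_right₀ _ h]

lemma multHom_apply_of (f : (ι → F) → (ι → F) → F) (u₀ v₀ : ι → F) (h : f u₀ v₀ ≠ 0) (g : Cfsg.Geo.similarityGroup f) (c : Fˣ)
    (hc : ∀ a b, f (g.1.val *ᵥ a) (g.1.val *ᵥ b) = c * f a b) : multHom f u₀ v₀ h g = c := by
  apply Units.ext
  have e1 := multHom_spec f u₀ v₀ h g u₀ v₀
  rw [hc] at e1
  exact (mul_right_cancel₀ h e1).symm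

lemma card_proj (S : Subgroup (GL ι F)) (hS : Cfsg.Geo.scalars ι F ≤ S) :
    Nat.card S = Nat.card (Cfsg.projQuot S) * Nat.card (Cfsg.Geo.scalars ι F) := by
  rw [Subgroup.card_eq_card_quotient_mul_card_subgroup ((Cfsg.Geo.scalars ι F).subgroupOf S)]
  rw [Nat.card_congr (Subgroup.subgroupOfEquivOfLe hS).toEquiv]

lemma scalars_le (f : (ι → F) → (ι → F) → F) (hf : ∀ (c : F) x y, f (c • x) (c • y) = c * c * f x y) :
    Cfsg.Geo.scalars ι F ≤ Cfsg.Geo.similarityGroup f := by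
  intro g hg
  obtain ⟨c, hc⟩ := (Cfsg.Geo.mem_scalars_iff g).1 hg
  refine ⟨c * c, fun u v => ?_⟩
  rw [hc, Matrix.smul_mulVec, Matrix.smul_mulVec, Matrix.one_mulVec, Matrix.one_mulVec, hf, Units.val_mul]

lemma card_sim (f : (ι → F) → (ι → F) → F) (u₀ v₀ : ι → F) (h : f u₀ v₀ ≠ 0) :
    Nat.card (Cfsg.Geo.similarityGroup f) = Nat.card (multHom f u₀ v₀ h).ker * Nat.card (multHom f u₀ v₀ h).range := by
  rw [← Subgroup.index_ker, Subgroup.card_mul_index]


end Mult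

section Order
variable {m : ℕ}
local notation "II" => (Fin m ⊕ Fin m)

lemma card_PGSp_ge [Nonempty (Fin m)] :
    Nat.card (symplecticGroup (Fin m) F) * Nat.card Fˣ ≤ Nat.card (Cfsg.PGSp m F) * Nat.card (Cfsg.Geo.scalars II F) := by
  classical
  obtain ⟨i⟩ := ‹Nonempty (Fin m)›
  have hx : (Pi.single (Sum.inl i) 1 : II → F) ≠ 0 := by
    intro e
    have := congrFun e (Sum.inl i)
    simp at this
  obtain ⟨z, hz⟩ := Cfsg.Agent.Lead.sympForm_nondeg hx
  have hz' : Cfsg.sympForm m F (Pi.single (Sum.inl i) 1) z ≠ 0 := hz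
  have e1 : Nat.card (Cfsg.GSp m F) = _ := card_proj (Cfsg.GSp m F) (scalars_le (Cfsg.sympForm m F) (fun c x y => by
    change Cfsg.Agent.Lead.sympForm _ _ = _ * Cfsg.Agent.Lead.sympForm _ _
    rw [Cfsg.Agent.Lead.sympForm_smul_left, Cfsg.Agent.Lead.sympForm_smul_right, mul_assoc]))
  rw [← e1]
  change _ ≤ Nat.card (Cfsg.Geo.similarityGroup (Cfsg.sympForm m F))
  rw [card_sim _ _ _ hz']
  have hr : (multHom (Cfsg.sympForm m F) _ _ hz').range = ⊤ := by
    rw [MonoidHom.range_eq_top]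
    intro c
    exact ⟨⟨dcGL c, c, dcGL_form c⟩, multHom_apply_of _ _ _ hz' _ c (dcGL_form c)⟩
  rw [hr, Subgroup.card_top]
  apply Nat.mul_le_mul_right
  have hpres : ∀ (A : symplecticGroup (Fin m) F) (x y : II → F), Cfsg.sympForm m F ((spToGL A).val *ᵥ x) ((spToGL A).val *ᵥ y) = ((1 : Fˣ) : F) * Cfsg.sympForm m F x y := by
    intro A x y
    rw [Units.val_one, one_mul]
    exact Cfsg.Agent.Lead.sympForm_mulVec A.2 x y
  refine Nat.card_le_card_of_injective (fun A => ⟨⟨spToGL A, 1, hpres A⟩, ?_⟩) ?_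
  · rw [MonoidHom.mem_ker]
    exact multHom_apply_of _ _ _ hz' _ 1 (hpres A)
  · intro A A' e
    have e2 := congrArg (fun t : (multHom (Cfsg.sympForm m F) _ _ hz').ker => (t.1.1.val : Matrix II II F)) e
    exact Subtype.ext e2

variable {ι : Type} [Fintype ι] [DecidableEq ι]

lemma card_PGO_le {Q : (ι → F) → F} {B : (ι → F) → (ι → F) → F} (h : QF Q B) (h2 : (2 : F) ≠ 0) {u₀ v₀ : ι → F} (h₀ : B u₀ v₀ ≠ 0) :
    Nat.card (Cfsg.PGO F Q) * Nat.card (Cfsg.Geo.scalars ι F) ≤ Nat.card (Cfsg.isometryGroup F Q) * Nat.card Fˣ := by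
  classical
  have hq : Cfsg.Geo.quadSimilarityGroup Q = Cfsg.Geo.similarityGroup B := quadSim_eq h h2
  have e0 : Nat.card (Cfsg.PGO F Q) = Nat.card (Cfsg.projQuot (Cfsg.Geo.similarityGroup B)) := by
    change Nat.card (Cfsg.projQuot (Cfsg.Geo.quadSimilarityGroup Q)) = _
    rw [hq]
  have e1 := card_proj (Cfsg.Geo.similarityGroup B) (scalars_le B (fun c x y => by
    rw [h.smul_left, h.symm x (c • y), h.smul_left, h.symm y x, mul_assoc]))
  rw [e0, ← e1, card_sim _ _ _ h₀]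
  refine Nat.mul_le_mul ?_ (Subgroup.card_le_card_group _)
  have hmem : ∀ g : (multHom B _ _ h₀).ker, (g.1.1 : GL ι F) ∈ Cfsg.isometryGroup F Q := by
    rintro ⟨g, hg⟩
    rw [MonoidHom.mem_ker] at hg
    intro u _
    change Q (g.1.val *ᵥ u) = Q u
    have e2 := multHom_spec B _ _ h₀ g u u
    rw [hg, Units.val_one, one_mul, qf_self h, qf_self h] at e2
    exact mul_left_cancel₀ h2 e2
  refine Nat.card_le_card_of_injective (fun g => ⟨g.1.1, hmem g⟩) ?_
  intro g g' e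
  have e2 := congrArg (fun t : Cfsg.isometryGroup F Q => (t.1 : GL ι F)) e
  exact Subtype.ext (Subtype.ext e2)

lemma num_lt {q k : ℕ} (hq : 3 ≤ q) (hk : 1 ≤ k) (e : ℕ) (he : e ≤ q ^ (k + 1) + 1) :
    2 * q ^ ((k + 1) * (k + 1 - 1)) * e * ∏ i ∈ Finset.range (k + 1 - 1), (q ^ (2 * (i + 1)) - 1) <
      q ^ ((k + 1) ^ 2) * ∏ i ∈ Finset.range (k + 1), (q ^ (2 * (i + 1)) - 1) := by
  rw [Finset.prod_range_succ, Nat.add_sub_cancel]
  obtain ⟨X, hX⟩ : ∃ X, X = ∏ i ∈ Finset.range k, (q ^ (2 * (i + 1)) - 1) := ⟨_, rfl⟩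
  have hX0 : 0 < X := by
    rw [hX]
    refine Finset.prod_pos fun i _ => ?_
    have : 1 < q ^ (2 * (i + 1)) := Nat.one_lt_pow (by omega) (by omega)
    omega
  rw [← hX]
  obtain ⟨t, ht⟩ : ∃ t, t = q ^ (k + 1) := ⟨_, rfl⟩
  rw [← ht] at he
  have ht9 : 9 ≤ t := by
    rw [ht]
    calc 9 = 3 ^ 2 := by norm_num
      _ ≤ q ^ 2 := Nat.pow_le_pow_left hq 2
      _ ≤ q ^ (k + 1) := Nat.pow_le_pow_right (by omega) (by omega)
  have e1 : q ^ ((k + 1) ^ 2) = q ^ ((k + 1) * k) * t := by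
    rw [ht, ← pow_add]
    congr 1
    ring
  have e2 : q ^ (2 * (k + 1)) = t * t := by
    rw [ht, ← pow_add]
    congr 1
    ring
  rw [e1, e2]
  obtain ⟨A, hA⟩ : ∃ A, A = q ^ ((k + 1) * k) := ⟨_, rfl⟩
  rw [← hA]
  have hA0 : 0 < A := by
    rw [hA]
    exact pow_pos (by omega) _
  have key : 2 * e < t * (t * t - 1) := by
    have h1 : 9 * 9 ≤ t * t := Nat.mul_le_mul ht9 ht9
    obtain ⟨s, hs⟩ : ∃ s, t * t = s + 1 := ⟨t * t - 1, by omega⟩
    rw [hs, Nat.add_sub_cancel]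
    have h3 : 80 ≤ s := by omega
    have h4 : t * 80 ≤ t * s := Nat.mul_le_mul_left t h3
    linarith
  calc 2 * A * e * X = A * X * (2 * e) := by ring
    _ < A * X * (t * (t * t - 1)) := Nat.mul_lt_mul_of_pos_left key (Nat.mul_pos hA0 hX0)
    _ = A * t * (X * (t * t - 1)) := by ring

/-- centralizers from coordinates -/
lemma cen_of_coords' {n : ℕ} {ι' : Type} [Fintype ι'] [DecidableEq ι'] [Nontrivial (Fin n)] (h2 : (2 : F) ≠ 0) {Q : (ι' → F) → F} {B : (ι' → F) → (ι' → F) → F} (h : QF Q B)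
    (G : GL (Fin n) F) (hs : (G.val)ᵀ = G.val) (g : (Fin n → F) ≃ₗ[F] (ι' → F)) (hg : ∀ v, bf G.val v v = Q (g v)) :
    Nonempty (↥((cc : GL (Fin n) F →* MulAut (ProjectiveSpecialLinearGroup (Fin n) F)).range ⊓
      Subgroup.centralizer {(gg G : MulAut (ProjectiveSpecialLinearGroup (Fin n) F))}) ≃* Cfsg.PGO F Q) := by
  obtain ⟨E⟩ := cen_iso G B g.symm (Units.mk0 2 h2) (fun x y => by
    rw [Units.val_mk0]
    have e1 := h.add x y
    obtain ⟨u, rfl⟩ := g.surjective x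
    obtain ⟨v, rfl⟩ := g.surjective y
    rw [← map_add, ← hg, ← hg, ← hg, bf_add_left, bf_add_right, bf_add_right] at e1
    have e2 : bf G.val v u = bf G.val u v := by
      rw [← bf_transpose, hs]
    rw [e2] at e1
    rw [LinearEquiv.symm_apply_apply, LinearEquiv.symm_apply_apply]
    linear_combination -e1)
  have hq : Cfsg.Geo.quadSimilarityGroup Q = Cfsg.Geo.similarityGroup B := quadSim_eq h h2
  change Nonempty (_ ≃* Cfsg.projQuot (Cfsg.Geo.quadSimilarityGroup Q))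
  rw [hq]
  exact ⟨E⟩

/-- the order comparison -/
lemma card_ne {Q : (ι → F) → F} {B : (ι → F) → (ι → F) → F} [Nonempty (Fin m)] (h : QF Q B) (h2 : (2 : F) ≠ 0) {u₀ v₀ : ι → F} (h₀ : B u₀ v₀ ≠ 0)
    (hlt : Nat.card (Cfsg.isometryGroup F Q) < Nat.card (symplecticGroup (Fin m) F))
    (hZ : Nat.card (Cfsg.Geo.scalars ι F) = Nat.card (Cfsg.Geo.scalars II F)) :
    Nat.card (Cfsg.PGO F Q) ≠ Nat.card (Cfsg.PGSp m F) := by
  intro e
  have e1 := card_PGO_le h h2 h₀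
  have e2 := card_PGSp_ge (F := F) (m := m)
  rw [e, hZ] at e1
  have e3 := e2.trans e1
  have e4 := Nat.le_of_mul_le_mul_right e3 Nat.card_pos
  omega

lemma card_scalars (ι : Type) [Fintype ι] [DecidableEq ι] [Nonempty ι] : Nat.card (Cfsg.Geo.scalars ι F) = Nat.card Fˣ := by
  classical
  refine (Nat.card_congr (Equiv.ofBijective (fun c : Fˣ => (⟨_, ⟨c, rfl⟩⟩ : Cfsg.Geo.scalars ι F)) ⟨?_, ?_⟩)).symm
  · intro a b e
    obtain ⟨i⟩ := ‹Nonempty ι›
    have e1 := congrArg (fun t : Cfsg.Geo.scalars ι F => (t.1.val : Matrix ι ι F) i i) e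
    apply Units.ext
    simpa using e1
  · rintro ⟨_, c, rfl⟩
    exact ⟨c, rfl⟩

/-- a symmetric form does not have the symplectic centralizer -/
theorem not_pgsp (h2 : (2 : F) ≠ 0) (hm : 2 ≤ m) [Nontrivial (Fin (2 * m))] (G : GL (Fin (2 * m)) F) (hs : (G.val)ᵀ = G.val) :
    ¬ Nonempty (↥((cc : GL (Fin (2 * m)) F →* MulAut (ProjectiveSpecialLinearGroup (Fin (2 * m)) F)).range ⊓
      Subgroup.centralizer {(gg G : MulAut (ProjectiveSpecialLinearGroup (Fin (2 * m)) F))}) ≃* Cfsg.PGSp m F) := by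
  classical
  rintro ⟨E⟩
  haveI : Nonempty (Fin m) := ⟨⟨0, by omega⟩⟩
  obtain ⟨k, rfl⟩ : ∃ k, m = k + 1 := ⟨m - 1, by omega⟩
  have hk : 1 ≤ k := by omega
  have hq3 : 3 ≤ Fintype.card F := by
    have h1 : 1 < Fintype.card F := Fintype.one_lt_card
    by_contra hcon
    have e2 : Fintype.card F = 2 := by omega
    have e3 := Nat.cast_card_eq_zero F
    rw [e2] at e3
    exact h2 (by exact_mod_cast e3)
  have hfr : finrank F (Fin (2 * (k + 1)) → F) = 2 * (k + 1) := by rw [Module.finrank_fintype_fun_eq_card, Fintype.card_fin]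
  have hcards : Nat.card (symplecticGroup (Fin (k + 1)) F) = Fintype.card F ^ ((k + 1) ^ 2) * ∏ i ∈ Finset.range (k + 1), (Fintype.card F ^ (2 * (i + 1)) - 1) :=
    Cfsg.Agent.Lead.card_Sp rfl (k + 1)
  rcases Cfsg.Agent.H11.exists_isometry_standard (m := k + 1) (by omega) hfr (qOf G) (qOf_nondeg h2 G hs) with ⟨g, hg⟩ | ⟨g, ζ, hζ, hg⟩
  · obtain ⟨E'⟩ := cen_of_coords' h2 (qfPlus (F := F) (k + 1)) G hs g (fun v => by rw [← qOf_apply]; exact hg v)
    have e1 : Nat.card (Cfsg.PGO F (Cfsg.quadFormPlus (k + 1) F)) = Nat.card (Cfsg.PGSp (k + 1) F) :=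
      Nat.card_congr (E'.symm.trans E).toEquiv
    obtain ⟨x, hx⟩ := exists_ne (0 : Fin (k + 1) ⊕ Fin (k + 1) → F)
    obtain ⟨y, -, hy⟩ := ndPlus (F := F) (k + 1) x Submodule.mem_top hx
    refine card_ne (m := k + 1) (qfPlus (F := F) (k + 1)) h2 hy ?_ rfl e1
    rw [card_GO_plus rfl (k + 1) (by omega), hcards]
    exact num_lt hq3 hk _ (by omega)
  · obtain ⟨E'⟩ := cen_of_coords' h2 (qfMinus (F := F) (k + 1 - 1) 1 ζ) G hs g (fun v => by rw [← qOf_apply]; exact hg v)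
    have e1 : Nat.card (Cfsg.PGO F (Cfsg.quadFormMinus (k + 1 - 1) F 1 ζ)) = Nat.card (Cfsg.PGSp (k + 1) F) :=
      Nat.card_congr (E'.symm.trans E).toEquiv
    have hab := aniso_of_zeta hζ
    obtain ⟨x, hx⟩ := exists_ne (0 : (Fin (k + 1 - 1) ⊕ Fin (k + 1 - 1)) ⊕ Fin 2 → F)
    obtain ⟨y, -, hy⟩ := ndMinus (F := F) (k + 1 - 1) 1 ζ hab x Submodule.mem_top hx
    refine card_ne (m := k + 1) (qfMinus (F := F) (k + 1 - 1) 1 ζ) h2 hy ?_ ?_ e1
    · rw [card_GO_minus rfl (k + 1) (by omega) 1 ζ hab, hcards]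
      exact num_lt hq3 hk _ le_rfl
    · rw [card_scalars, card_scalars]

end Order

/-- **S2702** -/
theorem psl_split_graph {p f : ℕ} [Fact p.Prime] (hF : Fintype.card F = p ^ f) (hf : 1 ≤ f) {n : ℕ} (hn : 3 ≤ n) (γ : MulAut (Matrix.ProjectiveSpecialLinearGroup (Fin n) F)) (hγ : Cfsg.IsGraphAutClassPSL γ) (hγ2 : orderOf γ = 2) :
    ((Even n ∧ Odd p ∧ Nonempty (↥(Cfsg.inndiagPSL n F ⊓ Subgroup.centralizer {γ}) ≃* Cfsg.PGSp (n / 2) F)) → Cfsg.splitClassCount (Cfsg.inndiagPSL n F) (Cfsg.Inn (Matrix.ProjectiveSpecialLinearGroup (Fin n) F)) γ = Nat.gcd (n / 2) (p ^ f - 1)) ∧ ((Even n ∧ Odd p ∧ ¬ Nonempty (↥(Cfsg.inndiagPSL n F ⊓ Subgroup.centralizer {γ}) ≃* Cfsg.PGSp (n / 2) F)) → Cfsg.splitClassCount (Cfsg.inndiagPSL n F) (Cfsg.Inn (Matrix.ProjectiveSpecialLinearGroup (Fin n) F)) γ = Nat.gcd n (p ^ f - 1) / 2) ∧ (¬ (Even n ∧ Odd p) → Cfsg.splitClassCount (Cfsg.inndiagPSL n F) (Cfsg.Inn (Matrix.ProjectiveSpecialLinearGroup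 (Fin n) F)) γ = Nat.gcd n (p ^ f - 1)) := by
  classical
  haveI : Nontrivial (Fin n) := Fin.nontrivial_iff_two_le.2 (by omega)
  haveI : Nonempty (Fin n) := ⟨⟨0, by omega⟩⟩
  have hcard : Nat.card Fˣ = p ^ f - 1 := by
    rw [Nat.card_eq_fintype_card, Fintype.card_units, hF]
  obtain ⟨G, rfl⟩ := eq_gg_of_graph hγ
  have hsq : (gg G * gg G : MulAut _) = 1 := by
    have e0 := pow_orderOf_eq_one (gg G)
    rw [hγ2, sq] at e0
    exact e0
  obtain ⟨u, hu⟩ := (gg_sq_iff G).1 hsq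
  rw [inndiag_eq]
  have hodd2 : Odd p → (2 : F) ≠ 0 := fun hp => two_ne_zero_of_odd rfl (by rw [hF]; exact hp.pow)
  have h2odd : (2 : F) ≠ 0 → Odd p := by
    intro h2
    rcases (Fact.out : p.Prime).eq_two_or_odd' with e | e
    · exfalso
      subst e
      obtain ⟨p', hp', k, hk, hc⟩ := FiniteField.card' F
      haveI := hp'
      rw [hF] at hc
      have hd : p' ∣ 2 ^ f := by
        rw [hc]
        exact dvd_pow_self _ (PNat.ne_zero k)
      have e1 : p' = 2 := (Nat.prime_dvd_prime_iff_eq hk Nat.prime_two).1 (hk.dvd_of_dvd_pow hd)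
      subst e1
      exact h2 (by exact_mod_cast CharP.cast_eq_zero F 2)
    · exact e
  refine ⟨?_, ?_, ?_⟩
  · rintro ⟨⟨m', hm'⟩, hp, hE⟩
    have hnm : n = 2 * m' := by omega
    have hm2 : n / 2 = m' := by omega
    rw [hm2] at hE ⊢
    subst hnm
    have h2 := hodd2 hp
    rcases sym_or_anti G hu with h1 | h1
    · have hs : (G.val)ᵀ = G.val := by rw [hu, h1, one_smul]
      exact (not_pgsp h2 (by omega) G hs hE).elim
    · have h₀ : (G.val)ᵀ = -G.val := by rw [hu, h1, neg_smul, one_smul]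
      rw [split_PSL (gg G) _ (D_anti h2 rfl G h₀), IsCyclic.index_powMonoidHom_range, hcard, Nat.gcd_comm]
  · rintro ⟨⟨m', hm'⟩, hp, hE⟩
    have hnm : n = 2 * m' := by omega
    have hm2 : n / 2 = m' := by omega
    rw [hm2] at hE
    subst hnm
    have h2 := hodd2 hp
    obtain ⟨h, hh⟩ : ∃ h, p ^ f - 1 = 2 * h := by
      obtain ⟨j, hj⟩ := (hp.pow : Odd (p ^ f))
      exact ⟨j, by omega⟩
    have hh0 : 0 < h := by
      have : 3 ≤ Fintype.card F := by
        have h1 : 1 < Fintype.card F := Fintype.one_lt_card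
        by_contra hcon
        have e2 : Fintype.card F = 2 := by omega
        have e3 := Nat.cast_card_eq_zero F
        rw [e2] at e3
        exact h2 (by exact_mod_cast e3)
      omega
    rcases sym_or_anti G hu with h1 | h1
    · have hs : (G.val)ᵀ = G.val := by rw [hu, h1, one_smul]
      have hD : ∀ w, w ∈ (powMonoidHom (Nat.gcd m' h) : Fˣ →* Fˣ).range ↔ ∃ g : GL (Fin (2 * m')) F, Matrix.GeneralLinearGroup.det g = w ∧ (cc g * gg G : MulAut _) = gg G * cc g := by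
        intro w
        rw [← pm_range (by rw [hcard, hh]) hh0, D_sym h2 (by omega) G hs]
      rw [split_PSL (gg G) _ hD, IsCyclic.index_powMonoidHom_range, hcard, hh, Nat.gcd_mul_left 2 m' h, Nat.mul_div_cancel_left _ (by norm_num)]
      exact Nat.gcd_eq_right ((Nat.gcd_dvd_right m' h).trans (Dvd.intro_left 2 rfl))
    · exfalso
      have h₀ : (G.val)ᵀ = -G.val := by rw [hu, h1, neg_smul, one_smul]
      obtain ⟨ψ, hψ⟩ := exists_symp_coords h2 rfl G h₀
      obtain ⟨e₂⟩ : Nonempty (Fin m' ⊕ Fin m' ≃ Fin (2 * m')) := ⟨(Fintype.equivFinOfCardEq (Cfsg.Agent.H11.card_sum m'))⟩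
      exact hE (cen_iso G (Cfsg.sympForm m' F) ψ.symm (-1) (fun x y => by
        have := hψ (ψ.symm x) (ψ.symm y)
        rw [LinearEquiv.apply_symm_apply, LinearEquiv.apply_symm_apply] at this
        rw [this]
        simp))
  · intro hne
    have hc : Odd n ∨ (2 : F) = 0 := by
      by_cases h2 : (2 : F) = 0
      · exact Or.inr h2
      · left
        by_contra hcon
        exact hne ⟨Nat.not_odd_iff_even.1 hcon, h2odd h2⟩
    rw [split_PSL (gg G) _ (D_all hc G), IsCyclic.index_powMonoidHom_range, hcard, Nat.gcd_comm]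

end Cfsg.Agent.Lead.Fm
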