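import Cfsg.Agent.Lib.Lead.LangMin8
/-! Graph-field automorphisms: transport along isometries between forms in different coordinates. -/
set_option autoImplicit false
set_option linter.style.haveILetI false
set_option linter.unusedSimpArgs false
set_option linter.unusedSectionVars false
set_option linter.unusedVariables false
set_option linter.deprecated false
namespace Cfsg.Agent.Lead.LangOm
open Matrix Module Cfsg.Agent.Lead.Ortho Cfsg.Agent.Lead.Omega Cfsg.Agent.H01.Om Cfsg.Agent.Lead.Lang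
open Cfsg.Agent.H11 (IsMTS Rf Pb triangle minusForm minusForm_coe Rf_isom)

section Iso2
variable {F : Type*} [Field F] [Fintype F] {ι ι' : Type} [Fintype ι] [DecidableEq ι] [Fintype ι'] [DecidableEq ι']
variable {Q : (ι → F) → F} {B : (ι → F) → (ι → F) → F} {Q' : (ι' → F) → F} {B' : (ι' → F) → (ι' → F) → F}

/-- transport of isometries along an isometry of forms -/
noncomputable def ogF2 (L : (ι' → F) ≃ₗ[F] (ι → F)) (hL : ∀ v, Q (L v) = Q' v) (s : OG F Q') : OG F Q :=
  mkO (L.toLinearMap ∘ₗ actL s ∘ₗ L.symm.toLinearMap) (L.toLinearMap ∘ₗ actL s⁻¹ ∘ₗ L.symm.toLinearMap)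
    (fun x => by
      simp only [LinearMap.comp_apply, LinearEquiv.coe_coe, LinearEquiv.symm_apply_apply, actL_apply, act_act_inv, LinearEquiv.apply_symm_apply])
    (fun x => by
      simp only [LinearMap.comp_apply, LinearEquiv.coe_coe, LinearEquiv.symm_apply_apply, actL_apply, act_inv_act, LinearEquiv.apply_symm_apply])
    (fun x => by
      simp only [LinearMap.comp_apply, LinearEquiv.coe_coe, actL_apply]
      rw [hL, Q_act (Q := Q')]
      rw [← hL, LinearEquiv.apply_symm_apply])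

noncomputable def ogB2 (L : (ι' → F) ≃ₗ[F] (ι → F)) (hL : ∀ v, Q (L v) = Q' v) (s : OG F Q) : OG F Q' :=
  mkO (L.symm.toLinearMap ∘ₗ actL s ∘ₗ L.toLinearMap) (L.symm.toLinearMap ∘ₗ actL s⁻¹ ∘ₗ L.toLinearMap)
    (fun x => by
      simp only [LinearMap.comp_apply, LinearEquiv.coe_coe, LinearEquiv.symm_apply_apply, actL_apply, act_act_inv, LinearEquiv.apply_symm_apply])
    (fun x => by
      simp only [LinearMap.comp_apply, LinearEquiv.coe_coe, LinearEquiv.symm_apply_apply, actL_apply, act_inv_act, LinearEquiv.apply_symm_apply])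
    (fun x => by
      simp only [LinearMap.comp_apply, LinearEquiv.coe_coe, actL_apply]
      rw [← hL, LinearEquiv.apply_symm_apply, Q_act (Q := Q), hL])

lemma act_ogF2 (L : (ι' → F) ≃ₗ[F] (ι → F)) (hL : ∀ v, Q (L v) = Q' v) (s : OG F Q') (x : ι → F) :
    act (ogF2 L hL s) x = L (act s (L.symm x)) := by
  unfold ogF2
  rw [act_mkO]
  rfl

lemma act_ogB2 (L : (ι' → F) ≃ₗ[F] (ι → F)) (hL : ∀ v, Q (L v) = Q' v) (s : OG F Q) (x : ι' → F) :
    act (ogB2 L hL s) x = L.symm (act s (L x)) := by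
  unfold ogB2
  rw [act_mkO]
  rfl

/-- transport of isometries along an isometry of forms -/
noncomputable def ogIso2 (L : (ι' → F) ≃ₗ[F] (ι → F)) (hL : ∀ v, Q (L v) = Q' v) : OG F Q' ≃* OG F Q where
  toFun := ogF2 L hL
  invFun := ogB2 L hL
  left_inv s := by
    apply og_ext
    intro x
    rw [act_ogB2, act_ogF2, LinearEquiv.symm_apply_apply, LinearEquiv.symm_apply_apply]
  right_inv s := by
    apply og_ext
    intro x
    rw [act_ogF2, act_ogB2, LinearEquiv.apply_symm_apply, LinearEquiv.apply_symm_apply]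
  map_mul' s t := by
    apply og_ext
    intro x
    rw [act_mul, act_ogF2, act_ogF2, act_ogF2, act_mul, LinearEquiv.symm_apply_apply]

lemma act_ogIso2 (L : (ι' → F) ≃ₗ[F] (ι → F)) (hL : ∀ v, Q (L v) = Q' v) (s : OG F Q') (x : ι → F) :
    act (ogIso2 L hL s) x = L (act s (L.symm x)) := act_ogF2 L hL s x

lemma act_ogIso2_symm (L : (ι' → F) ≃ₗ[F] (ι → F)) (hL : ∀ v, Q (L v) = Q' v) (s : OG F Q) (x : ι' → F) :
    act ((ogIso2 L hL).symm s) x = L.symm (act s (L x)) := act_ogB2 L hL s x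

/-- the restriction to the commutator subgroups -/
lemma map_Omega2 (L : (ι' → F) ≃ₗ[F] (ι → F)) (hL : ∀ v, Q (L v) = Q' v) :
    (Cfsg.Omega F Q').map (ogIso2 L hL).toMonoidHom = Cfsg.Omega F Q := by
  change (commutator _).map _ = commutator _
  rw [commutator_def, commutator_def, Subgroup.map_commutator,
    Subgroup.map_top_of_surjective _ (ogIso2 L hL).surjective]

/-- the isomorphism of the commutator subgroups -/
noncomputable def omIso2 (L : (ι' → F) ≃ₗ[F] (ι → F)) (hL : ∀ v, Q (L v) = Q' v) : ↥(Cfsg.Omega F Q') ≃* ↥(Cfsg.Omega F Q) :=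
  ((ogIso2 L hL).subgroupMap (Cfsg.Omega F Q')).trans (MulEquiv.subgroupCongr (map_Omega2 L hL))

lemma omIso2_val (L : (ι' → F) ≃ₗ[F] (ι → F)) (hL : ∀ v, Q (L v) = Q' v) (s : ↥(Cfsg.Omega F Q')) :
    ((omIso2 L hL s : ↥(Cfsg.Omega F Q)) : OG F Q) = ogIso2 L hL (s : OG F Q') := rfl

lemma omIso2_symm_val (L : (ι' → F) ≃ₗ[F] (ι → F)) (hL : ∀ v, Q (L v) = Q' v) (s : ↥(Cfsg.Omega F Q)) :
    (((omIso2 L hL).symm s : ↥(Cfsg.Omega F Q')) : OG F Q') = (ogIso2 L hL).symm (s : OG F Q) := by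
  apply (ogIso2 L hL).injective
  rw [← omIso2_val, MulEquiv.apply_symm_apply, MulEquiv.apply_symm_apply]

/-- the isomorphism of the projective groups -/
noncomputable def poIso2 (L : (ι' → F) ≃ₗ[F] (ι → F)) (hL : ∀ v, Q (L v) = Q' v) : Cfsg.POmega F Q' ≃* Cfsg.POmega F Q :=
  QuotientGroup.congr _ _ (omIso2 L hL) (by
    ext x
    constructor
    · rintro ⟨y, hy, rfl⟩
      have hy' : y ∈ Subgroup.center _ := hy
      rw [Subgroup.mem_center_iff] at hy' ⊢
      intro z
      obtain ⟨z, rfl⟩ := (omIso2 L hL).surjective z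
      change omIso2 L hL z * omIso2 L hL y = omIso2 L hL y * omIso2 L hL z
      rw [← map_mul, ← map_mul, hy']
    · intro hx
      refine ⟨(omIso2 L hL).symm x, ?_, by simp⟩
      change (omIso2 L hL).symm x ∈ Subgroup.center _
      rw [Subgroup.mem_center_iff] at hx ⊢
      intro z
      apply (omIso2 L hL).injective
      rw [map_mul, map_mul, MulEquiv.apply_symm_apply, hx])

lemma poIso2_mk (L : (ι' → F) ≃ₗ[F] (ι → F)) (hL : ∀ v, Q (L v) = Q' v) (s : ↥(Cfsg.Omega F Q')) :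
    poIso2 L hL (QuotientGroup.mk s) = QuotientGroup.mk (omIso2 L hL s) := rfl

lemma poIso2_symm_mk (L : (ι' → F) ≃ₗ[F] (ι → F)) (hL : ∀ v, Q (L v) = Q' v) (s : ↥(Cfsg.Omega F Q)) :
    (poIso2 L hL).symm (QuotientGroup.mk s) = QuotientGroup.mk ((omIso2 L hL).symm s) := by
  rw [MulEquiv.symm_apply_eq, poIso2_mk, MulEquiv.apply_symm_apply]

/-- the transported semilinear map -/
noncomputable def transS2 (L : (ι' → F) ≃ₗ[F] (ι → F)) (hL : ∀ v, Q (L v) = Q' v) (T' : GS Q') : GS Q :=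
  ⟨(L.toEquiv.symm.trans (T' : Equiv.Perm (ι' → F))).trans L.toEquiv, by
    obtain ⟨T', σ, κ, H⟩ := T'
    refine ⟨σ, κ, ?_⟩
    exact
      { hκ := H.hκ
        hadd := fun x y => by
          change L (T' (L.symm (x + y))) = L (T' (L.symm x)) + L (T' (L.symm y))
          rw [map_add, H.hadd, map_add]
        hsmul := fun c x => by
          change L (T' (L.symm (c • x))) = σ c • L (T' (L.symm x))
          rw [map_smul, H.hsmul, map_smul]
        hQ := fun x => by
          change Q (L (T' (L.symm x))) = κ * σ (Q x)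
          rw [hL, H.hQ, ← hL (L.symm x), LinearEquiv.apply_symm_apply] }⟩

lemma transS2_apply (L : (ι' → F) ≃ₗ[F] (ι → F)) (hL : ∀ v, Q (L v) = Q' v) (T' : GS Q') (x : ι → F) :
    (transS2 L hL T' : Equiv.Perm (ι → F)) x = L ((T' : Equiv.Perm (ι' → F)) (L.symm x)) := rfl

lemma transS2_inv_apply (L : (ι' → F) ≃ₗ[F] (ι → F)) (hL : ∀ v, Q (L v) = Q' v) (T' : GS Q') (x : ι → F) :
    (transS2 L hL T' : Equiv.Perm (ι → F))⁻¹ x = L ((T' : Equiv.Perm (ι' → F))⁻¹ (L.symm x)) := rfl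

/-- the transported map as a homomorphism -/
lemma transS2_mul (L : (ι' → F) ≃ₗ[F] (ι → F)) (hL : ∀ v, Q (L v) = Q' v) (T S : GS Q') :
    transS2 L hL (T * S) = transS2 L hL T * transS2 L hL S := by
  apply Subtype.ext
  apply Equiv.ext
  intro x
  change L ((T : Equiv.Perm (ι' → F)) ((S : Equiv.Perm (ι' → F)) (L.symm x))) =
    L ((T : Equiv.Perm (ι' → F)) (L.symm (L ((S : Equiv.Perm (ι' → F)) (L.symm x)))))
  rw [LinearEquiv.symm_apply_apply]

/-- transport of the action on the projective group -/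
theorem poIso2_Th (h : QF Q B) (hnd : ND B (⊤ : Submodule F (ι → F))) (h' : QF Q' B') (hnd' : ND B' (⊤ : Submodule F (ι' → F)))
    (L : (ι' → F) ≃ₗ[F] (ι → F)) (hL : ∀ v, Q (L v) = Q' v) (T' : GS Q') (z : Cfsg.POmega F Q) :
    poIso2 L hL (Th h' hnd' T' ((poIso2 L hL).symm z)) = Th h hnd (transS2 L hL T') z := by
  obtain ⟨s, rfl⟩ := QuotientGroup.mk_surjective z
  rw [poIso2_symm_mk]
  change QuotientGroup.mk (omIso2 L hL (resΩ Q' (conjA h' hnd' T') ((omIso2 L hL).symm s))) =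
    QuotientGroup.mk (resΩ Q (conjA h hnd (transS2 L hL T')) s)
  congr 1
  apply Subtype.ext
  apply og_ext
  intro x
  rw [omIso2_val, act_ogIso2, resΩ_val, resΩ_val, act_conjA, act_conjA, omIso2_symm_val, act_ogIso2_symm,
    transS2_apply, transS2_inv_apply]

/-- transport of the action on the automorphism group -/
theorem congr_Th (h : QF Q B) (hnd : ND B (⊤ : Submodule F (ι → F))) (h' : QF Q' B') (hnd' : ND B' (⊤ : Submodule F (ι' → F)))
    (L : (ι' → F) ≃ₗ[F] (ι → F)) (hL : ∀ v, Q (L v) = Q' v) (T' : GS Q') :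
    MulAut.congr (poIso2 L hL) (Th h' hnd' T') = Th h hnd (transS2 L hL T') := by
  ext1 z
  exact poIso2_Th h hnd h' hnd' L hL T' z

lemma transS2_semi (L : (ι' → F) ≃ₗ[F] (ι → F)) (hL : ∀ v, Q (L v) = Q' v) {T' : GS Q'} {σ : F ≃+* F} {κ : F}
    (H : IsSemi Q' (T' : Equiv.Perm (ι' → F)) σ κ) : IsSemi Q (transS2 L hL T' : Equiv.Perm (ι → F)) σ κ where
  hκ := H.hκ
  hadd := fun x y => by
    change L ((T' : Equiv.Perm (ι' → F)) (L.symm (x + y))) = L ((T' : Equiv.Perm (ι' → F)) (L.symm x)) + L ((T' : Equiv.Perm (ι' → F)) (L.symm y))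
    rw [map_add, H.hadd, map_add]
  hsmul := fun c x => by
    change L ((T' : Equiv.Perm (ι' → F)) (L.symm (c • x))) = σ c • L ((T' : Equiv.Perm (ι' → F)) (L.symm x))
    rw [map_smul, H.hsmul, map_smul]
  hQ := fun x => by
    change Q (L ((T' : Equiv.Perm (ι' → F)) (L.symm x))) = κ * σ (Q x)
    rw [hL, H.hQ, ← hL (L.symm x), LinearEquiv.apply_symm_apply]

/-- the bilinear forms agree -/
lemma polar_transport (h : QF Q B) (h' : QF Q' B') (L : (ι' → F) ≃ₗ[F] (ι → F)) (hL : ∀ v, Q (L v) = Q' v) (x y : ι' → F) :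
    B (L x) (L y) = B' x y := by
  have e1 := h.add (L x) (L y)
  have e2 := h'.add x y
  rw [← map_add, hL, hL, hL] at e1
  rw [e2] at e1
  linear_combination -e1

/-- a context in the new coordinates -/
theorem cx_transport {m' : ℕ} {t₀ : Fin (m' + 1 + 1) → (ι → F) × (ι → F)} (h : QF Q B) (hnd : ND B (⊤ : Submodule F (ι → F)))
    (ht₀ : IsHF Q B t₀) (hm : 1 ≤ m') (hanis : ∀ w ∈ perpOf h t₀, Q w = 0 → w = 0) (h' : QF Q' B') (hcard : 4 < Fintype.card ι')
    (L : (ι' → F) ≃ₗ[F] (ι → F)) (hL : ∀ v, Q (L v) = Q' v) :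
    ∃ (t₀' : Fin (m' + 1 + 1) → (ι' → F) × (ι' → F)) (C : Cx Q' B' t₀'), RS C.h (⊤ : Submodule F (ι' → F)) = ⊤ := by
  have hB := polar_transport h h' L hL
  have hnd' : ND B' (⊤ : Submodule F (ι' → F)) := by
    intro x _ hx
    obtain ⟨y, -, hy⟩ := hnd (L x) Submodule.mem_top ((map_ne_zero_iff _ L.injective).2 hx)
    refine ⟨L.symm y, Submodule.mem_top, ?_⟩
    rw [← hB, LinearEquiv.apply_symm_apply]
    exact hy
  have ht' : IsHF Q' B' (fun i => (L.symm (t₀ i).1, L.symm (t₀ i).2)) := by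
    intro i j
    simp only [← hB, LinearEquiv.apply_symm_apply, ← hL]
    exact ht₀ i j
  have hanis' : ∀ w ∈ perpOf h' (fun i => (L.symm (t₀ i).1, L.symm (t₀ i).2)), Q' w = 0 → w = 0 := by
    intro w hw hQw
    have e : L w = 0 := hanis (L w) (fun i => by
      have := hw i
      simp only [← hB, LinearEquiv.apply_symm_apply] at this
      exact this) (by rw [hL, hQw])
    exact (map_eq_zero_iff _ L.injective).1 e
  exact ⟨_, mkCx h' hnd' ht' hm hanis', RS_eq_top h' hnd' hcard ht' hanis'⟩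

end Iso2

end Cfsg.Agent.Lead.LangOm
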