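import Cfsg.Agent.Lib.Lead.LangGF1
/-! Graph-field automorphisms: the normal form. -/
set_option autoImplicit false
set_option linter.style.haveILetI false
set_option linter.unusedSimpArgs false
set_option linter.unusedSectionVars false
set_option linter.unusedVariables false
set_option linter.deprecated false
namespace Cfsg.Agent.Lead.LangOm
open Matrix Module Cfsg.Agent.Lead.Ortho Cfsg.Agent.Lead.Omega Cfsg.Agent.H01.Om Cfsg.Agent.Lead.Lang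
open Cfsg.Agent.H11 (IsMTS Rf Pb triangle minusForm minusForm_coe Rf_isom plusForm U0 U0_mts mem_U0 plus_nondeg' card_sum)

variable {F : Type*} [Field F] [Fintype F] {m : ℕ}

lemma plus_smap (σ : F ≃+* F) (x : Fin m ⊕ Fin m → F) :
    Cfsg.quadFormPlus m F (smap σ x) = σ (Cfsg.quadFormPlus m F x) := by
  simp [Cfsg.quadFormPlus, smap, map_sum, map_mul]

/-- the coordinate map preserves the standard subspace -/
lemma par_sigT (σ : F ≃+* F) : parS (Q₀ := plusForm m F) m (sigT σ (plus_smap σ)) (U0 m F) = 0 := by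
  unfold parS
  rw [imS_eq_of_stable (Q₀ := plusForm m F) (sigT σ (plus_smap σ)) (E := U0 m F) (fun u hu => by
    rw [mem_U0] at hu ⊢
    intro i
    change σ (u (Sum.inr i)) = 0
    simp [hu i]), inf_idem, (U0_mts (F := F) m).card]
  omega

set_option maxHeartbeats 4000000 in
/-- **The normal form of an involutory graph-field automorphism.** -/
theorem gf_normal (hm : 5 ≤ m) {t₀ : Fin m → (Fin m ⊕ Fin m → F) × (Fin m ⊕ Fin m → F)}
    (C : Cx (Cfsg.quadFormPlus m F) (polarPlus m F) t₀)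
    {x : MulAut (Cfsg.POmega F (Cfsg.quadFormPlus m F))} (hx : Cfsg.IsGraphFieldAutClassPOmegaPlus m x) (hx2 : orderOf x = 2) :
    ∃ (T₁ : GS (Cfsg.quadFormPlus m F)) (σ : F ≃+* F) (κ : F), IsSemi (Cfsg.quadFormPlus m F) (T₁ : Equiv.Perm (Fin m ⊕ Fin m → F)) σ κ ∧
      orderOf σ = 2 ∧ (∀ y, (T₁ : Equiv.Perm (Fin m ⊕ Fin m → F)) ((T₁ : Equiv.Perm (Fin m ⊕ Fin m → F)) y) = y) ∧
      parS (Q₀ := plusForm m F) m T₁ (U0 m F) = 1 ∧ x = Th C.h C.nd T₁ := by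
  classical
  obtain ⟨α, γ, φ, σ₀, v, g, hσ, hQv, hv, hg, hγ, hφ, hc⟩ := hx
  have hα : α ∈ Cfsg.gammaPOmega F (Cfsg.quadFormPlus m F) := by
    rw [gamma_top_plus hm]
    trivial
  obtain ⟨A, rfl⟩ := gamma_le_range C.h C.nd hα
  have e2 := fld_eq_Th C σ₀ (plus_smap σ₀) hφ
  have H : SemiM (Cfsg.quadFormPlus m F) g (RingEquiv.refl F) 1 := ⟨one_ne_zero, fun w => by
    rw [hg, one_mul]
    exact Cfsg.Agent.H03.reflection_isometry (plusForm m F) v hQv w⟩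
  have e1 : γ = Th C.h C.nd (ofO (R C.h v hQv)) := Th_eq_of_induced C.h C.nd H hγ (fun y => by
    rw [ofO_apply]
    change (((R C.h v hQv : OG F (Cfsg.quadFormPlus m F)) : GL (Fin m ⊕ Fin m) F) : Matrix (Fin m ⊕ Fin m) (Fin m ⊕ Fin m) F) *ᵥ y = _
    have e : (((R C.h v hQv : OG F (Cfsg.quadFormPlus m F)) : GL (Fin m ⊕ Fin m) F) : Matrix (Fin m ⊕ Fin m) (Fin m ⊕ Fin m) F) = (g : Matrix (Fin m ⊕ Fin m) (Fin m ⊕ Fin m) F) :=
      (R_val (Q := Cfsg.quadFormPlus m F) (plusForm m F) rfl C.h hQv).trans hg.symm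
    rw [e]
    rfl)
  have hTh : x = Th C.h C.nd A⁻¹ * Th C.h C.nd (ofO (R C.h v hQv) * sigT σ₀ (plus_smap σ₀)) * Th C.h C.nd A := by
    rw [map_mul, ← e1, ← e2, ← hc, map_inv]
    group
  obtain ⟨A', τ, κ', HA⟩ := A
  have HT := (isSemi_permO (R C.h v hQv)).mul (sigT_semi σ₀ (plus_smap σ₀))
  have H₁ := (HA.inv.mul HT).mul HA
  have e3 : (1 : F ≃+* F) * σ₀ = σ₀ := one_mul σ₀
  rw [e3] at H₁
  set T₀ : GS (Cfsg.quadFormPlus m F) := ⟨A', τ, κ', HA⟩ with hT₀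
  have hTh' : x = Th C.h C.nd (T₀⁻¹ * (ofO (R C.h v hQv) * sigT σ₀ (plus_smap σ₀)) * T₀) := by
    rw [map_mul, map_mul, hTh]
  have H₁' : IsSemi (Cfsg.quadFormPlus m F) ((T₀⁻¹ * (ofO (R C.h v hQv) * sigT σ₀ (plus_smap σ₀)) * T₀ : GS _) : Equiv.Perm (Fin m ⊕ Fin m → F)) (τ⁻¹ * σ₀ * τ) _ := H₁
  have h1 : (τ⁻¹ * σ₀ * τ) ^ 2 = 1 := by
    have e4 : Th C.h C.nd (T₀⁻¹ * (ofO (R C.h v hQv) * sigT σ₀ (plus_smap σ₀)) * T₀) ^ 2 = 1 := by
      rw [← hTh', ← hx2]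
      exact pow_orderOf_eq_one _
    rw [← map_pow] at e4
    exact sigma_of_Th_eq_one C (semi_pow H₁' 2) e4
  have h0 : σ₀ ^ 2 = 1 := by
    have e5 : σ₀ ^ 2 = τ * (τ⁻¹ * σ₀ * τ) ^ 2 * τ⁻¹ := by
      rw [pow_two, pow_two]
      group
    rw [e5, h1]
    group
  have h1' : τ⁻¹ * σ₀ * τ ≠ 1 := by
    intro e
    apply hσ
    have e5 : σ₀ = τ * (τ⁻¹ * σ₀ * τ) * τ⁻¹ := by group
    rw [e] at e5
    have e6 : σ₀ = 1 := by
      rw [e5]
      group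
    exact e6
  haveI : Fact (Nat.Prime 2) := ⟨Nat.prime_two⟩
  have hord : orderOf (τ⁻¹ * σ₀ * τ) = 2 := orderOf_eq_prime h1 h1'
  have hR2 : ∀ y, act (R C.h v hQv) (act (R C.h v hQv) y) = y := by
    intro y
    rw [← act_mul, R_mul_self, act_one]
  have hS2 : ∀ y : Fin m ⊕ Fin m → F, smap σ₀ (smap σ₀ y) = y := by
    intro y
    funext i
    have e6 : (σ₀ ^ 2) (y i) = y i := by rw [h0]; rfl
    exact e6
  have hfix : (sigT (Q := Cfsg.quadFormPlus m F) σ₀ (plus_smap σ₀) : Equiv.Perm (Fin m ⊕ Fin m → F)) v = v := by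
    rw [sigT_apply]
    funext i
    exact hv i
  have hT2 : ∀ y, ((ofO (R C.h v hQv) * sigT σ₀ (plus_smap σ₀) : GS _) : Equiv.Perm (Fin m ⊕ Fin m → F))
      (((ofO (R C.h v hQv) * sigT σ₀ (plus_smap σ₀) : GS _) : Equiv.Perm (Fin m ⊕ Fin m → F)) y) = y := by
    intro y
    change act (R C.h v hQv) ((sigT (Q := Cfsg.quadFormPlus m F) σ₀ (plus_smap σ₀) : Equiv.Perm (Fin m ⊕ Fin m → F)) (act (R C.h v hQv) ((sigT (Q := Cfsg.quadFormPlus m F) σ₀ (plus_smap σ₀) : Equiv.Perm (Fin m ⊕ Fin m → F)) y))) = y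
    rw [← R_comm C.h (sigT_semi σ₀ (plus_smap σ₀)) hfix hQv, hR2, sigT_apply, sigT_apply, hS2]
  refine ⟨T₀⁻¹ * (ofO (R C.h v hQv) * sigT σ₀ (plus_smap σ₀)) * T₀, τ⁻¹ * σ₀ * τ, _, H₁', hord, ?_, ?_, hTh'⟩
  · intro y
    have e7 : ∀ z, ((T₀⁻¹ * (ofO (R C.h v hQv) * sigT σ₀ (plus_smap σ₀)) * T₀ : GS _) : Equiv.Perm (Fin m ⊕ Fin m → F)) z =
        (T₀⁻¹ : GS _).1 (((ofO (R C.h v hQv) * sigT σ₀ (plus_smap σ₀) : GS _) : Equiv.Perm (Fin m ⊕ Fin m → F)) (T₀.1 z)) := fun z => rfl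
    rw [e7, e7]
    have e8 : ∀ z, T₀.1 ((T₀⁻¹ : GS _).1 z) = z := fun z => Equiv.apply_symm_apply _ z
    have e9 : ∀ z, (T₀⁻¹ : GS _).1 (T₀.1 z) = z := fun z => Equiv.symm_apply_apply _ z
    rw [e8, hT2, e9]
  · have hdim := card_sum m
    have hQ := plus_nondeg' (F := F) m
    have hU := U0_mts (F := F) m
    obtain ⟨P, hP⟩ : ∃ P : GS (Cfsg.quadFormPlus m F) → ℕ, ∀ T, P T = parS (Q₀ := plusForm m F) m T (U0 m F) := ⟨_, fun _ => rfl⟩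
    obtain ⟨X, hX⟩ : ∃ X : GS (Cfsg.quadFormPlus m F), X = ofO (R C.h v hQv) * sigT σ₀ (plus_smap σ₀) := ⟨_, rfl⟩
    rw [← hX, ← hP]
    have p1 : (P (T₀⁻¹ * X * T₀) + P (T₀⁻¹ * X) + P T₀) % 2 = 0 := by
      simp only [hP]
      exact parS_mul hdim hQ (T₀⁻¹ * X) T₀ hU
    have p2 : (P (T₀⁻¹ * X) + P T₀⁻¹ + P X) % 2 = 0 := by
      simp only [hP]
      exact parS_mul hdim hQ T₀⁻¹ X hU
    have p3 : P T₀⁻¹ = P T₀ := by
      simp only [hP]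
      exact parS_inv hdim hQ T₀ hU
    have p4 : (P X + P (ofO (R C.h v hQv)) + P (sigT σ₀ (plus_smap σ₀))) % 2 = 0 := by
      simp only [hP, hX]
      exact parS_mul hdim hQ (ofO (R C.h v hQv)) (sigT σ₀ (plus_smap σ₀)) hU
    have p5 : P (ofO (R C.h v hQv)) = 1 := by
      simp only [hP]
      exact par_refl hdim hQ C.h hQv hU
    have p6 : P (sigT σ₀ (plus_smap σ₀)) = 0 := by
      simp only [hP]
      exact par_sigT (m := m) σ₀
    have hlt : ∀ T, P T < 2 := fun T => by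
      rw [hP]
      exact parS_lt hdim hQ T (U0 m F)
    have p7 := hlt (T₀⁻¹ * X * T₀)
    have p8 := hlt (T₀⁻¹ * X)
    have p9 := hlt T₀
    have p10 := hlt X
    omega

/-- the fixed form is elliptic -/
theorem gf_frame (hm : 5 ≤ m) {t₀ : Fin m → (Fin m ⊕ Fin m → F) × (Fin m ⊕ Fin m → F)}
    (C : Cx (Cfsg.quadFormPlus m F) (polarPlus m F) t₀) (T₁ : GS (Cfsg.quadFormPlus m F)) {σ : F ≃+* F} {κ : F}
    (H : IsSemi (Cfsg.quadFormPlus m F) (T₁ : Equiv.Perm (Fin m ⊕ Fin m → F)) σ κ) (hord : orderOf σ = 2)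
    (h2 : ∀ y, (T₁ : Equiv.Perm (Fin m ⊕ Fin m → F)) ((T₁ : Equiv.Perm (Fin m ⊕ Fin m → F)) y) = y)
    (hp : parS (Q₀ := plusForm m F) m T₁ (U0 m F) = 1) : FrameEll H m := by
  have hit : ∀ y, (T₁ : Equiv.Perm (Fin m ⊕ Fin m → F))^[orderOf σ] y = y := by
    intro y
    rw [hord]
    exact h2 y
  rcases frame_dich C H hit (by omega : 1 ≤ m) (card_sum m) with hf | hf
  · exfalso
    have := par_hyp (Q₀ := plusForm m F) (card_sum m) (plus_nondeg' m) (U0_mts m) C.h T₁ H hit hf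
    omega
  · exact hf

end Cfsg.Agent.Lead.LangOm
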