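import Cfsg.Agent.Lib.Lead.LangGF2
/-! Graph-field automorphisms: the model of the plus form and the parity of words. -/
set_option autoImplicit false
set_option linter.style.haveILetI false
set_option linter.unusedSimpArgs false
set_option linter.unusedSectionVars false
set_option linter.unusedVariables false
set_option linter.deprecated false
namespace Cfsg.Agent.Lead.LangOm
open Matrix Module Cfsg.Agent.Lead.Ortho Cfsg.Agent.Lead.Omega Cfsg.Agent.H01.Om Cfsg.Agent.Lead.Lang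
open Cfsg.Agent.H11 (IsMTS Rf Pb triangle minusForm minusForm_coe Rf_isom plusForm U0 U0_mts mem_U0 plus_nondeg' card_sum finrank_ts_le_minus)

section General
variable {F : Type*} [Field F] [Fintype F] {ι ι' : Type} [Fintype ι] [DecidableEq ι] [Fintype ι'] [DecidableEq ι']
variable {Q₀ : QuadraticForm F (ι → F)} {B : (ι → F) → (ι → F) → F} {Q' : (ι' → F) → F} {B' : (ι' → F) → (ι' → F) → F}
variable {n : ℕ} {U : Submodule F (ι → F)}

/-- the transported reflection -/
lemma transS2_R (h : QF (⇑Q₀) B) (h' : QF Q' B') (L : (ι' → F) ≃ₗ[F] (ι → F)) (hL : ∀ v, Q₀ (L v) = Q' v) {a : ι' → F} (ha : Q' a ≠ 0)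
    (ha' : Q₀ (L a) ≠ 0) : transS2 L hL (ofO (R h' a ha)) = ofO (R h (L a) ha') := by
  apply Subtype.ext
  apply Equiv.ext
  intro x
  change L (act (R h' a ha) (L.symm x)) = act (R h (L a) ha') x
  rw [act_R, act_R, map_sub, map_smul, LinearEquiv.apply_symm_apply]
  congr 2
  rw [hL, ← polar_transport h h' L hL, LinearEquiv.apply_symm_apply]

/-- **The parity of a transported word.** -/
theorem par_word (hdim : Fintype.card ι = 2 * n) (hQ : (QuadraticMap.polarBilin Q₀).Nondegenerate) (hU : IsMTS Q₀ n U)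
    (h : QF (⇑Q₀) B) (h' : QF Q' B') (Qq' : QuadraticForm F (ι' → F)) (hQq' : ⇑Qq' = Q') (L : (ι' → F) ≃ₗ[F] (ι → F))
    (hL : ∀ v, Q₀ (L v) = Q' v) (l : List (ι' → F)) (hl : ∀ v ∈ l, Q' v ≠ 0) (s : OG F Q')
    (hs : ((s : GL ι' F) : Matrix ι' ι' F) = prodR Q' l) :
    parS n (transS2 L hL (ofO s)) U = l.length % 2 := by
  induction l generalizing s with
  | nil =>
    have e : s = 1 := by
      apply Subtype.ext
      apply Units.ext
      rw [hs]
      rfl
    have e1 : transS2 L hL (ofO s) = 1 := by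
      apply Subtype.ext
      apply Equiv.ext
      intro x
      change L (act s (L.symm x)) = x
      rw [e, act_one, LinearEquiv.apply_symm_apply]
    rw [e1, parS_one hdim hQ hU]
    rfl
  | cons a l ih =>
    have ha : Q' a ≠ 0 := hl a List.mem_cons_self
    have hl' : ∀ v ∈ l, Q' v ≠ 0 := fun v hv => hl v (List.mem_cons_of_mem _ hv)
    obtain ⟨s₂, hs₂⟩ := exists_og_of_list Qq' hQq' h' l hl'
    have e : s = R h' a ha * s₂ := by
      apply Subtype.ext
      apply Units.ext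
      rw [hs, prodR_cons, ← hs₂, ← R_val Qq' hQq' h' ha]
      rfl
    have ha' : Q₀ (L a) ≠ 0 := by
      rw [hL]
      exact ha
    have e1 : transS2 L hL (ofO s) = ofO (R h (L a) ha') * transS2 L hL (ofO s₂) := by
      rw [e, map_mul, transS2_mul, transS2_R h h' L hL ha ha']
    have p1 := parS_mul hdim hQ (ofO (R h (L a) ha')) (transS2 L hL (ofO s₂)) hU
    have p2 := par_refl hdim hQ h ha' hU
    have p3 := ih hl' s₂ hs₂
    rw [e1, List.length_cons]
    have p4 := parS_lt hdim hQ (ofO (R h (L a) ha') * transS2 L hL (ofO s₂)) U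
    omega

end General

section Model
variable {F : Type*} [Field F] [Fintype F] {F₀ : Type*} [Field F₀] [Fintype F₀] {n : ℕ}

/-- the elliptic form has no large singular subspaces -/
lemma aniso_of_zeta {K : Type*} [Field K] {ζ : K} (hζ : ∀ t : K, t ^ 2 + t + ζ ≠ 0) :
    ∀ z₁ z₂ : K, z₁ ^ 2 + 1 * z₁ * z₂ + ζ * z₂ ^ 2 = 0 → z₁ = 0 ∧ z₂ = 0 := by
  intro z₁ z₂ h
  by_cases h2 : z₂ = 0
  · subst h2
    refine ⟨?_, rfl⟩
    simpa using h
  · exfalso
    apply hζ (z₁ / z₂)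
    field_simp
    linear_combination h

/-- the isometry between the split minus form and the plus form -/
theorem exists_L (ε : F₀ →+* F) {a₀ b₀ : F₀} (hcard : Fintype.card F = (Fintype.card F₀) ^ 2)
    (hab₀ : ∀ z₁ z₂ : F₀, z₁ ^ 2 + a₀ * z₁ * z₂ + b₀ * z₂ ^ 2 = 0 → z₁ = 0 ∧ z₂ = 0) (n : ℕ) :
    ∃ L : ((Fin n ⊕ Fin n) ⊕ Fin 2 → F) ≃ₗ[F] (Fin (n + 1) ⊕ Fin (n + 1) → F),
      ∀ v, Cfsg.quadFormPlus (n + 1) F (L v) = Cfsg.quadFormMinus n F (ε a₀) (ε b₀) v := by
  classical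
  letI : Algebra F₀ F := ε.toAlgebra
  have hfin : finrank F₀ F = 2 := by
    have e := Module.card_eq_pow_finrank (K := F₀) (V := F)
    rw [hcard] at e
    exact (Nat.pow_right_injective (Fintype.one_lt_card (α := F₀)) e).symm
  obtain ⟨r, hr⟩ := exists_root_any (K := F) hab₀ hfin
  have hr' : r ^ 2 + ε a₀ * r + ε b₀ = 0 := hr
  have hΔ : 4 * ε b₀ - ε a₀ ^ 2 ≠ 0 := by
    have := (map_ne_zero ε).2 (disc_ne hab₀)
    rwa [map_sub, map_pow, map_mul, map_ofNat] at this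
  have hV : finrank F ((Fin n ⊕ Fin n) ⊕ Fin 2 → F) = 2 * (n + 1) := by
    rw [Module.finrank_fintype_fun_eq_card]
    simp only [Fintype.card_sum, Fintype.card_fin]
    ring
  rcases Cfsg.Agent.H11.exists_isometry_standard (by omega : 1 ≤ n + 1) hV (minusForm n F (ε a₀) (ε b₀))
    (minus_nondeg3 n _ _ hΔ) with ⟨g, hg⟩ | ⟨g, ζ, hζ, hg⟩
  · refine ⟨g, fun v => ?_⟩
    rw [← hg, minusForm_coe]
  · exfalso
    have hW := mts_WW (n := n) (ε a₀) (ε b₀) r hr'
    have h1 := finrank_ts_le_minus (k := n) 1 ζ (aniso_of_zeta hζ) ((WW n r).map g.toLinearMap) (by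
      rintro _ ⟨z, hz, rfl⟩
      have e := hg z
      rw [hW.sing z hz] at e
      exact e.symm)
    rw [LinearEquiv.finrank_map_eq, hW.card] at h1
    omega

/-- the context of the split minus form -/
theorem exists_cx_model (ε : F₀ →+* F) {a₀ b₀ : F₀} (hn : 2 ≤ n)
    (L : ((Fin n ⊕ Fin n) ⊕ Fin 2 → F) ≃ₗ[F] (Fin (n + 1) ⊕ Fin (n + 1) → F))
    (hL : ∀ v, Cfsg.quadFormPlus (n + 1) F (L v) = Cfsg.quadFormMinus n F (ε a₀) (ε b₀) v) :
    ∃ (t₀' : Fin (n + 1) → _) (C : Cx (Cfsg.quadFormMinus n F (ε a₀) (ε b₀)) (polarMinus n F (ε a₀) (ε b₀)) t₀'),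
      RS C.h (⊤ : Submodule F ((Fin n ⊕ Fin n) ⊕ Fin 2 → F)) = ⊤ := by
  obtain ⟨m', rfl⟩ : ∃ m', n = m' + 1 := ⟨n - 1, by omega⟩
  exact cx_transport (qfPlus (F := F) (m' + 1 + 1)) (ndPlus _) (framePlus_HF _) (by omega) (framePlus_anis _) (qfMinus _ _ _)
    (by simp only [Fintype.card_sum, Fintype.card_fin]; omega) L hL

end Model

end Cfsg.Agent.Lead.LangOm
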