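import Cfsg.Agent.Lib.Lead.LangGF3
/-! Graph-field automorphisms: the spinor norm of the diagonal similarity over the quadratic extension. -/
set_option autoImplicit false
set_option linter.style.haveILetI false
set_option linter.unusedSimpArgs false
set_option linter.unusedSectionVars false
set_option linter.unusedVariables false
set_option linter.deprecated false
namespace Cfsg.Agent.Lead.LangOm
open Matrix Module Cfsg.Agent.Lead.Ortho Cfsg.Agent.Lead.Omega Cfsg.Agent.H01.Om Cfsg.Agent.Lead.Lang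
open Cfsg.Agent.H11 (IsMTS Rf Pb triangle minusForm minusForm_coe Rf_isom plusForm U0 U0_mts mem_U0 plus_nondeg' card_sum finrank_ts_le_minus)

section Words
variable {F : Type*} [Field F] [Fintype F] {n : ℕ}

/-- the scaling of a set of hyperbolic planes as a word -/
theorem word_gS (a b : F) {c : F} (hc : c ≠ 0) (S : Finset (Fin n)) :
    ∃ (l : List ((Fin n ⊕ Fin n) ⊕ Fin 2 → F)) (s : OG F (Cfsg.quadFormMinus n F a b)),
      (∀ v ∈ l, Cfsg.quadFormMinus n F a b v ≠ 0) ∧ l.length = 2 * S.card ∧ (l.map (Cfsg.quadFormMinus n F a b)).prod = c ^ S.card ∧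
      ((s : GL ((Fin n ⊕ Fin n) ⊕ Fin 2) F) : Matrix ((Fin n ⊕ Fin n) ⊕ Fin 2) ((Fin n ⊕ Fin n) ⊕ Fin 2) F) = prodR (Cfsg.quadFormMinus n F a b) l ∧ ∀ v, act s v = gS S c v := by
  classical
  induction S using Finset.induction_on with
  | empty =>
    refine ⟨[], 1, by simp, by simp, by simp, rfl, fun v => ?_⟩
    rw [act_one]
    funext k
    rcases k with ⟨i | i⟩ | j <;> simp [gS, resP]
  | insert i S hi ih =>
    obtain ⟨l, s, hl, hlen, hprod, hsl, hs⟩ := ih
    have hR1 := ne_aV (F := F) (a := a) (b := b) (one_ne_zero (α := F)) i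
    have hRc := ne_aV (F := F) (a := a) (b := b) hc i
    refine ⟨aV i 1 :: aV i c :: l, R (qfMinus _ a b) (aV i 1) hR1 * R (qfMinus _ a b) (aV i c) hRc * s, ?_, ?_, ?_, ?_, ?_⟩
    · intro v hv
      rcases List.mem_cons.1 hv with rfl | hv
      · exact hR1
      rcases List.mem_cons.1 hv with rfl | hv
      · exact hRc
      · exact hl v hv
    · rw [Finset.card_insert_of_notMem hi, List.length_cons, List.length_cons, hlen]
      ring
    · rw [Finset.card_insert_of_notMem hi, List.map_cons, List.map_cons, List.prod_cons, List.prod_cons, hprod, Q_aV, Q_aV]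
      ring
    · rw [prodR_cons, prodR_cons, ← hsl, ← R_val (minusForm n F a b) (minus_Qq a b) (qfMinus _ a b) hR1,
        ← R_val (minusForm n F a b) (minus_Qq a b) (qfMinus _ a b) hRc, ← mul_assoc]
      rfl
    · intro v
      rw [act_mul, act_mul, hs]
      funext k
      rcases k with ⟨j | j⟩ | j
      · rw [act_R_aV_x one_ne_zero, act_R_aV_y hc]
        by_cases hj : j = i
        · subst hj
          simp [gS, hi]
        · simp [gS, hj]
          rw [act_R_aV_x hc]
          simp [hj, gS]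
      · rw [act_R_aV_y one_ne_zero, act_R_aV_x hc]
        by_cases hj : j = i
        · subst hj
          simp [gS, hi]
          field_simp
        · simp [gS, hj]
          rw [act_R_aV_y hc]
          simp [hj, gS]
      · rw [act_R_aV_z one_ne_zero, act_R_aV_z hc]
        simp [gS, resP]

lemma Q_vecV' (a b : F) (y : Fin 2 → F) : Cfsg.quadFormMinus n F a b (vecV n y) = Nm a b y := by
  simp [Cfsg.quadFormMinus, vecV, Nm]

lemma act_R_vecV' {a b : F} {y : Fin 2 → F} (hy : Cfsg.quadFormMinus n F a b (vecV n y) ≠ 0) (v : (Fin n ⊕ Fin n) ⊕ Fin 2 → F) :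
    act (R (qfMinus n a b) (vecV n y) hy) v = glueFun id id (rP a b y) v := by
  have e : polarMinus n F a b v (vecV n y) = Pol a b (resP v) y := by
    simp [polarMinus, vecV, Pol, resP]
  rw [act_R, e, Q_vecV']
  funext k
  rcases k with ⟨i | i⟩ | j
  · simp [vecV]
  · simp [vecV]
  · simp [vecV, rP, resP]

/-- multiplication by a norm-one element as a product of two reflections of the plane -/
lemma rP_rot {a b : F} {u0 u1 : F} (hN : u0 ^ 2 + a * u0 * u1 + b * u1 ^ 2 = 1) (hn : 2 + 2 * u0 + a * u1 ≠ 0) (z : Fin 2 → F) :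
    rP a b ![1 + u0, u1] (rP a b ![1, 0] z) = Lw a b ![u0, u1] z := by
  have e0 : Nm a b (![1, 0] : Fin 2 → F) = 1 := by simp [Nm]
  have e1 : Nm a b (![1 + u0, u1] : Fin 2 → F) = 2 + 2 * u0 + a * u1 := by
    simp only [Nm, Matrix.cons_val_zero, Matrix.cons_val_one]
    linear_combination hN
  generalize hD : 2 + 2 * u0 + a * u1 = D at hn e1
  funext j
  fin_cases j
  · simp only [rP, e0, e1, Pol, Lw, Pi.sub_apply, Pi.smul_apply, smul_eq_mul, Matrix.cons_val_zero, Matrix.cons_val_one, Fin.zero_eta, Fin.mk_one, div_one, Fin.isValue]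
    field_simp
    subst hD
    linear_combination (a * z 1) * hN
  · simp only [rP, e0, e1, Pol, Lw, Pi.sub_apply, Pi.smul_apply, smul_eq_mul, Matrix.cons_val_zero, Matrix.cons_val_one, Fin.zero_eta, Fin.mk_one, div_one, Fin.isValue]
    field_simp
    subst hD
    linear_combination (-2 * z 1) * hN

/-- **The lift of the diagonal similarity as a multiple of a word.** -/
theorem word_xi {a b c w0 w1 ν : F} (hc : c ≠ 0) (hν : c ^ 2 = ν) (hw : w0 ^ 2 + a * w0 * w1 + b * w1 ^ 2 = ν)
    (hn : 2 + 2 * (w0 / c) + a * (w1 / c) ≠ 0) :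
    ∃ (l : List ((Fin n ⊕ Fin n) ⊕ Fin 2 → F)) (s : OG F (Cfsg.quadFormMinus n F a b)),
      (∀ v ∈ l, Cfsg.quadFormMinus n F a b v ≠ 0) ∧ Even l.length ∧
      (l.map (Cfsg.quadFormMinus n F a b)).prod = c ^ n * (2 + 2 * (w0 / c) + a * (w1 / c)) ∧
      ((s : GL ((Fin n ⊕ Fin n) ⊕ Fin 2) F) : Matrix ((Fin n ⊕ Fin n) ⊕ Fin 2) ((Fin n ⊕ Fin n) ⊕ Fin 2) F) = prodR (Cfsg.quadFormMinus n F a b) l ∧
      ∀ x, dMat n ν w0 w1 a b *ᵥ x = c • act s x := by
  classical
  obtain ⟨l, D, hl, hlen, hprod, hDl, hD⟩ := word_gS (n := n) a b hc Finset.univ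
  have hcard : (Finset.univ : Finset (Fin n)).card = n := by simp
  rw [hcard] at hlen hprod
  have hN : (w0 / c) ^ 2 + a * (w0 / c) * (w1 / c) + b * (w1 / c) ^ 2 = 1 := by
    field_simp
    linear_combination hw - hν
  have e1 : Nm a b (![1 + w0 / c, w1 / c] : Fin 2 → F) = 2 + 2 * (w0 / c) + a * (w1 / c) := by
    simp only [Nm, Matrix.cons_val_zero, Matrix.cons_val_one]
    linear_combination hN
  have e0 : Nm a b (![1, 0] : Fin 2 → F) = 1 := by simp [Nm]
  have hA₁ : Cfsg.quadFormMinus n F a b (vecV n ![1 + w0 / c, w1 / c]) ≠ 0 := by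
    rw [Q_vecV', e1]
    exact hn
  have hA₂ : Cfsg.quadFormMinus n F a b (vecV n ![1, 0]) ≠ 0 := by
    rw [Q_vecV', e0]
    exact one_ne_zero
  refine ⟨l ++ [vecV n ![1 + w0 / c, w1 / c], vecV n ![1, 0]], D * (R (qfMinus n a b) _ hA₁ * R (qfMinus n a b) _ hA₂), ?_, ?_, ?_, ?_, ?_⟩
  · intro v hv
    rcases List.mem_append.1 hv with hv | hv
    · exact hl v hv
    · simp only [List.mem_cons, List.not_mem_nil, or_false] at hv
      rcases hv with rfl | rfl
      · exact hA₁
      · exact hA₂
  · rw [List.length_append, hlen]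
    exact ⟨n + 1, by simp; ring⟩
  · rw [List.map_append, List.prod_append, hprod]
    simp only [List.map_cons, List.map_nil, List.prod_cons, List.prod_nil, Q_vecV', e1, e0, mul_one]
  · rw [prodR_append, ← hDl, prodR_cons, prodR_cons, prodR_nil, mul_one,
      ← R_val (minusForm n F a b) (minus_Qq a b) (qfMinus _ a b) hA₁,
      ← R_val (minusForm n F a b) (minus_Qq a b) (qfMinus _ a b) hA₂]
    rfl
  · intro x
    rw [act_mul, hD, act_mul, act_R_vecV', act_R_vecV', dMat_mulVec]
    funext k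
    rcases k with ⟨i | i⟩ | j
    · simp [gS, glueFun]
      rw [← hν]
      ring
    · simp [gS, glueFun, hc]
    · have e2 := congrFun (rP_rot (a := a) (b := b) hN hn (resP x)) j
      change _ = c * rP a b ![1 + w0 / c, w1 / c] (rP a b ![1, 0] (resP x)) j
      rw [e2]
      fin_cases j
      · simp [Lw, resP]
        field_simp
      · simp [Lw, resP]
        field_simp

end Words

end Cfsg.Agent.Lead.LangOm
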