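import Cfsg.Agent.Lib.Lead.LangGF4
/-! Graph-field automorphisms: the arithmetic of the spinor norm. -/
set_option autoImplicit false
set_option linter.style.haveILetI false
set_option linter.unusedSimpArgs false
set_option linter.unusedSectionVars false
set_option linter.unusedVariables false
set_option linter.deprecated false
namespace Cfsg.Agent.Lead.LangOm
open Matrix Module Cfsg.Agent.Lead.Ortho Cfsg.Agent.Lead.Omega Cfsg.Agent.H01.Om Cfsg.Agent.Lead.Lang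
open Cfsg.Agent.H11 (IsMTS Rf Pb triangle minusForm minusForm_coe Rf_isom plusForm U0 U0_mts mem_U0 plus_nondeg' card_sum finrank_ts_le_minus)

section Arith
variable {F : Type*} [Field F] [Fintype F] {F₀ : Type*} [Field F₀] [Fintype F₀] {ε : F₀ →+* F} {σ : F ≃+* F}

/-- the discriminant is not a square -/
lemma disc_nonsq (h2₀ : (2 : F₀) ≠ 0) {a₀ b₀ : F₀} (hab₀ : ∀ z₁ z₂ : F₀, z₁ ^ 2 + a₀ * z₁ * z₂ + b₀ * z₂ ^ 2 = 0 → z₁ = 0 ∧ z₂ = 0) :
    ¬ IsSquare (a₀ ^ 2 - 4 * b₀) := by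
  rintro ⟨d, hd⟩
  have := hab₀ (d - a₀) 2 (by linear_combination -hd)
  exact h2₀ this.2

lemma isSquare_of_mul' {K : Type*} [Field K] {a b : K} (ha : IsSquare a) (ha0 : a ≠ 0) (hab : IsSquare (a * b)) : IsSquare b := by
  have e : b = a⁻¹ * (a * b) := by field_simp
  rw [e]
  exact ha.inv.mul hab

/-- the element with nonsquare norm -/
lemma t_facts (hσ2 : ∀ a, σ (σ a) = a) (hε : ∀ a, σ a = a ↔ a ∈ Set.range ε) (h2₀ : (2 : F₀) ≠ 0) {a₀ b₀ : F₀}
    (hab₀ : ∀ z₁ z₂ : F₀, z₁ ^ 2 + a₀ * z₁ * z₂ + b₀ * z₂ ^ 2 = 0 → z₁ = 0 ∧ z₂ = 0) {ν₀ w0 w1 : F₀} (hν₀ : ¬ IsSquare ν₀)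
    (hw : w0 ^ 2 + a₀ * w0 * w1 + b₀ * w1 ^ 2 = ν₀) {c : F} (hc : c ^ 2 = ε ν₀) :
    c ≠ 0 ∧ 2 + 2 * (ε w0 / c) + ε a₀ * (ε w1 / c) ≠ 0 ∧ ¬ IsSquare (c * (2 + 2 * (ε w0 / c) + ε a₀ * (ε w1 / c))) := by
  have hν0 : ν₀ ≠ 0 := by
    rintro rfl
    exact hν₀ IsSquare.zero
  have hc0 : c ≠ 0 := by
    rintro rfl
    rw [zero_pow two_ne_zero] at hc
    exact hν0 (ε.injective (by rw [← hc, map_zero]))
  have h2 : (2 : F) ≠ 0 := by
    have := (map_ne_zero ε).2 h2₀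
    rwa [map_ofNat] at this
  have hw1 : w1 ≠ 0 := by
    rintro rfl
    apply hν₀
    refine ⟨w0, ?_⟩
    rw [← hw]
    ring
  have hσε : ∀ a : F₀, σ (ε a) = ε a := fun a => (hε _).2 ⟨a, rfl⟩
  have hσc : σ c = -c := by
    have e1 : (σ c - c) * (σ c + c) = 0 := by
      have e2 : σ c ^ 2 = c ^ 2 := by
        rw [← map_pow, hc, hσε]
      linear_combination e2
    rcases mul_eq_zero.1 e1 with e | e
    · exfalso
      have e2 : σ c = c := sub_eq_zero.1 e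
      obtain ⟨r, rfl⟩ := (hε c).1 e2
      apply hν₀
      refine ⟨r, ε.injective ?_⟩
      rw [← hc, map_mul]
      ring
    · exact eq_neg_of_add_eq_zero_left e
  have hΔ := disc_nonsq h2₀ hab₀
  have hval : c * (2 + 2 * (ε w0 / c) + ε a₀ * (ε w1 / c)) = 2 * c + ε (2 * w0 + a₀ * w1) := by
    simp only [map_add, map_mul, map_ofNat]
    field_simp
    ring
  have hσt : σ (2 * c + ε (2 * w0 + a₀ * w1)) = -2 * c + ε (2 * w0 + a₀ * w1) := by
    rw [map_add, map_mul, map_ofNat, hσc, hσε]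
    ring
  have hprod : (2 * c + ε (2 * w0 + a₀ * w1)) * σ (2 * c + ε (2 * w0 + a₀ * w1)) = ε (w1 ^ 2 * (a₀ ^ 2 - 4 * b₀)) := by
    rw [hσt]
    have e3 : ε (w1 ^ 2 * (a₀ ^ 2 - 4 * b₀)) = ε (2 * w0 + a₀ * w1) ^ 2 - 4 * ε ν₀ := by
      rw [← hw, ← map_pow, ← map_ofNat ε 4, ← map_mul, ← map_sub]
      congr 1
      ring
    rw [e3, ← hc]
    ring
  have hne : ε (w1 ^ 2 * (a₀ ^ 2 - 4 * b₀)) ≠ 0 := by
    refine (map_ne_zero ε).2 (mul_ne_zero (pow_ne_zero _ hw1) ?_)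
    intro e
    apply hΔ
    rw [e]
    exact IsSquare.zero
  refine ⟨hc0, ?_, ?_⟩
  · intro e
    rw [e, mul_zero] at hval
    apply hne
    rw [← hprod, ← hval, zero_mul]
  · rw [hval]
    rintro ⟨s, hs⟩
    have hσs : σ (s * σ s) = s * σ s := by
      rw [map_mul, hσ2]
      ring
    obtain ⟨r, hr⟩ := (hε _).1 hσs
    have e4 : (2 * c + ε (2 * w0 + a₀ * w1)) * σ (2 * c + ε (2 * w0 + a₀ * w1)) = (s * σ s) * (s * σ s) := by
      rw [hs, map_mul]
      ring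
    rw [hprod, ← hr, ← map_mul] at e4
    have e5 := ε.injective e4
    apply hΔ
    refine ⟨r / w1, ?_⟩
    field_simp
    linear_combination e5

lemma sq_mul_iff (h2 : (2 : F) ≠ 0) {c X : F} (hc0 : c ≠ 0) (hcX : ¬ IsSquare (c * X)) (n : ℕ) :
    IsSquare (c ^ n * X) ↔ Even n ∧ ¬ IsSquare c := by
  have hX0 : X ≠ 0 := by
    rintro rfl
    rw [mul_zero] at hcX
    exact hcX IsSquare.zero
  rcases Nat.even_or_odd n with hn | hn
  · have h1 : IsSquare (c ^ n) := hn.isSquare_pow c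
    constructor
    · intro h
      refine ⟨hn, fun hc => hcX ?_⟩
      exact hc.mul (isSquare_of_mul' h1 (pow_ne_zero _ hc0) h)
    · rintro ⟨-, hc⟩
      refine h1.mul ?_
      by_contra hX
      exact hcX (isSquare_mul_of_not h2 hc hX)
  · obtain ⟨k, rfl⟩ := hn
    constructor
    · intro h
      exfalso
      apply hcX
      have e : c ^ (2 * k + 1) * X = c ^ (2 * k) * (c * X) := by ring
      rw [e] at h
      exact isSquare_of_mul' ((even_two_mul k).isSquare_pow c) (pow_ne_zero _ hc0) h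
    · rintro ⟨h, -⟩
      exact absurd h (by simp)

/-- the square class of the root -/
lemma c_sq_iff (h2 : (2 : F) ≠ 0) (hq₀ : Odd (Fintype.card F₀)) (hcard : Fintype.card F = (Fintype.card F₀) ^ 2) {ν₀ : F₀}
    (hν₀ : ¬ IsSquare ν₀) {c : F} (hc0 : c ≠ 0) (hc : c ^ 2 = ε ν₀) : IsSquare c ↔ Fintype.card F₀ % 4 = 3 := by
  classical
  have hch : ringChar F ≠ 2 := by
    intro h
    apply h2
    have := ringChar.Nat.cast_ringChar (R := F)
    rw [h] at this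
    exact_mod_cast this
  have h2₀ : (2 : F₀) ≠ 0 := two_ne_zero_of_odd rfl hq₀
  have hch₀ : ringChar F₀ ≠ 2 := by
    intro h
    apply h2₀
    have := ringChar.Nat.cast_ringChar (R := F₀)
    rw [h] at this
    exact_mod_cast this
  have hν0 : ν₀ ≠ 0 := by
    rintro rfl
    exact hν₀ IsSquare.zero
  obtain ⟨k, hk⟩ := hq₀
  have hk2 : Fintype.card F₀ / 2 = k := by omega
  have e1 : ν₀ ^ k = -1 := by
    rw [← hk2]
    rcases FiniteField.pow_dichotomy hch₀ hν0 with e | e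
    · exfalso
      exact hν₀ ((FiniteField.isSquare_iff hch₀ hν0).2 e)
    · exact e
  have e2 : Fintype.card F / 2 = 2 * (k * (k + 1)) := by
    rw [hcard, hk]
    have : (2 * k + 1) ^ 2 = 2 * (2 * (k * (k + 1))) + 1 := by ring
    omega
  have e3 : c ^ (Fintype.card F / 2) = (-1) ^ (k + 1) := by
    rw [e2, pow_mul, hc, ← map_pow, pow_mul, e1, map_pow, map_neg, map_one]
  rw [FiniteField.isSquare_iff hch hc0, e3]
  have hne : (-1 : F) ≠ 1 := by
    intro e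
    apply h2
    linear_combination -e
  constructor
  · intro e
    have : Even (k + 1) := by
      by_contra hne'
      rw [(Nat.not_even_iff_odd.1 hne').neg_one_pow] at e
      exact hne e
    rw [hk]
    obtain ⟨j, hj⟩ := this
    omega
  · intro e
    have : Even (k + 1) := ⟨(k + 1) / 2, by omega⟩
    exact this.neg_one_pow

end Arith

section Lift
variable {F : Type*} [Field F] [Fintype F] {ι : Type} [Fintype ι] [DecidableEq ι]
variable {Q : (ι → F) → F} {B : (ι → F) → (ι → F) → F}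
variable {F₀ : Type*} [Field F₀] [Fintype F₀] {ε : F₀ →+* F}
variable {Q₁ : (ι → F₀) → F₀} {B₁ : (ι → F₀) → (ι → F₀) → F₀}
variable {m : ℕ} {t₀ : Fin m → (ι → F) × (ι → F)} {m₁ : ℕ} {t₁ : Fin m₁ → (ι → F₀) × (ι → F₀)}

/-- the lift of a multiple of a product of reflections -/
theorem Th_lift_list2 (C₁ : Cx Q₁ B₁ t₁) {C : Cx Q B t₀} (X : SD C) (hc : ∀ x, Q (eV ε x) = ε (Q₁ x))
    (g₁ : ↥(Cfsg.Geo.quadSimilarityGroup Q₁)) {c : F₀} {L : List (ι → F₀)} (hc0 : c ≠ 0) (hL : ∀ v ∈ L, Q₁ v ≠ 0)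
    (hg : ((g₁.1 : GL ι F₀) : Matrix ι ι F₀) = c • prodR Q₁ L) :
    ∃ s : OG F Q, ((s : GL ι F) : Matrix ι ι F) = prodR Q (L.map (eV ε)) ∧
      (∀ v ∈ L.map (eV ε), Q v ≠ 0) ∧ Th C.h C.nd (simG Q (liftS C₁.h C.h hc g₁)) = cc Q s := by
  have hL' : ∀ v ∈ L.map (eV ε), Q v ≠ 0 := by
    intro v hv
    obtain ⟨w, hw, rfl⟩ := List.mem_map.1 hv
    rw [hc]
    exact (map_ne_zero ε).2 (hL w hw)
  obtain ⟨s, hs⟩ := X.og_of_list _ hL'
  refine ⟨s, hs, hL', ?_⟩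
  refine C.Th_of_scalar ((map_ne_zero ε).2 hc0) (fun x => ?_)
  change ((liftM ε g₁.1 : GL ι F) : Matrix ι ι F) *ᵥ x = ε c • (((s : GL ι F) : Matrix ι ι F) *ᵥ x)
  rw [liftM_val, hg, hs, ← map_prodR hc, ← Matrix.smul_mulVec]
  congr 1
  ext i j
  simp

/-- in the square case the lifts are inner -/
theorem lift_sq_inn {C₁ : Cx Q₁ B₁ t₁} {C : Cx Q B t₀} (X₁ : SD C₁) (X : SD C) (hc : ∀ x, Q (eV ε x) = ε (Q₁ x))
    (hall : ∀ a : F₀, IsSquare (ε a)) (hv : ∃ v₀, Q₁ v₀ ≠ 0) {N : ℕ} (hdim : Fintype.card ι = 2 * N)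
    (g₁ : ↥(Cfsg.Geo.quadSimilarityGroup Q₁)) {κ : F₀} (h0 : κ ≠ 0)
    (h1 : ∀ v, Q₁ (((g₁.1 : GL ι F₀) : Matrix ι ι F₀) *ᵥ v) = κ * Q₁ v) (h2 : ((g₁.1 : GL ι F₀) : Matrix ι ι F₀).det = κ ^ N)
    (hsq : IsSquare κ) : Th C.h C.nd (simG Q (liftS C₁.h C.h hc g₁)) ∈ Cfsg.Inn (Cfsg.POmega F Q) := by
  obtain ⟨v₀, hv₀⟩ := hv
  have H := isSemi_simPerm (Q := Q₁) (g := g₁.1) h0 h1
  obtain ⟨μ, s, hμ, hs⟩ := exists_act_of_sq C₁ (T := simG Q₁ g₁) H hsq
  have e3 : ((g₁.1 : GL ι F₀) : Matrix ι ι F₀) = μ • ((s : GL ι F₀) : Matrix ι ι F₀) := by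
    apply Matrix.mulVec_injective
    funext v
    rw [Matrix.smul_mulVec]
    exact hs v
  have e5 : κ = μ ^ 2 := by
    have e4 := h1 v₀
    rw [e3, Matrix.smul_mulVec, C₁.h.smul] at e4
    have e6 : Q₁ (((s : GL ι F₀) : Matrix ι ι F₀) *ᵥ v₀) = Q₁ v₀ := Q_act (Q := Q₁) s v₀
    rw [e6] at e4
    exact (mul_right_cancel₀ hv₀ e4).symm
  have hds : ((s : GL ι F₀) : Matrix ι ι F₀).det = 1 := by
    rw [e3, Matrix.det_smul, hdim, e5, ← pow_mul] at h2
    have e7 : μ ^ (2 * N) ≠ 0 := pow_ne_zero _ hμ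
    exact mul_left_cancel₀ e7 (by rw [h2, mul_one])
  obtain ⟨L, hL, hsL⟩ := X₁.list s
  have hev : Even L.length := by
    have d := X₁.det s L hL hsL
    rw [hds] at d
    by_contra hne
    rw [(Nat.not_even_iff_odd.1 hne).neg_one_pow] at d
    apply X₁.h2
    linear_combination d
  obtain ⟨s', hs', hL', e⟩ := Th_lift_list2 C₁ X hc g₁ hμ hL (by rw [e3, hsL])
  rw [e, C.cc_inn_iff]
  left
  refine (X.mem_iff s' _ hL' hs').2 ⟨by simpa using hev, ?_⟩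
  rw [prod_map_eV hc]
  exact hall _

end Lift

section Neg
variable {F : Type*} [Field F] [Fintype F] {ι ι' : Type} [Fintype ι] [DecidableEq ι] [Fintype ι'] [DecidableEq ι']
variable {Q : (ι → F) → F} {B : (ι → F) → (ι → F) → F} {Q' : (ι' → F) → F} {B' : (ι' → F) → (ι' → F) → F}

/-- the element `-1` under transport -/
lemma neg_transport (h : QF Q B) (h' : QF Q' B') (L : (ι' → F) ≃ₗ[F] (ι → F)) (hL : ∀ v, Q (L v) = Q' v)
    (hneg : negO h ∈ Cfsg.Omega F Q) : negO h' ∈ Cfsg.Omega F Q' := by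
  have e : ogIso2 L hL (negO h') = negO h := by
    apply og_ext
    intro x
    rw [act_ogIso2, act_negO, act_negO, map_neg, LinearEquiv.apply_symm_apply]
  rw [← map_Omega2 L hL, ← e] at hneg
  obtain ⟨s, hs, es⟩ := hneg
  have : s = negO h' := (ogIso2 L hL).injective es
  rwa [← this]

end Neg

section Xi
variable {K : Type*} [Field K] {K' : Type*} [Field K']

lemma map_dMat (ε : K →+* K') (n : ℕ) (ν w0 w1 a b : K) :
    (dMat n ν w0 w1 a b).map ε = dMat n (ε ν) (ε w0) (ε w1) (ε a) (ε b) := by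
  ext i j
  rcases i with (i | i) | i <;> rcases j with (j | j) | j
  · simp [dMat, Matrix.one_apply, apply_ite ε]
  · simp [dMat]
  · simp [dMat]
  · simp [dMat]
  · simp [dMat, Matrix.one_apply, apply_ite ε]
  · simp [dMat]
  · simp [dMat]
  · simp [dMat]
  · fin_cases i <;> fin_cases j <;> simp [dMat]

end Xi

end Cfsg.Agent.Lead.LangOm
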