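import Cfsg.Agent.Lib.Lead.LangGF5
/-! Graph-field automorphisms: the class of the diagonal similarity over the quadratic extension. -/
set_option autoImplicit false
set_option linter.style.haveILetI false
set_option linter.unusedSimpArgs false
set_option linter.unusedSectionVars false
set_option linter.unusedVariables false
set_option linter.deprecated false
namespace Cfsg.Agent.Lead.LangOm
open Matrix Module Cfsg.Agent.Lead.Ortho Cfsg.Agent.Lead.Omega Cfsg.Agent.H01.Om Cfsg.Agent.Lead.Lang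
open Cfsg.Agent.H11 (IsMTS Rf Pb triangle minusForm minusForm_coe Rf_isom plusForm U0 U0_mts mem_U0 plus_nondeg' card_sum finrank_ts_le_minus)

section Abstract
variable {A : Type*} [Group A]

/-- the index of the subgroup generated by the inner group and the centralizer -/
lemma index_cover (T I D : Subgroup A) [T.Normal] (hTI : T ≤ I) (hDI : D ≤ I) {Ξ : A} (hΞ : Ξ ∈ D) (hcase : ∀ y ∈ D, y ∈ T ∨ y * Ξ ∈ T)
    (hidx : (T.subgroupOf I).index = 4) :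
    (Ξ ∈ T → ((T ⊔ D).subgroupOf I).index = 4) ∧ (Ξ ∉ T → ((T ⊔ D).subgroupOf I).index = 2) := by
  constructor
  · intro h
    have hDT : D ≤ T := by
      intro y hy
      rcases hcase y hy with e | e
      · exact e
      · have e2 : y = y * Ξ * Ξ⁻¹ := by group
        rw [e2]
        exact T.mul_mem e (T.inv_mem h)
    rw [sup_eq_left.2 hDT]
    exact hidx
  · intro h
    have hJ : T ⊔ D ≤ I := sup_le hTI hDI
    have e1 := Subgroup.relIndex_mul_relIndex T (T ⊔ D) I le_sup_left hJ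
    have e2 : T.relIndex (T ⊔ D) = 2 := by
      unfold Subgroup.relIndex
      rw [Subgroup.index_eq_two_iff]
      refine ⟨⟨Ξ, Subgroup.mem_sup_right hΞ⟩, ?_⟩
      rintro ⟨b, hb⟩
      simp only [Subgroup.mem_subgroupOf]
      change Xor' (b * Ξ ∈ T) (b ∈ T)
      obtain ⟨t, ht, d, hd, rfl⟩ := Subgroup.mem_sup_of_normal_left.1 hb
      by_cases hdT : d ∈ T
      · right
        refine ⟨T.mul_mem ht hdT, fun e => h ?_⟩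
        have e3 : Ξ = (t * d)⁻¹ * (t * d * Ξ) := by group
        rw [e3]
        exact T.mul_mem (T.inv_mem (T.mul_mem ht hdT)) e
      · left
        have hdΞ : d * Ξ ∈ T := (hcase d hd).resolve_left hdT
        refine ⟨?_, fun e => hdT ?_⟩
        · have e3 : t * d * Ξ = t * (d * Ξ) := by group
          rw [e3]
          exact T.mul_mem ht hdΞ
        · have e3 : d = t⁻¹ * (t * d) := by group
          rw [e3]
          exact T.mul_mem (T.inv_mem ht) e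
    have e3 : T.relIndex I = 4 := hidx
    rw [e2, e3] at e1
    have : (T ⊔ D).relIndex I = 2 := by omega
    exact this

end Abstract

section Model
variable {F : Type*} [Field F] [Fintype F] {F₀ : Type*} [Field F₀] [Fintype F₀] {n : ℕ}
variable {ε : F₀ →+* F} {σ : F ≃+* F} {a₀ b₀ : F₀}
  {t₀ : Fin (n + 1) → ((Fin n ⊕ Fin n) ⊕ Fin 2 → F) × ((Fin n ⊕ Fin n) ⊕ Fin 2 → F)}
  {t₁ : Fin n → ((Fin n ⊕ Fin n) ⊕ Fin 2 → F₀) × ((Fin n ⊕ Fin n) ⊕ Fin 2 → F₀)}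

local notation "MI" => ((Fin n ⊕ Fin n) ⊕ Fin 2)

/-- the diagonal similarity over the small field -/
lemma exists_delta0 (hq₀ : Odd (Fintype.card F₀)) (hab₀ : ∀ z₁ z₂ : F₀, z₁ ^ 2 + a₀ * z₁ * z₂ + b₀ * z₂ ^ 2 = 0 → z₁ = 0 ∧ z₂ = 0)
    (C₁ : Cx (Cfsg.quadFormMinus n F₀ a₀ b₀) (polarMinus n F₀ a₀ b₀) t₁) :
    ∃ (ν₀ w0 w1 : F₀) (δ₀ : ↥(Cfsg.Geo.quadSimilarityGroup (Cfsg.quadFormMinus n F₀ a₀ b₀))), ¬ IsSquare ν₀ ∧
      w0 ^ 2 + a₀ * w0 * w1 + b₀ * w1 ^ 2 = ν₀ ∧ ((δ₀.1 : GL MI F₀) : Matrix MI MI F₀) = dMat n ν₀ w0 w1 a₀ b₀ ∧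
      (∀ v, Cfsg.quadFormMinus n F₀ a₀ b₀ (((δ₀.1 : GL MI F₀) : Matrix MI MI F₀) *ᵥ v) = ν₀ * Cfsg.quadFormMinus n F₀ a₀ b₀ v) ∧
      ((δ₀.1 : GL MI F₀) : Matrix MI MI F₀).det = ν₀ ^ (n + 1) := by
  classical
  obtain ⟨ν₀, hν₀⟩ := exists_nonsq hq₀
  have hν0 : ν₀ ≠ 0 := by
    rintro rfl
    exact hν₀ IsSquare.zero
  haveI : Fact (Irreducible (fP a₀ b₀)) := ⟨fP_irr hab₀⟩
  obtain ⟨w₀, hw₀⟩ := exists_norm hab₀ hν0
  have hiw : iK a₀ b₀ w₀ ≠ 0 := by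
    intro e
    have e1 := of_Nm a₀ b₀ w₀
    rw [e, zero_mul, hw₀] at e1
    exact hν0 ((map_eq_zero _).1 e1)
  obtain ⟨W, hW⟩ : ∃ W : (KK a₀ b₀)ˣ, W = Units.mk0 (iK a₀ b₀ w₀) hiw := ⟨_, rfl⟩
  have hW' : iK a₀ b₀ w₀ = W := by rw [hW]; rfl
  have hnorm : (normK a₀ b₀ W : F₀) = ν₀ := by
    rw [← Nm_of_normK a₀ b₀ W w₀ hW', hw₀]
  have HD : IsSemi (Cfsg.quadFormMinus n F₀ a₀ b₀) ((deltaG a₀ b₀ n W : GS _) : Equiv.Perm _) 1 ν₀ := by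
    rw [← hnorm]
    exact isSemi_delta a₀ b₀ W
  obtain ⟨g₁, H₁', hg₁'⟩ := HD.matrix C₁.h C₁.nd
  have hg₁ : ∀ x, ((deltaG a₀ b₀ n W : GS _) : Equiv.Perm _) x = g₁.val *ᵥ x := fun x => hg₁' x
  have hdet₁ := delta_det hW' hw₀ hnorm hg₁
  have hval := delta_val hW' hnorm hg₁
  have hPsim : (g₁ : GL _ F₀) ∈ Cfsg.Geo.quadSimilarityGroup (Cfsg.quadFormMinus n F₀ a₀ b₀) :=
    ⟨Units.mk0 ν₀ hν0, fun v => H₁'.hQ v⟩
  exact ⟨ν₀, w₀ 0, w₀ 1, ⟨g₁, hPsim⟩, hν₀, hw₀, hval, fun v => H₁'.hQ v, hdet₁⟩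

set_option maxHeartbeats 4000000 in
/-- **The class of the lift of the diagonal similarity.** -/
theorem xi_inn_iff (hσ2 : ∀ a, σ (σ a) = a) (hε : ∀ a, σ a = a ↔ a ∈ Set.range ε) (hq₀ : Odd (Fintype.card F₀))
    (hcard : Fintype.card F = (Fintype.card F₀) ^ 2)
    (hab₀ : ∀ z₁ z₂ : F₀, z₁ ^ 2 + a₀ * z₁ * z₂ + b₀ * z₂ ^ 2 = 0 → z₁ = 0 ∧ z₂ = 0)
    {C : Cx (Cfsg.quadFormMinus n F (ε a₀) (ε b₀)) (polarMinus n F (ε a₀) (ε b₀)) t₀} (X : SD C) (hneg : negO C.h ∈ SS C.h)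
    (C₁ : Cx (Cfsg.quadFormMinus n F₀ a₀ b₀) (polarMinus n F₀ a₀ b₀) t₁)
    (hc : ∀ x, Cfsg.quadFormMinus n F (ε a₀) (ε b₀) (eV ε x) = ε (Cfsg.quadFormMinus n F₀ a₀ b₀ x))
    {ν₀ w0 w1 : F₀} (δ₀ : ↥(Cfsg.Geo.quadSimilarityGroup (Cfsg.quadFormMinus n F₀ a₀ b₀))) (hν₀ : ¬ IsSquare ν₀)
    (hw : w0 ^ 2 + a₀ * w0 * w1 + b₀ * w1 ^ 2 = ν₀) (hδ : ((δ₀.1 : GL MI F₀) : Matrix MI MI F₀) = dMat n ν₀ w0 w1 a₀ b₀) :
    Th C.h C.nd (simG _ (liftS C₁.h C.h hc δ₀)) ∈ Cfsg.Inn (Cfsg.POmega F (Cfsg.quadFormMinus n F (ε a₀) (ε b₀))) ↔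
      Even n ∧ Fintype.card F₀ % 4 = 1 := by
  classical
  have h2₀ : (2 : F₀) ≠ 0 := two_ne_zero_of_odd rfl hq₀
  have h2 : (2 : F) ≠ 0 := X.h2
  obtain ⟨c, hc'⟩ := ext_sq_two ε hq₀ hcard ν₀
  have hc2 : c ^ 2 = ε ν₀ := by rw [hc', sq]
  obtain ⟨hc0, hn, hns⟩ := t_facts hσ2 hε h2₀ hab₀ hν₀ hw hc2
  have hw' : ε w0 ^ 2 + ε a₀ * ε w0 * ε w1 + ε b₀ * ε w1 ^ 2 = ε ν₀ := by
    rw [← hw]
    simp only [map_add, map_mul, map_pow]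
  obtain ⟨l, s, hl, hev, hprod, hsl, hact⟩ := word_xi (n := n) (a := ε a₀) (b := ε b₀) hc0 hc2 hw' hn
  have eT : Th C.h C.nd (simG _ (liftS C₁.h C.h hc δ₀)) = cc _ s := by
    refine C.Th_of_scalar hc0 (fun x => ?_)
    change ((liftM ε δ₀.1 : GL MI F) : Matrix MI MI F) *ᵥ x = c • act s x
    rw [liftM_val, hδ, map_dMat, hact]
  have hnS : ∀ t, negO C.h * t ∈ SS C.h ↔ t ∈ SS C.h := by
    intro t
    exact ⟨fun e => by simpa using Subgroup.mul_mem _ (Subgroup.inv_mem _ hneg) e, Subgroup.mul_mem _ hneg⟩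
  rw [eT, C.cc_inn_iff, hnS, or_self, X.mem_iff s l hl hsl, hprod]
  rw [sq_mul_iff h2 hc0 hns n, c_sq_iff h2 hq₀ hcard hν₀ hc0 hc2]
  have h4 : Fintype.card F₀ % 4 = 1 ∨ Fintype.card F₀ % 4 = 3 := by
    obtain ⟨k, hk⟩ := hq₀
    omega
  constructor
  · rintro ⟨-, he, hne⟩
    refine ⟨he, ?_⟩
    rcases h4 with e | e
    · exact e
    · exact absurd e hne
  · rintro ⟨he, e⟩
    refine ⟨hev, he, ?_⟩
    omega

/-- the centralizer modulo the inner automorphisms -/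
theorem cen_cases (hq₀ : Odd (Fintype.card F₀)) (hcard : Fintype.card F = (Fintype.card F₀) ^ 2)
    {C : Cx (Cfsg.quadFormMinus n F (ε a₀) (ε b₀)) (polarMinus n F (ε a₀) (ε b₀)) t₀} (X : SD C)
    {C₁ : Cx (Cfsg.quadFormMinus n F₀ a₀ b₀) (polarMinus n F₀ a₀ b₀) t₁} (X₁ : SD C₁)
    (hc : ∀ x, Cfsg.quadFormMinus n F (ε a₀) (ε b₀) (eV ε x) = ε (Cfsg.quadFormMinus n F₀ a₀ b₀ x))
    {ν₀ : F₀} (δ₀ : ↥(Cfsg.Geo.quadSimilarityGroup (Cfsg.quadFormMinus n F₀ a₀ b₀))) (hν₀ : ¬ IsSquare ν₀)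
    (hδ1 : ∀ v, Cfsg.quadFormMinus n F₀ a₀ b₀ (((δ₀.1 : GL MI F₀) : Matrix MI MI F₀) *ᵥ v) = ν₀ * Cfsg.quadFormMinus n F₀ a₀ b₀ v)
    (hδ2 : ((δ₀.1 : GL MI F₀) : Matrix MI MI F₀).det = ν₀ ^ (n + 1))
    (g₁ : ↥(Cfsg.Geo.quadSimilarityGroup (Cfsg.quadFormMinus n F₀ a₀ b₀))) (hg₁ : g₁ ∈ HMo (Cfsg.quadFormMinus n F₀ a₀ b₀) (n + 1)) :
    Th C.h C.nd (simG _ (liftS C₁.h C.h hc g₁)) ∈ Cfsg.Inn (Cfsg.POmega F (Cfsg.quadFormMinus n F (ε a₀) (ε b₀))) ∨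
      Th C.h C.nd (simG _ (liftS C₁.h C.h hc g₁)) * Th C.h C.nd (simG _ (liftS C₁.h C.h hc δ₀)) ∈
        Cfsg.Inn (Cfsg.POmega F (Cfsg.quadFormMinus n F (ε a₀) (ε b₀))) := by
  classical
  have h2₀ : (2 : F₀) ≠ 0 := X₁.h2
  have hall := ext_sq_two ε hq₀ hcard
  have hν0 : ν₀ ≠ 0 := by
    rintro rfl
    exact hν₀ IsSquare.zero
  obtain ⟨κ, h0, h1, h2⟩ := hg₁
  obtain ⟨v₁, hv₁⟩ := exists_Q_ne C₁
  by_cases hsq : IsSquare κ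
  · left
    exact lift_sq_inn X₁ X hc hall ⟨v₁, hv₁⟩ minus_hdim g₁ h0 h1 h2 hsq
  · right
    have := lift_sq_inn X₁ X hc hall ⟨v₁, hv₁⟩ minus_hdim (g₁ * δ₀) (κ := κ * ν₀) (mul_ne_zero h0 hν0)
      (fun v => by
        change Cfsg.quadFormMinus n F₀ a₀ b₀ ((((g₁.1 : GL MI F₀) : Matrix MI MI F₀) * ((δ₀.1 : GL MI F₀) : Matrix MI MI F₀)) *ᵥ v) = _
        rw [← Matrix.mulVec_mulVec, h1, hδ1, mul_assoc])
      (by
        change (((g₁.1 : GL MI F₀) : Matrix MI MI F₀) * ((δ₀.1 : GL MI F₀) : Matrix MI MI F₀)).det = _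
        rw [Matrix.det_mul, h2, hδ2, mul_pow])
      (isSquare_mul_of_not h2₀ hsq hν₀)
    rwa [map_mul, map_mul, map_mul] at this

end Model

end Cfsg.Agent.Lead.LangOm
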