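import Cfsg.Agent.Lib.Lead.LangGF6
/-! Graph-field automorphisms: the inner-diagonal group in the split minus coordinates and the centralizer. -/
set_option autoImplicit false
set_option linter.style.haveILetI false
set_option linter.unusedSimpArgs false
set_option linter.unusedSectionVars false
set_option linter.unusedVariables false
set_option linter.deprecated false
namespace Cfsg.Agent.Lead.LangOm
open Matrix Module Cfsg.Agent.Lead.Ortho Cfsg.Agent.Lead.Omega Cfsg.Agent.H01.Om Cfsg.Agent.Lead.Lang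
open Cfsg.Agent.H11 (IsMTS Rf Pb triangle minusForm minusForm_coe Rf_isom plusForm U0 U0_mts mem_U0 plus_nondeg' card_sum finrank_ts_le_minus)

section General
variable {F : Type*} [Field F] [Fintype F] {ι : Type} [Fintype ι] [DecidableEq ι]
variable {Q : (ι → F) → F} {B : (ι → F) → (ι → F) → F}
variable {F₀ : Type*} [Field F₀] [Fintype F₀] {ε : F₀ →+* F}
variable {Q₁ : (ι → F₀) → F₀} {B₁ : (ι → F₀) → (ι → F₀) → F₀}
variable {m : ℕ} {t₀ : Fin m → (ι → F) × (ι → F)} {m₁ : ℕ} {t₁ : Fin m₁ → (ι → F₀) × (ι → F₀)}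

/-- the lift of a multiple of a product of reflections -/
theorem Th_lift_list3 (C₁ : Cx Q₁ B₁ t₁) (C : Cx Q B t₀) (Qq : QuadraticForm F (ι → F)) (hQq : ⇑Qq = Q) (hc : ∀ x, Q (eV ε x) = ε (Q₁ x))
    (g₁ : ↥(Cfsg.Geo.quadSimilarityGroup Q₁)) {c : F₀} {L : List (ι → F₀)} (hc0 : c ≠ 0) (hL : ∀ v ∈ L, Q₁ v ≠ 0)
    (hg : ((g₁.1 : GL ι F₀) : Matrix ι ι F₀) = c • prodR Q₁ L) :
    ∃ s : OG F Q, ((s : GL ι F) : Matrix ι ι F) = prodR Q (L.map (eV ε)) ∧
      (∀ v ∈ L.map (eV ε), Q v ≠ 0) ∧ Th C.h C.nd (simG Q (liftS C₁.h C.h hc g₁)) = cc Q s := by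
  have hL' : ∀ v ∈ L.map (eV ε), Q v ≠ 0 := by
    intro v hv
    obtain ⟨w, hw, rfl⟩ := List.mem_map.1 hv
    rw [hc]
    exact (map_ne_zero ε).2 (hL w hw)
  obtain ⟨s, hs⟩ := exists_og_of_list Qq hQq C.h _ hL'
  refine ⟨s, hs, hL', ?_⟩
  refine C.Th_of_scalar ((map_ne_zero ε).2 hc0) (fun x => ?_)
  change ((liftM ε g₁.1 : GL ι F) : Matrix ι ι F) *ᵥ x = ε c • (((s : GL ι F) : Matrix ι ι F) *ᵥ x)
  rw [liftM_val, hg, hs, ← map_prodR hc, ← Matrix.smul_mulVec]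
  congr 1
  ext i j
  simp

end General

section Plus
variable {F : Type*} [Field F] [Fintype F] {m : ℕ}

/-- membership in the inner-diagonal group -/
lemma mem_inndiag_plus_iff {t₀ : Fin m → (Fin m ⊕ Fin m → F) × (Fin m ⊕ Fin m → F)} (C : Cx (Cfsg.quadFormPlus m F) (polarPlus m F) t₀)
    {T : GS (Cfsg.quadFormPlus m F)} (hT : T ∈ GLS (Cfsg.quadFormPlus m F)) :
    Th C.h C.nd T ∈ Cfsg.inndiagPOmegaPlus m F ↔ parS (Q₀ := plusForm m F) m T (U0 m F) = 0 := by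
  rw [inndiag_plus_eq C]
  constructor
  · rintro ⟨T', ⟨-, hT'⟩, e⟩
    have e1 := par_congr (Q₀ := plusForm m F) C (card_sum m) (plus_nondeg' m) (U0_mts m) (T := T') (T' := T) e
    rw [← e1]
    exact hT'
  · intro h
    exact ⟨T, ⟨hT, h⟩, rfl⟩

/-- the inner-diagonal group is normal in the full automorphism group -/
lemma inndiag_plus_normal (hm : 5 ≤ m) {t₀ : Fin m → (Fin m ⊕ Fin m → F) × (Fin m ⊕ Fin m → F)} (C : Cx (Cfsg.quadFormPlus m F) (polarPlus m F) t₀) :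
    (Cfsg.inndiagPOmegaPlus m F).Normal := by
  constructor
  intro β hβ α
  have hα : α ∈ Cfsg.gammaPOmega F (Cfsg.quadFormPlus m F) := by
    rw [gamma_top_plus hm]
    trivial
  obtain ⟨A, rfl⟩ := gamma_le_range C.h C.nd hα
  rw [inndiag_plus_eq C] at hβ ⊢
  obtain ⟨T, ⟨⟨κ, HT⟩, hT⟩, rfl⟩ := hβ
  refine ⟨A * T * A⁻¹, ⟨?_, ?_⟩, by rw [map_mul, map_mul, map_inv]⟩
  · obtain ⟨A', τ, κ', HA⟩ := A
    have H := (HA.mul HT).mul HA.inv
    have e : τ * 1 * τ⁻¹ = 1 := by group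
    rw [e] at H
    exact ⟨_, H⟩
  · have hdim := card_sum m
    have hQ := plus_nondeg' (F := F) m
    have hU := U0_mts (F := F) m
    obtain ⟨P, hP⟩ : ∃ P : GS (Cfsg.quadFormPlus m F) → ℕ, ∀ T, P T = parS (Q₀ := plusForm m F) m T (U0 m F) := ⟨_, fun _ => rfl⟩
    have p1 : (P (A * T * A⁻¹) + P (A * T) + P A⁻¹) % 2 = 0 := by
      simp only [hP]
      exact parS_mul hdim hQ (A * T) A⁻¹ hU
    have p2 : (P (A * T) + P A + P T) % 2 = 0 := by
      simp only [hP]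
      exact parS_mul hdim hQ A T hU
    have p3 : P A⁻¹ = P A := by
      simp only [hP]
      exact parS_inv hdim hQ A hU
    have p4 : P T = 0 := by
      rw [hP]
      exact hT
    have hlt : ∀ T, P T < 2 := fun T => by
      rw [hP]
      exact parS_lt hdim hQ T (U0 m F)
    have p5 := hlt (A * T * A⁻¹)
    have p6 := hlt (A * T)
    have p7 := hlt A
    have hgoal : P (A * T * A⁻¹) = 0 := by omega
    rw [hP] at hgoal
    exact hgoal

end Plus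

section Model
variable {F : Type*} [Field F] [Fintype F] {n : ℕ} {a b : F}
variable {t₀' : Fin (n + 1) → ((Fin n ⊕ Fin n) ⊕ Fin 2 → F) × ((Fin n ⊕ Fin n) ⊕ Fin 2 → F)}
variable {t₀ : Fin (n + 1) → (Fin (n + 1) ⊕ Fin (n + 1) → F) × (Fin (n + 1) ⊕ Fin (n + 1) → F)}

local notation "MI" => ((Fin n ⊕ Fin n) ⊕ Fin 2)

/-- the inner-diagonal group in the split minus coordinates -/
noncomputable def IPr (L : ((Fin n ⊕ Fin n) ⊕ Fin 2 → F) ≃ₗ[F] (Fin (n + 1) ⊕ Fin (n + 1) → F))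
    (hL : ∀ v, Cfsg.quadFormPlus (n + 1) F (L v) = Cfsg.quadFormMinus n F a b v) : Subgroup (MulAut (Cfsg.POmega F (Cfsg.quadFormMinus n F a b))) :=
  (Cfsg.inndiagPOmegaPlus (n + 1) F).comap (MulAut.congr (poIso2 L hL)).toMonoidHom

lemma mem_IPr (L : ((Fin n ⊕ Fin n) ⊕ Fin 2 → F) ≃ₗ[F] (Fin (n + 1) ⊕ Fin (n + 1) → F))
    (hL : ∀ v, Cfsg.quadFormPlus (n + 1) F (L v) = Cfsg.quadFormMinus n F a b v) (β : MulAut (Cfsg.POmega F (Cfsg.quadFormMinus n F a b))) :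
    β ∈ IPr L hL ↔ MulAut.congr (poIso2 L hL) β ∈ Cfsg.inndiagPOmegaPlus (n + 1) F := Iff.rfl

/-- every element comes from a similarity -/
lemma IPr_le_range (L : ((Fin n ⊕ Fin n) ⊕ Fin 2 → F) ≃ₗ[F] (Fin (n + 1) ⊕ Fin (n + 1) → F))
    (hL : ∀ v, Cfsg.quadFormPlus (n + 1) F (L v) = Cfsg.quadFormMinus n F a b v)
    (C : Cx (Cfsg.quadFormPlus (n + 1) F) (polarPlus (n + 1) F) t₀) (C' : Cx (Cfsg.quadFormMinus n F a b) (polarMinus n F a b) t₀') :
    IPr L hL ≤ ((Th C'.h C'.nd).comp (simG (Cfsg.quadFormMinus n F a b))).range := by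
  intro β hβ
  rw [mem_IPr, inndiag_plus_eq C] at hβ
  obtain ⟨T, ⟨⟨κ, HT⟩, -⟩, e⟩ := hβ
  have hL' : ∀ v, Cfsg.quadFormMinus n F a b (L.symm v) = Cfsg.quadFormPlus (n + 1) F v := by
    intro v
    rw [← hL, LinearEquiv.apply_symm_apply]
  have HT' := transS2_semi L.symm hL' HT
  obtain ⟨g, hg⟩ := GLS_eq_simG C'.h C'.nd (T := transS2 L.symm hL' T) ⟨κ, HT'⟩
  refine ⟨g, ?_⟩
  apply (MulAut.congr (poIso2 L hL)).injective
  rw [MonoidHom.comp_apply, hg, congr_Th C.h C.nd C'.h C'.nd L hL, ← e]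
  congr 1
  apply Subtype.ext
  apply Equiv.ext
  intro x
  change L (L.symm ((T : Equiv.Perm _) (L (L.symm x)))) = (T : Equiv.Perm _) x
  simp

/-- **The criterion for words.** -/
theorem par_sim (L : ((Fin n ⊕ Fin n) ⊕ Fin 2 → F) ≃ₗ[F] (Fin (n + 1) ⊕ Fin (n + 1) → F))
    (hL : ∀ v, Cfsg.quadFormPlus (n + 1) F (L v) = Cfsg.quadFormMinus n F a b v)
    (C : Cx (Cfsg.quadFormPlus (n + 1) F) (polarPlus (n + 1) F) t₀) (C' : Cx (Cfsg.quadFormMinus n F a b) (polarMinus n F a b) t₀')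
    (l : List (MI → F)) (hl : ∀ v ∈ l, Cfsg.quadFormMinus n F a b v ≠ 0) (s : OG F (Cfsg.quadFormMinus n F a b))
    (hs : ((s : GL MI F) : Matrix MI MI F) = prodR (Cfsg.quadFormMinus n F a b) l) :
    cc (Cfsg.quadFormMinus n F a b) s ∈ IPr L hL ↔ Even l.length := by
  have H0 : IsSemi (Cfsg.quadFormMinus n F a b) ((ofO s : GS _) : Equiv.Perm (MI → F)) 1 1 := isSemi_permO s
  have H := transS2_semi L hL H0
  have e := par_word (Q₀ := plusForm (n + 1) F) (card_sum _) (plus_nondeg' _) (U0_mts _) C.h C'.h (minusForm n F a b) (minus_Qq a b) L hL l hl s hs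
  rw [mem_IPr, ← Th_ofO C'.h C'.nd, congr_Th C.h C.nd C'.h C'.nd L hL, mem_inndiag_plus_iff C ⟨1, H⟩, Nat.even_iff]
  exact ⟨fun h => e.symm.trans h, fun h => e.trans h⟩

end Model

end Cfsg.Agent.Lead.LangOm
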