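import Cfsg.Agent.Lib.Lead.LangGF7
/-! Graph-field automorphisms: the lifts of similarities and the centralizer. -/
set_option autoImplicit false
set_option linter.style.haveILetI false
set_option linter.unusedSimpArgs false
set_option linter.unusedSectionVars false
set_option linter.unusedVariables false
set_option linter.deprecated false
namespace Cfsg.Agent.Lead.LangOm
open Matrix Module Cfsg.Agent.Lead.Ortho Cfsg.Agent.Lead.Omega Cfsg.Agent.H01.Om Cfsg.Agent.Lead.Lang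
open Cfsg.Agent.H11 (IsMTS Rf Pb triangle minusForm minusForm_coe Rf_isom plusForm U0 U0_mts mem_U0 plus_nondeg' card_sum finrank_ts_le_minus)

section Cen
variable {F : Type*} [Field F] [Fintype F] {F₀ : Type*} [Field F₀] [Fintype F₀] {n : ℕ}
variable {ε : F₀ →+* F} {σ : F ≃+* F} {a₀ b₀ : F₀}
variable {t₀' : Fin (n + 1) → ((Fin n ⊕ Fin n) ⊕ Fin 2 → F) × ((Fin n ⊕ Fin n) ⊕ Fin 2 → F)}
variable {t₀ : Fin (n + 1) → (Fin (n + 1) ⊕ Fin (n + 1) → F) × (Fin (n + 1) ⊕ Fin (n + 1) → F)}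
variable {t₁ : Fin n → ((Fin n ⊕ Fin n) ⊕ Fin 2 → F₀) × ((Fin n ⊕ Fin n) ⊕ Fin 2 → F₀)}

local notation "MI" => ((Fin n ⊕ Fin n) ⊕ Fin 2)

set_option maxHeartbeats 4000000 in
/-- the criterion for lifts in odd characteristic -/
theorem lift_IPr_odd (L : ((Fin n ⊕ Fin n) ⊕ Fin 2 → F) ≃ₗ[F] (Fin (n + 1) ⊕ Fin (n + 1) → F))
    (hL : ∀ v, Cfsg.quadFormPlus (n + 1) F (L v) = Cfsg.quadFormMinus n F (ε a₀) (ε b₀) v)
    (C : Cx (Cfsg.quadFormPlus (n + 1) F) (polarPlus (n + 1) F) t₀)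
    {C' : Cx (Cfsg.quadFormMinus n F (ε a₀) (ε b₀)) (polarMinus n F (ε a₀) (ε b₀)) t₀'} (X : SD C')
    (C₁ : Cx (Cfsg.quadFormMinus n F₀ a₀ b₀) (polarMinus n F₀ a₀ b₀) t₁) (hq₀ : Odd (Fintype.card F₀))
    (hcard : Fintype.card F = (Fintype.card F₀) ^ 2)
    (hc : ∀ x, Cfsg.quadFormMinus n F (ε a₀) (ε b₀) (eV ε x) = ε (Cfsg.quadFormMinus n F₀ a₀ b₀ x))
    (g₁ : ↥(Cfsg.Geo.quadSimilarityGroup (Cfsg.quadFormMinus n F₀ a₀ b₀))) :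
    Th C'.h C'.nd (simG _ (liftS C₁.h C'.h hc g₁)) ∈ IPr L hL ↔ g₁ ∈ HMo (Cfsg.quadFormMinus n F₀ a₀ b₀) (n + 1) := by
  classical
  obtain ⟨κ₁, hκ₁⟩ := g₁.2
  have hκ₁' : ∀ v, Cfsg.quadFormMinus n F₀ a₀ b₀ (((g₁.1 : GL MI F₀) : Matrix MI MI F₀) *ᵥ v) = (κ₁ : F₀) * Cfsg.quadFormMinus n F₀ a₀ b₀ v := fun v => hκ₁ v
  obtain ⟨v₁, hv₁⟩ := exists_Q_ne C₁
  obtain ⟨v₂, hv₂⟩ := exists_Q_ne C'
  have hm' := lift_mult C₁.h C'.h hc g₁ hκ₁' hv₁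
  have H := isSemi_simPerm (Q := Cfsg.quadFormMinus n F (ε a₀) (ε b₀)) (g := (liftS C₁.h C'.h hc g₁).1) ((map_ne_zero ε).2 κ₁.ne_zero) hm'
  obtain ⟨μ, s, hμ, hs⟩ := exists_act_of_sq C' (T := simG _ (liftS C₁.h C'.h hc g₁)) H (ext_sq_two ε hq₀ hcard _)
  have e3 : (((liftS C₁.h C'.h hc g₁).1 : GL MI F) : Matrix MI MI F) = μ • ((s : GL MI F) : Matrix MI MI F) := by
    apply Matrix.mulVec_injective
    funext v
    rw [Matrix.smul_mulVec]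
    exact hs v
  have e5 : ε (κ₁ : F₀) = μ ^ 2 := by
    have e4 := hm' v₂
    rw [e3, Matrix.smul_mulVec, C'.h.smul] at e4
    have e6 : Cfsg.quadFormMinus n F (ε a₀) (ε b₀) (((s : GL MI F) : Matrix MI MI F) *ᵥ v₂) = Cfsg.quadFormMinus n F (ε a₀) (ε b₀) v₂ :=
      Q_act (Q := Cfsg.quadFormMinus n F (ε a₀) (ε b₀)) s v₂
    rw [e6] at e4
    exact (mul_right_cancel₀ hv₂ e4).symm
  obtain ⟨l, hl, hsl⟩ := X.list s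
  have eT : Th C'.h C'.nd (simG _ (liftS C₁.h C'.h hc g₁)) = cc _ s := by
    refine C'.Th_of_scalar hμ (fun x => ?_)
    exact hs x
  have hdet : (((liftS C₁.h C'.h hc g₁).1 : GL MI F) : Matrix MI MI F).det = μ ^ (2 * (n + 1)) * (-1) ^ l.length := by
    rw [e3, Matrix.det_smul, minus_hdim, X.det s l hl hsl]
  rw [eT, par_sim L hL C C' l hl s hsl, ← lift_mem_HMo_iff C₁.h C'.h hc hv₁ g₁]
  have hne : μ ^ (2 * (n + 1)) ≠ 0 := pow_ne_zero _ hμ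
  constructor
  · intro hev
    refine ⟨ε (κ₁ : F₀), (map_ne_zero ε).2 κ₁.ne_zero, hm', ?_⟩
    rw [hdet, hev.neg_one_pow, mul_one, e5, ← pow_mul]
  · rintro ⟨κ', h0', h1', h2'⟩
    have e7 := hm' v₂
    rw [h1'] at e7
    have e8 : κ' = ε (κ₁ : F₀) := mul_right_cancel₀ hv₂ e7
    rw [hdet, e8, e5, ← pow_mul] at h2'
    have e9 : ((-1 : F)) ^ l.length = 1 := by
      apply mul_left_cancel₀ hne
      rw [h2', mul_one]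
    by_contra hne'
    rw [(Nat.not_even_iff_odd.1 hne').neg_one_pow] at e9
    apply X.h2
    linear_combination -e9

/-- the criterion for lifts in characteristic two -/
theorem lift_IPr_two (L : ((Fin n ⊕ Fin n) ⊕ Fin 2 → F) ≃ₗ[F] (Fin (n + 1) ⊕ Fin (n + 1) → F))
    (hL : ∀ v, Cfsg.quadFormPlus (n + 1) F (L v) = Cfsg.quadFormMinus n F (ε a₀) (ε b₀) v)
    (C : Cx (Cfsg.quadFormPlus (n + 1) F) (polarPlus (n + 1) F) t₀)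
    (C' : Cx (Cfsg.quadFormMinus n F (ε a₀) (ε b₀)) (polarMinus n F (ε a₀) (ε b₀)) t₀')
    (C₁ : Cx (Cfsg.quadFormMinus n F₀ a₀ b₀) (polarMinus n F₀ a₀ b₀) t₁) (hm : 3 ≤ n) (h2₀ : (2 : F₀) = 0)
    (hab₀ : ∀ z₁ z₂ : F₀, z₁ ^ 2 + a₀ * z₁ * z₂ + b₀ * z₂ ^ 2 = 0 → z₁ = 0 ∧ z₂ = 0)
    (hc : ∀ x, Cfsg.quadFormMinus n F (ε a₀) (ε b₀) (eV ε x) = ε (Cfsg.quadFormMinus n F₀ a₀ b₀ x))
    (g₁ : ↥(Cfsg.Geo.quadSimilarityGroup (Cfsg.quadFormMinus n F₀ a₀ b₀))) :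
    Th C'.h C'.nd (simG _ (liftS C₁.h C'.h hc g₁)) ∈ IPr L hL ↔
      Th C₁.h C₁.nd (simG _ g₁) ∈ Cfsg.Inn (Cfsg.POmega F₀ (Cfsg.quadFormMinus n F₀ a₀ b₀)) := by
  classical
  obtain ⟨μ, s, l, hμ, hl, hsl, hgs⟩ := two_word hm h2₀ hab₀ C₁ g₁
  obtain ⟨s', hs', hl', eT⟩ := Th_lift_list3 C₁ C' (minusForm n F (ε a₀) (ε b₀)) (minus_Qq _ _) hc g₁ hμ hl (by rw [hgs, hsl])
  have e2 : Th C₁.h C₁.nd (simG _ g₁) = cc _ s := by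
    refine C₁.Th_of_scalar hμ (fun x => ?_)
    change ((g₁.1 : GL MI F₀) : Matrix MI MI F₀) *ᵥ x = μ • (((s : GL MI F₀) : Matrix MI MI F₀) *ᵥ x)
    rw [hgs, Matrix.smul_mulVec]
  rw [eT, e2, par_sim L hL C C' _ hl' s' hs',
    cc_inn_two h2₀ C₁ (minusForm n F₀ a₀ b₀) (minus_Qq _ _) (minus_nd hab₀) minus_hdim (card_or (n := n + 1) (by omega)) _ hl s hsl, List.length_map]

/-- the subgroup of similarities -/
lemma ISim_map (L : ((Fin n ⊕ Fin n) ⊕ Fin 2 → F) ≃ₗ[F] (Fin (n + 1) ⊕ Fin (n + 1) → F))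
    (hL : ∀ v, Cfsg.quadFormPlus (n + 1) F (L v) = Cfsg.quadFormMinus n F (ε a₀) (ε b₀) v)
    (C : Cx (Cfsg.quadFormPlus (n + 1) F) (polarPlus (n + 1) F) t₀)
    (C' : Cx (Cfsg.quadFormMinus n F (ε a₀) (ε b₀)) (polarMinus n F (ε a₀) (ε b₀)) t₀') :
    ((IPr L hL).comap ((Th C'.h C'.nd).comp (simG (Cfsg.quadFormMinus n F (ε a₀) (ε b₀))))).map ((Th C'.h C'.nd).comp (simG (Cfsg.quadFormMinus n F (ε a₀) (ε b₀)))) = IPr L hL :=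
  Subgroup.map_comap_eq_self (IPr_le_range L hL C C')

lemma ISim_scal (L : ((Fin n ⊕ Fin n) ⊕ Fin 2 → F) ≃ₗ[F] (Fin (n + 1) ⊕ Fin (n + 1) → F))
    (hL : ∀ v, Cfsg.quadFormPlus (n + 1) F (L v) = Cfsg.quadFormMinus n F (ε a₀) (ε b₀) v)
    (C' : Cx (Cfsg.quadFormMinus n F (ε a₀) (ε b₀)) (polarMinus n F (ε a₀) (ε b₀)) t₀')
    (g : ↥(Cfsg.Geo.quadSimilarityGroup (Cfsg.quadFormMinus n F (ε a₀) (ε b₀)))) (hs : IsScal g.1) :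
    g ∈ (IPr L hL).comap ((Th C'.h C'.nd).comp (simG (Cfsg.quadFormMinus n F (ε a₀) (ε b₀)))) := by
  rw [Subgroup.mem_comap, MonoidHom.comp_apply, (Th_simG_eq_one_iff C' g).2 hs]
  exact Subgroup.one_mem _

/-- the centralizer in odd characteristic -/
theorem cen_model_odd (L : ((Fin n ⊕ Fin n) ⊕ Fin 2 → F) ≃ₗ[F] (Fin (n + 1) ⊕ Fin (n + 1) → F))
    (hL : ∀ v, Cfsg.quadFormPlus (n + 1) F (L v) = Cfsg.quadFormMinus n F (ε a₀) (ε b₀) v)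
    (C : Cx (Cfsg.quadFormPlus (n + 1) F) (polarPlus (n + 1) F) t₀)
    {C' : Cx (Cfsg.quadFormMinus n F (ε a₀) (ε b₀)) (polarMinus n F (ε a₀) (ε b₀)) t₀'} (X : SD C')
    (C₁ : Cx (Cfsg.quadFormMinus n F₀ a₀ b₀) (polarMinus n F₀ a₀ b₀) t₁) (hq₀ : Odd (Fintype.card F₀))
    (hcard : Fintype.card F = (Fintype.card F₀) ^ 2) (hm : 3 ≤ n)
    (hab₀ : ∀ z₁ z₂ : F₀, z₁ ^ 2 + a₀ * z₁ * z₂ + b₀ * z₂ ^ 2 = 0 → z₁ = 0 ∧ z₂ = 0)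
    (hQσ : ∀ x, Cfsg.quadFormMinus n F (ε a₀) (ε b₀) (smap σ x) = σ (Cfsg.quadFormMinus n F (ε a₀) (ε b₀) x))
    (hε : ∀ a, σ a = a ↔ a ∈ Set.range ε) :
    Nonempty (↥(IPr L hL ⊓ Subgroup.centralizer {Th C'.h C'.nd (sigT σ hQσ)}) ≃* ↥(Cfsg.inndiagPOmegaMinus n F₀ a₀ b₀)) := by
  have hc := eV_Q_minus (m := n) ε a₀ b₀
  have hE := cen_iso C₁ C' hc hQσ hε (HMo _ (n + 1)) _ (ISim_scal L hL C')
    (fun g₁ => by
      rw [Subgroup.mem_comap, MonoidHom.comp_apply]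
      exact lift_IPr_odd L hL C X C₁ hq₀ hcard hc g₁)
  rw [ISim_map L hL C C', ← inndiag_odd hq₀ hm hab₀ C₁.h C₁.nd] at hE
  exact hE

/-- the centralizer as an image in odd characteristic -/
theorem cen_range_odd (L : ((Fin n ⊕ Fin n) ⊕ Fin 2 → F) ≃ₗ[F] (Fin (n + 1) ⊕ Fin (n + 1) → F))
    (hL : ∀ v, Cfsg.quadFormPlus (n + 1) F (L v) = Cfsg.quadFormMinus n F (ε a₀) (ε b₀) v)
    (C : Cx (Cfsg.quadFormPlus (n + 1) F) (polarPlus (n + 1) F) t₀)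
    {C' : Cx (Cfsg.quadFormMinus n F (ε a₀) (ε b₀)) (polarMinus n F (ε a₀) (ε b₀)) t₀'} (X : SD C')
    (C₁ : Cx (Cfsg.quadFormMinus n F₀ a₀ b₀) (polarMinus n F₀ a₀ b₀) t₁) (hq₀ : Odd (Fintype.card F₀))
    (hcard : Fintype.card F = (Fintype.card F₀) ^ 2)
    (hc : ∀ x, Cfsg.quadFormMinus n F (ε a₀) (ε b₀) (eV ε x) = ε (Cfsg.quadFormMinus n F₀ a₀ b₀ x))
    (hQσ : ∀ x, Cfsg.quadFormMinus n F (ε a₀) (ε b₀) (smap σ x) = σ (Cfsg.quadFormMinus n F (ε a₀) (ε b₀) x))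
    (hε : ∀ a, σ a = a ↔ a ∈ Set.range ε) :
    (HMo (Cfsg.quadFormMinus n F₀ a₀ b₀) (n + 1)).map (((Th C'.h C'.nd).comp (simG _)).comp (liftS C₁.h C'.h hc)) =
      IPr L hL ⊓ Subgroup.centralizer {Th C'.h C'.nd (sigT σ hQσ)} := by
  have hE := cen_range C₁ C' hc hQσ hε (HMo _ (n + 1)) _ (ISim_scal L hL C')
    (fun g₁ => by
      rw [Subgroup.mem_comap, MonoidHom.comp_apply]
      exact lift_IPr_odd L hL C X C₁ hq₀ hcard hc g₁)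
  rw [ISim_map L hL C C'] at hE
  exact hE

/-- the centralizer in characteristic two -/
theorem cen_model_two (L : ((Fin n ⊕ Fin n) ⊕ Fin 2 → F) ≃ₗ[F] (Fin (n + 1) ⊕ Fin (n + 1) → F))
    (hL : ∀ v, Cfsg.quadFormPlus (n + 1) F (L v) = Cfsg.quadFormMinus n F (ε a₀) (ε b₀) v)
    (C : Cx (Cfsg.quadFormPlus (n + 1) F) (polarPlus (n + 1) F) t₀)
    (C' : Cx (Cfsg.quadFormMinus n F (ε a₀) (ε b₀)) (polarMinus n F (ε a₀) (ε b₀)) t₀')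
    (C₁ : Cx (Cfsg.quadFormMinus n F₀ a₀ b₀) (polarMinus n F₀ a₀ b₀) t₁) (h2₀ : (2 : F₀) = 0) (hm : 3 ≤ n)
    (hab₀ : ∀ z₁ z₂ : F₀, z₁ ^ 2 + a₀ * z₁ * z₂ + b₀ * z₂ ^ 2 = 0 → z₁ = 0 ∧ z₂ = 0)
    (hQσ : ∀ x, Cfsg.quadFormMinus n F (ε a₀) (ε b₀) (smap σ x) = σ (Cfsg.quadFormMinus n F (ε a₀) (ε b₀) x))
    (hε : ∀ a, σ a = a ↔ a ∈ Set.range ε) :
    Nonempty (↥(IPr L hL ⊓ Subgroup.centralizer {Th C'.h C'.nd (sigT σ hQσ)}) ≃* ↥(Cfsg.inndiagPOmegaMinus n F₀ a₀ b₀)) := by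
  have hc := eV_Q_minus (m := n) ε a₀ b₀
  have e₁ := Subgroup.map_comap_eq_self (f := (Th C₁.h C₁.nd).comp (simG (Cfsg.quadFormMinus n F₀ a₀ b₀)))
    (H := Cfsg.Inn (Cfsg.POmega F₀ (Cfsg.quadFormMinus n F₀ a₀ b₀))) (inn_le_range C₁)
  have hE := cen_iso C₁ C' hc hQσ hε
    ((Cfsg.Inn (Cfsg.POmega F₀ (Cfsg.quadFormMinus n F₀ a₀ b₀))).comap ((Th C₁.h C₁.nd).comp (simG (Cfsg.quadFormMinus n F₀ a₀ b₀))))
    _ (ISim_scal L hL C')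
    (fun g₁ => by
      rw [Subgroup.mem_comap, MonoidHom.comp_apply, Subgroup.mem_comap, MonoidHom.comp_apply]
      exact lift_IPr_two L hL C C' C₁ hm h2₀ hab₀ hc g₁)
  rw [ISim_map L hL C C', e₁] at hE
  rw [inndiag_two hm h2₀ hab₀]
  exact hE

end Cen

end Cfsg.Agent.Lead.LangOm
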