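import Cfsg.Agent.Lib.Lead.LangPSL2
/-! Involutory graph-field automorphisms of `PSL_n(F)`. -/
set_option autoImplicit false
set_option linter.style.haveILetI false
set_option linter.unusedSimpArgs false
set_option linter.unusedSectionVars false
set_option linter.unusedVariables false
namespace Cfsg.Agent.Lead.Lang
open Matrix Matrix.SpecialLinearGroup
open Cfsg.Agent.Lead.AutPSL
open scoped MatrixGroups

variable {F : Type*} [Field F] [Fintype F] {n : ℕ}

local notation "PS" => ProjectiveSpecialLinearGroup (Fin n) F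

section Gal
variable {p f : ℕ} [Fact p.Prime]

lemma gal_comm (hF : Fintype.card F = p ^ f) (hf : 1 ≤ f) (σ τ : F ≃+* F) : σ * τ = τ * σ := by
  obtain ⟨e⟩ := ringAut_equiv hF hf
  apply e.injective
  rw [map_mul, map_mul, mul_comm]

lemma invol_unique (hF : Fintype.card F = p ^ f) (hf : 1 ≤ f) {σ τ : F ≃+* F} (hσ : orderOf σ = 2)
    (hτ : orderOf τ = 2) : σ = τ := by
  classical
  haveI : Finite (F ≃+* F) := Finite.of_injective (fun σ : F ≃+* F => (σ : F → F)) DFunLike.coe_injective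
  haveI : Fintype (F ≃+* F) := Fintype.ofFinite _
  obtain ⟨e⟩ := ringAut_equiv hF hf
  haveI : IsCyclic (F ≃+* F) := isCyclic_of_surjective e.symm e.symm.surjective
  have hd : 2 ∣ Fintype.card (F ≃+* F) := by
    rw [← hσ]
    exact orderOf_dvd_card
  have h1 := IsCyclic.card_orderOf_eq_totient hd
  rw [Nat.totient_two] at h1
  have h2 : (Finset.univ.filter fun a : (F ≃+* F) => orderOf a = 2).card ≤ 1 := le_of_eq h1
  exact Finset.card_le_one.mp h2 σ (by simp [hσ]) τ (by simp [hτ])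

/-- the involution of the Galois group is the `q₀`-power map -/
lemma invol_eq_pow (hF : Fintype.card F = p ^ f) (hf : 1 ≤ f) {σ : F ≃+* F} (hσ : orderOf σ = 2) (a : F) :
    2 ∣ f ∧ σ a = a ^ (p ^ (f / 2)) := by
  classical
  haveI : CharP F p := charP_of_card hF hf
  haveI : ExpChar F p := ExpChar.prime Fact.out
  have hdvd : 2 ∣ f := by
    rw [← hσ, ← card_ringAut hF hf]
    exact orderOf_dvd_natCard σ
  refine ⟨hdvd, ?_⟩
  have hp : 1 < p := (Fact.out : p.Prime).one_lt
  set q₀ := p ^ (f / 2) with hq₀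
  have hq₀1 : 1 < q₀ := Nat.one_lt_pow (by omega) hp
  have hqq : Fintype.card F = q₀ * q₀ := by
    rw [hF, hq₀, ← pow_add]
    congr 1
    omega
  let φ₀ : F →+* F := iterateFrobenius F p (f / 2)
  have hφ₀ : ∀ x, φ₀ x = x ^ q₀ := fun x => iterateFrobenius_def p (f / 2) x
  let φ : F ≃+* F := RingEquiv.ofBijective φ₀ ⟨φ₀.injective, Finite.surjective_of_injective φ₀.injective⟩
  have hφ : ∀ x, φ x = x ^ q₀ := hφ₀
  have hφ2 : φ ^ 2 = 1 := by
    ext x
    rw [pow_two]
    change φ (φ x) = x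
    rw [hφ, hφ, ← pow_mul, ← hqq]
    exact FiniteField.pow_card x
  have hφ1 : φ ≠ 1 := by
    intro h
    have h1 : ∀ x : Fˣ, x ^ (q₀ - 1) = 1 := by
      intro x
      have h2 : (x : F) ^ q₀ = x := by
        rw [← hφ, h]
        rfl
      have h6 : q₀ = (q₀ - 1) + 1 := by omega
      apply Units.ext
      rw [h6, pow_succ] at h2
      have h7 : (x : F) ^ (q₀ - 1) * x = 1 * x := by
        rw [one_mul]
        exact h2
      have h8 := mul_right_cancel₀ x.ne_zero h7
      simpa using h8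
    have h2 := (FiniteField.forall_pow_eq_one_iff F (q₀ - 1)).mp h1
    have h3 := Nat.le_of_dvd (by omega) h2
    rw [hqq] at h3
    have h4 : 2 * q₀ ≤ q₀ * q₀ := Nat.mul_le_mul_right _ hq₀1
    omega
  have hφo : orderOf φ = 2 := orderOf_eq_prime hφ2 hφ1
  rw [invol_unique hF hf hσ hφo, hφ]

end Gal

section Star
variable {σ : F ≃+* F}

omit [Fintype F] in
/-- the conjugate transpose -/
lemma star_star (hσ2 : σ * σ = 1) (M : Matrix (Fin n) (Fin n) F) : (((M.map σ)ᵀ).map σ)ᵀ = M := by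
  ext i j
  have : σ (σ (M i j)) = M i j := DFunLike.congr_fun hσ2 _
  simpa using this

/-- normalising an element centralising the graph-field automorphism -/
lemma unitary_normalize [Nontrivial (Fin n)] (hσ : orderOf σ = 2) (g : GL (Fin n) F)
    (h : (cc (gm σ (invT g)) : MulAut PS) = cc g) :
    ∃ u : Fˣ, ((sc u * g : GL (Fin n) F) : Matrix (Fin n) (Fin n) F) *
      (((sc u * g : GL (Fin n) F) : Matrix (Fin n) (Fin n) F).map σ)ᵀ = 1 := by
  classical
  have hss : σ * σ = 1 := by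
    have := pow_orderOf_eq_one σ
    rwa [hσ, pow_two] at this
  have hssa : ∀ a : F, σ (σ a) = a := fun a => DFunLike.congr_fun hss a
  have h1 : (cc (gm σ (invT g) * g⁻¹) : MulAut PS) = 1 := by rw [map_mul, map_inv, h, mul_inv_cancel]
  rw [cc_eq_one_iff, Matrix.GeneralLinearGroup.center_eq_range_scalar] at h1
  obtain ⟨c, hc⟩ := h1
  have hc' : gm σ (invT g) = sc c * g := by
    have hc2 : (sc c : GL (Fin n) F) = gm σ (invT g) * g⁻¹ := hc
    rw [hc2, inv_mul_cancel_right]
  -- `(c g) g^* = 1`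
  have h2 : (c : F) • ((g : Matrix (Fin n) (Fin n) F) * ((g : Matrix (Fin n) (Fin n) F).map σ)ᵀ) = 1 := by
    have e1 := star_mul σ g
    have e3 : ((gm σ (invT g) : GL (Fin n) F) : Matrix (Fin n) (Fin n) F) * ((g : Matrix (Fin n) (Fin n) F).map σ)ᵀ = 1 :=
      mul_eq_one_comm.mp e1
    rw [hc', Units.val_mul, sc_coe] at e3
    simpa [Matrix.mul_assoc] using e3
  -- `c` is fixed
  set S : Matrix (Fin n) (Fin n) F := (g : Matrix (Fin n) (Fin n) F) * ((g : Matrix (Fin n) (Fin n) F).map σ)ᵀ with hS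
  have hSs : (S.map σ)ᵀ = S := by
    rw [hS, Matrix.map_mul, Matrix.transpose_mul, star_star hss]
  have hS0 : S ≠ 0 := by
    intro h0
    rw [h0, smul_zero] at h2
    exact zero_ne_one h2
  have hcf : σ (c : F) = c := by
    have e1 : (((c : F) • S).map σ)ᵀ = σ (c : F) • S := by
      conv_rhs => rw [← hSs]
      ext i j
      simp
    have e2 : (((1 : Matrix (Fin n) (Fin n) F).map σ)ᵀ) = 1 := by
      ext i j
      by_cases hij : i = j
      · subst hij; simp
      · simp [Matrix.one_apply, hij, Ne.symm hij]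
    rw [h2, e2] at e1
    have e3 : (σ (c : F) - c) • S = 0 := by
      rw [sub_smul, ← e1, h2, sub_self]
    exact sub_eq_zero.mp ((smul_eq_zero.mp e3).resolve_right hS0)
  obtain ⟨μ, hμ0, hμ⟩ := norm_surj σ (inv_ne_zero c.ne_zero) (by rw [map_inv₀, hcf])
  rw [hσ] at hμ
  simp only [Finset.prod_range_succ, Finset.prod_range_zero, one_mul, pow_zero, pow_one] at hμ
  have hμ' : μ * σ μ = (c : F)⁻¹ := hμ
  have hsμ : σ μ ≠ 0 := (map_ne_zero σ).mpr hμ0
  refine ⟨Units.mk0 μ⁻¹ (inv_ne_zero hμ0), ?_⟩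
  rw [Units.val_mul, sc_coe]
  have e5 : (((Units.mk0 μ⁻¹ (inv_ne_zero hμ0) : Fˣ) : F) • (1 : Matrix (Fin n) (Fin n) F)) * (g : Matrix (Fin n) (Fin n) F) =
      μ⁻¹ • (g : Matrix (Fin n) (Fin n) F) := by simp
  rw [e5]
  have e6 : ((μ⁻¹ • (g : Matrix (Fin n) (Fin n) F)).map σ)ᵀ = (σ μ)⁻¹ • ((g : Matrix (Fin n) (Fin n) F).map σ)ᵀ := by
    ext i j
    simp
  rw [e6, Matrix.smul_mul, Matrix.mul_smul, smul_smul, ← hS]
  have e7 : μ⁻¹ * (σ μ)⁻¹ = (c : F) := by
    rw [← mul_inv, hμ', inv_inv]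
  rw [e7, h2]

/-- the unitary condition implies centralising -/
lemma cc_of_unitary (g : GL (Fin n) F)
    (h : (g : Matrix (Fin n) (Fin n) F) * ((g : Matrix (Fin n) (Fin n) F).map σ)ᵀ = 1) :
    gm σ (invT g) = g := by
  apply Units.ext
  have e1 := star_mul σ g
  exact left_inv_eq_right_inv (mul_eq_one_comm.mp e1) (mul_eq_one_comm.mp h)

/-- the form in terms of `σ` -/
lemma herm_eq {q₀ : ℕ} (hσq : ∀ a, σ a = a ^ q₀) (u v : Fin n → F) :
    Cfsg.hermForm n F q₀ u v = u ⬝ᵥ (fun i => σ (v i)) := by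
  simp only [Cfsg.hermForm, dotProduct, hσq]

/-- membership in the general unitary group -/
lemma mem_GU_iff {q₀ : ℕ} (hσq : ∀ a, σ a = a ^ q₀) (g : GL (Fin n) F) :
    g ∈ Cfsg.GU n F q₀ ↔ (g : Matrix (Fin n) (Fin n) F) * ((g : Matrix (Fin n) (Fin n) F).map σ)ᵀ = 1 := by
  classical
  have key : g ∈ Cfsg.GU n F q₀ ↔ ∀ u v : Fin n → F,
      Cfsg.hermForm n F q₀ ((g : Matrix (Fin n) (Fin n) F) *ᵥ u) ((g : Matrix (Fin n) (Fin n) F) *ᵥ v) = Cfsg.hermForm n F q₀ u v := Iff.rfl
  rw [key]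
  simp only [herm_eq hσq, map_mulVec_aux]
  have e1 : ∀ u w : Fin n → F, ((g : Matrix (Fin n) (Fin n) F) *ᵥ u) ⬝ᵥ (((g : Matrix (Fin n) (Fin n) F).map σ) *ᵥ w) =
      u ⬝ᵥ (((g : Matrix (Fin n) (Fin n) F)ᵀ * (g : Matrix (Fin n) (Fin n) F).map σ) *ᵥ w) := by
    intro u w
    rw [← Matrix.mulVec_mulVec, Matrix.dotProduct_mulVec u, Matrix.dotProduct_mulVec, Matrix.vecMul_transpose, Matrix.dotProduct_mulVec]
  simp only [e1]
  have hA : ((g : Matrix (Fin n) (Fin n) F)ᵀ * (g : Matrix (Fin n) (Fin n) F).map σ = 1) ↔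
      (g : Matrix (Fin n) (Fin n) F) * ((g : Matrix (Fin n) (Fin n) F).map σ)ᵀ = 1 := by
    constructor
    · intro h
      have h2 := congrArg Matrix.transpose h
      rw [Matrix.transpose_mul, Matrix.transpose_transpose, Matrix.transpose_one] at h2
      exact mul_eq_one_comm.mp h2
    · intro h
      have h2 := congrArg Matrix.transpose (mul_eq_one_comm.mp h)
      rw [Matrix.transpose_mul, Matrix.transpose_transpose, Matrix.transpose_one] at h2
      exact h2
  rw [← hA]
  constructor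
  · intro H
    ext i j
    have h1 := H (Pi.single i 1) (fun k => σ.symm ((Pi.single j 1 : Fin n → F) k))
    have e2 : (fun k => σ (σ.symm ((Pi.single j 1 : Fin n → F) k))) = (Pi.single j 1 : Fin n → F) := by
      funext k
      simp
    simp only [e2] at h1
    rw [Matrix.one_apply]
    simpa [Pi.single_apply, eq_comm] using h1
  · intro H u v
    rw [H, Matrix.one_mulVec]

end Star

section Graph
variable {σ : F ≃+* F}

/-- the group of norm one units -/
def normOne (σ : F ≃+* F) : Subgroup Fˣ where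
  carrier := {u | (u : F) * σ u = 1}
  mul_mem' := by
    intro a b ha hb
    simp only [Set.mem_ofPred_eq, Units.val_mul, map_mul] at *
    calc (a : F) * b * (σ a * σ b) = ((a : F) * σ a) * (b * σ b) := by ring
      _ = 1 := by rw [ha, hb, one_mul]
  one_mem' := by simp
  inv_mem' := by
    intro a ha
    simp only [Set.mem_ofPred_eq, Units.val_inv_eq_inv_val, map_inv₀] at *
    rw [← mul_inv, ha, inv_one]

lemma mem_normOne {u : Fˣ} : u ∈ normOne σ ↔ (u : F) * σ u = 1 := Iff.rfl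

/-- `θ` commutes with a matrix iff `g` is centralised -/
lemma theta_comm_iff (g : GL (Fin n) F) :
    ((cc g * (fld σ * gam) : MulAut PS) = (fld σ * gam) * cc g) ↔ (cc (gm σ (invT g)) : MulAut PS) = cc g := by
  rw [theta_cc]
  constructor
  · intro h
    exact (mul_right_cancel h).symm
  · intro h
    rw [h]

lemma det_invT (g : GL (Fin n) F) :
    Matrix.GeneralLinearGroup.det (invT g) = (Matrix.GeneralLinearGroup.det g)⁻¹ := by
  apply Units.ext
  change (((g⁻¹ : GL (Fin n) F) : Matrix (Fin n) (Fin n) F)ᵀ).det = _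
  rw [Matrix.det_transpose]
  have := congrArg Units.val (map_inv Matrix.GeneralLinearGroup.det g)
  exact this

/-- the description of the determinants centralising the graph-field automorphism -/
lemma mem_graphD_iff [Nontrivial (Fin n)] (hσ : orderOf σ = 2) (w : Fˣ) :
    w ∈ (powMonoidHom n : Fˣ →* Fˣ).range ⊔ normOne σ ↔
      ∃ g : GL (Fin n) F, Matrix.GeneralLinearGroup.det g = w ∧
        (cc g * (fld σ * gam) : MulAut PS) = (fld σ * gam) * cc g := by
  classical
  have hss : σ * σ = 1 := by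
    have := pow_orderOf_eq_one σ
    rwa [hσ, pow_two] at this
  constructor
  · intro hw
    obtain ⟨_, ⟨c, rfl⟩, d, hd, rfl⟩ := Subgroup.mem_sup.mp hw
    haveI : Nonempty (Fin n) := inferInstance
    let r₀ : Fin n := Classical.arbitrary _
    refine ⟨sc c * dA r₀ d, ?_, ?_⟩
    · rw [map_mul, det_sc, det_dA]
      rfl
    · rw [map_mul, cc_sc, one_mul, theta_comm_iff]
      have hu : ((dA r₀ d : GL (Fin n) F) : Matrix (Fin n) (Fin n) F) *
          (((dA r₀ d : GL (Fin n) F) : Matrix (Fin n) (Fin n) F).map σ)ᵀ = 1 := by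
        change ((dg (Pi.mulSingle r₀ d) : GL (Fin n) F) : Matrix (Fin n) (Fin n) F) *
          (((dg (Pi.mulSingle r₀ d) : GL (Fin n) F) : Matrix (Fin n) (Fin n) F).map σ)ᵀ = 1
        rw [dg_coe]
        ext i j
        rw [Matrix.mul_apply, Finset.sum_eq_single i]
        · by_cases hij : i = j
          · subst hij
            by_cases hi : i = r₀
            · subst hi
              have hd' : (d : F) * σ d = 1 := hd
              simpa using hd'
            · simp [Pi.mulSingle_eq_of_ne hi]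
          · simp [Matrix.one_apply, hij, Matrix.diagonal_apply, Ne.symm hij]
        · intro b _ hb
          simp [Matrix.diagonal_apply, Ne.symm hb]
        · simp
      rw [cc_of_unitary _ hu]
  · rintro ⟨g, rfl, hg⟩
    rw [theta_comm_iff] at hg
    obtain ⟨u, hu⟩ := unitary_normalize hσ g hg
    have h2 : Matrix.GeneralLinearGroup.det (sc u * g) ∈ normOne σ := by
      rw [mem_normOne]
      have h3 := congrArg Matrix.det hu
      rw [Matrix.det_mul, Matrix.det_transpose, Matrix.det_one] at h3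
      have h4 := RingHom.map_det (σ : F →+* F) ((sc u * g : GL (Fin n) F) : Matrix (Fin n) (Fin n) F)
      have h5 : (σ : F →+* F).mapMatrix ((sc u * g : GL (Fin n) F) : Matrix (Fin n) (Fin n) F) =
        ((sc u * g : GL (Fin n) F) : Matrix (Fin n) (Fin n) F).map σ := rfl
      rw [h5] at h4
      change ((sc u * g : GL (Fin n) F) : Matrix (Fin n) (Fin n) F).det * σ (((sc u * g : GL (Fin n) F) : Matrix (Fin n) (Fin n) F).det) = 1
      have h6 : σ (((sc u * g : GL (Fin n) F) : Matrix (Fin n) (Fin n) F).det) = ((((sc u * g : GL (Fin n) F) : Matrix (Fin n) (Fin n) F)).map σ).det := h4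
      rw [h6]
      exact h3
    have h3 : Matrix.GeneralLinearGroup.det g = (u⁻¹) ^ n * Matrix.GeneralLinearGroup.det (sc u * g) := by
      rw [map_mul, det_sc, inv_pow, inv_mul_cancel_left]
    rw [h3]
    exact Subgroup.mul_mem _ (Subgroup.mem_sup_left ⟨u⁻¹, rfl⟩) (Subgroup.mem_sup_right h2)

/-- the norm one group has the expected order: it is a range of a power -/
lemma normOne_eq_range {p f : ℕ} [Fact p.Prime] (hF : Fintype.card F = p ^ f) (hf : 1 ≤ f) (hσ : orderOf σ = 2) :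
    normOne σ = (powMonoidHom (p ^ (f / 2) - 1) : Fˣ →* Fˣ).range := by
  classical
  have hdvd : 2 ∣ f := by
    rw [← hσ, ← card_ringAut hF hf]
    exact orderOf_dvd_natCard σ
  obtain ⟨K, hK, hcard⟩ := exists_fixed_field hF σ hσ (by norm_num) hdvd
  have hp : 1 < p := (Fact.out : p.Prime).one_lt
  set q₀ := p ^ (f / 2) with hq₀
  have hq₀1 : 1 < q₀ := Nat.one_lt_pow (by omega) hp
  have hqq : p ^ f = q₀ * q₀ := by
    rw [hq₀, ← pow_add]
    congr 1
    omega
  have hcardG : Nat.card Fˣ = q₀ * q₀ - 1 := by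
    rw [Nat.card_units, Nat.card_eq_fintype_card, hF, hqq]
  have hfix : Nat.card (fixS σ) = q₀ - 1 := by rw [card_fixS σ hK, hcard]
  -- the norm map
  let N : Fˣ →* Fˣ :=
    { toFun := fun u => u * Units.map (σ : F →* F) u
      map_one' := by simp
      map_mul' := fun a b => by
        rw [map_mul]
        exact mul_mul_mul_comm _ _ _ _ }
  have hNc : ∀ u : Fˣ, ((N u : Fˣ) : F) = (u : F) * σ u := fun u => rfl
  have hss : σ * σ = 1 := by
    have := pow_orderOf_eq_one σ
    rwa [hσ, pow_two] at this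
  have hssa : ∀ a : F, σ (σ a) = a := fun a => DFunLike.congr_fun hss a
  have hker : N.ker = normOne σ := by
    ext u
    rw [MonoidHom.mem_ker, mem_normOne, ← hNc]
    constructor
    · intro h
      rw [h]
      rfl
    · intro h
      exact Units.ext h
  have hrange : N.range = fixS σ := by
    ext u
    constructor
    · rintro ⟨v, rfl⟩
      rw [mem_fixS, hNc, map_mul, hssa, mul_comm]
    · intro hu
      obtain ⟨μ, hμ0, hμ⟩ := norm_surj σ u.ne_zero hu
      rw [hσ] at hμ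
      simp only [Finset.prod_range_succ, Finset.prod_range_zero, one_mul, pow_zero, pow_one] at hμ
      refine ⟨Units.mk0 μ hμ0, Units.ext ?_⟩
      rw [hNc]
      exact hμ
  have h1 := Subgroup.card_mul_index N.ker
  rw [Subgroup.index_ker, hker, hrange, hfix, hcardG] at h1
  have key : ∀ t : ℕ, 1 < t → t * t - 1 = (t - 1) * (t + 1) := by
    intro t ht
    obtain ⟨s, rfl⟩ : ∃ s, t = s + 1 := ⟨t - 1, by omega⟩
    simp only [Nat.add_sub_cancel]
    have : (s + 1) * (s + 1) = s * (s + 1 + 1) + 1 := by ring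
    omega
  have h2 := key q₀ hq₀1
  have hcardN : Nat.card (normOne σ) = q₀ + 1 := by
    have hpos : 0 < q₀ - 1 := by omega
    rw [h2] at h1
    apply Nat.eq_of_mul_eq_mul_right hpos
    rw [h1, mul_comm]
  apply eq_pow_range_of_card _ _ hcardN
  rw [hcardG, h2]

/-- the index for the graph-field automorphism -/
lemma index_sup_normOne {p f : ℕ} [Fact p.Prime] (hF : Fintype.card F = p ^ f) (hf : 1 ≤ f) (hσ : orderOf σ = 2) (n : ℕ) :
    ((powMonoidHom n : Fˣ →* Fˣ).range ⊔ normOne σ).index = Nat.gcd n (p ^ (f / 2) - 1) := by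
  classical
  have hdvd : 2 ∣ f := by
    rw [← hσ, ← card_ringAut hF hf]
    exact orderOf_dvd_natCard σ
  rw [normOne_eq_range hF hf hσ, pow_range_sup, index_pow_range]
  apply Nat.gcd_eq_right
  have hcardG : Nat.card Fˣ = p ^ f - 1 := by
    rw [Nat.card_units, Nat.card_eq_fintype_card, hF]
  rw [hcardG]
  have h3 : p ^ (f / 2) - 1 ∣ p ^ f - 1 := by
    obtain ⟨t, rfl⟩ := hdvd
    have h4 : 2 * t / 2 = t := by omega
    rw [h4, pow_mul']
    have := Nat.sub_dvd_pow_sub_pow (p ^ t) 1 2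
    simpa using this
  exact (Nat.gcd_dvd_right n _).trans h3

/-- the centralizer of the graph-field automorphism -/
theorem centralizer_graph [Nontrivial (Fin n)] (hσ : orderOf σ = 2) {q₀ : ℕ} (hσq : ∀ a, σ a = a ^ q₀) :
    Nonempty (↥((cc : GL (Fin n) F →* MulAut PS).range ⊓ Subgroup.centralizer {(fld σ * gam : MulAut PS)}) ≃*
      Cfsg.PGU n F q₀) := by
  classical
  have hmem : ∀ g : Cfsg.GU n F q₀, (cc (g : GL (Fin n) F) : MulAut PS) ∈
      (cc : GL (Fin n) F →* MulAut PS).range ⊓ Subgroup.centralizer {(fld σ * gam : MulAut PS)} := by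
    intro g
    refine Subgroup.mem_inf.mpr ⟨⟨_, rfl⟩, Subgroup.mem_centralizer_singleton_iff.mpr ?_⟩
    rw [theta_comm_iff, cc_of_unitary _ ((mem_GU_iff hσq _).mp g.2)]
  let Φ : Cfsg.GU n F q₀ →* ↥((cc : GL (Fin n) F →* MulAut PS).range ⊓ Subgroup.centralizer {(fld σ * gam : MulAut PS)}) :=
    MonoidHom.codRestrict (cc.comp (Cfsg.GU n F q₀).subtype) _ hmem
  have hΦ : ∀ h : Cfsg.GU n F q₀, ((Φ h : ↥((cc : GL (Fin n) F →* MulAut PS).range ⊓ Subgroup.centralizer {(fld σ * gam : MulAut PS)})) : MulAut PS) =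
      cc (h : GL (Fin n) F) := fun h => rfl
  have hsurj : Function.Surjective Φ := by
    rintro ⟨_, ⟨g, rfl⟩, hz⟩
    have hz' : (cc g * (fld σ * gam) : MulAut PS) = (fld σ * gam) * cc g := Subgroup.mem_centralizer_singleton_iff.mp hz
    rw [theta_comm_iff] at hz'
    obtain ⟨u, hu⟩ := unitary_normalize hσ g hz'
    let g₁ : Cfsg.GU n F q₀ := ⟨sc u * g, (mem_GU_iff hσq _).mpr hu⟩
    have hg₁ : (g₁ : GL (Fin n) F) = sc u * g := rfl
    refine ⟨g₁, ?_⟩
    apply Subtype.ext
    rw [hΦ, hg₁, map_mul, cc_sc, one_mul]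
  have hker : Φ.ker = (Cfsg.Geo.scalars (Fin n) F).subgroupOf (Cfsg.GU n F q₀) := by
    ext g
    rw [MonoidHom.mem_ker, Subgroup.mem_subgroupOf, Cfsg.Geo.mem_scalars_iff]
    have e1 : Φ g = 1 ↔ (cc (g : GL (Fin n) F) : MulAut PS) = 1 := by
      constructor
      · intro h
        exact congrArg Subtype.val h
      · intro h
        exact Subtype.ext h
    rw [e1, cc_eq_one_iff, Matrix.GeneralLinearGroup.center_eq_range_scalar]
    constructor
    · rintro ⟨c, hc⟩
      refine ⟨c, ?_⟩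
      have hc2 : (sc c : GL (Fin n) F) = g := hc
      rw [← hc2, sc_coe]
    · rintro ⟨c, hc⟩
      refine ⟨c, ?_⟩
      apply Units.ext
      change ((sc c : GL (Fin n) F) : Matrix (Fin n) (Fin n) F) = _
      rw [sc_coe, hc]
  exact ⟨(QuotientGroup.quotientKerEquivOfSurjective Φ hsurj).symm.trans
    (QuotientGroup.quotientMulEquivOfEq hker)⟩

/-- conjugates of the graph-field automorphism under `Aut` are conformal conjugates -/
lemma conj_theta {p f : ℕ} [Fact p.Prime] (hF : Fintype.card F = p ^ f) (hf : 1 ≤ f) (hn : 3 ≤ n) (σ : F ≃+* F)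
    (α : MulAut PS) : ∃ k : GL (Fin n) F, α * (fld σ * gam) * α⁻¹ = cc k * (fld σ * gam) * (cc k)⁻¹ := by
  obtain ⟨m, rfl⟩ : ∃ m, n = m + 2 := ⟨n - 2, by omega⟩
  obtain ⟨D, ρ, h | h⟩ := aut_form_ge3 (by omega) hF hf α
  · refine ⟨D, ?_⟩
    have hc : (fld ρ * (fld σ * gam) : MulAut (ProjectiveSpecialLinearGroup (Fin (m + 2)) F)) = (fld σ * gam) * fld ρ := by
      calc (fld ρ * (fld σ * gam) : MulAut (ProjectiveSpecialLinearGroup (Fin (m + 2)) F)) = fld (ρ * σ) * gam := by
            rw [map_mul, mul_assoc]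
        _ = fld (σ * ρ) * gam := by rw [gal_comm hF hf]
        _ = fld σ * (fld ρ * gam) := by rw [map_mul, mul_assoc]
        _ = _ := by rw [fld_gam]; group
    rw [h]
    calc (cc D * fld ρ * (fld σ * gam) * (cc D * fld ρ)⁻¹ : MulAut (ProjectiveSpecialLinearGroup (Fin (m + 2)) F))
        = cc D * (fld ρ * (fld σ * gam)) * (fld ρ)⁻¹ * (cc D)⁻¹ := by group
      _ = _ := by rw [hc]; group
  · refine ⟨D, ?_⟩
    have hg2 : (gam : MulAut (ProjectiveSpecialLinearGroup (Fin (m + 2)) F))⁻¹ = gam := inv_eq_of_mul_eq_one_left gam_sq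
    have hα : α = cc D * fld ρ * gam := by
      rw [← h, mul_assoc, gam_sq, mul_one]
    have hc : (fld ρ * (fld σ * gam) : MulAut (ProjectiveSpecialLinearGroup (Fin (m + 2)) F)) = (fld σ * gam) * fld ρ := by
      calc (fld ρ * (fld σ * gam) : MulAut (ProjectiveSpecialLinearGroup (Fin (m + 2)) F)) = fld (ρ * σ) * gam := by
            rw [map_mul, mul_assoc]
        _ = fld (σ * ρ) * gam := by rw [gal_comm hF hf]
        _ = fld σ * (fld ρ * gam) := by rw [map_mul, mul_assoc]
        _ = _ := by rw [fld_gam]; group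
    have hc2 : (gam * (fld σ * gam) : MulAut (ProjectiveSpecialLinearGroup (Fin (m + 2)) F)) = (fld σ * gam) * gam := by
      rw [← mul_assoc, ← fld_gam]
    rw [hα]
    calc (cc D * fld ρ * gam * (fld σ * gam) * (cc D * fld ρ * gam)⁻¹ : MulAut (ProjectiveSpecialLinearGroup (Fin (m + 2)) F))
        = cc D * fld ρ * (gam * (fld σ * gam)) * gam⁻¹ * (fld ρ)⁻¹ * (cc D)⁻¹ := by group
      _ = cc D * (fld ρ * (fld σ * gam)) * (fld ρ)⁻¹ * (cc D)⁻¹ := by rw [hc2]; group
      _ = _ := by rw [hc]; group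

/-- S2704 -/
theorem graph_field_data {p f : ℕ} [Fact p.Prime] (hF : Fintype.card F = p ^ f) (hf : 1 ≤ f) (hn : 3 ≤ n)
    (x : MulAut PS) (hx : Cfsg.IsGraphFieldAutClassPSL x) (hx2 : orderOf x = 2) :
    Even f ∧ (∀ y : MulAut PS, Cfsg.IsGraphFieldAutClassPSL y → orderOf y = 2 → Cfsg.IsConjUnder (Cfsg.inndiagPSL n F) x y) ∧
      Nonempty (↥(Cfsg.inndiagPSL n F ⊓ Subgroup.centralizer {x}) ≃* Cfsg.PGU n F (p ^ (f / 2))) ∧
      Cfsg.splitClassCount (Cfsg.inndiagPSL n F) (Cfsg.Inn PS) x = Nat.gcd n (p ^ (f / 2) - 1) := by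
  classical
  haveI : Nontrivial (Fin n) := Fin.nontrivial_iff_two_le.mpr (by omega)
  have hI := inndiag_eq (F := F) (n := n)
  haveI hnorm : (cc : GL (Fin n) F →* MulAut PS).range.Normal := cc_range_normal hF hf (by omega)
  obtain ⟨-, α, φ, γ, σ, hσ, hφ, hγ, hgf⟩ := hx
  rw [(std_iff σ _).mp hφ, (invT_iff _).mp hγ] at hgf
  have h3 : orderOf (fld σ * gam : MulAut PS) = 2 := by
    rw [← hgf, orderOf_conj', hx2]
  obtain ⟨-, hσ2⟩ := graph_field_order (n := n) hn hσ Nat.prime_two h3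
  have hdvd : 2 ∣ f := by
    rw [← hσ2, ← card_ringAut hF hf]
    exact orderOf_dvd_natCard σ
  refine ⟨even_iff_two_dvd.mpr hdvd, ?_, ?_, ?_⟩
  · rintro y ⟨-, β, φ', γ', τ, hτ, hφ', hγ', hgf'⟩ hy2
    rw [(std_iff τ _).mp hφ', (invT_iff _).mp hγ'] at hgf'
    have h3' : orderOf (fld τ * gam : MulAut PS) = 2 := by
      rw [← hgf', orderOf_conj', hy2]
    obtain ⟨-, hτ2⟩ := graph_field_order (n := n) hn hτ Nat.prime_two h3'
    have hτσ : τ = σ := invol_unique hF hf hτ2 hσ2
    subst hτσ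
    obtain ⟨k, hk⟩ := conj_theta hF hf hn τ α⁻¹
    obtain ⟨k', hk'⟩ := conj_theta hF hf hn τ β⁻¹
    have ex : x = cc k * (fld τ * gam) * (cc k)⁻¹ := by
      rw [← hk, ← hgf]
      group
    have ey : y = cc k' * (fld τ * gam) * (cc k')⁻¹ := by
      rw [← hk', ← hgf']
      group
    rw [hI]
    refine ⟨cc (k' * k⁻¹), ⟨_, rfl⟩, ?_⟩
    rw [ex, ey, map_mul, map_inv]
    group
  · rw [hI]
    obtain ⟨E1⟩ := centralizer_conj_equiv (cc : GL (Fin n) F →* MulAut PS).range α x
    rw [hgf] at E1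
    obtain ⟨E2⟩ := centralizer_graph (n := n) hσ2 (q₀ := p ^ (f / 2)) (fun a => (invol_eq_pow hF hf hσ2 a).2)
    exact ⟨E1.trans E2⟩
  · rw [hI]
    haveI : (Cfsg.Inn PS).Normal := inferInstance
    rw [split_conj _ _ α x, hgf, split_PSL _ _ (mem_graphD_iff hσ2)]
    exact index_sup_normOne hF hf hσ2 n

end Graph

end Cfsg.Agent.Lead.Lang
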