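import Cfsg.Agent.Lib.Lead.LangGF8
import Cfsg.Agent.Lib.H01.OmDiagP2
import Cfsg.Agent.Lib.Lead.LangPSL3
/-! Graph-field automorphisms: the fixed form of the model and the conjugacy of the involutions. -/
set_option autoImplicit false
set_option linter.style.haveILetI false
set_option linter.unusedSimpArgs false
set_option linter.unusedSectionVars false
set_option linter.unusedVariables false
set_option linter.deprecated false
namespace Cfsg.Agent.Lead.LangOm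
open Matrix Module Cfsg.Agent.Lead.Ortho Cfsg.Agent.Lead.Omega Cfsg.Agent.H01.Om Cfsg.Agent.Lead.Lang
open Cfsg.Agent.H11 (IsMTS Rf Pb triangle minusForm minusForm_coe Rf_isom plusForm U0 U0_mts mem_U0 plus_nondeg' card_sum finrank_ts_le_minus)

section Frame
variable {F : Type*} [Field F] [Fintype F] {F₀ : Type*} [Field F₀] [Fintype F₀] {n : ℕ}
variable {ε : F₀ →+* F} {σ : F ≃+* F}

/-- the fixed space of the transported field automorphism -/
theorem frame_model (hε : ∀ a, σ a = a ↔ a ∈ Set.range ε) {ζ₀ : F₀} (hζ₀ : ∀ t : F₀, t ^ 2 + t + ζ₀ ≠ 0)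
    (L : ((Fin n ⊕ Fin n) ⊕ Fin 2 → F) ≃ₗ[F] (Fin (n + 1) ⊕ Fin (n + 1) → F))
    (hL : ∀ v, Cfsg.quadFormPlus (n + 1) F (L v) = Cfsg.quadFormMinus n F (ε 1) (ε ζ₀) v)
    (hQσ : ∀ x, Cfsg.quadFormMinus n F (ε 1) (ε ζ₀) (smap σ x) = σ (Cfsg.quadFormMinus n F (ε 1) (ε ζ₀) x)) :
    FrameEll (transS2_semi L hL (sigT_semi σ hQσ)) (n + 1) := by
  have hz : ε ζ₀ ∈ fixF σ := (hε _).2 ⟨ζ₀, rfl⟩
  have hfix : ∀ v : fixSp (transS2_semi L hL (sigT_semi σ hQσ)), ∀ i, L.symm v.1 i ∈ fixF σ := by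
    intro v i
    have e := v.2
    rw [mem_fixSp] at e
    have e1 : L (smap σ (L.symm v.1)) = v.1 := e
    have e2 : smap σ (L.symm v.1) = L.symm v.1 := L.injective (e1.trans (L.apply_symm_apply _).symm)
    exact congrFun e2 i
  have hback : ∀ w : (Fin n ⊕ Fin n) ⊕ Fin 2 → fixF σ, (fun i => (w i : F)) = L.symm (L (fun i => (w i : F))) := by
    intro w
    simp
  have hmem : ∀ w : (Fin n ⊕ Fin n) ⊕ Fin 2 → fixF σ, L (fun i => (w i : F)) ∈ fixSp (transS2_semi L hL (sigT_semi σ hQσ)) := by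
    intro w
    rw [mem_fixSp]
    change L (smap σ (L.symm (L (fun i => (w i : F))))) = _
    rw [LinearEquiv.symm_apply_apply]
    congr 1
    funext i
    exact (w i).2
  let g : fixSp (transS2_semi L hL (sigT_semi σ hQσ)) ≃ₗ[fixF σ] ((Fin n ⊕ Fin n) ⊕ Fin 2 → fixF σ) :=
    { toFun := fun v i => ⟨L.symm v.1 i, hfix v i⟩
      map_add' := by
        intro x y
        funext i
        apply Subtype.ext
        change L.symm (x.1 + y.1) i = L.symm x.1 i + L.symm y.1 i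
        rw [map_add]
        rfl
      map_smul' := by
        intro c x
        funext i
        apply Subtype.ext
        have e : (c • x).1 = (c : F) • x.1 := rfl
        change L.symm (c • x).1 i = (c : F) * L.symm x.1 i
        rw [e, map_smul]
        rfl
      invFun := fun w => ⟨L (fun i => (w i : F)), hmem w⟩
      left_inv := by
        intro v
        apply Subtype.ext
        change L (fun i => L.symm v.1 i) = v.1
        exact L.apply_symm_apply v.1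
      right_inv := by
        intro w
        funext i
        apply Subtype.ext
        change L.symm (L (fun i => (w i : F))) i = w i
        rw [LinearEquiv.symm_apply_apply] }
  refine ⟨1, ⟨ε ζ₀, hz⟩, g, one_ne_zero, ?_, ?_⟩
  · rintro ⟨t, ht⟩ e
    obtain ⟨t₀, rfl⟩ := (hε _).1 ht
    have e1 : ε t₀ ^ 2 + ε t₀ + ε ζ₀ = 0 := congrArg Subtype.val e
    apply hζ₀ t₀
    apply ε.injective
    rw [map_zero, ← e1]
    simp only [map_add, map_pow]
  · intro v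
    have e1 := hL (L.symm v.1)
    rw [LinearEquiv.apply_symm_apply] at e1
    rw [one_mul, e1]
    simp only [Cfsg.quadFormMinus, Nat.add_sub_cancel, map_one]
    push_cast
    rfl

end Frame

section Plus
variable {F : Type*} [Field F] [Fintype F] {m : ℕ}
variable {t₀ : Fin m → (Fin m ⊕ Fin m → F) × (Fin m ⊕ Fin m → F)}

/-- **Conjugacy of the involutions with elliptic frames.** -/
theorem conj_frames (C : Cx (Cfsg.quadFormPlus m F) (polarPlus m F) t₀) (hm : 1 ≤ m)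
    {T₁ T₂ : GS (Cfsg.quadFormPlus m F)} {σ : F ≃+* F} {κ₁ κ₂ : F}
    (H₁ : IsSemi (Cfsg.quadFormPlus m F) (T₁ : Equiv.Perm (Fin m ⊕ Fin m → F)) σ κ₁)
    (H₂ : IsSemi (Cfsg.quadFormPlus m F) (T₂ : Equiv.Perm (Fin m ⊕ Fin m → F)) σ κ₂)
    (hord : orderOf σ = 2)
    (h₁ : ∀ y, (T₁ : Equiv.Perm (Fin m ⊕ Fin m → F)) ((T₁ : Equiv.Perm (Fin m ⊕ Fin m → F)) y) = y)
    (h₂ : ∀ y, (T₂ : Equiv.Perm (Fin m ⊕ Fin m → F)) ((T₂ : Equiv.Perm (Fin m ⊕ Fin m → F)) y) = y)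
    (f₁ : FrameEll H₁ m) (f₂ : FrameEll H₂ m) :
    ∃ P : GS (Cfsg.quadFormPlus m F), Th C.h C.nd P ∈ Cfsg.inndiagPOmegaPlus m F ∧
      Th C.h C.nd T₂ = Th C.h C.nd P * Th C.h C.nd T₁ * (Th C.h C.nd P)⁻¹ := by
  have hit₁ : ∀ y, (T₁ : Equiv.Perm (Fin m ⊕ Fin m → F))^[orderOf σ] y = y := by
    intro y
    rw [hord]
    exact h₁ y
  have hit₂ : ∀ y, (T₂ : Equiv.Perm (Fin m ⊕ Fin m → F))^[orderOf σ] y = y := by
    intro y
    rw [hord]
    exact h₂ y
  obtain ⟨P₀, hP₀, hc⟩ := conj_ell C.h H₁ H₂ hit₁ hit₂ f₁ f₂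
  have key : ∀ P : GS (Cfsg.quadFormPlus m F), P ∈ GLS (Cfsg.quadFormPlus m F) →
      (∀ x, (P : Equiv.Perm (Fin m ⊕ Fin m → F)) ((T₁ : Equiv.Perm (Fin m ⊕ Fin m → F)) x) =
        (T₂ : Equiv.Perm (Fin m ⊕ Fin m → F)) ((P : Equiv.Perm (Fin m ⊕ Fin m → F)) x)) →
      parS (Q₀ := plusForm m F) m P (U0 m F) = 0 →
      ∃ P : GS (Cfsg.quadFormPlus m F), Th C.h C.nd P ∈ Cfsg.inndiagPOmegaPlus m F ∧
        Th C.h C.nd T₂ = Th C.h C.nd P * Th C.h C.nd T₁ * (Th C.h C.nd P)⁻¹ := by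
    intro P hP hi hp
    refine ⟨P, (mem_inndiag_plus_iff C hP).2 hp, ?_⟩
    have e : P * T₁ = T₂ * P := by
      apply Subtype.ext
      apply Equiv.ext
      intro x
      exact hi x
    rw [← map_mul, e, map_mul]
    group
  have hdim := card_sum m
  have hQ := plus_nondeg' (F := F) m
  have hU := U0_mts (F := F) m
  by_cases hp : parS (Q₀ := plusForm m F) m P₀ (U0 m F) = 0
  · exact key P₀ hP₀ hc hp
  · obtain ⟨w, hw, hQw⟩ := exists_fixed_ne C.h C.nd H₁ hit₁ ⟨Sum.inl ⟨0, hm⟩⟩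
    refine key (P₀ * ofO (R C.h w hQw)) (Subgroup.mul_mem _ hP₀ ⟨1, isSemi_permO _⟩) ?_ ?_
    · intro x
      change (P₀ : Equiv.Perm (Fin m ⊕ Fin m → F)) (act (R C.h w hQw) ((T₁ : Equiv.Perm (Fin m ⊕ Fin m → F)) x)) =
        (T₂ : Equiv.Perm (Fin m ⊕ Fin m → F)) ((P₀ : Equiv.Perm (Fin m ⊕ Fin m → F)) (act (R C.h w hQw) x))
      rw [R_comm C.h H₁ hw hQw, hc]
    · obtain ⟨Pp, hPp⟩ : ∃ Pp : GS (Cfsg.quadFormPlus m F) → ℕ, ∀ T, Pp T = parS (Q₀ := plusForm m F) m T (U0 m F) := ⟨_, fun _ => rfl⟩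
      have p1 : (Pp (P₀ * ofO (R C.h w hQw)) + Pp P₀ + Pp (ofO (R C.h w hQw))) % 2 = 0 := by
        simp only [hPp]
        exact parS_mul hdim hQ P₀ (ofO (R C.h w hQw)) hU
      have p2 : Pp (ofO (R C.h w hQw)) = 1 := by
        rw [hPp]
        exact par_refl hdim hQ C.h hQw hU
      have p3 : Pp P₀ ≠ 0 := by
        rw [hPp]
        exact hp
      have hlt : ∀ T, Pp T < 2 := fun T => by
        rw [hPp]
        exact parS_lt hdim hQ T (U0 m F)
      have p4 := hlt P₀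
      have p5 := hlt (P₀ * ofO (R C.h w hQw))
      have hgoal : Pp (P₀ * ofO (R C.h w hQw)) = 0 := by omega
      rw [hPp] at hgoal
      exact hgoal

/-- the Cartan condition on the reflections -/
lemma plus_hRS (hm : 3 ≤ m) (h : QF (Cfsg.quadFormPlus m F) (polarPlus m F)) :
    RS h (⊤ : Submodule F (Fin m ⊕ Fin m → F)) = ⊤ := by
  obtain ⟨m', rfl⟩ : ∃ m', m = m' + 1 + 1 := ⟨m - 2, by omega⟩
  exact RS_eq_top h (ndPlus _) (by simp only [Fintype.card_sum, Fintype.card_fin]; omega) (framePlus_HF _) (framePlus_anis _)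

/-- the parity of a word -/
lemma par_word_plus (C : Cx (Cfsg.quadFormPlus m F) (polarPlus m F) t₀) (l : List (Fin m ⊕ Fin m → F))
    (hl : ∀ v ∈ l, Cfsg.quadFormPlus m F v ≠ 0) (s : OG F (Cfsg.quadFormPlus m F))
    (hs : ((s : GL (Fin m ⊕ Fin m) F) : Matrix (Fin m ⊕ Fin m) (Fin m ⊕ Fin m) F) = prodR (Cfsg.quadFormPlus m F) l) :
    parS (Q₀ := plusForm m F) m (ofO s : GS (Cfsg.quadFormPlus m F)) (U0 m F) = l.length % 2 := by
  have e := par_word (Q₀ := plusForm m F) (ι' := Fin m ⊕ Fin m) (card_sum m) (plus_nondeg' m) (U0_mts m) C.h C.h (plusForm m F) rfl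
    (LinearEquiv.refl F _) (fun v => rfl) l hl s hs
  rw [← e]
  congr 1

/-- the inner automorphisms lie in the inner-diagonal group -/
theorem inn_le_inndiag_plus (hm : 3 ≤ m) :
    Cfsg.Inn (Cfsg.POmega F (Cfsg.quadFormPlus m F)) ≤ Cfsg.inndiagPOmegaPlus m F := by
  classical
  obtain ⟨t₀, C⟩ := plus_ctx (F := F) hm
  rintro _ ⟨z, rfl⟩
  obtain ⟨t, rfl⟩ := QuotientGroup.mk_surjective z
  obtain ⟨l, hl, hsl⟩ := exists_list_og (plusForm m F) rfl C.h (plus_hRS hm C.h) (t : OG F (Cfsg.quadFormPlus m F))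
  have htS : (t : OG F (Cfsg.quadFormPlus m F)) ∈ SS C.h := by
    rw [← C.hΩ]
    exact t.2
  have hev := even_of_word_SS C (plusForm m F) rfl l hl _ hsl htS
  change MulAut.conj (QuotientGroup.mk t : Cfsg.POmega F (Cfsg.quadFormPlus m F)) ∈ _
  rw [conj_mk_eq C, ← Th_ofO C.h C.nd]
  rw [mem_inndiag_plus_iff C ⟨1, isSemi_permO _⟩, par_word_plus C l hl _ hsl]
  exact Nat.even_iff.1 hev

/-- in characteristic two the inner-diagonal group is the inner group -/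
theorem inndiag_plus_two (hm : 3 ≤ m) (h2 : (2 : F) = 0) :
    Cfsg.inndiagPOmegaPlus m F = Cfsg.Inn (Cfsg.POmega F (Cfsg.quadFormPlus m F)) := by
  classical
  apply le_antisymm _ (inn_le_inndiag_plus hm)
  obtain ⟨t₀, C⟩ := plus_ctx (F := F) hm
  intro β hβ
  rw [inndiag_plus_eq C] at hβ
  obtain ⟨T, ⟨⟨κ, HT⟩, hT⟩, rfl⟩ := hβ
  have hsq : IsSquare κ := FiniteField.isSquare_of_char_two (CharP.ringChar_of_prime_eq_zero Nat.prime_two (by exact_mod_cast h2)) κ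
  obtain ⟨μ, s, hμ, hs⟩ := exists_act_of_sq C HT hsq
  obtain ⟨l, hl, hsl⟩ := exists_list_og (plusForm m F) rfl C.h (plus_hRS hm C.h) s
  have eT : Th C.h C.nd T = cc (Cfsg.quadFormPlus m F) s := C.Th_of_scalar hμ hs
  rw [eT]
  have hpar : parS (Q₀ := plusForm m F) m (ofO s : GS (Cfsg.quadFormPlus m F)) (U0 m F) = 0 := by
    have e1 := par_congr (Q₀ := plusForm m F) C (card_sum m) (plus_nondeg' m) (U0_mts m) (T := T) (T' := ofO s) (eT.trans (Th_ofO C.h C.nd s).symm)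
    exact e1.symm.trans hT
  have hpar2 : l.length % 2 = 0 := (par_word_plus C l hl s hsl).symm.trans hpar
  exact (cc_inn_two h2 C (plusForm m F) rfl (plus_nondeg' m) (card_sum m) (card_or hm) l hl s hsl).2 (Nat.even_iff.2 hpar2)

/-- the index of the inner group when `q ≡ 1 mod 4` -/
theorem index_inn_plus (hq : Odd (Fintype.card F)) (hq4 : Fintype.card F % 4 = 1) (hm : 3 ≤ m) :
    ((Cfsg.Inn (Cfsg.POmega F (Cfsg.quadFormPlus m F))).subgroupOf (Cfsg.inndiagPOmegaPlus m F)).index = 4 := by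
  obtain ⟨-, h1, h2⟩ := inndiag_plus_final hq hm
  rcases Nat.even_or_odd m with he | ho
  · obtain ⟨φ, hs, hk⟩ := h2 he
    rw [← hk, Subgroup.index_ker, MonoidHom.range_eq_top.2 hs, Nat.card_congr Subgroup.topEquiv.toEquiv]
    change Nat.card (ZMod 2 × ZMod 2) = 4
    rw [Nat.card_prod, Nat.card_zmod]
  · obtain ⟨φ, hs, hk⟩ := h1 ⟨ho, hq4⟩
    rw [← hk, Subgroup.index_ker, MonoidHom.range_eq_top.2 hs, Nat.card_congr Subgroup.topEquiv.toEquiv]
    change Nat.card (ZMod 4) = 4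
    rw [Nat.card_zmod]

/-- the scalar `-1` lies in `Ω` when `q ≡ 1 mod 4` -/
theorem neg_plus_mem (hq : Odd (Fintype.card F)) (hq4 : Fintype.card F % 4 = 1) (hm : 3 ≤ m)
    (h : QF (Cfsg.quadFormPlus m F) (polarPlus m F)) : negO h ∈ Cfsg.Omega F (Cfsg.quadFormPlus m F) := by
  obtain ⟨m', rfl⟩ : ∃ m', m = m' + 1 + 1 := ⟨m - 2, by omega⟩
  have hm' : 1 ≤ m' := by omega
  obtain ⟨C, a₁, a₂, Qa₁, Qa₂, D, ν₀, s₀, k, X, hP⟩ := pd_plus hq m' hm'
  have hnP := hP.trans (four_dvd_sub_iff hq (m' + 1 + 1))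
  have e : negO C.h ∈ SS C.h := hnP.2 (fun ⟨_, e⟩ => by omega)
  rw [← C.hΩ] at e
  exact e

end Plus

end Cfsg.Agent.Lead.LangOm
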