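import Cfsg.Agent.Lib.Lead.LangPSU4
import Cfsg.Agent.Lib.Lead.LangPSL3
import Cfsg.Agent.Lib.Lead.LangFm5
import Cfsg.Agent.Lib.Lead.LangFm6
/-! Graph automorphisms of `PSU_n`: descent to forms over the subfield. -/
set_option autoImplicit false
set_option linter.style.haveILetI false
set_option linter.unusedSimpArgs false
set_option linter.unusedSectionVars false
set_option linter.unusedVariables false
set_option linter.deprecated false
namespace Cfsg.Agent.Lead.GUF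
open Matrix Cfsg.Agent.Lead Cfsg.Agent.Lead.PSU Cfsg.Agent.Lead.AutPSU Cfsg.Agent.Lead.Lang
open scoped MatrixGroups

section Group
variable {G : Type*} [Group G]

lemma cen_mul₁ {z₁ z₂ a b c d : G} (h₂ : ∀ h, z₂ * h = h * z₂) :
    (z₁ * a * b * c⁻¹) * (z₂ * c * d⁻¹) = z₁ * z₂ * (a * b * d⁻¹) := by
  have h : c⁻¹ * (z₂ * c) = z₂ := by rw [h₂, inv_mul_cancel_left]
  calc (z₁ * a * b * c⁻¹) * (z₂ * c * d⁻¹) = z₁ * a * b * (c⁻¹ * (z₂ * c)) * d⁻¹ := by group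
    _ = z₁ * (a * b * z₂) * d⁻¹ := by rw [h]; group
    _ = z₁ * (z₂ * (a * b)) * d⁻¹ := by rw [h₂ (a * b)]
    _ = _ := by group

lemma cen_mul₂ {z₁ z₂ a b c d : G} (h₂ : ∀ h, z₂ * h = h * z₂) :
    (z₁ * a * c⁻¹) * (z₂ * c * b * d⁻¹) = z₁ * z₂ * (a * b * d⁻¹) := by
  have h : c⁻¹ * (z₂ * c) = z₂ := by rw [h₂, inv_mul_cancel_left]
  calc (z₁ * a * c⁻¹) * (z₂ * c * b * d⁻¹) = z₁ * a * (c⁻¹ * (z₂ * c)) * b * d⁻¹ := by group
    _ = z₁ * (a * z₂) * b * d⁻¹ := by rw [h]; group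
    _ = z₁ * (z₂ * a) * b * d⁻¹ := by rw [h₂ a]
    _ = _ := by group

lemma cen_mul₃ {z₁ z₂ z₃ Z k a a' b b' s : G} (h₁ : ∀ h, z₁ * h = h * z₁) (hZ : ∀ h, Z * h = h * Z) (hZ' : z₁ * Z = z₂ * z₃)
    (h : k * (z₁ * a * b⁻¹) = z₂ * ((z₃ * a' * b'⁻¹) * s)) : a'⁻¹ * k * a = Z * (b'⁻¹ * s * b) := by
  have e1 : k * (z₁ * a * b⁻¹) = z₁ * (k * a * b⁻¹) := by
    calc k * (z₁ * a * b⁻¹) = (k * z₁) * a * b⁻¹ := by group
      _ = (z₁ * k) * a * b⁻¹ := by rw [h₁ k]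
      _ = _ := by group
  have e2 : z₂ * ((z₃ * a' * b'⁻¹) * s) = z₂ * z₃ * (a' * b'⁻¹ * s) := by group
  rw [e1, e2, ← hZ', mul_assoc z₁] at h
  have e3 : k * a * b⁻¹ = Z * (a' * b'⁻¹ * s) := mul_left_cancel h
  have e4 : k * a = Z * (a' * b'⁻¹ * s) * b := by
    rw [← e3]
    group
  calc a'⁻¹ * k * a = a'⁻¹ * (k * a) := by group
    _ = a'⁻¹ * (Z * (a' * b'⁻¹ * s) * b) := by rw [e4]
    _ = a'⁻¹ * ((a' * b'⁻¹ * s) * Z) * b := by rw [hZ (a' * b'⁻¹ * s)]; group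
    _ = (b'⁻¹ * s) * Z * b := by group
    _ = Z * (b'⁻¹ * s) * b := by rw [hZ (b'⁻¹ * s)]
    _ = _ := by group

lemma cen_mul₄ {z₁ z₂ a p₁ p₂ : G} (h₂ : ∀ h, z₂ * h = h * z₂) :
    (z₁ * a * p₁ * a⁻¹) * (z₂ * a * p₂ * a⁻¹) = z₁ * z₂ * a * (p₁ * p₂) * a⁻¹ := by
  have h : a⁻¹ * (z₂ * a) = z₂ := by rw [h₂, inv_mul_cancel_left]
  calc (z₁ * a * p₁ * a⁻¹) * (z₂ * a * p₂ * a⁻¹) = z₁ * a * p₁ * (a⁻¹ * (z₂ * a)) * p₂ * a⁻¹ := by group
    _ = z₁ * (a * p₁ * z₂) * p₂ * a⁻¹ := by rw [h]; group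
    _ = z₁ * (z₂ * (a * p₁)) * p₂ * a⁻¹ := by rw [h₂ (a * p₁)]
    _ = _ := by group

end Group

variable {F : Type*} [Field F] {n : ℕ} {F₀ : Type*} [Field F₀]

section Mat
variable {σ : F ≃+* F}

omit [Field F₀] in
lemma map_smul' {ι : Type*} (t : F) (X : Matrix ι ι F) : (t • X).map σ = σ t • X.map σ := by
  ext i j
  simp

/-- the basic identity for the unitary condition -/
lemma key_mat (hσm : ∀ x, σ (σ x) = x) (t : F) (B A' m : Matrix (Fin n) (Fin n) F) (hm : m.map σ = m) :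
    (t • (B * m * A'))ᵀ * ((t • (B * m * A')).map σ) = (t * σ t) • (A'ᵀ * (mᵀ * (Bᵀ * B.map σ) * m) * A'.map σ) := by
  rw [map_smul', Matrix.transpose_smul, Matrix.map_mul, Matrix.map_mul, hm, Matrix.transpose_mul, Matrix.transpose_mul, smul_mul_smul_comm]
  congr 1
  simp only [Matrix.mul_assoc]

end Mat

section Core
variable [Fintype F] {q : ℕ} {σ : F ≃+* F}

local notation "PG" => (Cfsg.SU n F q ⧸ Subgroup.center (Cfsg.SU n F q))

lemma sig2 (hord : orderOf σ = 2) (a : F) : σ (σ a) = a := by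
  have h := pow_orderOf_eq_one σ
  rw [hord, pow_two] at h
  exact DFunLike.congr_fun h a

lemma exists_nm (hord : orderOf σ = 2) {l : F} (hl0 : l ≠ 0) (hl : σ l = l) : ∃ t : Fˣ, (t : F) * σ t = l := by
  obtain ⟨μ, hμ, e⟩ := norm_surj σ hl0 hl
  rw [hord] at e
  simp only [Finset.prod_range_succ, Finset.prod_range_zero, one_mul, pow_zero, pow_one] at e
  exact ⟨Units.mk0 μ hμ, e⟩

lemma exists_h90 (hord : orderOf σ = 2) {ν : F} (hν : ν * σ ν = 1) : ∃ t : Fˣ, ν * σ t = t := by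
  obtain ⟨x, hx, e⟩ := h90_scalar σ (by omega) ν (by
    rw [hord]
    simp only [Finset.prod_range_succ, Finset.prod_range_zero, one_mul, pow_zero, pow_one]
    exact hν)
  exact ⟨Units.mk0 x hx, e⟩

/-- the group of `F₀`-rational matrices -/
noncomputable abbrev em (ε : F₀ →+* F) : GL (Fin n) F₀ →* GL (Fin n) F := Matrix.GeneralLinearGroup.map ε

lemma em_val (ε : F₀ →+* F) (P : GL (Fin n) F₀) : (em ε P).val = P.val.map ε := rfl

variable {ε : F₀ →+* F} (hε : ∀ a, σ a = a ↔ a ∈ Set.range ε)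
include hε

lemma gm_em (P : GL (Fin n) F₀) : gm σ (em ε P) = em ε P := by
  apply Units.ext
  ext i j
  exact (hε _).2 ⟨_, rfl⟩

/-- a fixed invertible matrix is rational -/
lemma exists_descend (Y : GL (Fin n) F) (h : gm σ Y = Y) : ∃ P : GL (Fin n) F₀, em ε P = Y := by
  have h1 : ∀ i j, (Y : Matrix (Fin n) (Fin n) F) i j ∈ Set.range ε := by
    intro i j
    rw [← hε]
    have := congrArg (fun W : GL (Fin n) F => (W : Matrix (Fin n) (Fin n) F) i j) h
    exact this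
  have h2 : ∀ i j, ((Y⁻¹ : GL (Fin n) F) : Matrix (Fin n) (Fin n) F) i j ∈ Set.range ε := by
    intro i j
    rw [← hε]
    have h3 : gm σ Y⁻¹ = Y⁻¹ := by rw [map_inv, h]
    have := congrArg (fun W : GL (Fin n) F => (W : Matrix (Fin n) (Fin n) F) i j) h3
    exact this
  choose M hM using h1
  choose N hN using h2
  have hM' : (Matrix.of M).map ε = (Y : Matrix (Fin n) (Fin n) F) := by
    ext i j
    exact hM i j
  have hN' : (Matrix.of N).map ε = ((Y⁻¹ : GL (Fin n) F) : Matrix (Fin n) (Fin n) F) := by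
    ext i j
    exact hN i j
  have hinj : Function.Injective (fun A : Matrix (Fin n) (Fin n) F₀ => A.map ε) :=
    Matrix.map_injective ε.injective
  have h1' : (Matrix.of M) * (Matrix.of N) = 1 := by
    apply hinj
    change ((Matrix.of M) * (Matrix.of N)).map ε = (1 : Matrix (Fin n) (Fin n) F₀).map ε
    rw [Matrix.map_mul, hM', hN', ← Units.val_mul, mul_inv_cancel, Units.val_one]
    ext i j
    by_cases hij : i = j
    · subst hij; simp
    · simp [Matrix.one_apply, hij]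
  have h2' : (Matrix.of N) * (Matrix.of M) = 1 := mul_eq_one_comm.mp h1'
  exact ⟨⟨Matrix.of M, Matrix.of N, h1', h2'⟩, Units.ext hM'⟩

end Core

section Data
variable [Fintype F] {q : ℕ} {σ : F ≃+* F}

local notation "PG" => (Cfsg.SU n F q ⧸ Subgroup.center (Cfsg.SU n F q))

/-- descent data of a unitary matrix -/
structure DD (σ : F ≃+* F) (ε : F₀ →+* F) (g a : GL (Fin n) F) (G₀ : GL (Fin n) F₀) (ρ κ : Fˣ) : Prop where
  d1 : g * gm σ a = sc κ * a
  d2 : (a.val)ᵀ * a.val.map σ = (ρ : F) • G₀.val.map ε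

variable {ε : F₀ →+* F}

lemma unit_iff (hσq : ∀ a, σ a = a ^ q) (hord : orderOf σ = 2) (g : GL (Fin n) F) :
    g ∈ Cfsg.GU n F q ↔ (g.val)ᵀ * g.val.map σ = 1 := by
  rw [mem_GU_iff hσq]
  constructor
  · intro h
    have h2 := congrArg Matrix.transpose (mul_eq_one_comm.mp h)
    rw [Matrix.transpose_mul, Matrix.transpose_transpose, Matrix.transpose_one] at h2
    exact h2
  · intro h
    have h2 := congrArg Matrix.transpose h
    rw [Matrix.transpose_mul, Matrix.transpose_transpose, Matrix.transpose_one] at h2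
    exact mul_eq_one_comm.mp h2

lemma kkU_congr {x y : Cfsg.GU n F q} {ν : Fˣ} (h : x.1 = sc ν * y.1) : (kkU x : MulAut PG) = kkU y := by
  have h1 : ((x * y⁻¹).1 : Matrix (Fin n) (Fin n) F) = (ν : F) • 1 := by
    have : (x * y⁻¹).1 = sc ν := by
      change x.1 * (y.1)⁻¹ = _
      rw [h, mul_inv_cancel_right]
    rw [this, sc_coe]
  have h2 := kkU_of_scalar (q := q) (g := x * y⁻¹) h1
  rw [map_mul, map_inv] at h2
  exact mul_inv_eq_one.1 h2

lemma inv_sand (hσm : ∀ x, σ (σ x) = x) (a : GL (Fin n) F) :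
    ((a⁻¹ : GL (Fin n) F).val)ᵀ * ((a.val)ᵀ * a.val.map σ) * (a⁻¹ : GL (Fin n) F).val.map σ = 1 := by
  have e1 : ((a⁻¹ : GL (Fin n) F).val)ᵀ * (a.val)ᵀ = 1 := by
    rw [← Matrix.transpose_mul, ← Units.val_mul, mul_inv_cancel, Units.val_one, Matrix.transpose_one]
  have e2 : a.val.map σ * (a⁻¹ : GL (Fin n) F).val.map σ = 1 := by
    have : (gm σ a).val * (gm σ a⁻¹).val = 1 := by
      rw [← Units.val_mul, ← map_mul, mul_inv_cancel, map_one, Units.val_one]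
    exact this
  rw [← Matrix.mul_assoc, e1, Matrix.one_mul, e2]

/-- a rational congruence -/
lemma em_form (P G' : GL (Fin n) F₀) {G : Matrix (Fin n) (Fin n) F₀} {c : F₀} (hP : (P.val)ᵀ * G'.val * P.val = c • G) :
    ((em ε P).val)ᵀ * G'.val.map ε * (em ε P).val = ε c • G.map ε := by
  have e2 : ((P.val)ᵀ * G'.val * P.val).map ε = (c • G).map ε := by rw [hP]
  rw [Matrix.map_mul, Matrix.map_mul] at e2
  have e4 : (c • G).map ε = ε c • G.map ε := by
    ext i j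
    simp
  rw [e4] at e2
  exact e2

lemma sc_em (u : F₀ˣ) : em ε (sc u : GL (Fin n) F₀) = sc (Units.map (ε : F₀ →* F) u) := by
  apply Units.ext
  rw [em_val, sc_coe, sc_coe]
  ext i j
  by_cases h : i = j
  · subst h
    simp
  · simp [h]

variable (hF : Fintype.card F = q ^ 2) (hσq : ∀ a, σ a = a ^ q) (hord : orderOf σ = 2) (hε : ∀ a, σ a = a ↔ a ∈ Set.range ε)
include hF hσq hord hε

/-- lifting a similarity of forms to a unitary matrix -/
lemma lift_k {g g' a a' : GL (Fin n) F} {G₀ G₀' : GL (Fin n) F₀} {ρ κ ρ' κ' : Fˣ} (hD : DD σ ε g a G₀ ρ κ) (hD' : DD σ ε g' a' G₀' ρ' κ')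
    (P : GL (Fin n) F₀) (c : F₀) (hP : (P.val)ᵀ * G₀'.val * P.val = c • G₀.val) (t : Fˣ) (ht : (t : F) * σ t * ρ' * ε c = ρ) :
    sc t * a' * em ε P * a⁻¹ ∈ Cfsg.GU n F q ∧ ∃ ν : Fˣ, (sc t * a' * em ε P * a⁻¹) * g = sc ν * (g' * gm σ (sc t * a' * em ε P * a⁻¹)) := by
  have hs2 := sig2 hord
  have hm : (em ε P).val.map σ = (em ε P).val := congrArg Units.val (gm_em hε P)
  have hval : (sc t * a' * em ε P * a⁻¹ : GL (Fin n) F).val = (t : F) • (a'.val * (em ε P).val * (a⁻¹ : GL (Fin n) F).val) := by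
    simp only [Units.val_mul, sc_coe, smul_mul_assoc, one_mul]
  constructor
  · rw [unit_iff hσq hord, hval, key_mat hs2 _ _ _ _ hm, hD'.d2]
    have e1 : ((em ε P).val)ᵀ * ((ρ' : F) • G₀'.val.map ε) * (em ε P).val = ((ρ' : F) * ε c) • G₀.val.map ε := by
      rw [Matrix.mul_smul, smul_mul_assoc, em_form P G₀' hP, smul_smul]
    rw [e1, Matrix.mul_smul, smul_mul_assoc, smul_smul]
    have e2 : (t : F) * σ t * ((ρ' : F) * ε c) = ρ := by
      rw [← ht]
      ring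
    rw [e2, ← smul_mul_assoc, ← Matrix.mul_smul, ← hD.d2]
    exact inv_sand hs2 a
  · have hg : g = sc κ * a * (gm σ a)⁻¹ := eq_mul_inv_of_mul_eq hD.d1
    have hg' : g' = sc κ' * a' * (gm σ a')⁻¹ := eq_mul_inv_of_mul_eq hD'.d1
    have hs : gm σ (sc t * a' * em ε P * a⁻¹) = sc (Units.map (σ : F →* F) t) * gm σ a' * em ε P * (gm σ a)⁻¹ := by
      rw [map_mul, map_mul, map_mul, gm_sc, gm_em hε, map_inv]
    have e1 : (sc t * a' * em ε P * a⁻¹) * g = sc t * sc κ * (a' * em ε P * (gm σ a)⁻¹) := by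
      rw [hg]
      exact cen_mul₁ (fun h => sc_comm κ h)
    have e2 : g' * gm σ (sc t * a' * em ε P * a⁻¹) = sc κ' * sc (Units.map (σ : F →* F) t) * (a' * em ε P * (gm σ a)⁻¹) := by
      rw [hs, hg']
      exact cen_mul₂ (fun h => sc_comm _ h)
    refine ⟨t * κ * (κ' * Units.map (σ : F →* F) t)⁻¹, ?_⟩
    have e3 : sc (t * κ * (κ' * Units.map (σ : F →* F) t)⁻¹) * (sc κ' * sc (Units.map (σ : F →* F) t)) = (sc t * sc κ : GL (Fin n) F) := by
      rw [← map_mul, ← map_mul, ← map_mul]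
      congr 1
      group
    rw [e1, e2, ← e3]
    simp only [mul_assoc]

/-- descending a unitary matrix to a rational similarity -/
lemma descend_k [Nonempty (Fin n)] {g g' a a' : GL (Fin n) F} {G₀ G₀' : GL (Fin n) F₀} {ρ κ ρ' κ' : Fˣ} (hD : DD σ ε g a G₀ ρ κ)
    (hD' : DD σ ε g' a' G₀' ρ' κ') (k : GL (Fin n) F) (hk : k ∈ Cfsg.GU n F q) {ν : Fˣ} (hν : k * g = sc ν * (g' * gm σ k)) :
    ∃ (t : Fˣ) (P : GL (Fin n) F₀) (c : F₀), c ≠ 0 ∧ k = sc t * a' * em ε P * a⁻¹ ∧ (P.val)ᵀ * G₀'.val * P.val = c • G₀.val ∧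
      (t : F) * σ t * ρ' * ε c = ρ := by
  classical
  have hs2 := sig2 hord
  have hg : g = sc κ * a * (gm σ a)⁻¹ := eq_mul_inv_of_mul_eq hD.d1
  have hg' : g' = sc κ' * a' * (gm σ a')⁻¹ := eq_mul_inv_of_mul_eq hD'.d1
  obtain ⟨ν', hν'⟩ : ∃ ν' : Fˣ, ν' = κ⁻¹ * ν * κ' := ⟨_, rfl⟩
  obtain ⟨X, hXd⟩ : ∃ X : GL (Fin n) F, X = a'⁻¹ * k * a := ⟨_, rfl⟩
  have hgX : gm σ X = (gm σ a')⁻¹ * gm σ k * gm σ a := by
    rw [hXd, map_mul, map_mul, map_inv]
  have hX : X = sc ν' * gm σ X := by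
    rw [hgX, hXd]
    rw [hg, hg'] at hν
    refine cen_mul₃ (fun h => sc_comm κ h) (fun h => sc_comm ν' h) ?_ hν
    rw [← map_mul, ← map_mul, hν']
    congr 1
    group
  have hsig : σ * σ = 1 := by
    have h := pow_orderOf_eq_one σ
    rwa [hord, pow_two] at h
  have hgX2 : gm σ X = sc (Units.map (σ : F →* F) ν') * X := by
    have e := congrArg (gm σ) hX
    rw [map_mul, gm_gm, hsig, gm_one, gm_sc] at e
    exact e
  have hnn : (ν' : F) * σ ν' = 1 := by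
    have e : X = (sc ν' * sc (Units.map (σ : F →* F) ν')) * X := by
      conv_lhs => rw [hX, hgX2]
      group
    have e2 : sc ν' * sc (Units.map (σ : F →* F) ν') = (sc 1 : GL (Fin n) F) := by
      have e9 : (sc 1 : GL (Fin n) F) = 1 := map_one _
      rw [e9]
      exact (mul_eq_right.1 e.symm)
    rw [← map_mul] at e2
    have e3 := sc_inj e2
    have e4 := congrArg Units.val e3
    exact e4
  obtain ⟨t, ht⟩ := exists_h90 hord hnn
  have ht' : t⁻¹ * ν' = (Units.map (σ : F →* F) t)⁻¹ := by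
    have e : ν' * Units.map (σ : F →* F) t = t := Units.ext ht
    rw [inv_mul_eq_iff_eq_mul, eq_mul_inv_iff_mul_eq]
    exact e
  have hY : gm σ (sc t⁻¹ * X) = sc t⁻¹ * X := by
    rw [map_mul, gm_sc, map_inv]
    conv_rhs => rw [hX]
    rw [← mul_assoc, ← map_mul, ht']
  obtain ⟨P, hP⟩ := exists_descend hε _ hY
  have hX2 : X = sc t * em ε P := by
    rw [hP, ← mul_assoc, ← map_mul, mul_inv_cancel, map_one, one_mul]
  have hk2 : k = sc t * a' * em ε P * a⁻¹ := by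
    have e : k = a' * X * a⁻¹ := by
      rw [hXd]
      group
    rw [e, hX2]
    calc a' * (sc t * em ε P) * a⁻¹ = (a' * sc t) * em ε P * a⁻¹ := by group
      _ = (sc t * a') * em ε P * a⁻¹ := by rw [sc_comm t a']
  have hm : (em ε P).val.map σ = (em ε P).val := congrArg Units.val (gm_em hε P)
  have hval : k.val = (t : F) • (a'.val * (em ε P).val * (a⁻¹ : GL (Fin n) F).val) := by
    rw [hk2]
    simp only [Units.val_mul, sc_coe, smul_mul_assoc, one_mul]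
  have hu := (unit_iff hσq hord k).1 hk
  rw [hval, key_mat hs2 _ _ _ _ hm, hD'.d2, Matrix.mul_smul, smul_mul_assoc, Matrix.mul_smul, smul_mul_assoc, smul_smul] at hu
  obtain ⟨V, hV⟩ : ∃ V : Matrix (Fin n) (Fin n) F₀, V = (P.val)ᵀ * G₀'.val * P.val := ⟨_, rfl⟩
  have hVe : ((em ε P).val)ᵀ * G₀'.val.map ε * (em ε P).val = V.map ε := by
    have := em_form (F := F) (ε := ε) (c := 1) (G := V) P G₀' (by rw [one_smul, hV])
    rwa [map_one, one_smul] at this
  rw [hVe] at hu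
  -- multiply by `a` on both sides
  have hu2 : ((t : F) * σ t * ρ') • V.map ε = (ρ : F) • G₀.val.map ε := by
    rw [← hD.d2]
    have e1 : ((a.val)ᵀ * ((a⁻¹ : GL (Fin n) F).val)ᵀ) = 1 := by
      rw [← Matrix.transpose_mul, ← Units.val_mul, inv_mul_cancel, Units.val_one, Matrix.transpose_one]
    have e2 : (a⁻¹ : GL (Fin n) F).val.map σ * a.val.map σ = 1 := by
      have : (gm σ a⁻¹).val * (gm σ a).val = 1 := by
        rw [← Units.val_mul, ← map_mul, inv_mul_cancel, map_one, Units.val_one]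
      exact this
    have e3 := congrArg (fun W => (a.val)ᵀ * W * a.val.map σ) hu
    simp only [Matrix.mul_one] at e3
    rw [← e3, Matrix.mul_smul, smul_mul_assoc]
    congr 1
    calc V.map ε = ((a.val)ᵀ * ((a⁻¹ : GL (Fin n) F).val)ᵀ) * V.map ε * ((a⁻¹ : GL (Fin n) F).val.map σ * a.val.map σ) := by
          rw [e1, e2, Matrix.one_mul, Matrix.mul_one]
      _ = _ := by simp only [Matrix.mul_assoc]
  have hG₀ne : ∃ i j, (G₀.val) i j ≠ 0 := by
    by_contra hcon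
    push Not at hcon
    have h0 : G₀.val = 0 := by
      ext i j
      exact hcon i j
    exact G₀.ne_zero h0
  obtain ⟨i, j, hij⟩ := hG₀ne
  have hu3 := congrFun (congrFun hu2 i) j
  simp only [Matrix.smul_apply, Matrix.map_apply, smul_eq_mul] at hu3
  have hεij : ε (G₀.val i j) ≠ 0 := (map_ne_zero ε).2 hij
  have ht0 : (t : F) * σ t * ρ' ≠ 0 := mul_ne_zero (mul_ne_zero t.ne_zero ((map_ne_zero σ).2 t.ne_zero)) ρ'.ne_zero
  obtain ⟨c, hc⟩ : ∃ c : F₀, c = V i j / G₀.val i j := ⟨_, rfl⟩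
  have hcV : V i j = c * G₀.val i j := by
    rw [hc]
    field_simp
  have hρ : (t : F) * σ t * ρ' * ε c = ρ := by
    apply mul_right_cancel₀ hεij
    rw [mul_assoc, ← map_mul, ← hcV]
    exact hu3
  have hc0 : c ≠ 0 := by
    rintro rfl
    rw [map_zero, mul_zero] at hρ
    exact ρ.ne_zero hρ.symm
  refine ⟨t, P, c, hc0, hk2, ?_, hρ⟩
  rw [← hV]
  apply Matrix.map_injective ε.injective
  have e4 : (c • G₀.val).map ε = ε c • G₀.val.map ε := by
    ext i j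
    simp
  change V.map ε = (c • G₀.val).map ε
  rw [e4]
  apply smul_right_injective _ ht0
  change ((t : F) * σ t * ρ') • V.map ε = ((t : F) * σ t * ρ') • (ε c • G₀.val.map ε)
  rw [hu2, smul_smul, hρ]

omit hσq hord hε in
lemma comm_of {x g g' : Cfsg.GU n F q} {ν : Fˣ} (h : x.1 * g.1 = sc ν * (g'.1 * gm σ x.1)) :
    (kkU x * (kkU g * fldU σ) : MulAut PG) = (kkU g' * fldU σ) * kkU x := by
  have e : (kkU (x * g) : MulAut PG) = kkU (g' * mapGU hF σ x) := kkU_congr (ν := ν) h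
  calc (kkU x * (kkU g * fldU σ) : MulAut PG) = kkU (x * g) * fldU σ := by rw [map_mul, mul_assoc]
    _ = kkU (g' * mapGU hF σ x) * fldU σ := by rw [e]
    _ = kkU g' * (kkU (mapGU hF σ x) * fldU σ) := by rw [map_mul, mul_assoc]
    _ = kkU g' * (fldU σ * kkU x) := by rw [fldU_kkU]
    _ = _ := by rw [mul_assoc]

omit hσq hord hε in
lemma of_comm [Nonempty (Fin n)] (hn3 : 3 ≤ n) {x g g' : Cfsg.GU n F q} (h : (kkU x * (kkU g * fldU σ) : MulAut PG) = (kkU g' * fldU σ) * kkU x) :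
    ∃ ν : Fˣ, x.1 * g.1 = sc ν * (g'.1 * gm σ x.1) := by
  have hn : 0 < n := by omega
  have e : (kkU (x * g) : MulAut PG) = kkU (g' * mapGU hF σ x) := by
    apply mul_right_cancel (b := (fldU σ : MulAut PG))
    calc (kkU (x * g) * fldU σ : MulAut PG) = kkU x * (kkU g * fldU σ) := by rw [map_mul, mul_assoc]
      _ = (kkU g' * fldU σ) * kkU x := h
      _ = kkU g' * (fldU σ * kkU x) := by rw [mul_assoc]
      _ = kkU g' * (kkU (mapGU hF σ x) * fldU σ) := by rw [fldU_kkU]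
      _ = _ := by rw [map_mul, mul_assoc]
  have e1 : (kkU ((g' * mapGU hF σ x)⁻¹ * (x * g)) : MulAut PG) = 1 := by
    rw [map_mul, map_inv, e, inv_mul_cancel]
  have hz := kkU_eq_one hF hn hn3 e1
  obtain ⟨W, hW⟩ : ∃ W : Cfsg.GU n F q, W = (g' * mapGU hF σ x)⁻¹ * (x * g) := ⟨_, rfl⟩
  rw [← hW] at hz
  obtain ⟨z, hzd⟩ : ∃ z, z = (W.1 : Matrix (Fin n) (Fin n) F) ⟨0, hn⟩ ⟨0, hn⟩ := ⟨_, rfl⟩
  rw [← hzd] at hz
  have hz0 : z ≠ 0 := by
    rintro rfl
    rw [zero_smul] at hz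
    exact W.1.ne_zero hz
  refine ⟨Units.mk0 z hz0, ?_⟩
  have e2 : x * g = (g' * mapGU hF σ x) * W := by
    rw [hW]
    group
  have e3 : W.1 = sc (Units.mk0 z hz0) := by
    apply Units.ext
    rw [sc_coe, hz]
    rfl
  have e4 := congrArg Subtype.val e2
  change x.1 * g.1 = (g'.1 * gm σ x.1) * W.1 at e4
  rw [e4, e3, sc_comm]

end Data

end Cfsg.Agent.Lead.GUF
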