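import Cfsg.Agent.Lib.Lead.LangGU1
/-! Graph automorphisms of `PSU_n`: the centralizer as a projective similarity group over the subfield. -/
set_option autoImplicit false
set_option linter.style.haveILetI false
set_option linter.unusedSimpArgs false
set_option linter.unusedSectionVars false
set_option linter.unusedVariables false
set_option linter.deprecated false
namespace Cfsg.Agent.Lead.GUF
open Matrix Cfsg.Agent.Lead Cfsg.Agent.Lead.PSU Cfsg.Agent.Lead.AutPSU Cfsg.Agent.Lead.Lang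
open Cfsg.Agent.Lead.Fm (bf bf_mat mat_ext bf_smul_mat cL cL_mulVec cL_symm_mulVec cL_sc)
open scoped MatrixGroups

variable {F : Type*} [Field F] [Fintype F] {n : ℕ} {F₀ : Type*} [Field F₀] {q : ℕ} {σ : F ≃+* F} {ε : F₀ →+* F}

local notation "PG" => (Cfsg.SU n F q ⧸ Subgroup.center (Cfsg.SU n F q))

lemma scal_factor (t₁ t₂ : Fˣ) (a p : GL (Fin n) F) :
    sc t₁ * a * p * a⁻¹ = sc (t₁ * t₂⁻¹) * (sc t₂ * a * p * a⁻¹) := by
  have e : (sc (t₁ * t₂⁻¹) * sc t₂ : GL (Fin n) F) = sc t₁ := by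
    rw [← map_mul]
    congr 1
    group
  conv_lhs => rw [← e]
  simp only [mul_assoc]

section Theta
variable (hF : Fintype.card F = q ^ 2) (hσq : ∀ a, σ a = a ^ q) (hord : orderOf σ = 2) (hε : ∀ a, σ a = a ↔ a ∈ Set.range ε)
include hF hσq hord hε
variable {ι' : Type} [Fintype ι'] [DecidableEq ι']

set_option maxHeartbeats 2000000 in
/-- the map from similarities to the centralizer -/
theorem theta_hom [Nonempty (Fin n)] (hn3 : 3 ≤ n) {g a : GL (Fin n) F} {G₀ : GL (Fin n) F₀} {ρ κ : Fˣ} (hg : g ∈ Cfsg.GU n F q) (hD : DD σ ε g a G₀ ρ κ)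
    (f' : (ι' → F₀) → (ι' → F₀) → F₀) (L : (ι' → F₀) ≃ₗ[F₀] (Fin n → F₀)) (d : F₀ˣ) (hf : ∀ x y, f' x y = d * bf G₀.val (L x) (L y)) :
    ∃ Θ : Cfsg.Geo.similarityGroup f' →* ↥((kkU : Cfsg.GU n F q →* MulAut PG).range ⊓ Subgroup.centralizer {(kkU ⟨g, hg⟩ * fldU σ : MulAut PG)}),
      Function.Surjective Θ ∧ ∀ x, Θ x = 1 ↔ x.1 ∈ Cfsg.Geo.scalars ι' F₀ := by
  classical
  have hn : 0 < n := by omega
  have hsim : ∀ x : Cfsg.Geo.similarityGroup f', ∃ c : F₀ˣ, ((cL L x.1).val)ᵀ * G₀.val * (cL L x.1).val = (c : F₀) • G₀.val := by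
    rintro ⟨x, c, hc⟩
    refine ⟨c, mat_ext fun u v => ?_⟩
    rw [← bf_mat, bf_smul_mat, cL_mulVec, cL_mulVec]
    have e1 := hf (x.val *ᵥ L.symm u) (x.val *ᵥ L.symm v)
    have e2 := hf (L.symm u) (L.symm v)
    rw [LinearEquiv.apply_symm_apply, LinearEquiv.apply_symm_apply] at e2
    have e3 := hc (L.symm u) (L.symm v)
    rw [e1, e2] at e3
    apply mul_left_cancel₀ d.ne_zero
    rw [e3]
    ring
  have hlift : ∀ x : Cfsg.Geo.similarityGroup f', ∃ (k : Cfsg.GU n F q) (t ν : Fˣ), k.1 = sc t * a * em ε (cL L x.1) * a⁻¹ ∧ k.1 * g = sc ν * (g * gm σ k.1) := by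
    intro x
    obtain ⟨c, hc⟩ := hsim x
    have hl0 : (ε c)⁻¹ ≠ 0 := inv_ne_zero ((map_ne_zero ε).2 c.ne_zero)
    have hl : σ (ε c)⁻¹ = (ε c)⁻¹ := by
      rw [map_inv₀, (hε _).2 ⟨_, rfl⟩]
    obtain ⟨t, ht⟩ := exists_nm hord hl0 hl
    have ht' : (t : F) * σ t * ρ * ε c = ρ := by
      have e0 : ε (c : F₀) ≠ 0 := (map_ne_zero ε).2 c.ne_zero
      rw [ht]
      field_simp
    obtain ⟨h1, ν, h2⟩ := lift_k hF hσq hord hε hD hD (cL L x.1) c hc t ht'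
    exact ⟨⟨_, h1⟩, t, ν, rfl, h2⟩
  choose k t ν hk hν using hlift
  have hcomm : ∀ x, (kkU (k x) * (kkU ⟨g, hg⟩ * fldU σ) : MulAut PG) = (kkU ⟨g, hg⟩ * fldU σ) * kkU (k x) := fun x =>
    comm_of hF (hν x)
  let Θ₀ : Cfsg.Geo.similarityGroup f' → ↥((kkU : Cfsg.GU n F q →* MulAut PG).range ⊓ Subgroup.centralizer {(kkU ⟨g, hg⟩ * fldU σ : MulAut PG)}) :=
    fun x => ⟨kkU (k x), Subgroup.mem_inf.2 ⟨⟨_, rfl⟩, Subgroup.mem_centralizer_singleton_iff.2 (hcomm x)⟩⟩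
  have hmul : ∀ x y, Θ₀ (x * y) = Θ₀ x * Θ₀ y := by
    intro x y
    apply Subtype.ext
    change (kkU (k (x * y)) : MulAut PG) = kkU (k x) * kkU (k y)
    rw [← map_mul]
    apply kkU_congr (ν := t (x * y) * (t x * t y)⁻¹)
    change (k (x * y)).1 = _ * ((k x).1 * (k y).1)
    rw [hk, hk, hk, cen_mul₄ (fun h => sc_comm _ h), ← map_mul]
    have e : (cL L (x * y).1) = cL L x.1 * cL L y.1 := map_mul _ _ _
    rw [e, map_mul]
    exact scal_factor _ _ _ _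
  refine ⟨MonoidHom.mk' Θ₀ hmul, ?_, ?_⟩
  · rintro ⟨_, ⟨⟨k₀, rfl⟩, hz⟩⟩
    have hz' : (kkU k₀ * (kkU ⟨g, hg⟩ * fldU σ) : MulAut PG) = (kkU ⟨g, hg⟩ * fldU σ) * kkU k₀ :=
      Subgroup.mem_centralizer_singleton_iff.1 hz
    obtain ⟨ν₀, hν₀⟩ := of_comm hF hn3 hz'
    obtain ⟨t₀, P, c, hc0, hk₀, hP, hρ⟩ := descend_k hF hσq hord hε hD hD k₀.1 k₀.2 hν₀
    have hmem : (cL L).symm P ∈ Cfsg.Geo.similarityGroup f' := by
      refine ⟨Units.mk0 c hc0, fun u v => ?_⟩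
      rw [cL_symm_mulVec, cL_symm_mulVec, hf, hf, LinearEquiv.apply_symm_apply, LinearEquiv.apply_symm_apply, bf_mat, hP, bf_smul_mat,
        Units.val_mk0]
      ring
    refine ⟨⟨_, hmem⟩, ?_⟩
    apply Subtype.ext
    change (kkU (k ⟨_, hmem⟩) : MulAut PG) = kkU k₀
    apply kkU_congr (ν := t ⟨_, hmem⟩ * t₀⁻¹)
    rw [hk, hk₀]
    have e : cL L (⟨_, hmem⟩ : Cfsg.Geo.similarityGroup f').1 = P := (cL L).apply_symm_apply P
    rw [e]
    exact scal_factor _ _ _ _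
  · intro x
    have e1 : MonoidHom.mk' Θ₀ hmul x = 1 ↔ (kkU (k x) : MulAut PG) = 1 := by
      constructor
      · intro h
        exact congrArg Subtype.val h
      · intro h
        exact Subtype.ext h
    rw [e1]
    constructor
    · intro h
      have hz := kkU_eq_one hF hn hn3 h
      obtain ⟨z, hzd⟩ : ∃ z, z = ((k x).1 : Matrix (Fin n) (Fin n) F) ⟨0, hn⟩ ⟨0, hn⟩ := ⟨_, rfl⟩
      rw [← hzd] at hz
      have hz0 : z ≠ 0 := by
        rintro rfl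
        rw [zero_smul] at hz
        exact (k x).1.ne_zero hz
      have e3 : (k x).1 = sc (Units.mk0 z hz0) := by
        apply Units.ext
        rw [sc_coe, hz]
        rfl
      have e4 : em ε (cL L x.1) = sc ((t x)⁻¹ * Units.mk0 z hz0) := by
        have e5 := hk x
        rw [e3] at e5
        have e6 : em ε (cL L x.1) = (sc (t x))⁻¹ * (a⁻¹ * sc (Units.mk0 z hz0) * a) := by
          rw [e5]
          have e7 : a⁻¹ * (sc (t x) * a * em ε (cL L x.1) * a⁻¹) * a = sc (t x) * em ε (cL L x.1) := by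
            calc a⁻¹ * (sc (t x) * a * em ε (cL L x.1) * a⁻¹) * a = a⁻¹ * (sc (t x) * a) * em ε (cL L x.1) := by group
              _ = a⁻¹ * (a * sc (t x)) * em ε (cL L x.1) := by rw [sc_comm]
              _ = _ := by group
          rw [e7]
          group
        have e7' : a⁻¹ * sc (Units.mk0 z hz0) * a = sc (Units.mk0 z hz0) := by
          rw [mul_assoc, sc_comm, inv_mul_cancel_left]
        rw [e6, e7', ← map_inv, ← map_mul]
      have hval := congrArg Units.val e4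
      rw [em_val, sc_coe] at hval
      obtain ⟨w, hw⟩ : ∃ w : F, w = (((t x)⁻¹ * Units.mk0 z hz0 : Fˣ) : F) := ⟨_, rfl⟩
      rw [← hw] at hval
      obtain ⟨p, hp⟩ : ∃ p : F₀, p = (cL L x.1).val ⟨0, hn⟩ ⟨0, hn⟩ := ⟨_, rfl⟩
      have hwp : w = ε p := by
        have := congrFun (congrFun hval ⟨0, hn⟩) ⟨0, hn⟩
        simp only [Matrix.map_apply, Matrix.smul_apply, Matrix.one_apply_eq, smul_eq_mul, mul_one] at this
        rw [hp, this]
      have hscal : (cL L x.1).val = p • (1 : Matrix (Fin n) (Fin n) F₀) := by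
        ext i j
        apply ε.injective
        have := congrFun (congrFun hval i) j
        simp only [Matrix.map_apply, Matrix.smul_apply, smul_eq_mul] at this
        rw [this, hwp, Matrix.smul_apply, smul_eq_mul, map_mul]
        congr 1
        by_cases hij : i = j
        · subst hij
          simp
        · simp [hij]
      have hp0 : p ≠ 0 := by
        rintro rfl
        rw [zero_smul] at hscal
        exact (cL L x.1).ne_zero hscal
      have e8 : cL L x.1 = sc (Units.mk0 p hp0) := by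
        apply Units.ext
        rw [sc_coe, hscal]
        rfl
      have e9 : x.1 = sc (Units.mk0 p hp0) := by
        apply (cL L).injective
        rw [e8, cL_sc]
      rw [Cfsg.Geo.mem_scalars_iff]
      exact ⟨Units.mk0 p hp0, by rw [e9, sc_coe]⟩
    · intro h
      obtain ⟨c, hc⟩ := (Cfsg.Geo.mem_scalars_iff _).1 h
      have e3 : x.1 = sc c := by
        apply Units.ext
        rw [sc_coe, hc]
      have e4 : (k x).1 = sc (t x * Units.map (ε : F₀ →* F) c) := by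
        rw [hk, e3, cL_sc, sc_em]
        calc sc (t x) * a * sc (Units.map (ε : F₀ →* F) c) * a⁻¹ = sc (t x) * (a * sc (Units.map (ε : F₀ →* F) c)) * a⁻¹ := by
              simp only [mul_assoc]
          _ = sc (t x) * (sc (Units.map (ε : F₀ →* F) c) * a) * a⁻¹ := by rw [sc_comm _ a]
          _ = sc (t x) * sc (Units.map (ε : F₀ →* F) c) := by simp only [mul_assoc, mul_inv_cancel, mul_one]
          _ = _ := (map_mul _ _ _).symm
      apply kkU_of_scalar (z := ((t x * Units.map (ε : F₀ →* F) c : Fˣ) : F))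
      rw [e4, sc_coe]

/-- the centralizer as a projective similarity group -/
theorem cenU_iso [Nonempty (Fin n)] (hn3 : 3 ≤ n) {g a : GL (Fin n) F} {G₀ : GL (Fin n) F₀} {ρ κ : Fˣ} (hg : g ∈ Cfsg.GU n F q) (hD : DD σ ε g a G₀ ρ κ)
    (f' : (ι' → F₀) → (ι' → F₀) → F₀) (L : (ι' → F₀) ≃ₗ[F₀] (Fin n → F₀)) (d : F₀ˣ) (hf : ∀ x y, f' x y = d * bf G₀.val (L x) (L y)) :
    Nonempty (↥((kkU : Cfsg.GU n F q →* MulAut PG).range ⊓ Subgroup.centralizer {(kkU ⟨g, hg⟩ * fldU σ : MulAut PG)}) ≃*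
      Cfsg.projQuot (Cfsg.Geo.similarityGroup f')) := by
  obtain ⟨Θ, hs, hk⟩ := theta_hom hF hσq hord hε hn3 hg hD f' L d hf
  have hker : Θ.ker = (Cfsg.Geo.scalars ι' F₀).subgroupOf (Cfsg.Geo.similarityGroup f') := by
    ext x
    rw [MonoidHom.mem_ker, Subgroup.mem_subgroupOf, hk]
  exact ⟨(QuotientGroup.quotientKerEquivOfSurjective Θ hs).symm.trans (QuotientGroup.quotientMulEquivOfEq hker)⟩

/-- the centralizer as a group of normalised similarities -/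
theorem cenU_K [Nonempty (Fin n)] (hn3 : 3 ≤ n) {g a : GL (Fin n) F} {G₀ : GL (Fin n) F₀} {ρ κ : Fˣ} (hg : g ∈ Cfsg.GU n F q) (hD : DD σ ε g a G₀ ρ κ)
    (f' : (ι' → F₀) → (ι' → F₀) → F₀) (L : (ι' → F₀) ≃ₗ[F₀] (Fin n → F₀)) (d : F₀ˣ) (hf : ∀ x y, f' x y = d * bf G₀.val (L x) (L y))
    {K : Type*} [Group K] (φ : K →* GL ι' F₀)
    (h1 : ∀ k, φ k ∈ Cfsg.Geo.similarityGroup f')
    (h2 : ∀ g ∈ Cfsg.Geo.similarityGroup f', ∃ (u : F₀ˣ) (k : K), (sc u : GL ι' F₀) * g = φ k)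
    (h3 : ∀ k, φ k ∈ Cfsg.Geo.scalars ι' F₀ → k = 1) :
    Nonempty (↥((kkU : Cfsg.GU n F q →* MulAut PG).range ⊓ Subgroup.centralizer {(kkU ⟨g, hg⟩ * fldU σ : MulAut PG)}) ≃* K) := by
  classical
  obtain ⟨Θ, hs, hk⟩ := theta_hom hF hσq hord hε hn3 hg hD f' L d hf
  let Φ : K →* ↥((kkU : Cfsg.GU n F q →* MulAut PG).range ⊓ Subgroup.centralizer {(kkU ⟨g, hg⟩ * fldU σ : MulAut PG)}) :=
    Θ.comp (MonoidHom.codRestrict φ _ h1)
  have hinj : Function.Injective Φ := by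
    rw [injective_iff_map_eq_one]
    intro k hk'
    exact h3 k ((hk _).1 hk')
  have hsurj : Function.Surjective Φ := by
    intro z
    obtain ⟨x, rfl⟩ := hs z
    obtain ⟨u, k', e⟩ := h2 x.1 x.2
    refine ⟨k', ?_⟩
    have hmem : (sc u : GL ι' F₀) ∈ Cfsg.Geo.similarityGroup f' := by
      have : (sc u : GL ι' F₀) = φ k' * x.1⁻¹ := by
        rw [← e, mul_inv_cancel_right]
      rw [this]
      exact Subgroup.mul_mem _ (h1 k') (Subgroup.inv_mem _ x.2)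
    have e2 : (MonoidHom.codRestrict φ _ h1 k' : Cfsg.Geo.similarityGroup f') = ⟨_, hmem⟩ * x := by
      apply Subtype.ext
      exact e.symm
    have e3 : Θ ⟨_, hmem⟩ = 1 := by
      rw [hk, Cfsg.Geo.mem_scalars_iff]
      exact ⟨u, sc_coe u⟩
    change Θ (MonoidHom.codRestrict φ _ h1 k') = _
    rw [e2, map_mul, e3, one_mul]
  exact ⟨(MulEquiv.ofBijective Φ ⟨hinj, hsurj⟩).symm⟩

/-- a similarity of forms gives a conjugacy of automorphisms -/
theorem conj_of_data [Nonempty (Fin n)] {g g' a a' : GL (Fin n) F} {G₀ G₀' : GL (Fin n) F₀} {ρ κ ρ' κ' : Fˣ} (hg : g ∈ Cfsg.GU n F q) (hg' : g' ∈ Cfsg.GU n F q)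
    (hD : DD σ ε g a G₀ ρ κ) (hD' : DD σ ε g' a' G₀' ρ' κ') (P : GL (Fin n) F₀) (c : F₀) (hc : c ≠ 0) (hP : (P.val)ᵀ * G₀'.val * P.val = c • G₀.val)
    (hfix : σ ((ρ : F) / ρ') = (ρ : F) / ρ') :
    ∃ k : Cfsg.GU n F q, (kkU k * (kkU ⟨g, hg⟩ * fldU σ) * (kkU k)⁻¹ : MulAut PG) = kkU ⟨g', hg'⟩ * fldU σ := by
  have hec : ε c ≠ 0 := (map_ne_zero ε).2 hc
  have hl0 : (ρ : F) / ρ' * (ε c)⁻¹ ≠ 0 := mul_ne_zero (div_ne_zero ρ.ne_zero ρ'.ne_zero) (inv_ne_zero hec)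
  have hl : σ ((ρ : F) / ρ' * (ε c)⁻¹) = (ρ : F) / ρ' * (ε c)⁻¹ := by
    rw [map_mul, hfix, map_inv₀, (hε _).2 ⟨_, rfl⟩]
  obtain ⟨t, ht⟩ := exists_nm hord hl0 hl
  have ht' : (t : F) * σ t * ρ' * ε c = ρ := by
    rw [ht]
    have := ρ'.ne_zero
    field_simp
  obtain ⟨h1, ν, h2⟩ := lift_k hF hσq hord hε hD hD' P c hP t ht'
  refine ⟨⟨_, h1⟩, ?_⟩
  rw [comm_of hF (x := ⟨_, h1⟩) (g := ⟨g, hg⟩) (g' := ⟨g', hg'⟩) h2, mul_inv_cancel_right]

/-- a conjugacy of automorphisms gives a similarity of forms -/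
theorem data_of_conj [Nonempty (Fin n)] (hn3 : 3 ≤ n) {g g' a a' : GL (Fin n) F} {G₀ G₀' : GL (Fin n) F₀} {ρ κ ρ' κ' : Fˣ} (hg : g ∈ Cfsg.GU n F q) (hg' : g' ∈ Cfsg.GU n F q)
    (hD : DD σ ε g a G₀ ρ κ) (hD' : DD σ ε g' a' G₀' ρ' κ') (k : Cfsg.GU n F q)
    (h : (kkU k * (kkU ⟨g, hg⟩ * fldU σ) * (kkU k)⁻¹ : MulAut PG) = kkU ⟨g', hg'⟩ * fldU σ) :
    ∃ (P : GL (Fin n) F₀) (c : F₀), c ≠ 0 ∧ (P.val)ᵀ * G₀'.val * P.val = c • G₀.val := by
  have h2 : (kkU k * (kkU ⟨g, hg⟩ * fldU σ) : MulAut PG) = (kkU ⟨g', hg'⟩ * fldU σ) * kkU k := by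
    rw [← h, inv_mul_cancel_right]
  obtain ⟨ν, hν⟩ := of_comm hF hn3 h2
  obtain ⟨t, P, c, hc0, -, hP, -⟩ := descend_k hF hσq hord hε hD hD' k.1 k.2 hν
  exact ⟨P, c, hc0, hP⟩

end Theta

end Cfsg.Agent.Lead.GUF
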