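import Cfsg.Agent.Lib.Lead.LangGU2
/-! Graph automorphisms of `PSU_n`: the form attached to an involution. -/
set_option autoImplicit false
set_option linter.style.haveILetI false
set_option linter.unusedSimpArgs false
set_option linter.unusedSectionVars false
set_option linter.unusedVariables false
set_option linter.deprecated false
namespace Cfsg.Agent.Lead.GUF
open Matrix Cfsg.Agent.Lead Cfsg.Agent.Lead.PSU Cfsg.Agent.Lead.AutPSU Cfsg.Agent.Lead.Lang
open Cfsg.Agent.Lead.Fm (bf bf_mat mat_ext bf_smul_mat cL cL_mulVec cL_symm_mulVec cL_sc)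
open scoped MatrixGroups

variable {F : Type*} [Field F] [Fintype F] {n : ℕ} {F₀ : Type*} [Field F₀] {q : ℕ} {σ : F ≃+* F} {ε : F₀ →+* F}

local notation "PG" => (Cfsg.SU n F q ⧸ Subgroup.center (Cfsg.SU n F q))

/-- the `q`-th power automorphism -/
noncomputable def sigQ (hF : Fintype.card F = q ^ 2) : F ≃+* F where
  toFun a := a ^ q
  invFun a := a ^ q
  left_inv := pow_q_sq hF
  right_inv := pow_q_sq hF
  map_mul' a b := mul_pow a b q
  map_add' a b := pow_add_q hF a b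

lemma sigQ_apply (hF : Fintype.card F = q ^ 2) (a : F) : sigQ hF a = a ^ q := rfl

lemma order_two (hF : Fintype.card F = q ^ 2) (hσq : ∀ a, σ a = a ^ q) : orderOf σ = 2 := by
  haveI : Fact (Nat.Prime 2) := ⟨Nat.prime_two⟩
  apply orderOf_eq_prime
  · ext a
    change σ ((σ * 1) a) = a
    change σ (σ a) = a
    rw [hσq, hσq, pow_q_sq hF]
  · intro h
    obtain ⟨w, hw⟩ := exists_not_fixed hF
    apply hw
    rw [← hσq, h]
    rfl

/-- the embedding of the subfield -/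
lemma exists_eps [Fintype F₀] (hF : Fintype.card F = q ^ 2) (hF₀ : Fintype.card F₀ = q) (hσq : ∀ a, σ a = a ^ q) :
    ∃ ε : F₀ →+* F, ∀ a, σ a = a ↔ a ∈ Set.range ε := by
  classical
  obtain ⟨p, -, k, hp, hk⟩ := FiniteField.card' F₀
  haveI : Fact p.Prime := ⟨hp⟩
  have hF' : Fintype.card F = p ^ (2 * (k : ℕ)) := by
    rw [hF, ← hF₀, hk, ← pow_mul, mul_comm]
  obtain ⟨K, hK, hcard⟩ := exists_fixed_field hF' σ (order_two hF hσq) (by norm_num) (by norm_num)
  have h2 : 2 * (k : ℕ) / 2 = k := by omega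
  rw [h2] at hcard
  haveI : Fintype K := Fintype.ofFinite _
  have hc : Fintype.card F₀ = Fintype.card K := by
    rw [hk, ← Nat.card_eq_fintype_card (α := K), hcard]
  let e₀ : F₀ ≃+* K := FiniteField.ringEquivOfCardEq hc
  refine ⟨K.subtype.comp (e₀ : F₀ →+* K), fun a => ?_⟩
  constructor
  · intro ha
    refine ⟨e₀.symm ⟨a, (hK a).mpr ha⟩, ?_⟩
    simp
  · rintro ⟨b, rfl⟩
    exact (hK _).mp (e₀ b).2

section Invol
variable (hF : Fintype.card F = q ^ 2) (hσq : ∀ a, σ a = a ^ q) (hord : orderOf σ = 2) (hε : ∀ a, σ a = a ↔ a ∈ Set.range ε)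
include hF hσq hord hε

lemma inv_eq_of_comm (hord' : orderOf σ = 2) : σ * σ = 1 := by
  have h := pow_orderOf_eq_one σ
  rwa [hord', pow_two] at h

set_option maxHeartbeats 2000000 in
/-- the form attached to an involution -/
lemma data_of_invol [Nonempty (Fin n)] (hn3 : 3 ≤ n) (g : Cfsg.GU n F q)
    (h2 : (kkU g * fldU σ) * (kkU g * fldU σ) = (1 : MulAut PG)) :
    ∃ (a : GL (Fin n) F) (G₀ : GL (Fin n) F₀) (ρ κ : Fˣ), DD σ ε g.1 a G₀ ρ κ ∧
      ((σ ρ = ρ ∧ (G₀.val)ᵀ = G₀.val) ∨ (σ ρ = -(ρ : F) ∧ (G₀.val)ᵀ = -G₀.val)) := by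
  classical
  have hn : 0 < n := by omega
  have hsig : σ * σ = 1 := inv_eq_of_comm hF hσq hord hε hord
  have hs2 := sig2 hord
  have e1 : (kkU (g * mapGU hF σ g) : MulAut PG) = 1 := by
    have e2 : (kkU g * fldU σ) * (kkU g * fldU σ) = (kkU (g * mapGU hF σ g) * fldU (σ * σ) : MulAut PG) := by
      calc (kkU g * fldU σ) * (kkU g * fldU σ) = kkU g * (fldU σ * kkU g) * fldU σ := by group
        _ = kkU g * (kkU (mapGU hF σ g) * fldU σ) * fldU σ := by rw [fldU_kkU]
        _ = _ := by rw [map_mul, map_mul]; group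
    rw [e2, hsig, map_one, mul_one] at h2
    exact h2
  have hz := kkU_eq_one hF hn hn3 e1
  obtain ⟨z, hzd⟩ : ∃ z, z = ((g * mapGU hF σ g).1 : Matrix (Fin n) (Fin n) F) ⟨0, hn⟩ ⟨0, hn⟩ := ⟨_, rfl⟩
  rw [← hzd] at hz
  have hz0 : z ≠ 0 := by
    rintro rfl
    rw [zero_smul] at hz
    exact (g * mapGU hF σ g).1.ne_zero hz
  obtain ⟨zu, hzu⟩ : ∃ zu : Fˣ, (zu : F) = z := ⟨Units.mk0 z hz0, rfl⟩
  obtain ⟨W, hW⟩ : ∃ W : GL (Fin n) F, W = g.1 := ⟨_, rfl⟩
  have hWs : W * gm σ W = sc zu := by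
    apply Units.ext
    rw [sc_coe, hzu, hW]
    exact hz
  -- `σ z = z`
  have hss : gm σ (gm σ W) = W := by
    rw [gm_gm, hsig, gm_one]
  have hWs' : gm σ W * W = sc zu := by
    have : gm σ W = W⁻¹ * sc zu := by rw [← hWs, inv_mul_cancel_left]
    rw [this, mul_assoc, sc_comm, inv_mul_cancel_left]
  have hWs'' : gm σ W * W = sc (Units.map (σ : F →* F) zu) := by
    have := congrArg (gm σ) hWs
    rw [map_mul, hss, gm_sc] at this
    exact this
  have hzf : Units.map (σ : F →* F) zu = zu := by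
    apply sc_inj (ι := Fin n)
    rw [← hWs'', hWs']
  have hzσ : σ z = z := by
    have := congrArg Units.val hzf
    rw [← hzu]
    exact this
  -- the unitary condition
  have hW2 : ((gm σ W).val) = z • ((W⁻¹ : GL (Fin n) F).val) := by
    have : gm σ W = W⁻¹ * sc zu := by rw [← hWs, inv_mul_cancel_left]
    rw [this, Units.val_mul, sc_coe, hzu]
    simp
  have hu := (mem_GU_iff hσq W).1 (by rw [hW]; exact g.2)
  have hu2 : z • W.val * ((W⁻¹ : GL (Fin n) F).val)ᵀ = 1 := by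
    have e3 : ((W.val).map σ)ᵀ = z • ((W⁻¹ : GL (Fin n) F).val)ᵀ := by
      have : (W.val).map σ = (gm σ W).val := rfl
      rw [this, hW2, Matrix.transpose_smul]
    rw [e3, Matrix.mul_smul] at hu
    rw [smul_mul_assoc]
    exact hu
  have hT : (W.val)ᵀ = z • W.val := by
    have e3 : ((W⁻¹ : GL (Fin n) F).val)ᵀ * (W.val)ᵀ = 1 := by
      rw [← Matrix.transpose_mul, ← Units.val_mul, mul_inv_cancel, Units.val_one, Matrix.transpose_one]
    calc (W.val)ᵀ = (z • W.val * ((W⁻¹ : GL (Fin n) F).val)ᵀ) * (W.val)ᵀ := by rw [hu2, Matrix.one_mul]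
      _ = z • W.val * (((W⁻¹ : GL (Fin n) F).val)ᵀ * (W.val)ᵀ) := by rw [Matrix.mul_assoc]
      _ = _ := by rw [e3, Matrix.mul_one]
  have hzz : z * z = 1 := by
    have e3 := congrArg Matrix.transpose hT
    rw [Matrix.transpose_transpose, Matrix.transpose_smul, hT, smul_smul] at e3
    have e4 : (1 - z * z) • W.val = 0 := by
      rw [sub_smul, one_smul, ← e3, sub_self]
    rcases smul_eq_zero.1 e4 with h | h
    · exact (sub_eq_zero.1 h).symm
    · exact (W.ne_zero h).elim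
  -- normalising
  have hzi : σ z⁻¹ = z⁻¹ := by rw [map_inv₀, hzσ]
  obtain ⟨w, hw⟩ := exists_nm hord (inv_ne_zero hz0) hzi
  obtain ⟨g₁, hg₁⟩ : ∃ g₁ : GL (Fin n) F, g₁ = sc w * W := ⟨_, rfl⟩
  have hg₁s : g₁ * gm σ g₁ = 1 := by
    rw [hg₁, map_mul, gm_sc]
    have e3 : sc w * W * (sc (Units.map (σ : F →* F) w) * gm σ W) = sc (w * Units.map (σ : F →* F) w) * (W * gm σ W) := by
      have e5 : sc (w * Units.map (σ : F →* F) w) = (sc w * sc (Units.map (σ : F →* F) w) : GL (Fin n) F) := map_mul _ _ _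
      rw [e5]
      calc sc w * W * (sc (Units.map (σ : F →* F) w) * gm σ W) = sc w * (W * sc (Units.map (σ : F →* F) w)) * gm σ W := by
            simp only [mul_assoc]
        _ = sc w * (sc (Units.map (σ : F →* F) w) * W) * gm σ W := by rw [sc_comm _ W]
        _ = _ := by simp only [mul_assoc]
    rw [e3, hWs, ← map_mul]
    have e4 : w * Units.map (σ : F →* F) w * zu = 1 := by
      apply Units.ext
      change (w : F) * σ w * (zu : F) = 1
      rw [hw, hzu]
      field_simp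
    rw [e4, map_one]
  obtain ⟨a, ha⟩ := h90GL σ (by omega) g₁ (by
    rw [hord, nrm_succ, nrm_succ, nrm_zero, map_one, mul_one]
    exact hg₁s)
  have hd1 : W * gm σ a = sc w⁻¹ * a := by
    have e3 : sc w * (W * gm σ a) = a := by
      rw [← mul_assoc, ← hg₁]
      exact ha
    calc W * gm σ a = sc w⁻¹ * (sc w * (W * gm σ a)) := by
          rw [← mul_assoc, ← map_mul, inv_mul_cancel, map_one, one_mul]
      _ = _ := by rw [e3]
  -- the form
  obtain ⟨M, hM⟩ : ∃ M : Matrix (Fin n) (Fin n) F, M = (a.val)ᵀ * a.val.map σ := ⟨_, rfl⟩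
  have hMσ : M.map σ = Mᵀ := by
    rw [hM, Matrix.map_mul, Matrix.transpose_mul, Matrix.transpose_transpose]
    have e3 : ((a.val)ᵀ).map σ = (a.val.map σ)ᵀ := by
      ext i j
      rfl
    have e4 : (a.val.map σ).map σ = a.val := by
      ext i j
      simp [hs2]
    rw [e3, e4]
  have hσa : gm σ a = g₁⁻¹ * a := by
    calc gm σ a = g₁⁻¹ * (g₁ * gm σ a) := by rw [inv_mul_cancel_left]
      _ = _ := by rw [ha]
  have hg₁T : (g₁.val)ᵀ = z • g₁.val := by
    rw [hg₁, Units.val_mul, sc_coe, smul_mul_assoc, one_mul, Matrix.transpose_smul, hT, smul_smul, smul_smul, mul_comm]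
  have hg₁iT : ((g₁⁻¹ : GL (Fin n) F).val)ᵀ = z • (g₁⁻¹ : GL (Fin n) F).val := by
    have e3 : ((g₁⁻¹ : GL (Fin n) F).val)ᵀ * (g₁.val)ᵀ = 1 := by
      rw [← Matrix.transpose_mul, ← Units.val_mul, mul_inv_cancel, Units.val_one, Matrix.transpose_one]
    rw [hg₁T, Matrix.mul_smul] at e3
    calc ((g₁⁻¹ : GL (Fin n) F).val)ᵀ = (z * z) • ((g₁⁻¹ : GL (Fin n) F).val)ᵀ := by rw [hzz, one_smul]
      _ = z • (z • ((g₁⁻¹ : GL (Fin n) F).val)ᵀ) := by rw [smul_smul]
      _ = z • ((z • (((g₁⁻¹ : GL (Fin n) F).val)ᵀ * g₁.val)) * (g₁⁻¹ : GL (Fin n) F).val) := by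
        rw [smul_mul_assoc, Matrix.mul_assoc, ← Units.val_mul, mul_inv_cancel, Units.val_one, Matrix.mul_one]
      _ = _ := by rw [e3, Matrix.one_mul]
  have hMT : Mᵀ = z • M := by
    have e3 : M = (a.val)ᵀ * ((g₁⁻¹ : GL (Fin n) F).val * a.val) := by
      rw [hM]
      congr 1
      have := congrArg Units.val hσa
      exact this
    rw [e3, Matrix.transpose_mul, Matrix.transpose_mul, Matrix.transpose_transpose, hg₁iT, Matrix.mul_smul, smul_mul_assoc, Matrix.mul_assoc]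
  obtain ⟨ρ, hρ⟩ := exists_h90 hord (ν := z) (by rw [hzσ]; exact hzz)
  -- the invertible matrix
  let tG : GL (Fin n) F := ⟨(a.val)ᵀ, ((a⁻¹ : GL (Fin n) F).val)ᵀ, by
      rw [← Matrix.transpose_mul, ← Units.val_mul, inv_mul_cancel, Units.val_one, Matrix.transpose_one], by
      rw [← Matrix.transpose_mul, ← Units.val_mul, mul_inv_cancel, Units.val_one, Matrix.transpose_one]⟩
  obtain ⟨Y, hY⟩ : ∃ Y : GL (Fin n) F, Y = sc ρ⁻¹ * (tG * gm σ a) := ⟨_, rfl⟩
  have hYv : Y.val = ((ρ⁻¹ : Fˣ) : F) • M := by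
    rw [hY, Units.val_mul, sc_coe, smul_mul_assoc, one_mul, hM]
    rfl
  have hρσ : σ ρ = z * ρ := by
    have e3 : z * (z * σ ρ) = z * ρ := by rw [hρ]
    rw [← mul_assoc, hzz, one_mul] at e3
    exact e3
  have hYf : gm σ Y = Y := by
    apply Units.ext
    rw [gm_coe, hYv, map_smul', hMσ, hMT, smul_smul]
    congr 1
    have hρ0 : (ρ : F) ≠ 0 := ρ.ne_zero
    have e3 : σ (((ρ⁻¹ : Fˣ) : F)) = (z * ρ)⁻¹ := by
      rw [Units.val_inv_eq_inv_val, map_inv₀, hρσ]
    rw [e3, Units.val_inv_eq_inv_val]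
    field_simp
  obtain ⟨G₀, hG₀⟩ := exists_descend hε Y hYf
  have hG₀v : G₀.val.map ε = ((ρ⁻¹ : Fˣ) : F) • M := by
    rw [← hYv, ← hG₀]
    rfl
  refine ⟨a, G₀, ρ, w⁻¹, ⟨by rw [← hW]; exact hd1, ?_⟩, ?_⟩
  · rw [← hM, hG₀v, smul_smul, Units.val_inv_eq_inv_val, mul_inv_cancel₀ ρ.ne_zero, one_smul]
  · have hTε : ((G₀.val)ᵀ).map ε = z • G₀.val.map ε := by
      have e3 : ((G₀.val)ᵀ).map ε = (G₀.val.map ε)ᵀ := by
        ext i j
        rfl
      rw [e3, hG₀v, Matrix.transpose_smul, hMT, smul_comm]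
    have hz1 : z = 1 ∨ z = -1 := by
      have : (z - 1) * (z + 1) = 0 := by linear_combination hzz
      rcases mul_eq_zero.1 this with h | h
      · left
        exact sub_eq_zero.1 h
      · right
        exact eq_neg_of_add_eq_zero_left h
    rcases hz1 with h1 | h1
    · left
      refine ⟨by rw [hρσ, h1, one_mul], ?_⟩
      apply Matrix.map_injective ε.injective
      change ((G₀.val)ᵀ).map ε = G₀.val.map ε
      rw [hTε, h1, one_smul]
    · right
      refine ⟨by rw [hρσ, h1, neg_one_mul], ?_⟩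
      apply Matrix.map_injective ε.injective
      change ((G₀.val)ᵀ).map ε = (-G₀.val).map ε
      rw [hTε, h1, neg_smul, one_smul]
      ext i j
      simp

end Invol

end Cfsg.Agent.Lead.GUF
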