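import Cfsg.Agent.Lib.Lead.LangGU3
/-! Graph automorphisms of `PSU_n`: `n` odd, and the `q`-power map for `4 ∣ n`. -/
set_option autoImplicit false
set_option linter.style.haveILetI false
set_option linter.unusedSimpArgs false
set_option linter.unusedSectionVars false
set_option linter.unusedVariables false
set_option linter.deprecated false
namespace Cfsg.Agent.Lead.GUF
open Matrix Cfsg.Agent.Lead Cfsg.Agent.Lead.PSU Cfsg.Agent.Lead.AutPSU Cfsg.Agent.Lead.Lang Cfsg.Agent.Lead.Ortho Cfsg.Agent.Lead.LangOm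
open Cfsg.Agent.Lead.Fm (bf bf_mat mat_ext bf_smul_mat cL cL_mulVec cL_symm_mulVec cL_sc bf_add_left bf_add_right bf_transpose glOf glOf_mulVec LR
  quadSim_eq odd_coords sym_of_odd exists_orth_coords fT fT_add_left fT_smul_left fT_add_right fT_smul_right fT_nd fT_symm fT_self hh dgSp dg_obligations
  pgo_iso_isom not_alt_odd exists_gram qOf qOf_apply qOf_nondeg isSq_det det_minus minus_mulVec not_sq_disc)
open scoped MatrixGroups

variable {F : Type*} [Field F] [Fintype F] {n : ℕ} {F₀ : Type*} [Field F₀] {q : ℕ} {σ : F ≃+* F} {ε : F₀ →+* F}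

local notation "PG" => (Cfsg.SU n F q ⧸ Subgroup.center (Cfsg.SU n F q))

section
variable [Fintype F₀] {ι' : Type} [Fintype ι'] [DecidableEq ι']

/-- polar form in coordinates -/
lemma polar_of_coords (h2 : (2 : F₀) ≠ 0) (G : GL (Fin n) F₀) (hs : (G.val)ᵀ = G.val) {Q : (ι' → F₀) → F₀} {B : (ι' → F₀) → (ι' → F₀) → F₀} (h : QF Q B)
    (g : (Fin n → F₀) ≃ₗ[F₀] (ι' → F₀)) (hg : ∀ v, bf G.val v v = Q (g v)) (x y : ι' → F₀) :
    B x y = ((Units.mk0 2 h2 : F₀ˣ) : F₀) * bf G.val (g.symm x) (g.symm y) := by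
  rw [Units.val_mk0]
  have e1 := h.add x y
  obtain ⟨u, rfl⟩ := g.surjective x
  obtain ⟨v, rfl⟩ := g.surjective y
  rw [← map_add, ← hg, ← hg, ← hg, bf_add_left, bf_add_right, bf_add_right] at e1
  have e2 : bf G.val v u = bf G.val u v := by
    rw [← bf_transpose, hs]
  rw [e2] at e1
  rw [LinearEquiv.symm_apply_apply, LinearEquiv.symm_apply_apply]
  linear_combination -e1

end

section Setup
variable (hF : Fintype.card F = q ^ 2) (hσq : ∀ a, σ a = a ^ q) (hord : orderOf σ = 2) (hε : ∀ a, σ a = a ↔ a ∈ Set.range ε)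
include hF hσq hord hε

/-- S2710 -/
theorem psu_field_plus [Fintype F₀] (hodd : Odd q) (hF₀ : Fintype.card F₀ = q) {m : ℕ} (hm : 2 ≤ m) (hnm : n = 2 * m) (h4 : 4 ∣ n) :
    Nonempty (↥((kkU : Cfsg.GU n F q →* MulAut PG).range ⊓ Subgroup.centralizer {(fldU σ : MulAut PG)}) ≃* Cfsg.PGO F₀ (Cfsg.quadFormPlus m F₀)) := by
  classical
  have h2 : (2 : F₀) ≠ 0 := two_ne_zero_of_odd hF₀ hodd
  haveI : Nonempty (Fin n) := ⟨⟨0, by omega⟩⟩
  have hD : DD σ ε (1 : GL (Fin n) F) 1 (1 : GL (Fin n) F₀) 1 1 := by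
    constructor
    · have e9 : (sc 1 : GL (Fin n) F) = 1 := map_one _
      rw [map_one, e9]
    · rw [Units.val_one, Units.val_one, Units.val_one, one_smul]
      ext i j
      by_cases hij : i = j
      · subst hij
        simp
      · simp [Matrix.one_apply, hij]
  have e0 : (fldU σ : MulAut PG) = kkU ⟨1, (Cfsg.GU n F q).one_mem⟩ * fldU σ := by
    have : (⟨1, (Cfsg.GU n F q).one_mem⟩ : Cfsg.GU n F q) = 1 := rfl
    rw [this, map_one, one_mul]
  rw [e0]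
  have h1s : ((1 : GL (Fin n) F₀).val)ᵀ = (1 : GL (Fin n) F₀).val := by
    rw [Units.val_one, Matrix.transpose_one]
  have hone : ∀ v : Fin n → F₀, qOf (1 : GL (Fin n) F₀) v = bf (1 : GL (Fin n) F₀).val v v := by
    intro v
    rw [qOf_apply]
  obtain ⟨e₃⟩ : Nonempty (Fin n ≃ ((Fin (m - 1) ⊕ Fin (m - 1)) ⊕ Fin 2)) :=
    ⟨(Fintype.equivFinOfCardEq (by simp only [Fintype.card_sum, Fintype.card_fin]; omega)).symm⟩
  rcases Cfsg.Agent.H11.exists_isometry_standard (m := m) (by omega)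
    (by rw [Module.finrank_fintype_fun_eq_card, Fintype.card_fin, hnm]) (qOf (1 : GL (Fin n) F₀)) (qOf_nondeg h2 1 h1s) with ⟨g, hg⟩ | ⟨g, ζ, hζ, hg⟩
  · obtain ⟨E⟩ := cenU_iso hF hσq hord hε (by omega) (Cfsg.GU n F q).one_mem hD (polarPlus m F₀) g.symm (Units.mk0 2 h2)
      (fun x y => polar_of_coords h2 1 h1s (qfPlus (F := F₀) m) g (fun v => by rw [← hone, hg]) x y)
    have hq : Cfsg.Geo.quadSimilarityGroup (Cfsg.quadFormPlus m F₀) = Cfsg.Geo.similarityGroup (polarPlus m F₀) := quadSim_eq (qfPlus m) h2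
    change Nonempty (_ ≃* Cfsg.projQuot (Cfsg.Geo.quadSimilarityGroup (Cfsg.quadFormPlus m F₀)))
    rw [hq]
    exact ⟨E⟩
  · exfalso
    have h3 := isSq_det h2 e₃ (qfMinus (F := F₀) (m - 1) 1 ζ) _ (minus_mulVec (m - 1) 1 ζ) g (fun v => by
      have := hone v
      rw [Units.val_one] at this
      rw [← this, hg]) ⟨m, by omega⟩
    rw [det_minus] at h3
    have hme : Odd (m - 1) := by
      obtain ⟨c, hc⟩ := h4
      exact ⟨c - 1, by omega⟩
    rw [hme.neg_one_pow] at h3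
    apply not_sq_disc h2 hζ
    obtain ⟨s, hs⟩ := h3
    exact ⟨s, by linear_combination hs⟩

omit hε in
/-- the shape of an involutory graph automorphism -/
lemma graph_form [Nonempty (Fin n)] (hn3 : 3 ≤ n) (γ : MulAut PG) (hγ : Cfsg.IsGraphAutClassPSU γ) (hγ2 : orderOf γ = 2) :
    ∃ g : Cfsg.GU n F q, γ = kkU g * fldU σ ∧ (kkU g * fldU σ) * (kkU g * fldU σ) = (1 : MulAut PG) := by
  classical
  have hn : 0 < n := by omega
  obtain ⟨-, δ, φ, τ, hτe, hδ, hφ, rfl⟩ := hγ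
  obtain ⟨g, rfl⟩ := (isInnerU_iff δ).1 hδ
  obtain rfl := (stdU_iff τ φ).1 hφ
  have h1 : (kkU g * fldU τ : MulAut PG) ^ 2 = 1 := by
    rw [← hγ2]
    exact pow_orderOf_eq_one _
  have h2 : (fldU (τ ^ 2) : MulAut PG) = kkU (nrmU hF τ g 2)⁻¹ := by
    rw [kk_fld_powU hF] at h1
    rw [map_inv]
    exact eq_inv_of_mul_eq_one_right h1
  have h3 := fldU_eq_kkU hF hn hn3 h2
  have h4 : orderOf τ = 2 := by
    have e1 := orderOf_dvd_of_pow_eq_one h3
    rcases (Nat.dvd_prime Nat.prime_two).1 e1 with e2 | e2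
    · rw [e2] at hτe
      exact absurd hτe (by decide)
    · exact e2
  obtain ⟨p, -, k, hp, hk⟩ := FiniteField.card' F
  haveI : Fact p.Prime := ⟨hp⟩
  obtain rfl : τ = σ := invol_unique hk k.pos h4 hord
  refine ⟨g, rfl, ?_⟩
  rw [← pow_two]
  exact h1

end Setup

section Odd
variable [Fintype F₀] {m : ℕ}

/-- similar symmetric forms in odd dimension -/
lemma odd_sim (hnm : n = 2 * m + 1) (G G' : GL (Fin n) F₀) (hs : (G.val)ᵀ = G.val) (hs' : (G'.val)ᵀ = G'.val) :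
    ∃ (P : GL (Fin n) F₀) (c : F₀), c ≠ 0 ∧ (P.val)ᵀ * G'.val * P.val = c • G.val := by
  by_cases h2 : (2 : F₀) = 0
  · haveI : CharP F₀ 2 := CharTwo.of_one_ne_zero_of_two_eq_zero one_ne_zero h2
    have hna : ∀ H : GL (Fin n) F₀, ∃ x, bf H.val x x ≠ 0 := by
      intro H
      by_contra hA
      push Not at hA
      exact not_alt_odd hnm H hA
    obtain ⟨g₁, hg₁⟩ := exists_orth_coords G hs (hna G)
    obtain ⟨g₃, hg₃⟩ := exists_orth_coords G' hs' (hna G')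
    refine ⟨glOf (g₁.trans g₃.symm), 1, one_ne_zero, mat_ext fun x y => ?_⟩
    rw [← bf_mat, glOf_mulVec, glOf_mulVec, LinearEquiv.trans_apply, LinearEquiv.trans_apply, ← hg₃, LinearEquiv.apply_symm_apply,
      LinearEquiv.apply_symm_apply, hg₁, one_smul]
  · obtain ⟨g, u, hg⟩ := odd_coords h2 hnm G hs
    obtain ⟨g', u', hg'⟩ := odd_coords h2 hnm G' hs'
    refine ⟨glOf (g.trans g'.symm), (u : F₀) / u', div_ne_zero u.ne_zero u'.ne_zero, mat_ext fun x y => ?_⟩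
    rw [← bf_mat, glOf_mulVec, glOf_mulVec, LinearEquiv.trans_apply, LinearEquiv.trans_apply, bf_smul_mat]
    have e1 := hg' (g'.symm (g x)) (g'.symm (g y))
    rw [LinearEquiv.apply_symm_apply, LinearEquiv.apply_symm_apply, hg] at e1
    have hu' := u'.ne_zero
    field_simp
    linear_combination -e1

variable (hF : Fintype.card F = q ^ 2) (hσq : ∀ a, σ a = a ^ q) (hord : orderOf σ = 2) (hε : ∀ a, σ a = a ↔ a ∈ Set.range ε)
include hF hσq hord hε

/-- the centralizer, odd dimension -/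
theorem odd_cen [Nonempty (Fin n)] (hn3 : 3 ≤ n) (hnm : n = 2 * m + 1) {g a : GL (Fin n) F} {G₀ : GL (Fin n) F₀} {ρ κ : Fˣ} (hg : g ∈ Cfsg.GU n F q) (hD : DD σ ε g a G₀ ρ κ)
    (hs : (G₀.val)ᵀ = G₀.val) :
    Nonempty (↥((kkU : Cfsg.GU n F q →* MulAut PG).range ⊓ Subgroup.centralizer {(kkU ⟨g, hg⟩ * fldU σ : MulAut PG)}) ≃* Cfsg.PGO F₀ (Cfsg.quadFormOdd m F₀)) := by
  classical
  by_cases h2 : (2 : F₀) = 0
  · haveI : CharP F₀ 2 := CharTwo.of_one_ne_zero_of_two_eq_zero one_ne_zero h2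
    obtain ⟨e⟩ : Nonempty (Fin n ≃ (Unit ⊕ (Fin m ⊕ Fin m))) :=
      ⟨(Fintype.equivFinOfCardEq (by simp only [Fintype.card_sum, Fintype.card_unit, Fintype.card_fin]; omega)).symm⟩
    obtain ⟨G₁, hG₁⟩ := exists_gram (F := F₀) e fT fT_add_left fT_smul_left fT_add_right fT_smul_right fT_nd
    obtain ⟨L, hL⟩ : ∃ L : ((Unit ⊕ (Fin m ⊕ Fin m)) → F₀) ≃ₗ[F₀] (Fin n → F₀), L = LR e := ⟨_, rfl⟩
    rw [← hL] at hG₁
    have hs₁ : (G₁.val)ᵀ = G₁.val := by
      apply mat_ext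
      intro x y
      rw [bf_transpose]
      have e1 := hG₁ (L.symm x) (L.symm y)
      have e2 := hG₁ (L.symm y) (L.symm x)
      rw [LinearEquiv.apply_symm_apply, LinearEquiv.apply_symm_apply] at e1 e2
      rw [← e1, ← e2, fT_symm]
    have hna : ∀ H : GL (Fin n) F₀, ∃ x, bf H.val x x ≠ 0 := by
      intro H
      by_contra hA
      push Not at hA
      exact not_alt_odd hnm H hA
    obtain ⟨g₁, hg₁⟩ := exists_orth_coords G₀ hs (hna G₀)
    obtain ⟨g₃, hg₃⟩ := exists_orth_coords G₁ hs₁ (hna G₁)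
    obtain ⟨E₁⟩ := cenU_K hF hσq hord hε hn3 hg hD fT ((L.trans g₃).trans g₁.symm) 1 (fun x y => by
      rw [Units.val_one, one_mul]
      change fT x y = bf G₀.val (g₁.symm (g₃ (L x))) (g₁.symm (g₃ (L y)))
      rw [← hg₁, LinearEquiv.apply_symm_apply, LinearEquiv.apply_symm_apply, hg₃, hG₁]) dgSp dg_obligations.1 dg_obligations.2.1 dg_obligations.2.2
    obtain ⟨E₂⟩ := Cfsg.Agent.H02.OSp.main (F := F₀) m
    obtain ⟨E₃⟩ := pgo_iso_isom (F := F₀) m
    exact ⟨E₁.trans (E₂.symm.trans E₃.symm)⟩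
  · obtain ⟨g₀, u, hg₀⟩ := odd_coords h2 hnm G₀ hs
    obtain ⟨E⟩ := cenU_iso hF hσq hord hε hn3 hg hD (polarOdd m F₀) g₀.symm u (fun x y => by
      have := hg₀ (g₀.symm x) (g₀.symm y)
      rwa [LinearEquiv.apply_symm_apply, LinearEquiv.apply_symm_apply] at this)
    have hq : Cfsg.Geo.quadSimilarityGroup (Cfsg.quadFormOdd m F₀) = Cfsg.Geo.similarityGroup (polarOdd m F₀) := quadSim_eq (qfOdd m) h2
    change Nonempty (_ ≃* Cfsg.projQuot (Cfsg.Geo.quadSimilarityGroup (Cfsg.quadFormOdd m F₀)))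
    rw [hq]
    exact ⟨E⟩

end Odd

/-- S2706 -/
theorem psu_graph_odd [Fintype F₀] (hF : Fintype.card F = q ^ 2) (hn3 : 3 ≤ n) {m : ℕ} (hnm : n = 2 * m + 1) (hF₀ : Fintype.card F₀ = q)
    (γ γ' : MulAut PG) (hγ : Cfsg.IsGraphAutClassPSU γ) (hγ2 : orderOf γ = 2) (hγ' : Cfsg.IsGraphAutClassPSU γ') (hγ'2 : orderOf γ' = 2) :
    Nonempty (↥(Cfsg.inndiagPSU n F q ⊓ Subgroup.centralizer {γ}) ≃* Cfsg.PGO F₀ (Cfsg.quadFormOdd m F₀)) ∧ Cfsg.IsConjUnder (Cfsg.inndiagPSU n F q) γ γ' := by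
  classical
  haveI : Nonempty (Fin n) := ⟨⟨0, by omega⟩⟩
  have hσq : ∀ a, sigQ hF a = a ^ q := sigQ_apply hF
  have hord := order_two hF hσq
  obtain ⟨ε, hε⟩ := exists_eps hF hF₀ hσq
  obtain ⟨g, rfl, h2⟩ := graph_form hF hσq hord hn3 γ hγ hγ2
  obtain ⟨g', rfl, h2'⟩ := graph_form hF hσq hord hn3 γ' hγ' hγ'2
  obtain ⟨a, G₀, ρ, κ, hD, hty⟩ := data_of_invol hF hσq hord hε hn3 g h2
  obtain ⟨a', G₀', ρ', κ', hD', hty'⟩ := data_of_invol hF hσq hord hε hn3 g' h2'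
  have hsym : ∀ (G : GL (Fin n) F₀) (r : Fˣ), ((sigQ hF r = r ∧ (G.val)ᵀ = G.val) ∨ (sigQ hF r = -(r : F) ∧ (G.val)ᵀ = -G.val)) →
      sigQ hF r = r ∧ (G.val)ᵀ = G.val := by
    intro G r h
    by_cases h20 : (2 : F₀) = 0
    · rcases h with h | ⟨h1, h3⟩
      · exact h
      · have h20' : (2 : F) = 0 := by
          have := congrArg ε h20
          rwa [map_ofNat, map_zero] at this
        refine ⟨by rw [h1]; linear_combination -(r : F) * h20', ?_⟩
        rw [h3]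
        ext i j
        have e9 : -(G.val i j) = G.val i j := by linear_combination -(G.val i j) * h20
        exact e9
    · rcases h with h | ⟨h1, h3⟩
      · exact h
      · exact (sym_of_odd h20 hnm G h3).elim
  obtain ⟨hr, hs⟩ := hsym G₀ ρ hty
  obtain ⟨hr', hs'⟩ := hsym G₀' ρ' hty'
  rw [inndiagU_eq]
  refine ⟨odd_cen hF hσq hord hε hn3 hnm g.2 hD hs, ?_⟩
  obtain ⟨P, c, hc, hP⟩ := odd_sim hnm G₀ G₀' hs hs'
  obtain ⟨k, hk⟩ := conj_of_data hF hσq hord hε g.2 g'.2 hD hD' P c hc hP (by rw [map_div₀, hr, hr'])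
  exact ⟨kkU k, ⟨k, rfl⟩, hk.symm⟩

end Cfsg.Agent.Lead.GUF
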