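import Cfsg.Agent.Lib.Lead.LangGU4
/-! Graph automorphisms of `PSU_n`: `n` even, `q` odd. -/
set_option autoImplicit false
set_option linter.style.haveILetI false
set_option linter.unusedSimpArgs false
set_option linter.unusedSectionVars false
set_option linter.unusedVariables false
set_option linter.deprecated false
namespace Cfsg.Agent.Lead.GUF
open Matrix Cfsg.Agent.Lead Cfsg.Agent.Lead.PSU Cfsg.Agent.Lead.AutPSU Cfsg.Agent.Lead.Lang Cfsg.Agent.Lead.Ortho Cfsg.Agent.Lead.LangOm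
open Cfsg.Agent.Lead.Fm (bf bf_mat mat_ext bf_smul_mat cL cL_mulVec cL_symm_mulVec cL_sc bf_add_left bf_add_right bf_transpose glOf glOf_mulVec LR
  quadSim_eq exists_gram qOf qOf_apply qOf_nondeg pgo_model exists_symp_coords not_conj_anti not_conj_plus_minus conj_of_form)
open scoped MatrixGroups

variable {F : Type*} [Field F] [Fintype F] {n : ℕ} {F₀ : Type*} [Field F₀] {q : ℕ} {σ : F ≃+* F} {ε : F₀ →+* F}

local notation "PG" => (Cfsg.SU n F q ⧸ Subgroup.center (Cfsg.SU n F q))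

section Rep
variable (hF : Fintype.card F = q ^ 2) (hσq : ∀ a, σ a = a ^ q) (hord : orderOf σ = 2) (hε : ∀ a, σ a = a ↔ a ∈ Set.range ε)
include hF hσq hord hε

set_option maxHeartbeats 2000000 in
/-- forms over the subfield come from unitary involutions -/
lemma exists_rep [Nonempty (Fin n)] (G₀ : GL (Fin n) F₀) (ρ : Fˣ)
    (hty : (σ ρ = ρ ∧ (G₀.val)ᵀ = G₀.val) ∨ (σ ρ = -(ρ : F) ∧ (G₀.val)ᵀ = -G₀.val)) :
    ∃ (g : Cfsg.GU n F q) (a : GL (Fin n) F) (κ : Fˣ), DD σ ε g.1 a G₀ ρ κ := by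
  classical
  have hs2 := sig2 hord
  have hσ1 : σ ≠ 1 := by
    rintro rfl
    rw [orderOf_one] at hord
    omega
  obtain ⟨z, hz1, hzz, hρz, hTz⟩ : ∃ z : F, σ z = z ∧ z * z = 1 ∧ σ ρ = z * ρ ∧ (G₀.val.map ε)ᵀ = z • G₀.val.map ε := by
    rcases hty with ⟨h1, h2⟩ | ⟨h1, h2⟩
    · refine ⟨1, map_one σ, mul_one 1, by rw [h1, one_mul], ?_⟩
      rw [one_smul]
      have : (G₀.val.map ε)ᵀ = ((G₀.val)ᵀ).map ε := rfl
      rw [this, h2]
    · refine ⟨-1, by rw [map_neg, map_one], by ring, by rw [h1]; ring, ?_⟩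
      have : (G₀.val.map ε)ᵀ = ((G₀.val)ᵀ).map ε := rfl
      rw [this, h2]
      ext i j
      simp
  obtain ⟨H, hH⟩ : ∃ H : GL (Fin n) F, H = sc ρ * em ε G₀ := ⟨_, rfl⟩
  have hHv : H.val = (ρ : F) • G₀.val.map ε := by
    rw [hH, Units.val_mul, sc_coe, smul_mul_assoc, one_mul]
    rfl
  have hmG : (G₀.val.map ε).map σ = G₀.val.map ε := congrArg Units.val (gm_em hε G₀)
  have hHH : ((H.val).map σ)ᵀ = H.val := by
    rw [hHv, map_smul', hmG, Matrix.transpose_smul, hTz, smul_smul, hρz]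
    congr 1
    calc z * ρ * z = (z * z) * ρ := by ring
      _ = _ := by rw [hzz, one_mul]
  obtain ⟨h, hh⟩ := herm_eq_mul hσ1 hord H hHH
  let a : GL (Fin n) F := ⟨(h.val)ᵀ, ((h⁻¹ : GL (Fin n) F).val)ᵀ, by
      rw [← Matrix.transpose_mul, ← Units.val_mul, inv_mul_cancel, Units.val_one, Matrix.transpose_one], by
      rw [← Matrix.transpose_mul, ← Units.val_mul, mul_inv_cancel, Units.val_one, Matrix.transpose_one]⟩
  have ha : a.val = (h.val)ᵀ := rfl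
  have hd2 : (a.val)ᵀ * a.val.map σ = (ρ : F) • G₀.val.map ε := by
    rw [← hHv, hh, ha, Matrix.transpose_transpose]
    congr 1
  obtain ⟨b, hb⟩ : ∃ b : GL (Fin n) F, b = gm σ a := ⟨_, rfl⟩
  have hbv : b.val = a.val.map σ := by rw [hb]; rfl
  have hbb : gm σ b = a := by
    apply Units.ext
    rw [hb, gm_coe, gm_coe]
    ext i j
    simp [hs2]
  -- the relation between the two forms
  have hrel : (a.val)ᵀ * b.val = z • ((b.val)ᵀ * a.val) := by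
    have e1 : (b.val)ᵀ * a.val = ((a.val)ᵀ * b.val)ᵀ := by
      rw [Matrix.transpose_mul, Matrix.transpose_transpose]
    rw [e1, hbv, hd2, Matrix.transpose_smul, hTz, smul_comm]
    rw [smul_smul, smul_smul]
    rw [show (ρ : F) * z * z = ρ * (z * z) by ring, hzz, mul_one]
  obtain ⟨κ, hκ⟩ := exists_nm hord (l := z) (by
    intro h0
    rw [h0, mul_zero] at hzz
    exact zero_ne_one hzz) hz1
  have hgd : (sc κ * a * b⁻¹ : GL (Fin n) F) ∈ Cfsg.GU n F q := by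
    rw [unit_iff hσq hord]
    have hval : (sc κ * a * b⁻¹ : GL (Fin n) F).val = (κ : F) • (a.val * (b⁻¹ : GL (Fin n) F).val) := by
      simp only [Units.val_mul, sc_coe, smul_mul_assoc, one_mul]
    have hbi : (b⁻¹ : GL (Fin n) F).val.map σ = (a⁻¹ : GL (Fin n) F).val := by
      have : gm σ b⁻¹ = a⁻¹ := by rw [map_inv, hbb]
      exact congrArg Units.val this
    rw [hval, map_smul', Matrix.map_mul, hbi, Matrix.transpose_smul, Matrix.transpose_mul, ← hbv, smul_mul_smul_comm]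
    have e2 : ((b⁻¹ : GL (Fin n) F).val)ᵀ * (a.val)ᵀ * (b.val * (a⁻¹ : GL (Fin n) F).val) = z • 1 := by
      have e3 : ((b⁻¹ : GL (Fin n) F).val)ᵀ * (b.val)ᵀ = 1 := by
        rw [← Matrix.transpose_mul, ← Units.val_mul, mul_inv_cancel, Units.val_one, Matrix.transpose_one]
      have e4 : a.val * (a⁻¹ : GL (Fin n) F).val = 1 := by
        rw [← Units.val_mul, mul_inv_cancel, Units.val_one]
      calc ((b⁻¹ : GL (Fin n) F).val)ᵀ * (a.val)ᵀ * (b.val * (a⁻¹ : GL (Fin n) F).val)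
          = ((b⁻¹ : GL (Fin n) F).val)ᵀ * ((a.val)ᵀ * b.val) * (a⁻¹ : GL (Fin n) F).val := by simp only [Matrix.mul_assoc]
        _ = z • ((((b⁻¹ : GL (Fin n) F).val)ᵀ * (b.val)ᵀ) * (a.val * (a⁻¹ : GL (Fin n) F).val)) := by
          rw [hrel, Matrix.mul_smul, smul_mul_assoc]
          simp only [Matrix.mul_assoc]
        _ = _ := by rw [e3, e4, Matrix.one_mul]
    rw [e2, smul_smul, hκ, hzz, one_smul]
  refine ⟨⟨_, hgd⟩, a, κ, ?_, hd2⟩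
  change sc κ * a * b⁻¹ * gm σ a = _
  rw [← hb, inv_mul_cancel_right]

/-- a form gives an involutory graph automorphism -/
lemma rep_graph [Nonempty (Fin n)] (hn3 : 3 ≤ n) {g : Cfsg.GU n F q} {a : GL (Fin n) F} {G₀ : GL (Fin n) F₀} {ρ κ : Fˣ} (hD : DD σ ε g.1 a G₀ ρ κ) :
    Cfsg.IsGraphAutClassPSU (kkU g * fldU σ : MulAut PG) ∧ orderOf (kkU g * fldU σ : MulAut PG) = 2 := by
  classical
  have hn : 0 < n := by omega
  have hsig : σ * σ = 1 := by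
    have h := pow_orderOf_eq_one σ
    rwa [hord, pow_two] at h
  haveI : Fact (Nat.Prime 2) := ⟨Nat.prime_two⟩
  refine ⟨⟨hn3, kkU g, fldU σ, σ, by rw [hord]; exact even_two, (isInnerU_iff _).2 ⟨g, rfl⟩, (stdU_iff σ _).2 rfl, rfl⟩, ?_⟩
  apply orderOf_eq_prime
  · have hg : g.1 = sc κ * a * (gm σ a)⁻¹ := eq_mul_inv_of_mul_eq hD.d1
    have hbb : gm σ (gm σ a) = a := by
      rw [gm_gm, hsig, gm_one]
    have hgs : gm σ g.1 = sc (Units.map (σ : F →* F) κ) * gm σ a * 1 * a⁻¹ := by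
      rw [hg, map_mul, map_mul, map_inv, gm_sc, hbb, mul_one]
    have e1 : (g * mapGU hF σ g).1 = sc κ * sc (Units.map (σ : F →* F) κ) := by
      change g.1 * gm σ g.1 = _
      rw [hgs]
      conv_lhs => rw [hg]
      rw [cen_mul₂ (fun h => sc_comm _ h), mul_one, mul_inv_cancel, mul_one]
    have e2 : (kkU (g * mapGU hF σ g) : MulAut PG) = 1 := by
      apply kkU_of_scalar (z := ((κ * Units.map (σ : F →* F) κ : Fˣ) : F))
      rw [e1, ← map_mul, sc_coe]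
    rw [pow_two]
    calc (kkU g * fldU σ) * (kkU g * fldU σ) = kkU g * (fldU σ * kkU g) * fldU σ := by group
      _ = kkU g * (kkU (mapGU hF σ g) * fldU σ) * fldU σ := by rw [fldU_kkU]
      _ = kkU (g * mapGU hF σ g) * fldU (σ * σ) := by rw [map_mul, map_mul]; group
      _ = 1 := by rw [e2, hsig, map_one, mul_one]
  · intro h
    have e : (fldU σ : MulAut PG) = kkU g⁻¹ := by
      rw [map_inv]
      exact eq_inv_of_mul_eq_one_right h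
    have := fldU_eq_kkU hF hn hn3 e
    rw [this, orderOf_one] at hord
    omega

/-- non-conjugacy of forms -/
lemma no_conj [Nonempty (Fin n)] [Nontrivial (Fin n)] (hn3 : 3 ≤ n) {g g' : Cfsg.GU n F q} {a a' : GL (Fin n) F} {G₀ G₀' : GL (Fin n) F₀} {ρ κ ρ' κ' : Fˣ}
    (hD : DD σ ε g.1 a G₀ ρ κ) (hD' : DD σ ε g'.1 a' G₀' ρ' κ')
    (h : ¬ Cfsg.IsConjUnder (Cfsg.Agent.Lead.AutPSL.cc : GL (Fin n) F₀ →* MulAut (Matrix.ProjectiveSpecialLinearGroup (Fin n) F₀)).range (Cfsg.Agent.Lead.Fm.gg G₀) (Cfsg.Agent.Lead.Fm.gg G₀')) :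
    ¬ Cfsg.IsConjUnder (kkU : Cfsg.GU n F q →* MulAut PG).range (kkU g * fldU σ) (kkU g' * fldU σ) := by
  rintro ⟨_, ⟨k, rfl⟩, e⟩
  obtain ⟨P, c, hc, hP⟩ := data_of_conj hF hσq hord hε hn3 g.2 g'.2 hD hD' k e.symm
  apply h
  refine ⟨_, ⟨P, rfl⟩, (conj_of_form P G₀ G₀' (Units.mk0 c hc) (fun x y => ?_)).symm⟩
  rw [bf_mat, hP, bf_smul_mat, Units.val_mk0]

end Rep

/-- S2707 -/
theorem psu_graph_three [Fintype F₀] (hodd : Odd q) (hF : Fintype.card F = q ^ 2) {m : ℕ} (hm : 2 ≤ m) (hnm : n = 2 * m) (hF₀ : Fintype.card F₀ = q) :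
    ∃ (γ₁ γ₂ γ₃ : MulAut PG) (a b : F₀), (∀ z₁ z₂ : F₀, z₁ ^ 2 + a * z₁ * z₂ + b * z₂ ^ 2 = 0 → z₁ = 0 ∧ z₂ = 0) ∧ Cfsg.IsGraphAutClassPSU γ₁ ∧ orderOf γ₁ = 2 ∧ Cfsg.IsGraphAutClassPSU γ₂ ∧ orderOf γ₂ = 2 ∧ Cfsg.IsGraphAutClassPSU γ₃ ∧ orderOf γ₃ = 2 ∧ ¬ Cfsg.IsConjUnder (Cfsg.inndiagPSU n F q) γ₁ γ₂ ∧ ¬ Cfsg.IsConjUnder (Cfsg.inndiagPSU n F q) γ₁ γ₃ ∧ ¬ Cfsg.IsConjUnder (Cfsg.inndiagPSU n F q) γ₂ γ₃ ∧ (∀ γ : MulAut PG, Cfsg.IsGraphAutClassPSU γ → orderOf γ = 2 → Cfsg.IsConjUnder (Cfsg.inndiagPSU n F q) γ₁ γ ∨ Cfsg.IsConjUnder (Cfsg.inndiagPSU n F q) γ₂ γ ∨ Cfsg.IsConjUnder (Cfsg.inndiagPSU n F q) γ₃ γ) ∧ Nonempty (↥(Cfsg.inndiagPSU n F q ⊓ Subgroup.centralizer {γ₁}) ≃* Cfsg.PGSp m F₀) ∧ Nonempty (↥(Cfsg.inndiagPSU n F q ⊓ Subgroup.centralizer {γ₂}) ≃* Cfsg.PGO F₀ (Cfsg.quadFormPlus m F₀)) ∧ Nonempty (↥(Cfsg.inndiagPSU n F q ⊓ Subgroup.centralizer {γ₃}) ≃* Cfsg.PGO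 F₀ (Cfsg.quadFormMinus (m - 1) F₀ a b)) := by
  classical
  have hn3 : 3 ≤ n := by omega
  haveI : Nonempty (Fin n) := ⟨⟨0, by omega⟩⟩
  haveI : Nontrivial (Fin n) := Fin.nontrivial_iff_two_le.2 (by omega)
  have hσq : ∀ a, sigQ hF a = a ^ q := sigQ_apply hF
  have hord := order_two hF hσq
  obtain ⟨ε, hε⟩ := exists_eps hF hF₀ hσq
  have h2 : (2 : F₀) ≠ 0 := two_ne_zero_of_odd hF₀ hodd
  obtain ⟨e₂⟩ : Nonempty (Fin n ≃ (Fin m ⊕ Fin m)) :=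
    ⟨(Fintype.equivFinOfCardEq (by simp only [Fintype.card_sum, Fintype.card_fin]; omega)).symm⟩
  obtain ⟨e₃⟩ : Nonempty (Fin n ≃ ((Fin (m - 1) ⊕ Fin (m - 1)) ⊕ Fin 2)) :=
    ⟨(Fintype.equivFinOfCardEq (by simp only [Fintype.card_sum, Fintype.card_fin]; omega)).symm⟩
  obtain ⟨ζ, hζ⟩ := exists_zeta F₀
  have hab := aniso_of_zeta hζ
  obtain ⟨G₂, hG₂, hs₂, -⟩ := pgo_model e₂ (qfPlus (F := F₀) m) (fun x hx => by
    obtain ⟨y, -, hy⟩ := ndPlus (F := F₀) m x Submodule.mem_top hx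
    exact ⟨y, hy⟩) h2
  obtain ⟨G₃, hG₃, hs₃, -⟩ := pgo_model e₃ (qfMinus (F := F₀) (m - 1) 1 ζ) (fun x hx => by
    obtain ⟨y, -, hy⟩ := ndMinus (F := F₀) (m - 1) 1 ζ hab x Submodule.mem_top hx
    exact ⟨y, hy⟩) h2
  obtain ⟨G₁, hG₁⟩ := exists_gram (F := F₀) e₂ (Cfsg.sympForm m F₀)
    (fun x y z => Cfsg.Agent.Lead.sympForm_add_left x y z) (fun a x z => Cfsg.Agent.Lead.sympForm_smul_left a x z)
    (fun x y z => Cfsg.Agent.Lead.sympForm_add_right x y z) (fun a x z => Cfsg.Agent.Lead.sympForm_smul_right a x z)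
    (fun x hx => by
      obtain ⟨y, hy⟩ := Cfsg.Agent.Lead.sympForm_nondeg hx
      exact ⟨y, hy⟩)
  have hanti : ∀ x y, bf G₁.val y x = - bf G₁.val x y := by
    intro x y
    have e1 := hG₁ ((LR e₂).symm x) ((LR e₂).symm y)
    have e2 := hG₁ ((LR e₂).symm y) ((LR e₂).symm x)
    rw [LinearEquiv.apply_symm_apply, LinearEquiv.apply_symm_apply] at e1 e2
    rw [← e1, ← e2]
    exact Cfsg.Agent.Lead.sympForm_swap _ _
  have hs₁ : (G₁.val)ᵀ = -G₁.val := by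
    apply mat_ext
    intro x y
    rw [bf_transpose, hanti]
    unfold bf
    rw [Matrix.neg_mulVec, dotProduct_neg]
  obtain ⟨ρ₀, hρ₀⟩ := exists_h90 hord (ν := -1) (by rw [map_neg, map_one]; ring)
  have hρ₀' : sigQ hF ρ₀ = -(ρ₀ : F) := by
    linear_combination (-1 : F) * hρ₀
  obtain ⟨g₁, a₁, κ₁, hD₁⟩ := exists_rep hF hσq hord hε G₁ ρ₀ (Or.inr ⟨hρ₀', hs₁⟩)
  obtain ⟨g₂, a₂, κ₂, hD₂⟩ := exists_rep hF hσq hord hε G₂ 1 (Or.inl ⟨map_one _, hs₂⟩)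
  obtain ⟨g₃, a₃, κ₃, hD₃⟩ := exists_rep hF hσq hord hε G₃ 1 (Or.inl ⟨map_one _, hs₃⟩)
  obtain ⟨h1, h1'⟩ := rep_graph hF hσq hord hε hn3 hD₁
  obtain ⟨h2', h2''⟩ := rep_graph hF hσq hord hε hn3 hD₂
  obtain ⟨h3, h3'⟩ := rep_graph hF hσq hord hε hn3 hD₃
  rw [inndiagU_eq]
  refine ⟨kkU g₁ * fldU (sigQ hF), kkU g₂ * fldU (sigQ hF), kkU g₃ * fldU (sigQ hF), 1, ζ, hab, h1, h1', h2', h2'', h3, h3',
    no_conj hF hσq hord hε hn3 hD₁ hD₂ (not_conj_anti h2 G₁ G₂ hs₁ hs₂), no_conj hF hσq hord hε hn3 hD₁ hD₃ (not_conj_anti h2 G₁ G₃ hs₁ hs₃),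
    no_conj hF hσq hord hε hn3 hD₂ hD₃ (not_conj_plus_minus (m := m) (by omega) hab h2 G₂ G₃ (LR e₂) (LR e₃) hG₂ hG₃), ?_, ?_, ?_, ?_⟩
  · intro γ hγ hγ2
    obtain ⟨g, rfl, hg2⟩ := graph_form hF hσq hord hn3 γ hγ hγ2
    obtain ⟨a, G₀, ρ, κ, hD, hty⟩ := data_of_invol hF hσq hord hε hn3 g hg2
    have key : ∀ (g' : Cfsg.GU n F q) (a' : GL (Fin n) F) (G' : GL (Fin n) F₀) (ρ' κ' : Fˣ), DD (sigQ hF) ε g'.1 a' G' ρ' κ' →
        sigQ hF ((ρ : F) / ρ') = (ρ : F) / ρ' → (∃ (P : GL (Fin n) F₀) (c : F₀), c ≠ 0 ∧ (P.val)ᵀ * G'.val * P.val = c • G₀.val) →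
        Cfsg.IsConjUnder (kkU : Cfsg.GU n F q →* MulAut PG).range (kkU g' * fldU (sigQ hF)) (kkU g * fldU (sigQ hF)) := by
      rintro g' a' G' ρ' κ' hD' hfix ⟨P, c, hc, hP⟩
      obtain ⟨k, hk⟩ := conj_of_data hF hσq hord hε g.2 g'.2 hD hD' P c hc hP hfix
      refine ⟨(kkU k)⁻¹, Subgroup.inv_mem _ ⟨k, rfl⟩, ?_⟩
      have e1 := hk
      rw [← e1]
      group
    rcases hty with ⟨hr, hs⟩ | ⟨hr, hs⟩
    · right
      rcases Cfsg.Agent.H11.exists_isometry_standard (m := m) (by omega)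
        (by rw [Module.finrank_fintype_fun_eq_card, Fintype.card_fin, hnm]) (qOf G₀) (qOf_nondeg h2 G₀ hs) with ⟨g₀, hg₀⟩ | ⟨g₀, ζ', hζ', hg₀⟩
      · left
        refine key _ _ _ _ _ hD₂ (by rw [map_div₀, hr, Units.val_one, map_one]) ⟨glOf (g₀.trans (LR e₂)), 2, h2, mat_ext fun x y => ?_⟩
        rw [← bf_mat, glOf_mulVec, glOf_mulVec, LinearEquiv.trans_apply, LinearEquiv.trans_apply, ← hG₂, bf_smul_mat]
        have e1 := polar_of_coords h2 G₀ hs (qfPlus (F := F₀) m) g₀ (fun v => by rw [← qOf_apply, hg₀]) (g₀ x) (g₀ y)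
        rw [LinearEquiv.symm_apply_apply, LinearEquiv.symm_apply_apply, Units.val_mk0] at e1
        exact e1
      · right
        obtain ⟨L', hL'⟩ := exists_minus_iso hab (aniso_of_zeta hζ') (m - 1)
        refine key _ _ _ _ _ hD₃ (by rw [map_div₀, hr, Units.val_one, map_one]) ⟨glOf ((g₀.trans L').trans (LR e₃)), 2, h2, mat_ext fun x y => ?_⟩
        rw [← bf_mat, glOf_mulVec, glOf_mulVec]
        change bf G₃.val (LR e₃ (L' (g₀ x))) (LR e₃ (L' (g₀ y))) = _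
        rw [← hG₃, bf_smul_mat]
        have e1 := polar_of_coords h2 G₀ hs (qfMinus (F := F₀) (m - 1) 1 ζ) (g₀.trans L') (fun v => by
          rw [← qOf_apply, hg₀, LinearEquiv.trans_apply, hL']) ((g₀.trans L') x) ((g₀.trans L') y)
        rw [LinearEquiv.symm_apply_apply, LinearEquiv.symm_apply_apply, Units.val_mk0] at e1
        exact e1
    · left
      obtain ⟨g₀, hg₀⟩ := exists_symp_coords h2 hnm G₀ hs
      refine key _ _ _ _ _ hD₁ (by rw [map_div₀, hr, hρ₀']; field_simp) ⟨glOf (g₀.trans (LR e₂)), -1, neg_ne_zero.2 one_ne_zero, mat_ext fun x y => ?_⟩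
      rw [← bf_mat, glOf_mulVec, glOf_mulVec, LinearEquiv.trans_apply, LinearEquiv.trans_apply, ← hG₁, hg₀, bf_smul_mat]
      ring
  · exact cenU_iso hF hσq hord hε hn3 g₁.2 hD₁ (Cfsg.sympForm m F₀) (LR e₂) 1 (fun x y => by rw [hG₁, Units.val_one, one_mul])
  · obtain ⟨E⟩ := cenU_iso hF hσq hord hε hn3 g₂.2 hD₂ (polarPlus m F₀) (LR e₂) 1 (fun x y => by rw [hG₂, Units.val_one, one_mul])
    have hq : Cfsg.Geo.quadSimilarityGroup (Cfsg.quadFormPlus m F₀) = Cfsg.Geo.similarityGroup (polarPlus m F₀) := quadSim_eq (qfPlus m) h2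
    change Nonempty (_ ≃* Cfsg.projQuot (Cfsg.Geo.quadSimilarityGroup (Cfsg.quadFormPlus m F₀)))
    rw [hq]
    exact ⟨E⟩
  · obtain ⟨E⟩ := cenU_iso hF hσq hord hε hn3 g₃.2 hD₃ (polarMinus (m - 1) F₀ 1 ζ) (LR e₃) 1 (fun x y => by rw [hG₃, Units.val_one, one_mul])
    have hq : Cfsg.Geo.quadSimilarityGroup (Cfsg.quadFormMinus (m - 1) F₀ 1 ζ) = Cfsg.Geo.similarityGroup (polarMinus (m - 1) F₀ 1 ζ) := quadSim_eq (qfMinus (m - 1) 1 ζ) h2
    change Nonempty (_ ≃* Cfsg.projQuot (Cfsg.Geo.quadSimilarityGroup (Cfsg.quadFormMinus (m - 1) F₀ 1 ζ)))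
    rw [hq]
    exact ⟨E⟩

end Cfsg.Agent.Lead.GUF
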