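import Cfsg.Agent.Lib.Lead.LangGU5
/-! Graph automorphisms of `PSU_n`: `n` even, `q` even. -/
set_option autoImplicit false
set_option linter.style.haveILetI false
set_option linter.unusedSimpArgs false
set_option linter.unusedSectionVars false
set_option linter.unusedVariables false
set_option linter.deprecated false
namespace Cfsg.Agent.Lead.GUF
open Matrix Cfsg.Agent.Lead Cfsg.Agent.Lead.PSU Cfsg.Agent.Lead.AutPSU Cfsg.Agent.Lead.Lang Cfsg.Agent.Lead.Ortho Cfsg.Agent.Lead.LangOm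
open Cfsg.Agent.Lead.Fm (bf bf_mat mat_ext bf_smul_mat cL cL_mulVec cL_symm_mulVec cL_sc bf_add_left bf_add_right bf_transpose glOf glOf_mulVec LR
  exists_gram form_of_conj exists_symp_coords' exists_orth_coords bT bT_add_left bT_smul_left bT_add_right bT_smul_right bT_nd bT_symm bT_self om_symm
  isTransvection_sympT spToGL alt_obligations nonalt_obligations)
open scoped MatrixGroups

variable {F : Type*} [Field F] [Fintype F] {n : ℕ} {F₀ : Type*} [Field F₀] {q : ℕ}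

local notation "PG" => (Cfsg.SU n F q ⧸ Subgroup.center (Cfsg.SU n F q))

/-- S2708 -/
theorem psu_graph_two [Fintype F₀] [CharP F 2] (hF : Fintype.card F = q ^ 2) {m : ℕ} (hm : 2 ≤ m) (hnm : n = 2 * m) (hF₀ : Fintype.card F₀ = q) :
    ∃ (γ₁ γ₃ : MulAut PG) (t : ↥(Matrix.symplecticGroup (Fin m) F₀)), Cfsg.IsTransvection (t : Matrix (Fin m ⊕ Fin m) (Fin m ⊕ Fin m) F₀) ∧ Cfsg.IsGraphAutClassPSU γ₁ ∧ orderOf γ₁ = 2 ∧ Cfsg.IsGraphAutClassPSU γ₃ ∧ orderOf γ₃ = 2 ∧ ¬ Cfsg.IsConjUnder (Cfsg.inndiagPSU n F q) γ₁ γ₃ ∧ (∀ γ : MulAut PG, Cfsg.IsGraphAutClassPSU γ → orderOf γ = 2 → Cfsg.IsConjUnder (Cfsg.inndiagPSU n F q) γ₁ γ ∨ Cfsg.IsConjUnder (Cfsg.inndiagPSU n F q) γ₃ γ) ∧ Nonempty (↥(Cfsg.inndiagPSU n F q ⊓ Subgroup.centralizer {γ₁}) ≃* ↥(Matrix.symplecticGroup (Fin m) F₀)) ∧ Nonempty (↥(Cfsg.inndiagPSU n F q ⊓ Subgroup.centralizer {γ₃}) ≃* ↥(Subgroup.centralizer ({t} : Set ↥(Matrix.symplecticGroup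 (Fin m) F₀)))) := by
  classical
  have hn3 : 3 ≤ n := by omega
  haveI : Nonempty (Fin n) := ⟨⟨0, by omega⟩⟩
  haveI : Nontrivial (Fin n) := Fin.nontrivial_iff_two_le.2 (by omega)
  haveI : Nonempty (Fin m) := ⟨⟨0, by omega⟩⟩
  have hσq : ∀ a, sigQ hF a = a ^ q := sigQ_apply hF
  have hord := order_two hF hσq
  obtain ⟨ε, hε⟩ := exists_eps hF hF₀ hσq
  have h2F : (2 : F) = 0 := CharTwo.two_eq_zero
  haveI : CharP F₀ 2 := CharTwo.of_one_ne_zero_of_two_eq_zero one_ne_zero (by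
    apply ε.injective
    rw [map_ofNat, map_zero]
    exact h2F)
  obtain ⟨e₂⟩ : Nonempty (Fin n ≃ (Fin m ⊕ Fin m)) :=
    ⟨(Fintype.equivFinOfCardEq (by simp only [Fintype.card_sum, Fintype.card_fin]; omega)).symm⟩
  obtain ⟨v, hvd⟩ : ∃ v : (Fin m ⊕ Fin m) → F₀, v = Pi.single (Sum.inl ⟨0, by omega⟩) 1 := ⟨_, rfl⟩
  have hv : v ≠ 0 := by
    rw [hvd]
    intro e
    have := congrFun e (Sum.inl ⟨0, by omega⟩)
    simp at this
  obtain ⟨G₃, hG₃⟩ := exists_gram (F := F₀) e₂ (bT v) (bT_add_left v) (bT_smul_left v) (bT_add_right v) (bT_smul_right v) (bT_nd v)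
  obtain ⟨G₁, hG₁⟩ := exists_gram (F := F₀) e₂ (Cfsg.Agent.Lead.sympForm (l := Fin m) (F := F₀))
    (fun x y z => Cfsg.Agent.Lead.sympForm_add_left x y z) (fun a x z => Cfsg.Agent.Lead.sympForm_smul_left a x z)
    (fun x y z => Cfsg.Agent.Lead.sympForm_add_right x y z) (fun a x z => Cfsg.Agent.Lead.sympForm_smul_right a x z)
    (fun x hx => Cfsg.Agent.Lead.sympForm_nondeg hx)
  obtain ⟨L, hL⟩ : ∃ L : ((Fin m ⊕ Fin m) → F₀) ≃ₗ[F₀] (Fin n → F₀), L = LR e₂ := ⟨_, rfl⟩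
  rw [← hL] at hG₃ hG₁
  have hs₃ : (G₃.val)ᵀ = G₃.val := by
    apply mat_ext
    intro x y
    rw [bf_transpose]
    have e1 := hG₃ (L.symm x) (L.symm y)
    have e2 := hG₃ (L.symm y) (L.symm x)
    rw [LinearEquiv.apply_symm_apply, LinearEquiv.apply_symm_apply] at e1 e2
    rw [← e1, ← e2, bT_symm]
  have hs₁ : (G₁.val)ᵀ = G₁.val := by
    apply mat_ext
    intro x y
    rw [bf_transpose]
    have e1 := hG₁ (L.symm x) (L.symm y)
    have e2 := hG₁ (L.symm y) (L.symm x)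
    rw [LinearEquiv.apply_symm_apply, LinearEquiv.apply_symm_apply] at e1 e2
    rw [← e1, ← e2, om_symm]
  have hself₁ : ∀ x, bf G₁.val x x = 0 := by
    intro x
    have e1 := hG₁ (L.symm x) (L.symm x)
    rw [LinearEquiv.apply_symm_apply, Cfsg.Agent.Lead.sympForm_self] at e1
    exact e1.symm
  have hna₃ : ∃ x, bf G₃.val x x ≠ 0 := by
    obtain ⟨z, hz⟩ := Cfsg.Agent.Lead.sympForm_nondeg hv
    refine ⟨L z, ?_⟩
    rw [← hG₃, bT_self]
    refine pow_ne_zero _ ?_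
    rw [om_symm]
    exact hz
  obtain ⟨g₁, a₁, κ₁, hD₁⟩ := exists_rep hF hσq hord hε G₁ 1 (Or.inl ⟨map_one _, hs₁⟩)
  obtain ⟨g₃, a₃, κ₃, hD₃⟩ := exists_rep hF hσq hord hε G₃ 1 (Or.inl ⟨map_one _, hs₃⟩)
  obtain ⟨h1, h1'⟩ := rep_graph hF hσq hord hε hn3 hD₁
  obtain ⟨h3, h3'⟩ := rep_graph hF hσq hord hε hn3 hD₃
  rw [inndiagU_eq]
  refine ⟨kkU g₁ * fldU (sigQ hF), kkU g₃ * fldU (sigQ hF), Cfsg.Agent.Lead.sympT v 1, isTransvection_sympT hv, h1, h1', h3, h3', ?_, ?_, ?_, ?_⟩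
  · refine no_conj hF hσq hord hε hn3 hD₁ hD₃ ?_
    rintro ⟨_, ⟨P, rfl⟩, e⟩
    obtain ⟨u, hu⟩ := form_of_conj P G₁ G₃ e.symm
    obtain ⟨x, hx⟩ := hna₃
    apply hx
    have e1 := hu ((P⁻¹).val *ᵥ x) ((P⁻¹).val *ᵥ x)
    rw [Matrix.mulVec_mulVec, ← Units.val_mul, mul_inv_cancel, Units.val_one, Matrix.one_mulVec, hself₁, mul_zero] at e1
    exact e1
  · intro γ hγ hγ2
    obtain ⟨g, rfl, hg2⟩ := graph_form hF hσq hord hn3 γ hγ hγ2
    obtain ⟨a, G₀, ρ, κ, hD, hty⟩ := data_of_invol hF hσq hord hε hn3 g hg2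
    have hρ : sigQ hF ρ = ρ := by
      rcases hty with ⟨hr, -⟩ | ⟨hr, -⟩
      · exact hr
      · rw [hr, CharTwo.neg_eq]
    have hs : (G₀.val)ᵀ = G₀.val := by
      rcases hty with ⟨-, h⟩ | ⟨-, h⟩
      · exact h
      · rw [h, CharTwo.neg_eq]
    have key : ∀ (g' : Cfsg.GU n F q) (a' : GL (Fin n) F) (G' : GL (Fin n) F₀) (κ' : Fˣ), DD (sigQ hF) ε g'.1 a' G' 1 κ' →
        (∃ (P : GL (Fin n) F₀) (c : F₀), c ≠ 0 ∧ (P.val)ᵀ * G'.val * P.val = c • G₀.val) →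
        Cfsg.IsConjUnder (kkU : Cfsg.GU n F q →* MulAut PG).range (kkU g' * fldU (sigQ hF)) (kkU g * fldU (sigQ hF)) := by
      rintro g' a' G' κ' hD' ⟨P, c, hc, hP⟩
      obtain ⟨k, hk⟩ := conj_of_data hF hσq hord hε g.2 g'.2 hD hD' P c hc hP (by rw [map_div₀, hρ, Units.val_one, map_one])
      refine ⟨(kkU k)⁻¹, Subgroup.inv_mem _ ⟨k, rfl⟩, ?_⟩
      have e1 := hk
      rw [← e1]
      group
    by_cases hA : ∀ x, bf G₀.val x x = 0
    · left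
      obtain ⟨g₀, hg₀⟩ := exists_symp_coords' hnm G₀ hA
      refine key _ _ _ _ hD₁ ⟨glOf (g₀.trans L), -1, neg_ne_zero.2 one_ne_zero, mat_ext fun x y => ?_⟩
      rw [← bf_mat, glOf_mulVec, glOf_mulVec, LinearEquiv.trans_apply, LinearEquiv.trans_apply, ← hG₁, bf_smul_mat, neg_one_mul]
      exact hg₀ x y
    · right
      push Not at hA
      obtain ⟨g₀, hg₀⟩ := exists_orth_coords G₀ hs hA
      obtain ⟨g₃', hg₃'⟩ := exists_orth_coords G₃ hs₃ hna₃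
      refine key _ _ _ _ hD₃ ⟨glOf (g₀.trans g₃'.symm), 1, one_ne_zero, mat_ext fun x y => ?_⟩
      rw [← bf_mat, glOf_mulVec, glOf_mulVec, LinearEquiv.trans_apply, LinearEquiv.trans_apply, ← hg₃', LinearEquiv.apply_symm_apply,
        LinearEquiv.apply_symm_apply, hg₀, one_smul]
  · exact cenU_K hF hσq hord hε hn3 g₁.2 hD₁ _ L 1 (fun x y => by rw [hG₁, Units.val_one, one_mul]) spToGL alt_obligations.1 alt_obligations.2.1 alt_obligations.2.2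
  · exact cenU_K hF hσq hord hε hn3 g₃.2 hD₃ (bT v) L 1 (fun x y => by rw [hG₃, Units.val_one, one_mul]) _ (nonalt_obligations v).1 (nonalt_obligations v).2.1 (nonalt_obligations v).2.2

end Cfsg.Agent.Lead.GUF
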