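import Cfsg.Agent.Lib.Lead.LangGU6
import Cfsg.Agent.Lib.Lead.LangFm7
/-! The splitting of classes of graph automorphisms of `PSU_n`. -/
set_option autoImplicit false
set_option linter.style.haveILetI false
set_option linter.unusedSimpArgs false
set_option linter.unusedSectionVars false
set_option linter.unusedVariables false
set_option linter.deprecated false

namespace Cfsg.Agent.Lead.Fm
open Matrix Matrix.SpecialLinearGroup Module
open Cfsg.Agent.Lead.AutPSL Cfsg.Agent.Lead.Lang Cfsg.Agent.Lead.Ortho Cfsg.Agent.Lead.LangOm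
open scoped MatrixGroups

variable {F : Type*} [Field F] [Fintype F]

/-- a square root of the multiplier with the right determinant -/
lemma exists_root_det {n : ℕ} (h : Odd n ∨ (2 : F) = 0) (G g : GL (Fin n) F) (c : Fˣ)
    (hc : ∀ x y, bf G.val (g.val *ᵥ x) (g.val *ᵥ y) = c * bf G.val x y) :
    ∃ e : Fˣ, e ^ 2 = c ∧ Matrix.GeneralLinearGroup.det g = e ^ n := by
  have hsq := det_sq_sim G g c hc
  obtain ⟨w, hw⟩ : ∃ w, w = Matrix.GeneralLinearGroup.det g := ⟨_, rfl⟩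
  rw [← hw] at hsq ⊢
  rcases h with hodd | h2
  · obtain ⟨k, hk⟩ := hodd
    obtain ⟨l, hl⟩ : ∃ l : Fˣ, l = c ^ (k + 1) * w⁻¹ := ⟨_, rfl⟩
    have hl2 : l ^ 2 = c := by
      rw [hl, mul_pow, inv_pow, hsq, hk]
      have : c ^ (k + 1) * c ^ (k + 1) = c * c ^ (2 * k + 1) := by
        rw [← pow_add, ← pow_succ']
        congr 1
        ring
      rw [sq, this, mul_assoc, mul_inv_cancel, mul_one]
    have e : w ^ 2 = (l ^ n) ^ 2 := by
      rw [hsq, ← pow_mul, mul_comm n 2, pow_mul, hl2]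
    have e' : (w : F) ^ 2 = ((l ^ n : Fˣ) : F) ^ 2 := by
      have := congrArg Units.val e
      simpa using this
    rcases sq_eq_sq_iff_eq_or_eq_neg.1 e' with e1 | e1
    · exact ⟨l, hl2, Units.ext e1⟩
    · refine ⟨-l, by rw [neg_sq, hl2], Units.ext ?_⟩
      have hodd' : Odd n := ⟨k, hk⟩
      rw [hodd'.neg_pow, e1]
      simp
  · haveI : CharP F 2 := CharTwo.of_one_ne_zero_of_two_eq_zero one_ne_zero h2
    obtain ⟨d, hd⟩ := exists_sqrt (c : F)
    have d0 : d ≠ 0 := by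
      rintro rfl
      rw [mul_zero] at hd
      exact c.ne_zero hd.symm
    refine ⟨Units.mk0 d d0, Units.ext (by simp [sq, hd]), Units.ext ?_⟩
    apply sq_inj₂
    have e := congrArg Units.val hsq
    rw [Units.val_pow_eq_pow_val, Units.val_pow_eq_pow_val, ← hd] at e
    change _ = ((d ^ n : F)) ^ 2
    rw [e, ← pow_mul, mul_comm n 2, pow_mul, sq]

/-- the determinant of a similitude up to sign -/
lemma det_sign {n m : ℕ} (hnm : n = 2 * m) (G g : GL (Fin n) F) (c : Fˣ)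
    (hc : ∀ x y, bf G.val (g.val *ᵥ x) (g.val *ᵥ y) = c * bf G.val x y) :
    Matrix.GeneralLinearGroup.det g = c ^ m ∨ Matrix.GeneralLinearGroup.det g = - c ^ m := by
  have hsq := det_sq_sim G g c hc
  have ec : c ^ n = (c ^ m) ^ 2 := by rw [hnm, mul_comm, pow_mul]
  rw [ec] at hsq
  have hsq' : ((Matrix.GeneralLinearGroup.det g : Fˣ) : F) ^ 2 = ((c ^ m : Fˣ) : F) ^ 2 := by
    have := congrArg Units.val hsq
    simpa only [Units.val_pow_eq_pow_val] using this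
  rcases sq_eq_sq_iff_eq_or_eq_neg.1 hsq' with e1 | e1
  · exact Or.inl (Units.ext e1)
  · exact Or.inr (Units.ext (by rw [e1]; simp))

/-- similitudes of a symmetric form with either sign -/
lemma exists_sim_sign (h2 : (2 : F) ≠ 0) {m : ℕ} (hm : 1 ≤ m) (G : GL (Fin (2 * m)) F) (hs : (G.val)ᵀ = G.val) (c s : Fˣ) (hs' : s = 1 ∨ s = -1) :
    ∃ P : GL (Fin (2 * m)) F, (∀ x y, bf G.val (P.val *ᵥ x) (P.val *ᵥ y) = c * bf G.val x y) ∧ Matrix.GeneralLinearGroup.det P = s * c ^ m := by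
  haveI : Nonempty (Fin (2 * m)) := ⟨⟨0, by omega⟩⟩
  obtain ⟨P, hP⟩ := exists_sim_sym h2 hm G hs c
  obtain ⟨R, hR, hRd⟩ := exists_refl h2 G hs
  have hPR : ∀ x y, bf G.val ((P * R).val *ᵥ x) ((P * R).val *ᵥ y) = c * bf G.val x y := by
    intro x y
    rw [Units.val_mul, ← Matrix.mulVec_mulVec, ← Matrix.mulVec_mulVec, hP, hR]
  have hRd' : Matrix.GeneralLinearGroup.det R = -1 := Units.ext hRd
  have hdPR : Matrix.GeneralLinearGroup.det (P * R) = - Matrix.GeneralLinearGroup.det P := by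
    rw [map_mul, hRd']
    simp
  rcases det_sign rfl G P c hP with e1 | e1 <;> rcases hs' with rfl | rfl
  · exact ⟨P, hP, by rw [e1, one_mul]⟩
  · exact ⟨P * R, hPR, by rw [hdPR, e1]; simp⟩
  · exact ⟨P * R, hPR, by rw [hdPR, e1]; simp⟩
  · exact ⟨P, hP, by rw [e1]; simp⟩

/-- the group of `± c ^ m`, abstractly -/
lemma pm_range_gen {A : Type*} [CommGroup A] [IsCyclic A] [Finite A] {h m : ℕ} (hc : Nat.card A = 2 * h) (hh : 0 < h) (z : A)
    (hz : ∀ x : A, x ^ 2 = 1 → x = 1 ∨ x = z) (w : A) :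
    (∃ c : A, w = c ^ m ∨ w = z * c ^ m) ↔ w ∈ (powMonoidHom (Nat.gcd m h) : A →* A).range := by
  have hpow : ∀ c : A, (c ^ h) ^ 2 = 1 := by
    intro c
    rw [← pow_mul, mul_comm, ← hc]
    exact pow_card_eq_one'
  constructor
  · rintro ⟨c, hw⟩
    obtain ⟨a, ha⟩ : Nat.gcd m h ∣ m := Nat.gcd_dvd_left m h
    obtain ⟨b, hb⟩ : Nat.gcd m h ∣ h := Nat.gcd_dvd_right m h
    obtain ⟨ζ, hζ⟩ := IsCyclic.exists_generator (α := A)
    have hord : orderOf ζ = 2 * h := by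
      rw [← hc]
      exact orderOf_eq_card_of_forall_mem_zpowers hζ
    have hζh : ζ ^ h = z := by
      rcases hz _ (hpow ζ) with e | e
      · exfalso
        have := orderOf_dvd_of_pow_eq_one e
        rw [hord] at this
        have := Nat.le_of_dvd hh this
        omega
      · exact e
    rcases hw with rfl | rfl
    · refine ⟨c ^ a, ?_⟩
      change (c ^ a) ^ Nat.gcd m h = c ^ m
      rw [← pow_mul, mul_comm, ← ha]
    · refine ⟨ζ ^ b * c ^ a, ?_⟩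
      change (ζ ^ b * c ^ a) ^ Nat.gcd m h = z * c ^ m
      rw [mul_pow, ← pow_mul, ← pow_mul, mul_comm a, ← ha, mul_comm b, ← hb, hζh]
  · rintro ⟨c, rfl⟩
    change ∃ c' : A, c ^ Nat.gcd m h = c' ^ m ∨ c ^ Nat.gcd m h = z * c' ^ m
    have hb := Nat.gcd_eq_gcd_ab m h
    obtain ⟨t, ht⟩ : ∃ t : A, t = (c ^ h) ^ (Nat.gcdB m h) := ⟨_, rfl⟩
    have ht2 : t ^ 2 = 1 := by
      rw [ht, ← zpow_natCast, ← zpow_natCast, ← _root_.zpow_mul, mul_comm, _root_.zpow_mul, zpow_natCast, zpow_natCast, hpow]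
      simp
    have e1 : c ^ Nat.gcd m h = (c ^ (Nat.gcdA m h)) ^ m * t := by
      have a1 : c ^ ((m : ℤ) * Nat.gcdA m h) = (c ^ (Nat.gcdA m h)) ^ m := by
        rw [mul_comm, _root_.zpow_mul, zpow_natCast]
      have a2 : c ^ ((h : ℤ) * Nat.gcdB m h) = (c ^ h) ^ (Nat.gcdB m h) := by
        rw [_root_.zpow_mul, zpow_natCast]
      rw [← zpow_natCast c (Nat.gcd m h), hb, _root_.zpow_add, ht, a1, a2]
    refine ⟨c ^ (Nat.gcdA m h), ?_⟩
    rcases hz t ht2 with e | e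
    · left
      rw [e1, e, mul_one]
    · right
      rw [e1, e, mul_comm]

/-- the order comparison in coordinates -/
theorem sym_order (h2 : (2 : F) ≠ 0) {m : ℕ} (hm : 2 ≤ m) (G : GL (Fin (2 * m)) F) (hs : (G.val)ᵀ = G.val) :
    ∃ (ι' : Type) (_ : Fintype ι') (_ : DecidableEq ι') (B : (ι' → F) → (ι' → F) → F) (L : (ι' → F) ≃ₗ[F] (Fin (2 * m) → F)) (d : Fˣ),
      (∀ x y, B x y = d * bf G.val (L x) (L y)) ∧ Nat.card (Cfsg.projQuot (Cfsg.Geo.similarityGroup B)) ≠ Nat.card (Cfsg.PGSp m F) := by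
  classical
  haveI : Nonempty (Fin m) := ⟨⟨0, by omega⟩⟩
  obtain ⟨k, rfl⟩ : ∃ k, m = k + 1 := ⟨m - 1, by omega⟩
  have hk : 1 ≤ k := by omega
  have hq3 : 3 ≤ Fintype.card F := by
    have h1 : 1 < Fintype.card F := Fintype.one_lt_card
    by_contra hcon
    have e2 : Fintype.card F = 2 := by omega
    have e3 := Nat.cast_card_eq_zero F
    rw [e2] at e3
    exact h2 (by exact_mod_cast e3)
  have hfr : finrank F (Fin (2 * (k + 1)) → F) = 2 * (k + 1) := by rw [Module.finrank_fintype_fun_eq_card, Fintype.card_fin]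
  have hcards : Nat.card (symplecticGroup (Fin (k + 1)) F) = Fintype.card F ^ ((k + 1) ^ 2) * ∏ i ∈ Finset.range (k + 1), (Fintype.card F ^ (2 * (i + 1)) - 1) :=
    Cfsg.Agent.Lead.card_Sp rfl (k + 1)
  have hcoords : ∀ {ι' : Type} [Fintype ι'] [DecidableEq ι'] {Q : (ι' → F) → F} {B : (ι' → F) → (ι' → F) → F} (_ : QF Q B)
      (g : (Fin (2 * (k + 1)) → F) ≃ₗ[F] (ι' → F)) (_ : ∀ v, bf G.val v v = Q (g v)), ∀ x y, B x y = ((Units.mk0 2 h2 : Fˣ) : F) * bf G.val (g.symm x) (g.symm y) := by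
    intro ι' _ _ Q B h g hg x y
    rw [Units.val_mk0]
    have e1 := h.add x y
    obtain ⟨u, rfl⟩ := g.surjective x
    obtain ⟨v, rfl⟩ := g.surjective y
    rw [← map_add, ← hg, ← hg, ← hg, bf_add_left, bf_add_right, bf_add_right] at e1
    have e2 : bf G.val v u = bf G.val u v := by
      rw [← bf_transpose, hs]
    rw [e2] at e1
    rw [LinearEquiv.symm_apply_apply, LinearEquiv.symm_apply_apply]
    linear_combination -e1
  rcases Cfsg.Agent.H11.exists_isometry_standard (m := k + 1) (by omega) hfr (qOf G) (qOf_nondeg h2 G hs) with ⟨g, hg⟩ | ⟨g, ζ, hζ, hg⟩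
  · have hqf := qfPlus (F := F) (k + 1)
    refine ⟨_, inferInstance, inferInstance, polarPlus (k + 1) F, g.symm, Units.mk0 2 h2, hcoords hqf g (fun v => by rw [← qOf_apply]; exact hg v), ?_⟩
    have hq : Cfsg.Geo.quadSimilarityGroup (Cfsg.quadFormPlus (k + 1) F) = Cfsg.Geo.similarityGroup (polarPlus (k + 1) F) := quadSim_eq hqf h2
    rw [← hq]
    obtain ⟨x, hx⟩ := exists_ne (0 : Fin (k + 1) ⊕ Fin (k + 1) → F)
    obtain ⟨y, -, hy⟩ := ndPlus (F := F) (k + 1) x Submodule.mem_top hx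
    refine card_ne (m := k + 1) hqf h2 hy ?_ rfl
    rw [card_GO_plus rfl (k + 1) (by omega), hcards]
    exact num_lt hq3 hk _ (by omega)
  · have hqf := qfMinus (F := F) (k + 1 - 1) 1 ζ
    refine ⟨_, inferInstance, inferInstance, polarMinus (k + 1 - 1) F 1 ζ, g.symm, Units.mk0 2 h2, hcoords hqf g (fun v => by rw [← qOf_apply]; exact hg v), ?_⟩
    have hq : Cfsg.Geo.quadSimilarityGroup (Cfsg.quadFormMinus (k + 1 - 1) F 1 ζ) = Cfsg.Geo.similarityGroup (polarMinus (k + 1 - 1) F 1 ζ) := quadSim_eq hqf h2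
    rw [← hq]
    have hab := aniso_of_zeta hζ
    obtain ⟨x, hx⟩ := exists_ne (0 : (Fin (k + 1 - 1) ⊕ Fin (k + 1 - 1)) ⊕ Fin 2 → F)
    obtain ⟨y, -, hy⟩ := ndMinus (F := F) (k + 1 - 1) 1 ζ hab x Submodule.mem_top hx
    refine card_ne (m := k + 1) hqf h2 hy ?_ ?_
    · rw [card_GO_minus rfl (k + 1) (by omega) 1 ζ hab, hcards]
      exact num_lt hq3 hk _ le_rfl
    · rw [card_scalars, card_scalars]

end Cfsg.Agent.Lead.Fm

namespace Cfsg.Agent.Lead.GUF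
open Matrix Cfsg.Agent.Lead Cfsg.Agent.Lead.PSU Cfsg.Agent.Lead.AutPSU Cfsg.Agent.Lead.Lang Cfsg.Agent.Lead.Ortho Cfsg.Agent.Lead.LangOm
open Cfsg.Agent.Lead.Fm (bf bf_mat mat_ext bf_smul_mat cL cL_mulVec cL_symm_mulVec cL_sc bf_add_left bf_add_right bf_transpose glOf glOf_mulVec LR
  quadSim_eq exists_gram qOf qOf_apply qOf_nondeg pgo_model exists_symp_coords not_conj_anti not_conj_plus_minus conj_of_form)
open scoped MatrixGroups

variable {F : Type*} [Field F] [Fintype F] {n : ℕ} {F₀ : Type*} [Field F₀] [Fintype F₀] {q : ℕ} {σ : F ≃+* F} {ε : F₀ →+* F}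

local notation "PG" => (Cfsg.SU n F q ⧸ Subgroup.center (Cfsg.SU n F q))
local notation "MU" => rootsOfUnity (q + 1) F

lemma mem_mu (hσq : ∀ a, σ a = a ^ q) (x : Fˣ) : x ∈ rootsOfUnity (q + 1) F ↔ (x : F) * σ x = 1 := by
  rw [mem_rootsOfUnity]
  constructor
  · intro h
    have e := congrArg Units.val h
    rw [Units.val_pow_eq_pow_val, Units.val_one, pow_succ] at e
    rw [hσq, mul_comm]
    exact e
  · intro h
    apply Units.ext
    rw [Units.val_pow_eq_pow_val, Units.val_one, pow_succ, mul_comm, ← hσq]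
    exact h

section
variable (hF : Fintype.card F = q ^ 2) (hσq : ∀ a, σ a = a ^ q) (hord : orderOf σ = 2) (hε : ∀ a, σ a = a ↔ a ∈ Set.range ε)
include hF hσq hord hε

lemma detU_iff [Nonempty (Fin n)] (hn3 : 3 ≤ n) {g : Cfsg.GU n F q} {a : GL (Fin n) F} {G₀ : GL (Fin n) F₀} {ρ κ : Fˣ} (hD : DD σ ε g.1 a G₀ ρ κ) (w : Fˣ) :
    (∃ k : Cfsg.GU n F q, guDet k = w ∧ (kkU k * (kkU g * fldU σ) : MulAut PG) = (kkU g * fldU σ) * kkU k) ↔
    ∃ (t : Fˣ) (P : GL (Fin n) F₀) (c : F₀ˣ), (∀ x y, bf G₀.val (P.val *ᵥ x) (P.val *ᵥ y) = c * bf G₀.val x y) ∧ (t : F) * σ t * ε c = 1 ∧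
      w = t ^ n * Units.map (ε : F₀ →* F) (Matrix.GeneralLinearGroup.det P) := by
  have hdet : ∀ (t : Fˣ) (P : GL (Fin n) F₀), Matrix.GeneralLinearGroup.det (sc t * a * em ε P * a⁻¹) = t ^ n * Units.map (ε : F₀ →* F) (Matrix.GeneralLinearGroup.det P) := by
    intro t P
    have e1 : Matrix.GeneralLinearGroup.det (em ε P) = Units.map (ε : F₀ →* F) (Matrix.GeneralLinearGroup.det P) := by
      apply Units.ext
      exact (RingHom.map_det ε _).symm
    rw [map_mul, map_mul, map_mul, map_inv, det_sc, e1, mul_assoc (t ^ n), mul_comm (Matrix.GeneralLinearGroup.det a), mul_assoc (t ^ n), mul_assoc _ (Matrix.GeneralLinearGroup.det a), mul_inv_cancel, mul_one]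
  have hρ0 : (ρ : F) ≠ 0 := ρ.ne_zero
  constructor
  · rintro ⟨k, rfl, hk⟩
    obtain ⟨ν, hν⟩ := of_comm hF hn3 hk
    obtain ⟨t, P, c, hc, e1, hP, ht⟩ := descend_k hF hσq hord hε hD hD k.1 k.2 hν
    refine ⟨t, P, Units.mk0 c hc, fun x y => ?_, ?_, ?_⟩
    · rw [Units.val_mk0, bf_mat, hP, bf_smul_mat]
    · rw [Units.val_mk0]
      apply mul_right_cancel₀ hρ0
      linear_combination ht
    · change Matrix.GeneralLinearGroup.det k.1 = _
      rw [e1, hdet]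
  · rintro ⟨t, P, c, hP, ht, rfl⟩
    have hP' : (P.val)ᵀ * G₀.val * P.val = (c : F₀) • G₀.val := Fm.sim_mat G₀ P c hP
    obtain ⟨hmem, ν, hν⟩ := lift_k hF hσq hord hε hD hD P c hP' t (by linear_combination (ρ : F) * ht)
    exact ⟨⟨_, hmem⟩, hdet t P, comm_of hF (x := ⟨_, hmem⟩) (g := g) (g' := g) hν⟩

/-- `n` odd or characteristic two -/
lemma D_U_all [Nonempty (Fin n)] (hn3 : 3 ≤ n) (h : Odd n ∨ (2 : F₀) = 0) {g : Cfsg.GU n F q} {a : GL (Fin n) F} {G₀ : GL (Fin n) F₀} {ρ κ : Fˣ} (hD : DD σ ε g.1 a G₀ ρ κ) (w : MU) :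
    w ∈ (powMonoidHom n : MU →* MU).range ↔ ∃ k : Cfsg.GU n F q, guDet k = (w : Fˣ) ∧ (kkU k * (kkU g * fldU σ) : MulAut PG) = (kkU g * fldU σ) * kkU k := by
  rw [detU_iff hF hσq hord hε hn3 hD]
  constructor
  · rintro ⟨x, rfl⟩
    refine ⟨x, 1, 1, fun u v => ?_, ?_, ?_⟩
    · simp
    · rw [Units.val_one, map_one, mul_one]
      exact (mem_mu hσq _).1 x.2
    · simp
  · rintro ⟨t, P, c, hP, ht, hw⟩
    obtain ⟨e, he, hde⟩ := Fm.exists_root_det h G₀ P c hP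
    have hfix : σ (ε e) = ε e := (hε _).2 ⟨_, rfl⟩
    have hce : ε (c : F₀) = ε e * ε e := by
      rw [← he, ← map_mul]
      simp [sq]
    have hx : t * Units.map (ε : F₀ →* F) e ∈ rootsOfUnity (q + 1) F := by
      rw [mem_mu hσq]
      change ((t : F) * ε e) * σ ((t : F) * ε e) = 1
      rw [map_mul, hfix]
      linear_combination ht - (t : F) * σ t * hce
    refine ⟨⟨_, hx⟩, ?_⟩
    apply Subtype.ext
    change (t * Units.map (ε : F₀ →* F) e) ^ n = (w : Fˣ)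
    rw [hw, hde, mul_pow, map_pow]

lemma mu_of_t {t : Fˣ} {c : F₀ˣ} (ht : (t : F) * σ t * ε c = 1) : t * t * Units.map (ε : F₀ →* F) c ∈ rootsOfUnity (q + 1) F := by
  have hfix : σ (ε c) = ε c := (hε _).2 ⟨_, rfl⟩
  rw [mem_mu hσq]
  change ((t : F) * t * ε c) * σ ((t : F) * t * ε c) = 1
  rw [map_mul, map_mul, hfix]
  linear_combination ((t : F) * σ t * ε c + 1) * ht

lemma t_of_mu (x : MU) : ∃ (t : Fˣ) (c : F₀ˣ), (t : F) * σ t * ε c = 1 ∧ t * t * Units.map (ε : F₀ →* F) c = (x : Fˣ) := by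
  obtain ⟨t, ht⟩ := exists_h90 hord (ν := ((x : Fˣ) : F)) ((mem_mu hσq _).1 x.2)
  have hs2 := sig2 hord
  have hfix : σ ((t : F) * σ t) = (t : F) * σ t := by
    rw [map_mul, hs2, mul_comm]
  obtain ⟨c₀, hc₀⟩ := (hε _).1 hfix
  have hσ0 : σ (t : F) ≠ 0 := by
    intro e
    exact t.ne_zero ((map_eq_zero σ).1 e)
  have hl0 : (t : F) * σ t ≠ 0 := mul_ne_zero t.ne_zero hσ0
  have hc0 : c₀ ≠ 0 := by
    rintro rfl
    rw [map_zero] at hc₀
    exact hl0 hc₀.symm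
  have hci : ε (c₀⁻¹) = ((t : F) * σ t)⁻¹ := by
    rw [map_inv₀, hc₀]
  refine ⟨t, (Units.mk0 c₀ hc0)⁻¹, ?_, ?_⟩
  · change (t : F) * σ t * ε (c₀⁻¹) = 1
    rw [hci]
    exact mul_inv_cancel₀ hl0
  · apply Units.ext
    change (t : F) * t * ε (c₀⁻¹) = ((x : Fˣ) : F)
    rw [hci]
    have ht0 := t.ne_zero
    field_simp
    linear_combination -ht

lemma pow_form {m : ℕ} (hnm : n = 2 * m) (t : Fˣ) (c : F₀ˣ) :
    t ^ n * Units.map (ε : F₀ →* F) (c ^ m) = (t * t * Units.map (ε : F₀ →* F) c) ^ m := by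
  rw [hnm, two_mul, pow_add, map_pow, mul_pow, mul_pow]

/-- the alternating case -/
lemma D_U_anti [Nonempty (Fin n)] (hn3 : 3 ≤ n) (h2 : (2 : F₀) ≠ 0) {m : ℕ} (hnm : n = 2 * m) {g : Cfsg.GU n F q} {a : GL (Fin n) F} {G₀ : GL (Fin n) F₀} {ρ κ : Fˣ} (hD : DD σ ε g.1 a G₀ ρ κ)
    (h₀ : (G₀.val)ᵀ = -G₀.val) (w : MU) :
    w ∈ (powMonoidHom m : MU →* MU).range ↔ ∃ k : Cfsg.GU n F q, guDet k = (w : Fˣ) ∧ (kkU k * (kkU g * fldU σ) : MulAut PG) = (kkU g * fldU σ) * kkU k := by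
  rw [detU_iff hF hσq hord hε hn3 hD]
  constructor
  · rintro ⟨x, rfl⟩
    obtain ⟨t, c, ht, hx⟩ := t_of_mu hF hσq hord hε x
    obtain ⟨P, hP⟩ := Fm.exists_sim_anti h2 hnm G₀ h₀ c
    refine ⟨t, P, c, hP, ht, ?_⟩
    have e1 : Matrix.GeneralLinearGroup.det P = c ^ m := Units.ext (Fm.det_sim_anti h2 hnm G₀ h₀ P c hP)
    rw [e1, pow_form hF hσq hord hε hnm, hx]
    rfl
  · rintro ⟨t, P, c, hP, ht, hw⟩
    refine ⟨⟨_, mu_of_t hF hσq hord hε ht⟩, ?_⟩
    apply Subtype.ext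
    change (t * t * Units.map (ε : F₀ →* F) c) ^ m = (w : Fˣ)
    have e1 : Matrix.GeneralLinearGroup.det P = c ^ m := Units.ext (Fm.det_sim_anti h2 hnm G₀ h₀ P c hP)
    rw [hw, e1, pow_form hF hσq hord hε hnm]


/-- the symmetric case -/
lemma D_U_sym [Nonempty (Fin n)] (hn3 : 3 ≤ n) (h2 : (2 : F₀) ≠ 0) {m : ℕ} (hm : 1 ≤ m) (hnm : n = 2 * m) {g : Cfsg.GU n F q} {a : GL (Fin n) F} {G₀ : GL (Fin n) F₀} {ρ κ : Fˣ} (hD : DD σ ε g.1 a G₀ ρ κ)
    (hs : (G₀.val)ᵀ = G₀.val) (z : MU) (hz : (z : Fˣ) = -1) (w : MU) :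
    (∃ x : MU, w = x ^ m ∨ w = z * x ^ m) ↔ ∃ k : Cfsg.GU n F q, guDet k = (w : Fˣ) ∧ (kkU k * (kkU g * fldU σ) : MulAut PG) = (kkU g * fldU σ) * kkU k := by
  rw [detU_iff hF hσq hord hε hn3 hD]
  have hE : ∀ s : F₀ˣ, s = -1 → Units.map (ε : F₀ →* F) s = -1 := by
    rintro s rfl
    apply Units.ext
    change ε (-1) = -1
    simp
  have hsim : ∀ (c s : F₀ˣ), (s = 1 ∨ s = -1) → ∃ P : GL (Fin n) F₀, (∀ x y, bf G₀.val (P.val *ᵥ x) (P.val *ᵥ y) = c * bf G₀.val x y) ∧ Matrix.GeneralLinearGroup.det P = s * c ^ m := by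
    intro c s hs'
    subst hnm
    exact Fm.exists_sim_sign h2 hm G₀ hs c s hs'
  constructor
  · rintro ⟨x, hw⟩
    obtain ⟨t, c, ht, hx⟩ := t_of_mu hF hσq hord hε x
    rcases hw with rfl | rfl
    · obtain ⟨P, hP, hd⟩ := hsim c 1 (Or.inl rfl)
      refine ⟨t, P, c, hP, ht, ?_⟩
      rw [hd, one_mul, pow_form hF hσq hord hε hnm, hx]
      rfl
    · obtain ⟨P, hP, hd⟩ := hsim c (-1) (Or.inr rfl)
      refine ⟨t, P, c, hP, ht, ?_⟩
      rw [hd, map_mul, hE _ rfl, mul_left_comm, pow_form hF hσq hord hε hnm, hx]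
      change (z : Fˣ) * (x : Fˣ) ^ m = _
      rw [hz]
  · rintro ⟨t, P, c, hP, ht, hw⟩
    refine ⟨⟨_, mu_of_t hF hσq hord hε ht⟩, ?_⟩
    rcases Fm.det_sign hnm G₀ P c hP with e1 | e1
    · left
      apply Subtype.ext
      change (w : Fˣ) = (t * t * Units.map (ε : F₀ →* F) c) ^ m
      rw [hw, e1, pow_form hF hσq hord hε hnm]
    · right
      apply Subtype.ext
      change (w : Fˣ) = (z : Fˣ) * (t * t * Units.map (ε : F₀ →* F) c) ^ m
      have e2 : Units.map (ε : F₀ →* F) (- c ^ m) = - Units.map (ε : F₀ →* F) (c ^ m) := by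
        apply Units.ext
        change ε (-((c ^ m : F₀ˣ) : F₀)) = -(ε ((c ^ m : F₀ˣ) : F₀))
        rw [map_neg]
      rw [hw, e1, hz, e2, mul_neg, pow_form hF hσq hord hε hnm]
      simp

end

/-- **S2709** -/
theorem psu_split_graph {p f : ℕ} [Fact p.Prime] (hq : q = p ^ f) (hf : 1 ≤ f) (hF : Fintype.card F = q ^ 2) (hn : 3 ≤ n) (hF₀ : Fintype.card F₀ = q) (γ : MulAut (Cfsg.PSU n F q)) (hγ : Cfsg.IsGraphAutClassPSU γ) (hγ2 : orderOf γ = 2) :
    ((Even n ∧ Odd q ∧ Nonempty (↥(Cfsg.inndiagPSU n F q ⊓ Subgroup.centralizer {γ}) ≃* Cfsg.PGSp (n / 2) F₀)) → Cfsg.splitClassCount (Cfsg.inndiagPSU n F q) (Cfsg.Inn (Cfsg.PSU n F q)) γ = Nat.gcd (n / 2) (q + 1)) ∧ ((Even n ∧ Odd q ∧ ¬ Nonempty (↥(Cfsg.inndiagPSU n F q ⊓ Subgroup.centralizer {γ}) ≃* Cfsg.PGSp (n / 2) F₀)) → Cfsg.splitClassCount (Cfsg.inndiagPSU n F q) (Cfsg.Inn (Cfsg.PSU n F q)) γ = Nat.gcd n (q + 1) / 2) ∧ (¬ (Even n ∧ Odd q) → Cfsg.splitClassCount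 (Cfsg.inndiagPSU n F q) (Cfsg.Inn (Cfsg.PSU n F q)) γ = Nat.gcd n (q + 1)) := by
  classical
  haveI : Nonempty (Fin n) := ⟨⟨0, by omega⟩⟩
  haveI : Nontrivial (Fin n) := Fin.nontrivial_iff_two_le.2 (by omega)
  have hn0 : 0 < n := by omega
  have hσq : ∀ a, sigQ hF a = a ^ q := sigQ_apply hF
  have hord := order_two hF hσq
  obtain ⟨ε, hε⟩ := exists_eps hF hF₀ hσq
  have hq2 : 2 ≤ q := by
    rw [← hF₀]
    exact Fintype.one_lt_card
  have hcardW : Nat.card (rootsOfUnity (q + 1) F) = q + 1 := by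
    rw [card_rootsOfUnity_field, hF]
    apply Nat.gcd_eq_left
    refine ⟨q - 1, ?_⟩
    obtain ⟨t, ht⟩ : ∃ t, q = t + 1 := ⟨q - 1, by omega⟩
    rw [ht]
    simp only [Nat.add_sub_cancel]
    have : (t + 1) ^ 2 = (t + 1 + 1) * t + 1 := by ring
    omega
  obtain ⟨g, rfl, hg2⟩ := graph_form hF hσq hord hn γ hγ hγ2
  obtain ⟨a, G₀, ρ, κ, hD, hty⟩ := data_of_invol hF hσq hord hε hn g hg2
  have hty' : (G₀.val)ᵀ = G₀.val ∨ (G₀.val)ᵀ = -G₀.val := by
    rcases hty with ⟨-, h⟩ | ⟨-, h⟩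
    · exact Or.inl h
    · exact Or.inr h
  have hD' : DD (sigQ hF) ε (⟨g.1, g.2⟩ : Cfsg.GU n F q).1 a G₀ ρ κ := hD
  rw [inndiagU_eq]
  refine ⟨?_, ?_, ?_⟩
  · rintro ⟨⟨m', hm'⟩, hodd, hE⟩
    have hnm : n = 2 * m' := by omega
    have hm2 : n / 2 = m' := by omega
    rw [hm2] at hE ⊢
    have h2 : (2 : F₀) ≠ 0 := two_ne_zero_of_odd hF₀ hodd
    rcases hty' with hs | h₀
    · exfalso
      obtain ⟨E⟩ := hE
      obtain ⟨ι', i1, i2, B, L, d, hB, hne⟩ : ∃ (ι' : Type) (_ : Fintype ι') (_ : DecidableEq ι') (B : (ι' → F₀) → (ι' → F₀) → F₀) (L : (ι' → F₀) ≃ₗ[F₀] (Fin n → F₀)) (d : F₀ˣ),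
          (∀ x y, B x y = d * bf G₀.val (L x) (L y)) ∧ Nat.card (Cfsg.projQuot (Cfsg.Geo.similarityGroup B)) ≠ Nat.card (Cfsg.PGSp m' F₀) := by
        clear E
        subst hnm
        exact Fm.sym_order h2 (by omega) G₀ hs
      obtain ⟨E'⟩ := cenU_iso hF hσq hord hε hn g.2 hD B L d hB
      exact hne (Nat.card_congr (E'.symm.trans E).toEquiv)
    · rw [split_PSU hF hn0 _ _ (D_U_anti hF hσq hord hε hn h2 hnm hD h₀), IsCyclic.index_powMonoidHom_range, hcardW, Nat.gcd_comm]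
  · rintro ⟨⟨m', hm'⟩, hodd, hE⟩
    have hnm : n = 2 * m' := by omega
    have hm2 : n / 2 = m' := by omega
    rw [hm2] at hE
    have h2 : (2 : F₀) ≠ 0 := two_ne_zero_of_odd hF₀ hodd
    rcases hty' with hs | h₀
    · obtain ⟨h, hh⟩ : ∃ h, q + 1 = 2 * h := by
        obtain ⟨j, hj⟩ := hodd
        exact ⟨j + 1, by omega⟩
      have hh0 : 0 < h := by omega
      have hz : (-1 : Fˣ) ∈ rootsOfUnity (q + 1) F := by
        rw [mem_rootsOfUnity, hh, pow_mul]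
        simp
      have hzs : ∀ x : rootsOfUnity (q + 1) F, x ^ 2 = 1 → x = 1 ∨ x = ⟨-1, hz⟩ := by
        intro x hx
        have e0 : ((x : Fˣ) : F) * ((x : Fˣ) : F) = 1 := by
          have := congrArg (fun t : rootsOfUnity (q + 1) F => ((t : Fˣ) : F)) hx
          simpa [sq] using this
        rcases mul_self_eq_one_iff.1 e0 with e1 | e1
        · exact Or.inl (Subtype.ext (Units.ext e1))
        · exact Or.inr (Subtype.ext (Units.ext (by rw [e1]; simp)))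
      have hD2 : ∀ w, w ∈ (powMonoidHom (Nat.gcd m' h) : rootsOfUnity (q + 1) F →* rootsOfUnity (q + 1) F).range ↔ ∃ k : Cfsg.GU n F q, guDet k = (w : Fˣ) ∧ (kkU k * (kkU g * fldU (sigQ hF)) : MulAut _) = (kkU g * fldU (sigQ hF)) * kkU k := by
        intro w
        rw [← Fm.pm_range_gen (by rw [hcardW, hh]) hh0 ⟨-1, hz⟩ hzs]
        exact D_U_sym hF hσq hord hε hn h2 (by omega) hnm hD hs ⟨-1, hz⟩ rfl w
      rw [split_PSU hF hn0 _ _ hD2, IsCyclic.index_powMonoidHom_range, hcardW, hh, hnm, Nat.gcd_mul_left 2 m' h, Nat.mul_div_cancel_left _ (by norm_num)]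
      exact Nat.gcd_eq_right ((Nat.gcd_dvd_right m' h).trans (Dvd.intro_left 2 rfl))
    · exfalso
      obtain ⟨ψ, hψ⟩ := exists_symp_coords h2 hnm G₀ h₀
      exact hE (cenU_iso hF hσq hord hε hn g.2 hD (Cfsg.sympForm m' F₀) ψ.symm (-1) (fun x y => by
        have := hψ (ψ.symm x) (ψ.symm y)
        rw [LinearEquiv.apply_symm_apply, LinearEquiv.apply_symm_apply] at this
        rw [this]
        simp))
  · intro hne
    have hc : Odd n ∨ (2 : F₀) = 0 := by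
      by_cases h2 : (2 : F₀) = 0
      · exact Or.inr h2
      · left
        by_contra hcon
        refine hne ⟨Nat.not_odd_iff_even.1 hcon, ?_⟩
        by_contra hq'
        have hev : Even q := Nat.not_odd_iff_even.1 hq'
        apply h2
        have e3 := Nat.cast_card_eq_zero F₀
        rw [hF₀] at e3
        obtain ⟨j, hj⟩ := hev
        rw [hj] at e3
        have e4 : ((j + j : ℕ) : F₀) = 2 * j := by
          push_cast
          ring
        rw [e4] at e3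
        rcases mul_eq_zero.1 e3 with e5 | e5
        · exact e5
        · -- `q = 2 j`, `j` vanishes in `F₀`; use the characteristic
          obtain ⟨p', hp', k, hk, hc'⟩ := FiniteField.card' F₀
          haveI := hp'
          have hd : 2 ∣ p' ^ (k : ℕ) := by
            rw [← hc', hF₀, hj]
            exact ⟨j, by ring⟩
          have e6 : p' = 2 := ((Nat.prime_dvd_prime_iff_eq Nat.prime_two hk).1 (Nat.prime_two.dvd_of_dvd_pow hd)).symm
          subst e6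
          exact_mod_cast CharP.cast_eq_zero F₀ 2
    rw [split_PSU hF hn0 _ _ (D_U_all hF hσq hord hε hn hc hD), IsCyclic.index_powMonoidHom_range, hcardW, Nat.gcd_comm]

end Cfsg.Agent.Lead.GUF
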