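import Cfsg.Agent.Lib.Lead.LangBal5
import Cfsg.Agent.Lib.H01.OmDiagM2
/-! Field automorphisms of the minus type: words in reflections and the parity of the classes. -/
set_option autoImplicit false
set_option linter.style.haveILetI false
set_option linter.unusedSimpArgs false
set_option linter.unusedSectionVars false
set_option linter.unusedVariables false
set_option linter.deprecated false
namespace Cfsg.Agent.Lead.LangOm
open Matrix Module Cfsg.Agent.Lead.Ortho Cfsg.Agent.Lead.Omega Cfsg.Agent.H01.Om Cfsg.Agent.Lead.Lang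
open Cfsg.Agent.H11 (IsMTS Rf Pb triangle minusForm minusForm_coe Rf_isom)

variable {F : Type*} [Field F] [Fintype F] {ι : Type} [Fintype ι] [DecidableEq ι]
variable {Q : (ι → F) → F} {B : (ι → F) → (ι → F) → F}

section Word
variable {K : Type*} [Field K] [Algebra F K] {Q₀ : QuadraticForm K (ι → K)} {n : ℕ} {W₀ : Submodule K (ι → K)}
variable {h : QF Q B}

/-- an isometry with a given word is the product of the reflection and the rest -/
lemma word_cons (Qq : QuadraticForm F (ι → F)) (hQq : ⇑Qq = Q) {a : ι → F} (ha : Q a ≠ 0) {l : List (ι → F)}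
    {s s' : OG F Q} (hs : ((s : GL ι F) : Matrix ι ι F) = prodR Q (a :: l)) (hs' : ((s' : GL ι F) : Matrix ι ι F) = prodR Q l) :
    s = R h a ha * s' := by
  apply Subtype.ext
  apply Units.ext
  have e : (((R h a ha * s' : OG F Q) : GL ι F) : Matrix ι ι F) =
      (((R h a ha : OG F Q) : GL ι F) : Matrix ι ι F) * ((s' : GL ι F) : Matrix ι ι F) := rfl
  rw [hs, e, hs', prodR_cons, R_val Qq hQq h ha]

/-- the parity of a word in the reflections -/
theorem word_parity (Y : LD h Q₀ n W₀) (Qq : QuadraticForm F (ι → F)) (hQq : ⇑Qq = Q) (l : List (ι → F))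
    (hl : ∀ v ∈ l, Q v ≠ 0) (s : OG F Q) (hs : ((s : GL ι F) : Matrix ι ι F) = prodR Q l) :
    embG K (s : GL ι F) ∈ SGL Q₀ ∧ (n + MgL (embG K (s : GL ι F)) W₀ + l.length) % 2 = 0 := by
  induction l generalizing s with
  | nil =>
    have e : s = 1 := by
      apply Subtype.ext
      apply Units.ext
      exact hs
    subst e
    have e2 : embG K (((1 : OG F Q) : GL ι F)) = 1 := map_one _
    rw [e2]
    refine ⟨Subgroup.one_mem _, ?_⟩
    have hn : MgL (1 : GL ι K) W₀ = n := by
      rw [MgL, imL_one, inf_idem, Y.hW₀.card]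
    rw [hn]
    simp
    omega
  | cons a l ih =>
    have ha : Q a ≠ 0 := hl a List.mem_cons_self
    have hl' : ∀ v ∈ l, Q v ≠ 0 := fun v hv => hl v (List.mem_cons_of_mem _ hv)
    obtain ⟨s', hs'⟩ := exists_og_of_list Qq hQq h l hl'
    obtain ⟨h1, h2⟩ := ih hl' s' hs'
    have e := word_cons (h := h) Qq hQq ha hs hs'
    subst e
    have hR := Y.embG_R ha
    have hQa := Y.Q_ne ha
    have hRS : embG K ((R h a ha : OG F Q) : GL ι F) ∈ SGL Q₀ := ⟨1, fun v => by
      rw [hR, Rf_isom Q₀ _ hQa]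
      simp⟩
    have hm1 := Cfsg.Agent.H01.Om.Mg_refl Y.hdim Y.hQ hQa hR Y.hW₀
    have ep := Cfsg.Agent.H01.Om.parity_mul Y.hdim Y.hQ hRS h1 Y.hW₀
    have eg : embG K ((R h a ha * s' : OG F Q) : GL ι F) = embG K ((R h a ha : OG F Q) : GL ι F) * embG K (s' : GL ι F) := map_mul _ _ _
    rw [eg]
    refine ⟨Subgroup.mul_mem _ hRS h1, ?_⟩
    rw [List.length_cons]
    omega

end Word

section Even
variable {m : ℕ} {t₀ : Fin m → (ι → F) × (ι → F)}

/-- the fixed space dimension of a word -/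
lemma word_dd (h : QF Q B) (hnd : ND B (⊤ : Submodule F (ι → F))) (Qq : QuadraticForm F (ι → F)) (hQq : ⇑Qq = Q) (l : List (ι → F))
    (hl : ∀ v ∈ l, Q v ≠ 0) (s : OG F Q) (hs : ((s : GL ι F) : Matrix ι ι F) = prodR Q l) :
    Even (dd s + Fintype.card ι + l.length) := by
  induction l generalizing s with
  | nil =>
    have e : s = 1 := by
      apply Subtype.ext
      apply Units.ext
      exact hs
    subst e
    rw [dd_one]
    simp
  | cons a l ih =>
    have ha : Q a ≠ 0 := hl a List.mem_cons_self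
    have hl' : ∀ v ∈ l, Q v ≠ 0 := fun v hv => hl v (List.mem_cons_of_mem _ hv)
    obtain ⟨s', hs'⟩ := exists_og_of_list Qq hQq h l hl'
    have e1 := ih hl' s' hs'
    have e := word_cons (h := h) Qq hQq ha hs hs'
    subst e
    have e2 := dd_R_mul h hnd s' ha
    rw [List.length_cons]
    rw [Nat.even_iff] at e1 ⊢
    rw [Nat.odd_iff] at e2
    omega

/-- elements of `Ω` are even words -/
lemma even_of_word_SS (C : Cx Q B t₀) (Qq : QuadraticForm F (ι → F)) (hQq : ⇑Qq = Q) (l : List (ι → F))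
    (hl : ∀ v ∈ l, Q v ≠ 0) (s : OG F Q) (hs : ((s : GL ι F) : Matrix ι ι F) = prodR Q l) (hS : s ∈ SS C.h) :
    Even l.length := by
  have e1 := word_dd C.h C.nd Qq hQq l hl s hs
  have e2 := even_of_mem_SS C.h C.nd C.ht (by have := C.hm; omega) hS
  rw [Nat.even_iff] at e1 e2 ⊢
  omega

/-- in characteristic two the even words lie in `Ω` -/
lemma word_SS_two (h2 : (2 : F) = 0) (C : Cx Q B t₀) (Qq : QuadraticForm F (ι → F)) (hQq : ⇑Qq = Q)
    (hnd : (QuadraticMap.polarBilin Qq).Nondegenerate) {n : ℕ} (hdim : Fintype.card ι = 2 * n) (hq : Fintype.card F ≠ 2 ∨ n ≠ 2)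
    (l : List (ι → F)) (hl : ∀ v ∈ l, Q v ≠ 0) (s : OG F Q) (hs : ((s : GL ι F) : Matrix ι ι F) = prodR Q l)
    (hev : Even l.length) : s ∈ SS C.h := by
  subst hQq
  obtain ⟨k, hk⟩ := hev
  obtain ⟨g, hg1, hg2⟩ := Cfsg.Agent.H11.exists_omega_of_even h2 hnd hdim hq k l hl (by omega)
  rw [← C.hΩ]
  have e : s = g := by
    apply Subtype.ext
    apply Units.ext
    rw [hs]
    exact hg2.symm
  rw [e]
  exact hg1

/-- in characteristic two the inner automorphisms are the even words -/
lemma cc_inn_two (h2 : (2 : F) = 0) (C : Cx Q B t₀) (Qq : QuadraticForm F (ι → F)) (hQq : ⇑Qq = Q)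
    (hnd : (QuadraticMap.polarBilin Qq).Nondegenerate) {n : ℕ} (hdim : Fintype.card ι = 2 * n) (hq : Fintype.card F ≠ 2 ∨ n ≠ 2)
    (l : List (ι → F)) (hl : ∀ v ∈ l, Q v ≠ 0) (s : OG F Q) (hs : ((s : GL ι F) : Matrix ι ι F) = prodR Q l) :
    cc Q s ∈ Cfsg.Inn (Cfsg.POmega F Q) ↔ Even l.length := by
  have hneg : negO C.h = (1 : OG F Q) := by
    apply og_ext
    intro x
    rw [act_negO, act_one]
    funext i
    have : (2 : F) * x i = 0 := by rw [h2, zero_mul]
    simp only [Pi.neg_apply]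
    linear_combination -this
  rw [C.cc_inn_iff, hneg, one_mul, or_self]
  exact ⟨even_of_word_SS C Qq hQq l hl s hs, word_SS_two h2 C Qq hQq hnd hdim hq l hl s hs⟩

end Even

section Root
variable {K : Type*} [Field K] [Algebra F K]

/-- the equation has a root in every quadratic extension -/
lemma exists_root_any {a b : F} (hab : ∀ z₁ z₂ : F, z₁ ^ 2 + a * z₁ * z₂ + b * z₂ ^ 2 = 0 → z₁ = 0 ∧ z₂ = 0)
    (hfin : finrank F K = 2) : ∃ r : K, r ^ 2 + algebraMap F K a * r + algebraMap F K b = 0 := by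
  haveI : Fact (Irreducible (fP a b)) := ⟨fP_irr hab⟩
  haveI : Module.Finite F K := Module.finite_of_finrank_pos (by rw [hfin]; norm_num)
  haveI : Finite K := Module.finite_of_finite F
  obtain ⟨f⟩ := FiniteField.nonempty_algHom_of_finrank_dvd (F := F) (K := KK a b) (L := K) (by rw [finrank_KK, hfin])
  refine ⟨- f (thK a b), ?_⟩
  have e := congrArg f (th_rel a b)
  have e1 : ∀ c : F, f (ofK a b c) = algebraMap F K c := fun c => f.commutes c
  rw [map_pow, map_sub, map_mul, e1, e1] at e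
  linear_combination e

/-- the form over any quadratic extension -/
lemma minus_ld_any {a b : F} (hab : ∀ z₁ z₂ : F, z₁ ^ 2 + a * z₁ * z₂ + b * z₂ ^ 2 = 0 → z₁ = 0 ∧ z₂ = 0) (n : ℕ)
    (hfin : finrank F K = 2) (h : QF (Cfsg.quadFormMinus n F a b) (polarMinus n F a b)) :
    ∃ r : K, r ^ 2 + algebraMap F K a * r + algebraMap F K b = 0 ∧
      LD h (minusForm n K (algebraMap F K a) (algebraMap F K b)) (n + 1) (WW n r) := by
  obtain ⟨r, hr⟩ := exists_root_any (K := K) hab hfin
  have hΔ : 4 * algebraMap F K b - algebraMap F K a ^ 2 ≠ 0 := by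
    have := (map_ne_zero (algebraMap F K)).2 (disc_ne hab)
    rwa [map_sub, map_pow, map_mul, map_ofNat] at this
  refine ⟨r, hr, ?_, minus_nondeg3 n _ _ hΔ, mts_WW _ _ _ hr, ?_⟩
  · simp only [Fintype.card_sum, Fintype.card_fin]
    ring
  · intro x
    rw [minusForm_coe]
    simp [Cfsg.quadFormMinus, embV, map_add, map_sum, map_mul, map_pow]

end Root

end Cfsg.Agent.Lead.LangOm
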