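import Cfsg.Agent.Lib.Lead.LangMin1
/-! Field automorphisms of the minus type: the inner-diagonal group in characteristic two. -/
set_option autoImplicit false
set_option linter.style.haveILetI false
set_option linter.unusedSimpArgs false
set_option linter.unusedSectionVars false
set_option linter.unusedVariables false
set_option linter.deprecated false
namespace Cfsg.Agent.Lead.LangOm
open Matrix Module Cfsg.Agent.Lead.Ortho Cfsg.Agent.Lead.Omega Cfsg.Agent.H01.Om Cfsg.Agent.Lead.Lang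
open Cfsg.Agent.H11 (IsMTS Rf Pb triangle minusForm minusForm_coe Rf_isom)

variable {F : Type*} [Field F] [Fintype F] {m : ℕ}

local notation "MI" => ((Fin m ⊕ Fin m) ⊕ Fin 2)

/-- the standard context of the minus type -/
lemma minus_cx (hm : 3 ≤ m) {a b : F} (hab : ∀ z₁ z₂ : F, z₁ ^ 2 + a * z₁ * z₂ + b * z₂ ^ 2 = 0 → z₁ = 0 ∧ z₂ = 0) :
    ∃ t₀ : Fin m → _, Nonempty (Cx (Cfsg.quadFormMinus m F a b) (polarMinus m F a b) t₀) := by
  obtain ⟨m', rfl⟩ : ∃ m', m = m' + 1 + 1 := ⟨m - 2, by omega⟩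
  exact ⟨_, ⟨mkCx (qfMinus (F := F) (m' + 1 + 1) a b) (ndMinus _ a b hab) (frameMinus_HF a b _) (by omega) (frameMinus_anis a b hab _)⟩⟩

/-- the form as a quadratic form -/
lemma minus_Qq (a b : F) : ⇑(minusForm m F a b) = Cfsg.quadFormMinus m F a b := by rw [minusForm_coe]

lemma minus_nd {a b : F} (hab : ∀ z₁ z₂ : F, z₁ ^ 2 + a * z₁ * z₂ + b * z₂ ^ 2 = 0 → z₁ = 0 ∧ z₂ = 0) :
    (QuadraticMap.polarBilin (minusForm m F a b)).Nondegenerate := minus_nondeg3 m a b (disc_ne hab)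

lemma minus_hRS (hm : 3 ≤ m) {a b : F} (hab : ∀ z₁ z₂ : F, z₁ ^ 2 + a * z₁ * z₂ + b * z₂ ^ 2 = 0 → z₁ = 0 ∧ z₂ = 0)
    (h : QF (Cfsg.quadFormMinus m F a b) (polarMinus m F a b)) : RS h (⊤ : Submodule F (MI → F)) = ⊤ := by
  obtain ⟨m', rfl⟩ : ∃ m', m = m' + 1 + 1 := ⟨m - 2, by omega⟩
  exact RS_eq_top h (ndMinus _ a b hab) (by simp only [Fintype.card_sum, Fintype.card_fin]; omega) (frameMinus_HF a b _) (frameMinus_anis a b hab _)

lemma minus_hdim : Fintype.card MI = 2 * (m + 1) := by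
  simp only [Fintype.card_sum, Fintype.card_fin]
  ring

/-- in characteristic two every similarity is a multiple of a word in the reflections -/
lemma two_word {t₀ : Fin m → _} {a b : F} (hm : 3 ≤ m) (h2 : (2 : F) = 0)
    (hab : ∀ z₁ z₂ : F, z₁ ^ 2 + a * z₁ * z₂ + b * z₂ ^ 2 = 0 → z₁ = 0 ∧ z₂ = 0)
    (C : Cx (Cfsg.quadFormMinus m F a b) (polarMinus m F a b) t₀)
    (g : ↥(Cfsg.Geo.quadSimilarityGroup (Cfsg.quadFormMinus m F a b))) :
    ∃ (μ : F) (s : OG F (Cfsg.quadFormMinus m F a b)) (l : List (MI → F)), μ ≠ 0 ∧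
      (∀ v ∈ l, Cfsg.quadFormMinus m F a b v ≠ 0) ∧ ((s : GL MI F) : Matrix MI MI F) = prodR (Cfsg.quadFormMinus m F a b) l ∧
      ((g.1 : GL MI F) : Matrix MI MI F) = μ • ((s : GL MI F) : Matrix MI MI F) := by
  obtain ⟨κ, hκ⟩ := g.2
  have H := isSemi_simPerm κ.ne_zero hκ
  have hch : ringChar F = 2 := CharP.ringChar_of_prime_eq_zero Nat.prime_two (by exact_mod_cast h2)
  obtain ⟨μ, s, hμ, hs⟩ := exists_act_of_sq C (T := simG _ g) H (FiniteField.isSquare_of_char_two hch _)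
  obtain ⟨l, hl, hsl⟩ := exists_list_og (minusForm m F a b) (minus_Qq a b) C.h (minus_hRS hm hab C.h) s
  refine ⟨μ, s, l, hμ, hl, hsl, ?_⟩
  apply Matrix.mulVec_injective
  funext x
  rw [Matrix.smul_mulVec]
  exact hs x

/-- the hypothesis on the field -/
lemma card_or {n : ℕ} (hn : 3 ≤ n) : Fintype.card F ≠ 2 ∨ n ≠ 2 := Or.inr (by omega)

set_option maxHeartbeats 2000000 in
/-- **In characteristic two the inner-diagonal group of the minus type is the inner group.** -/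
theorem inndiag_two (hm : 3 ≤ m) (h2 : (2 : F) = 0) {a b : F}
    (hab : ∀ z₁ z₂ : F, z₁ ^ 2 + a * z₁ * z₂ + b * z₂ ^ 2 = 0 → z₁ = 0 ∧ z₂ = 0) :
    Cfsg.inndiagPOmegaMinus m F a b = Cfsg.Inn (Cfsg.POmega F (Cfsg.quadFormMinus m F a b)) := by
  classical
  obtain ⟨t₀, ⟨C⟩⟩ := minus_cx (F := F) hm hab
  have hcc : ∀ (l : List (MI → F)) (s : OG F (Cfsg.quadFormMinus m F a b)), (∀ v ∈ l, Cfsg.quadFormMinus m F a b v ≠ 0) →
      ((s : GL MI F) : Matrix MI MI F) = prodR (Cfsg.quadFormMinus m F a b) l →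
      (cc (Cfsg.quadFormMinus m F a b) s ∈ Cfsg.Inn (Cfsg.POmega F (Cfsg.quadFormMinus m F a b)) ↔ Even l.length) := fun l s hl hs =>
    cc_inn_two h2 C (minusForm m F a b) (minus_Qq a b) (minus_nd hab) minus_hdim (card_or (n := m + 1) (by omega)) l hl s hs
  apply le_antisymm
  · unfold Cfsg.inndiagPOmegaMinus Cfsg.autSubgroupOf
    rw [Subgroup.closure_le]
    rintro β ⟨g, hg, ⟨K, _, _, hfin, hP⟩, hi⟩
    obtain ⟨μ, s, l, hμ, hl, hsl, hgs⟩ := two_word hm h2 hab C ⟨g, hg⟩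
    obtain ⟨c, hc⟩ := hg
    have H : SemiM (Cfsg.quadFormMinus m F a b) g (RingEquiv.refl F) c := ⟨c.ne_zero, fun v => hc v⟩
    have hβ : β = Th C.h C.nd ⟨permOfM H, _, _, isSemi_of_M H⟩ := Th_eq_of_induced C.h C.nd H hi (fun x => rfl)
    have hβs : β = cc (Cfsg.quadFormMinus m F a b) s := by
      rw [hβ]
      refine C.Th_of_scalar hμ (fun x => ?_)
      change (g : Matrix MI MI F) *ᵥ (fun i => x i) = μ • (((s : GL MI F) : Matrix MI MI F) *ᵥ x)
      have e : (g : Matrix MI MI F) = μ • ((s : GL MI F) : Matrix MI MI F) := hgs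
      rw [e, Matrix.smul_mulVec]
    obtain ⟨r, hr, Y⟩ := minus_ld_any (K := K) hab m hfin C.h
    obtain ⟨hsL, hpar⟩ := word_parity Y (minusForm m F a b) (minus_Qq a b) l hl s hsl
    have halg : algebraMap F K μ ≠ 0 := (map_ne_zero _).2 hμ
    have e4 : (embG K g).val = algebraMap F K μ • (embG K (s : GL MI F)).val := by
      rw [embG_val, embG_val]
      have e : (g : Matrix MI MI F) = μ • ((s : GL MI F) : Matrix MI MI F) := hgs
      rw [e]
      ext i j
      simp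
    have hgL := sim_of_smul halg e4 hsL
    have hP' : Cfsg.PreservesSingularClasses (⇑(minusForm m K (algebraMap F K a) (algebraMap F K b))) (embG K g).val := by
      rw [minusForm_coe]
      exact hP
    have e5 := (preserves_iff Y.hdim Y.hQ Y.hW₀ hgL).1 hP'
    rw [MgL, imL_smul halg e4] at e5
    have hev : Even l.length := by
      rw [Nat.even_iff]
      simp only [MgL] at hpar
      omega
    rw [hβs]
    exact (hcc l s hl hsl).2 hev
  · rintro _ ⟨z, rfl⟩
    obtain ⟨t, rfl⟩ := QuotientGroup.mk_surjective z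
    change MulAut.conj (QuotientGroup.mk t : Cfsg.POmega F (Cfsg.quadFormMinus m F a b)) ∈ _
    rw [conj_mk_eq C]
    obtain ⟨l, hl, hsl⟩ := exists_list_og (minusForm m F a b) (minus_Qq a b) C.h (minus_hRS hm hab C.h) (t : OG F (Cfsg.quadFormMinus m F a b))
    have htS : (t : OG F (Cfsg.quadFormMinus m F a b)) ∈ SS C.h := by
      rw [← C.hΩ]
      exact t.2
    have hev := even_of_word_SS C (minusForm m F a b) (minus_Qq a b) l hl _ hsl htS
    haveI : Fact (Irreducible (fP a b)) := ⟨fP_irr hab⟩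
    obtain ⟨r, hr, Y⟩ := minus_ld_any (K := KK a b) hab m finrank_KK C.h
    obtain ⟨hsL, hpar⟩ := word_parity Y (minusForm m F a b) (minus_Qq a b) l hl _ hsl
    have hres := (preserves_iff Y.hdim Y.hQ Y.hW₀ hsL).2 (by
      rw [Nat.even_iff] at hev
      omega)
    rw [minusForm_coe] at hres
    have hsim : ((t : OG F (Cfsg.quadFormMinus m F a b)) : GL MI F) ∈ Cfsg.Geo.quadSimilarityGroup (Cfsg.quadFormMinus m F a b) := by
      refine ⟨1, fun v => ?_⟩
      have e1 := Q_act (Q := Cfsg.quadFormMinus m F a b) (t : OG F (Cfsg.quadFormMinus m F a b)) v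
      rw [Units.val_one, one_mul]
      exact e1
    apply Subgroup.subset_closure
    exact ⟨_, hsim, ⟨KK a b, inferInstance, inferInstance, finrank_KK, hres⟩, cc_induced C.h C.nd _⟩

end Cfsg.Agent.Lead.LangOm
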