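import Cfsg.Agent.Lib.Lead.LangMin2
/-! Field automorphisms of the minus type: the inner-diagonal group in odd characteristic. -/
set_option autoImplicit false
set_option linter.style.haveILetI false
set_option linter.unusedSimpArgs false
set_option linter.unusedSectionVars false
set_option linter.unusedVariables false
set_option linter.deprecated false
namespace Cfsg.Agent.Lead.LangOm
open Matrix Module Cfsg.Agent.Lead.Ortho Cfsg.Agent.Lead.Omega Cfsg.Agent.H01.Om Cfsg.Agent.Lead.Lang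
open Cfsg.Agent.H11 (IsMTS Rf Pb triangle minusForm minusForm_coe Rf_isom)

section General
variable {F : Type*} [Field F] [Fintype F] {ι : Type} [Fintype ι] [DecidableEq ι]
variable {Q : (ι → F) → F} {B : (ι → F) → (ι → F) → F}

/-- the similarities whose determinant is the power of the multiplier -/
def HMo (Q : (ι → F) → F) (N : ℕ) : Subgroup ↥(Cfsg.Geo.quadSimilarityGroup Q) where
  carrier := {g | ∃ κ : F, κ ≠ 0 ∧ (∀ v, Q (((g.1 : GL ι F) : Matrix ι ι F) *ᵥ v) = κ * Q v) ∧ ((g.1 : GL ι F) : Matrix ι ι F).det = κ ^ N}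
  mul_mem' := by
    rintro g g' ⟨κ, h0, h1, h2⟩ ⟨κ', h0', h1', h2'⟩
    refine ⟨κ * κ', mul_ne_zero h0 h0', fun v => ?_, ?_⟩
    · change Q ((((g.1 : GL ι F) : Matrix ι ι F) * ((g'.1 : GL ι F) : Matrix ι ι F)) *ᵥ v) = _
      rw [← Matrix.mulVec_mulVec, h1, h1', mul_assoc]
    · change (((g.1 : GL ι F) : Matrix ι ι F) * ((g'.1 : GL ι F) : Matrix ι ι F)).det = _
      rw [Matrix.det_mul, h2, h2', mul_pow]
  one_mem' := ⟨1, one_ne_zero, fun v => by
    change Q ((1 : Matrix ι ι F) *ᵥ v) = _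
    rw [Matrix.one_mulVec, one_mul], by
    change (1 : Matrix ι ι F).det = _
    simp⟩
  inv_mem' := by
    rintro g ⟨κ, h0, h1, h2⟩
    refine ⟨κ⁻¹, inv_ne_zero h0, fun v => ?_, ?_⟩
    · have e := h1 (((g.1⁻¹ : GL ι F) : Matrix ι ι F) *ᵥ v)
      rw [Matrix.mulVec_mulVec, gl_mul_inv, Matrix.one_mulVec] at e
      change Q (((g.1⁻¹ : GL ι F) : Matrix ι ι F) *ᵥ v) = _
      rw [e, ← mul_assoc, inv_mul_cancel₀ h0, one_mul]
    · change ((g.1⁻¹ : GL ι F) : Matrix ι ι F).det = _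
      have e : ((g.1 : GL ι F) : Matrix ι ι F).det * ((g.1⁻¹ : GL ι F) : Matrix ι ι F).det = 1 := by
        rw [← Matrix.det_mul, gl_mul_inv, Matrix.det_one]
      rw [h2] at e
      rw [inv_pow]
      exact eq_inv_of_mul_eq_one_right e

lemma mem_HMo {N : ℕ} {g : ↥(Cfsg.Geo.quadSimilarityGroup Q)} :
    g ∈ HMo Q N ↔ ∃ κ : F, κ ≠ 0 ∧ (∀ v, Q (((g.1 : GL ι F) : Matrix ι ι F) *ᵥ v) = κ * Q v) ∧ ((g.1 : GL ι F) : Matrix ι ι F).det = κ ^ N :=
  Iff.rfl

variable {m : ℕ} {t₀ : Fin m → (ι → F) × (ι → F)}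

/-- an automorphism which agrees with an isometry -/
lemma smul_of_Th_eq_cc (C : Cx Q B t₀) {T : GS Q} {s : OG F Q} (e : Th C.h C.nd T = cc Q s) :
    ∃ α : F, α ≠ 0 ∧ ∀ v, (T : Equiv.Perm (ι → F)) v = α • act s v := by
  have e1 : Th C.h C.nd ((ofO s)⁻¹ * T) = 1 := by
    rw [map_mul, map_inv, Th_ofO, e, inv_mul_cancel]
  obtain ⟨α, hα, hs'⟩ := C.scalar_of_Th _ e1
  refine ⟨α, hα, fun v => ?_⟩
  have e3 := hs' v
  have e4 : ((ofO s : GS Q) : Equiv.Perm (ι → F)) ((((ofO s)⁻¹ * T : GS Q) : Equiv.Perm (ι → F)) v) = (T : Equiv.Perm (ι → F)) v := by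
    change ((ofO s * ((ofO s)⁻¹ * T) : GS Q) : Equiv.Perm (ι → F)) v = _
    rw [mul_inv_cancel_left]
  rw [e3, ofO_apply, act_smul] at e4
  exact e4.symm

/-- an isometry as an element of the similarity group -/
def ogSim (s : OG F Q) : ↥(Cfsg.Geo.quadSimilarityGroup Q) :=
  ⟨(s : GL ι F), 1, fun v => by
    have e1 := Q_act (Q := Q) s v
    rw [Units.val_one, one_mul]
    exact e1⟩

lemma simG_ogSim (s : OG F Q) : simG Q (ogSim s) = ofO s := by
  apply Subtype.ext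
  apply Equiv.ext
  intro x
  rfl

lemma ogSim_mem_HMo (N : ℕ) (s : OG F Q) (hs : detU Q s = 1) : ogSim s ∈ HMo Q N := by
  refine ⟨1, one_ne_zero, fun v => ?_, ?_⟩
  · have e1 := Q_act (Q := Q) s v
    rw [one_mul]
    exact e1
  · rw [one_pow]
    have := congrArg Units.val hs
    rw [detU_val] at this
    exact this

end General

section DMat
variable {K : Type*} [Field K]

/-- the matrix of the diagonal similarity -/
noncomputable def dMat (n : ℕ) (ν w0 w1 a b : K) : Matrix ((Fin n ⊕ Fin n) ⊕ Fin 2) ((Fin n ⊕ Fin n) ⊕ Fin 2) K :=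
  Matrix.fromBlocks (Matrix.fromBlocks (ν • (1 : Matrix (Fin n) (Fin n) K)) 0 0 1) 0 0 !![w0, -(b * w1); w1, w0 + a * w1]

lemma det_dMat (n : ℕ) (ν w0 w1 a b : K) :
    (dMat n ν w0 w1 a b).det = ν ^ n * (w0 ^ 2 + a * w0 * w1 + b * w1 ^ 2) := by
  rw [dMat, Matrix.det_fromBlocks_zero₂₁, Matrix.det_fromBlocks_zero₂₁, Matrix.det_smul, Matrix.det_one, Matrix.det_fin_two_of]
  simp only [Fintype.card_fin]
  ring

lemma dMat_mulVec (n : ℕ) (ν w0 w1 a b : K) (x : (Fin n ⊕ Fin n) ⊕ Fin 2 → K) :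
    dMat n ν w0 w1 a b *ᵥ x = fun k => match k with
      | .inl (.inl i) => ν * x (.inl (.inl i))
      | .inl (.inr i) => x (.inl (.inr i))
      | .inr 0 => w0 * x (.inr 0) - b * w1 * x (.inr 1)
      | .inr 1 => w0 * x (.inr 1) + w1 * x (.inr 0) + a * w1 * x (.inr 1) := by
  funext k
  rcases k with (i | i) | j
  · simp [dMat, Matrix.mulVec, dotProduct, Fintype.sum_sum_type, Matrix.fromBlocks, Matrix.one_apply, Matrix.smul_apply, Finset.sum_ite_eq, ite_mul]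
  · simp [dMat, Matrix.mulVec, dotProduct, Fintype.sum_sum_type, Matrix.fromBlocks, Matrix.one_apply, Finset.sum_ite_eq, ite_mul]
  · fin_cases j
    · simp [dMat, Matrix.mulVec, dotProduct, Fintype.sum_sum_type, Matrix.fromBlocks, Fin.sum_univ_two]
      ring
    · simp [dMat, Matrix.mulVec, dotProduct, Fintype.sum_sum_type, Matrix.fromBlocks, Fin.sum_univ_two]
      ring

end DMat

section Main
variable {F : Type*} [Field F] [Fintype F] {m : ℕ}

local notation "MI" => ((Fin m ⊕ Fin m) ⊕ Fin 2)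

/-- the matrix of the similarity attached to a unit of the quadratic extension -/
lemma delta_val {a b : F} [Fact (Irreducible (fP a b))] {w : Fin 2 → F} {W : (KK a b)ˣ} {ν : F} (hiw : iK a b w = W)
    (hnorm : (normK a b W : F) = ν) {g₁ : GL MI F}
    (hg₁ : ∀ x, ((deltaG a b m W : GS _) : Equiv.Perm _) x = g₁.val *ᵥ x) :
    g₁.val = dMat m ν (w 0) (w 1) a b := by
  have hmul : ∀ z, mulP a b W z = Lw a b w z := by
    intro z
    apply iK_inj a b
    rw [iK_mulP, iK_Lw, hiw]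
  apply Matrix.mulVec_injective
  funext x
  rw [← hg₁, dMat_mulVec]
  funext k
  rcases k with (i | i) | j
  · change (normK a b W : F) * x (.inl (.inl i)) = _
    rw [hnorm]
  · rfl
  · change mulP a b W (resP x) j = _
    rw [hmul]
    fin_cases j
    · rfl
    · rfl

/-- the determinant of the similarity -/
lemma delta_det {a b : F} [Fact (Irreducible (fP a b))] {w : Fin 2 → F} {W : (KK a b)ˣ} {ν : F} (hiw : iK a b w = W)
    (hν : Nm a b w = ν) (hnorm : (normK a b W : F) = ν) {g₁ : GL MI F}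
    (hg₁ : ∀ x, ((deltaG a b m W : GS _) : Equiv.Perm _) x = g₁.val *ᵥ x) :
    g₁.val.det = ν ^ (m + 1) := by
  rw [delta_val hiw hnorm hg₁, det_dMat]
  have e : w 0 ^ 2 + a * w 0 * w 1 + b * w 1 ^ 2 = ν := hν
  rw [e, pow_succ]

set_option maxHeartbeats 8000000 in
/-- **The inner-diagonal group in odd characteristic.** -/
theorem inndiag_odd (hq : Odd (Fintype.card F)) (hm : 3 ≤ m) {a b : F}
    (hab : ∀ z₁ z₂ : F, z₁ ^ 2 + a * z₁ * z₂ + b * z₂ ^ 2 = 0 → z₁ = 0 ∧ z₂ = 0)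
    (h : QF (Cfsg.quadFormMinus m F a b) (polarMinus m F a b)) (hnd : ND (polarMinus m F a b) (⊤ : Submodule F (MI → F))) :
    Cfsg.inndiagPOmegaMinus m F a b = (HMo (Cfsg.quadFormMinus m F a b) (m + 1)).map ((Th h hnd).comp (simG _)) := by
  classical
  obtain ⟨m', rfl⟩ : ∃ m', m = m' + 1 + 1 := ⟨m - 2, by omega⟩
  have hm' : 1 ≤ m' := by omega
  haveI : Fact (Irreducible (fP a b)) := ⟨fP_irr hab⟩
  obtain ⟨C, a₁, a₂, Qa₁, Qa₂, w, W, ν, s₀, hiw, hν, hnorm, X, hP⟩ := pd_minus2 hab hq m' hm'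
  change _ = (HMo (Cfsg.quadFormMinus (m' + 1 + 1) F a b) (m' + 1 + 1 + 1)).map ((Th C.h C.nd).comp (simG _))
  have HD := X.HD
  obtain ⟨g₁, H₁', hg₁'⟩ := HD.matrix C.h C.nd
  have hg₁ : ∀ x, ((deltaG a b (m' + 1 + 1) W : GS _) : Equiv.Perm _) x = g₁.val *ᵥ x := fun x => hg₁' x
  have hcard : 4 < Fintype.card ((Fin (m' + 1 + 1) ⊕ Fin (m' + 1 + 1)) ⊕ Fin 2) := by
    simp only [Fintype.card_sum, Fintype.card_fin]
    omega
  obtain ⟨r₁, hr₁, Y₁⟩ := minus_ld (L := KK a b) hab hq (m' + 1 + 1) finrank_KK C.h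
  have hPsim : (g₁ : GL _ F) ∈ Cfsg.Geo.quadSimilarityGroup (Cfsg.quadFormMinus (m' + 1 + 1) F a b) :=
    ⟨Units.mk0 ν HD.hκ, fun v => H₁'.hQ v⟩
  have Y : KD X {β | Cfsg.IsInnerDiagonalAutPOmegaMinus (m' + 1 + 1) a b β} (Th C.h C.nd (deltaG a b (m' + 1 + 1) W)) := by
    refine ⟨C.Th_mem_pgo HD, ?_, ?_, ?_, ?_⟩
    · rw [pso_eq C.h C.nd]
      rintro ⟨s, -, e⟩
      exact X.hν (C.sq_of_Th_eq HD e.symm)
    · apply Subgroup.subset_closure
      obtain ⟨hL, hpar⟩ := delta_ld hiw hν hnorm hg₁ hr₁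
      have hpres := (preserves_iff Y₁.hdim Y₁.hQ Y₁.hW₀ hL).2 hpar
      rw [minusForm_coe] at hpres
      rw [Th_of_matrix C.h C.nd H₁' hg₁']
      exact ⟨g₁, hPsim, ⟨KK a b, inferInstance, inferInstance, finrank_KK, hpres⟩, cP_induced H₁'⟩
    · rintro β ⟨g, hg, ⟨K, _, _, hfin, hP'⟩, hi⟩
      obtain ⟨r, hr, YK⟩ := minus_ld (L := K) hab hq (m' + 1 + 1) hfin C.h
      obtain ⟨hL, hpar⟩ := delta_ld hiw hν hnorm hg₁ hr
      refine X.of_pres YK hcard HD X.hν hg₁ hL hpar hg ?_ hi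
      rw [minusForm_coe]
      exact hP'
    · rw [pso_eq C.h C.nd]
      rintro _ ⟨s, hs, rfl⟩
      apply Subgroup.subset_closure
      have hres := X.pres_of_so Y₁ hcard (s := s) hs
      rw [minusForm_coe] at hres
      have hsim : (s : GL _ F) ∈ Cfsg.Geo.quadSimilarityGroup (Cfsg.quadFormMinus (m' + 1 + 1) F a b) := by
        refine ⟨1, fun v => ?_⟩
        have e1 := Q_act (Q := Cfsg.quadFormMinus (m' + 1 + 1) F a b) s v
        rw [Units.val_one, one_mul]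
        exact e1
      have hind := cc_induced C.h C.nd s
      exact ⟨_, hsim, ⟨KK a b, inferInstance, inferInstance, finrank_KK, hres⟩, hind⟩
  have hdetg₁ := delta_det hiw hν hnorm hg₁
  have hν0 : ν ≠ 0 := HD.hκ
  -- the generators lie in the image
  have hδ : Th C.h C.nd (deltaG a b (m' + 1 + 1) W) ∈
      (HMo (Cfsg.quadFormMinus (m' + 1 + 1) F a b) (m' + 1 + 1 + 1)).map ((Th C.h C.nd).comp (simG _)) := by
    refine ⟨⟨g₁, hPsim⟩, ⟨ν, hν0, fun v => H₁'.hQ v, hdetg₁⟩, ?_⟩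
    change Th C.h C.nd (simG _ _) = _
    congr 1
    apply Subtype.ext
    apply Equiv.ext
    intro x
    exact (hg₁ x).symm
  have hpso : Cfsg.psoAut F (Cfsg.quadFormMinus (m' + 1 + 1) F a b) ≤
      (HMo (Cfsg.quadFormMinus (m' + 1 + 1) F a b) (m' + 1 + 1 + 1)).map ((Th C.h C.nd).comp (simG _)) := by
    rw [pso_eq C.h C.nd]
    rintro _ ⟨s, hs, rfl⟩
    refine ⟨ogSim s, ogSim_mem_HMo _ s hs, ?_⟩
    change Th C.h C.nd (simG _ (ogSim s)) = _
    rw [simG_ogSim, Th_ofO]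
  have hcardι : Fintype.card ((Fin (m' + 1 + 1) ⊕ Fin (m' + 1 + 1)) ⊕ Fin 2) = 2 * (m' + 1 + 1 + 1) := minus_hdim
  obtain ⟨v₀, hv₀⟩ := exists_Q_ne C
  apply le_antisymm
  · unfold Cfsg.inndiagPOmegaMinus Cfsg.autSubgroupOf
    rw [Subgroup.closure_le]
    intro β hβ
    rcases Y.hG β hβ with e | e
    · exact hpso e
    · have e2 : β = (β * (Th C.h C.nd (deltaG a b (m' + 1 + 1) W))⁻¹) * Th C.h C.nd (deltaG a b (m' + 1 + 1) W) := by
        group
      rw [e2]
      exact Subgroup.mul_mem _ (hpso e) hδ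
  · rintro _ ⟨⟨g, hg⟩, ⟨κ, hκ0, hκ, hdet⟩, rfl⟩
    change Th C.h C.nd (simG _ ⟨g, hg⟩) ∈ _
    have H := isSemi_simPerm (Q := Cfsg.quadFormMinus (m' + 1 + 1) F a b) (g := g) hκ0 hκ
    obtain ⟨s, hs | hs⟩ := cover_of C HD X.hν (T := simG _ ⟨g, hg⟩) H
    · -- a multiple of an isometry
      have hs' : Th C.h C.nd (simG _ ⟨g, hg⟩) = cc _ s := hs
      obtain ⟨α, hα, hT⟩ := smul_of_Th_eq_cc C hs'
      have e3 : g.val = α • s.1.val := by
        apply Matrix.mulVec_injective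
        funext v
        rw [Matrix.smul_mulVec]
        exact hT v
      have e4 := hκ v₀
      have e5 : κ = α ^ 2 := by
        rw [e3, Matrix.smul_mulVec, C.h.smul] at e4
        have e6 : Cfsg.quadFormMinus (m' + 1 + 1) F a b (s.1.val *ᵥ v₀) = Cfsg.quadFormMinus (m' + 1 + 1) F a b v₀ :=
          Q_act (Q := Cfsg.quadFormMinus (m' + 1 + 1) F a b) s v₀
        rw [e6] at e4
        exact (mul_right_cancel₀ hv₀ e4).symm
      have hds : detU _ s = 1 := by
        apply Units.ext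
        rw [detU_val, Units.val_one]
        rw [e3, Matrix.det_smul, hcardι, e5, ← pow_mul] at hdet
        have e7 : α ^ (2 * (m' + 1 + 1 + 1)) ≠ 0 := pow_ne_zero _ hα
        exact mul_left_cancel₀ e7 (by rw [hdet, mul_one])
      rw [hs']
      exact Y.hle ((X.cc_mem_pso_iff s).2 hds)
    · -- a multiple of an isometry and the diagonal element
      have hs' : Th C.h C.nd (simG _ ⟨g, hg⟩ * (deltaG a b (m' + 1 + 1) W)⁻¹) = cc _ s := by
        rw [map_mul, map_inv]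
        have e0 : Th C.h C.nd (simG _ ⟨g, hg⟩) = _ := hs
        rw [e0, mul_inv_cancel_right]
      obtain ⟨α, hα, hT⟩ := smul_of_Th_eq_cc C hs'
      have e2 : ∀ v, g.val *ᵥ v = α • (s.1.val *ᵥ (g₁.val *ᵥ v)) := by
        intro v
        have e3 := hT (((deltaG a b (m' + 1 + 1) W : GS _) : Equiv.Perm _) v)
        have e4 : ((simG _ ⟨g, hg⟩ * (deltaG a b (m' + 1 + 1) W)⁻¹ : GS _) : Equiv.Perm _) (((deltaG a b (m' + 1 + 1) W : GS _) : Equiv.Perm _) v) =
            g.val *ᵥ v := by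
          have e5 : (((deltaG a b (m' + 1 + 1) W)⁻¹ : GS _) : Equiv.Perm _) (((deltaG a b (m' + 1 + 1) W : GS _) : Equiv.Perm _) v) = v :=
            Equiv.symm_apply_apply _ v
          change g.val *ᵥ _ = _
          rw [e5]
        rw [e4, hg₁] at e3
        exact e3
      have e3 : g.val = α • (s.1.val * g₁.val) := by
        apply Matrix.mulVec_injective
        funext v
        rw [e2, Matrix.smul_mulVec, Matrix.mulVec_mulVec]
      have e4 := hκ v₀
      have e5 : κ = α ^ 2 * ν := by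
        rw [e2, C.h.smul] at e4
        have e6 : Cfsg.quadFormMinus (m' + 1 + 1) F a b (s.1.val *ᵥ (g₁.val *ᵥ v₀)) = Cfsg.quadFormMinus (m' + 1 + 1) F a b (g₁.val *ᵥ v₀) :=
          Q_act (Q := Cfsg.quadFormMinus (m' + 1 + 1) F a b) s _
        have e7 : Cfsg.quadFormMinus (m' + 1 + 1) F a b (g₁.val *ᵥ v₀) = ν * Cfsg.quadFormMinus (m' + 1 + 1) F a b v₀ := H₁'.hQ v₀
        rw [e6, e7, ← mul_assoc] at e4
        exact (mul_right_cancel₀ hv₀ e4).symm
      have hds : detU _ s = 1 := by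
        apply Units.ext
        rw [detU_val, Units.val_one]
        rw [e3, Matrix.det_smul, Matrix.det_mul, hdetg₁, hcardι, e5, mul_pow, ← pow_mul] at hdet
        have e7 : α ^ (2 * (m' + 1 + 1 + 1)) * ν ^ (m' + 1 + 1 + 1) ≠ 0 := mul_ne_zero (pow_ne_zero _ hα) (pow_ne_zero _ hν0)
        apply mul_left_cancel₀ e7
        rw [mul_one]
        linear_combination hdet
      have e8 : Th C.h C.nd (simG _ ⟨g, hg⟩) = cc _ s * Th C.h C.nd (deltaG a b (m' + 1 + 1) W) := hs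
      rw [e8]
      exact Subgroup.mul_mem _ (Y.hle ((X.cc_mem_pso_iff s).2 hds)) Y.hx

end Main

end Cfsg.Agent.Lead.LangOm
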