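import Cfsg.Agent.Lib.Lead.LangMin3
/-! Field automorphisms of the minus type: the inner-diagonal group under isomorphisms. -/
set_option autoImplicit false
set_option linter.style.haveILetI false
set_option linter.unusedSimpArgs false
set_option linter.unusedSectionVars false
set_option linter.unusedVariables false
set_option linter.deprecated false
namespace Cfsg.Agent.Lead.LangOm
open Matrix Module Cfsg.Agent.Lead.Ortho Cfsg.Agent.Lead.Omega Cfsg.Agent.H01.Om Cfsg.Agent.Lead.Lang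
open Cfsg.Agent.H11 (IsMTS Rf Pb triangle minusForm minusForm_coe Rf_isom)

section General
variable {F : Type*} [Field F] [Fintype F] {ι : Type} [Fintype ι] [DecidableEq ι]
variable {Q Q' : (ι → F) → F} {B B' : (ι → F) → (ι → F) → F}

/-- the twisted conjugate of a matrix -/
noncomputable def twC (M : GL ι F) (τ : F ≃+* F) (g : GL ι F) : GL ι F := M * gm τ g * M⁻¹

lemma twC_mulVec (M : GL ι F) (τ : F ≃+* F) (g : GL ι F) (y : ι → F) :
    (twC M τ g).val *ᵥ (M.val *ᵥ smap τ y) = M.val *ᵥ smap τ (g.val *ᵥ y) := by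
  change ((M.val * (gm τ g).val) * ((M⁻¹ : GL ι F) : Matrix ι ι F)) *ᵥ (M.val *ᵥ smap τ y) = _
  rw [Matrix.mulVec_mulVec, Matrix.mul_assoc, Matrix.mul_assoc, gl_inv_mul, Matrix.mul_one, ← Matrix.mulVec_mulVec, gm_coe,
    map_mulVec_smap]

lemma exists_pre (M : GL ι F) (τ : F ≃+* F) (x : ι → F) : ∃ y, M.val *ᵥ smap τ y = x := by
  refine ⟨smap τ.symm (((M⁻¹ : GL ι F) : Matrix ι ι F) *ᵥ x), ?_⟩
  rw [smap_symm, Matrix.mulVec_mulVec, gl_mul_inv, Matrix.one_mulVec]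

lemma twC_form {M : GL ι F} {τ : F ≃+* F} {κA : F} (hκA : κA ≠ 0) (hA : ∀ v, Q' (M.val *ᵥ smap τ v) = κA * τ (Q v))
    {g : GL ι F} {κ : F} (h1 : ∀ v, Q (g.val *ᵥ v) = κ * Q v) (x : ι → F) :
    Q' ((twC M τ g).val *ᵥ x) = τ κ * Q' x := by
  obtain ⟨y, rfl⟩ := exists_pre M τ x
  rw [twC_mulVec, hA, hA, h1, map_mul]
  ring

lemma twC_det (M : GL ι F) (τ : F ≃+* F) (g : GL ι F) : (twC M τ g).val.det = τ g.val.det := by
  change ((M.val * (gm τ g).val) * ((M⁻¹ : GL ι F) : Matrix ι ι F)).det = _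
  rw [Matrix.det_mul, Matrix.det_mul, gm_coe]
  have e : M.val.det * ((M⁻¹ : GL ι F) : Matrix ι ι F).det = 1 := by
    rw [← Matrix.det_mul, gl_mul_inv, Matrix.det_one]
  have e2 : (g.val.map τ).det = τ g.val.det := (RingHom.map_det (τ : F →+* F) g.val).symm
  rw [e2]
  linear_combination τ g.val.det * e

/-- the twisted conjugate is again in the group -/
lemma twC_mem {N : ℕ} {M : GL ι F} {τ : F ≃+* F} {κA : F} (hκA : κA ≠ 0) (hA : ∀ v, Q' (M.val *ᵥ smap τ v) = κA * τ (Q v))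
    {g : ↥(Cfsg.Geo.quadSimilarityGroup Q)} (hg : g ∈ HMo Q N) :
    ∃ g' : ↥(Cfsg.Geo.quadSimilarityGroup Q'), g' ∈ HMo Q' N ∧ g'.1 = twC M τ g.1 := by
  obtain ⟨κ, h0, h1, h2⟩ := hg
  have hτ : τ κ ≠ 0 := (map_ne_zero τ).2 h0
  refine ⟨⟨twC M τ g.1, Units.mk0 (τ κ) hτ, fun v => twC_form hκA hA h1 v⟩, ⟨τ κ, hτ, fun v => twC_form hκA hA h1 v, ?_⟩, rfl⟩
  change (twC M τ g.1).val.det = _
  rw [twC_det, h2, map_pow]

variable {h : QF Q B} {hnd : ND B (⊤ : Submodule F (ι → F))}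

/-- the image of the group is normal -/
lemma HMo_normal {N : ℕ} (A : GS Q) {g : ↥(Cfsg.Geo.quadSimilarityGroup Q)} (hg : g ∈ HMo Q N) :
    Th h hnd A * Th h hnd (simG Q g) * (Th h hnd A)⁻¹ ∈ (HMo Q N).map ((Th h hnd).comp (simG Q)) := by
  obtain ⟨T, τ, κA, HA⟩ := A
  obtain ⟨M, HM, hM⟩ := HA.matrix h hnd
  obtain ⟨g', hg', e⟩ := twC_mem (Q' := Q) HM.hκ (fun v => HM.hQ v) hg
  refine ⟨g', hg', ?_⟩
  change Th h hnd (simG Q g') = _
  rw [← map_inv, ← map_mul, ← map_mul]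
  congr 1
  apply Subtype.ext
  apply Equiv.ext
  intro x
  obtain ⟨y, rfl⟩ := exists_pre M τ x
  have hy : M.val *ᵥ smap τ y = T y := (hM y).symm
  change (g'.1).val *ᵥ _ = T (g.1.val *ᵥ (T⁻¹ (M.val *ᵥ smap τ y)))
  have eT : T⁻¹ (T y) = y := T.symm_apply_apply y
  rw [hy, eT, hM (g.1.val *ᵥ y), ← hy, e, twC_mulVec]

/-- a linear equivalence as an invertible matrix -/
noncomputable def glOfL (L : (ι → F) ≃ₗ[F] (ι → F)) : GL ι F :=
  ⟨LinearMap.toMatrix' L.toLinearMap, LinearMap.toMatrix' L.symm.toLinearMap, by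
    rw [← LinearMap.toMatrix'_comp]
    simp, by
    rw [← LinearMap.toMatrix'_comp]
    simp⟩

lemma glOfL_mulVec (L : (ι → F) ≃ₗ[F] (ι → F)) (x : ι → F) : (glOfL L).val *ᵥ x = L x :=
  LinearMap.toMatrix'_mulVec _ _

lemma smap_one (x : ι → F) : smap (1 : F ≃+* F) x = x := rfl

/-- the group under an isometry of forms -/
lemma HMo_transport {N : ℕ} (L : (ι → F) ≃ₗ[F] (ι → F)) (hL : ∀ v, Q (L v) = Q' v) {g : ↥(Cfsg.Geo.quadSimilarityGroup Q)}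
    (hg : g ∈ HMo Q N) : ∃ g' : ↥(Cfsg.Geo.quadSimilarityGroup Q'), g' ∈ HMo Q' N ∧ transS L hL (simG Q' g') = simG Q g := by
  have hA : ∀ v, Q' ((glOfL L.symm).val *ᵥ smap 1 v) = 1 * (1 : F ≃+* F) (Q v) := by
    intro v
    rw [smap_one, glOfL_mulVec, ← hL, L.apply_symm_apply, one_mul]
    rfl
  obtain ⟨g', hg', e⟩ := twC_mem (Q := Q) (Q' := Q') one_ne_zero hA hg
  refine ⟨g', hg', ?_⟩
  apply Subtype.ext
  apply Equiv.ext
  intro x
  change L ((g'.1).val *ᵥ (L.symm x)) = g.1.val *ᵥ x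
  have e1 : L.symm x = (glOfL L.symm).val *ᵥ smap 1 x := by
    rw [smap_one, glOfL_mulVec]
  rw [e1, e, twC_mulVec, glOfL_mulVec, L.apply_symm_apply]
  rfl

end General

section Main
variable {F : Type*} [Field F] [Fintype F] {m : ℕ}

local notation "MI" => ((Fin m ⊕ Fin m) ⊕ Fin 2)

lemma odd_card_of_two_ne (h2 : (2 : F) ≠ 0) : Odd (Fintype.card F) := by
  have hch : ringChar F ≠ 2 := by
    intro hr
    apply h2
    have := ringChar.Nat.cast_ringChar (R := F)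
    rw [hr] at this
    exact_mod_cast this
  exact Nat.odd_iff.2 (FiniteField.odd_card_of_char_ne_two hch)

set_option maxHeartbeats 2000000 in
/-- the inner-diagonal group under isomorphisms, odd characteristic -/
theorem inndiag_congr_odd (hq : Odd (Fintype.card F)) (hm : 3 ≤ m) {a b a' b' : F}
    (hab : ∀ z₁ z₂ : F, z₁ ^ 2 + a * z₁ * z₂ + b * z₂ ^ 2 = 0 → z₁ = 0 ∧ z₂ = 0)
    (hab' : ∀ z₁ z₂ : F, z₁ ^ 2 + a' * z₁ * z₂ + b' * z₂ ^ 2 = 0 → z₁ = 0 ∧ z₂ = 0)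
    (ψ : Cfsg.POmega F (Cfsg.quadFormMinus m F a b) ≃* Cfsg.POmega F (Cfsg.quadFormMinus m F a' b'))
    {β : MulAut (Cfsg.POmega F (Cfsg.quadFormMinus m F a b))} (hβ : β ∈ Cfsg.inndiagPOmegaMinus m F a b) :
    MulAut.congr ψ β ∈ Cfsg.inndiagPOmegaMinus m F a' b' := by
  classical
  obtain ⟨t₀, ⟨C⟩⟩ := minus_cx (F := F) hm hab
  obtain ⟨t₁, ⟨C'⟩⟩ := minus_cx (F := F) hm hab'
  rw [inndiag_odd hq hm hab C.h C.nd] at hβ
  rw [inndiag_odd hq hm hab' C'.h C'.nd]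
  obtain ⟨g, hg, rfl⟩ := hβ
  obtain ⟨L, hL⟩ := exists_minus_iso hab hab' m
  let ρ := poIso L hL
  let χ : MulAut (Cfsg.POmega F (Cfsg.quadFormMinus m F a b)) := ψ.trans ρ
  have hχ : χ ∈ Cfsg.gammaPOmega F (Cfsg.quadFormMinus m F a b) := by
    rw [gamma_top_minus hm a b hab]
    trivial
  obtain ⟨A, hA⟩ := gamma_le_range C.h C.nd hχ
  obtain ⟨g₂, hg₂, e₂⟩ := HMo_normal (h := C.h) (hnd := C.nd) A hg
  obtain ⟨g₃, hg₃, e₃⟩ := HMo_transport L hL hg₂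
  refine ⟨g₃, hg₃, ?_⟩
  change Th C'.h C'.nd (simG _ g₃) = _
  ext z'
  apply ρ.injective
  have e4 := poIso_Th C.h C.nd C'.h C'.nd L hL (simG _ g₃) (ρ z')
  rw [e₃] at e4
  have e5 : ρ.symm (ρ z') = z' := ρ.symm_apply_apply z'
  have e6 : (poIso L hL).symm (ρ z') = z' := e5
  rw [e6] at e4
  have e₂' : Th C.h C.nd (simG _ g₂) = Th C.h C.nd A * Th C.h C.nd (simG _ g) * (Th C.h C.nd A)⁻¹ := e₂
  rw [e₂', hA] at e4
  change poIso L hL _ = _ at e4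
  change ρ _ = ρ _
  refine e4.trans ?_
  change χ (Th C.h C.nd (simG _ g) (χ⁻¹ (ρ z'))) = ρ (ψ (Th C.h C.nd (simG _ g) (ψ.symm z')))
  have e7 : χ⁻¹ (ρ z') = ψ.symm z' := by
    rw [MulAut.inv_def]
    change ψ.symm (ρ.symm (ρ z')) = _
    rw [e5]
  rw [e7]
  rfl

/-- the inner-diagonal group under isomorphisms -/
theorem inndiag_congr (hm : 3 ≤ m) {a b a' b' : F}
    (hab : ∀ z₁ z₂ : F, z₁ ^ 2 + a * z₁ * z₂ + b * z₂ ^ 2 = 0 → z₁ = 0 ∧ z₂ = 0)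
    (hab' : ∀ z₁ z₂ : F, z₁ ^ 2 + a' * z₁ * z₂ + b' * z₂ ^ 2 = 0 → z₁ = 0 ∧ z₂ = 0)
    (ψ : Cfsg.POmega F (Cfsg.quadFormMinus m F a b) ≃* Cfsg.POmega F (Cfsg.quadFormMinus m F a' b'))
    {β : MulAut (Cfsg.POmega F (Cfsg.quadFormMinus m F a b))} (hβ : β ∈ Cfsg.inndiagPOmegaMinus m F a b) :
    MulAut.congr ψ β ∈ Cfsg.inndiagPOmegaMinus m F a' b' := by
  by_cases h2 : (2 : F) = 0
  · rw [inndiag_two hm h2 hab] at hβ
    rw [inndiag_two hm h2 hab']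
    obtain ⟨z, rfl⟩ := hβ
    refine ⟨ψ z, ?_⟩
    ext w
    change ψ z * w * (ψ z)⁻¹ = ψ (z * ψ.symm w * z⁻¹)
    simp
  · exact inndiag_congr_odd (odd_card_of_two_ne h2) hm hab hab' ψ hβ

end Main

end Cfsg.Agent.Lead.LangOm
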