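import Cfsg.Agent.Lib.Lead.LangMin4
/-! Field automorphisms of the minus type: the descent to the fixed field. -/
set_option autoImplicit false
set_option linter.style.haveILetI false
set_option linter.unusedSimpArgs false
set_option linter.unusedSectionVars false
set_option linter.unusedVariables false
set_option linter.deprecated false
namespace Cfsg.Agent.Lead.LangOm
open Matrix Module Cfsg.Agent.Lead.Ortho Cfsg.Agent.Lead.Omega Cfsg.Agent.H01.Om Cfsg.Agent.Lead.Lang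
open Cfsg.Agent.H11 (IsMTS Rf Pb triangle minusForm minusForm_coe Rf_isom)

section General
variable {F : Type*} [Field F] [Fintype F] {ι : Type} [Fintype ι] [DecidableEq ι]
variable {Q : (ι → F) → F} {B : (ι → F) → (ι → F) → F}
variable {F₀ : Type*} [Field F₀] [Fintype F₀] {ε : F₀ →+* F}
variable {Q₁ : (ι → F₀) → F₀} {B₁ : (ι → F₀) → (ι → F₀) → F₀}

/-- the multiplier of a lift -/
lemma lift_mult (h₁ : QF Q₁ B₁) (h : QF Q B) (hc : ∀ x, Q (eV ε x) = ε (Q₁ x)) (g₁ : ↥(Cfsg.Geo.quadSimilarityGroup Q₁))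
    {κ₁ : F₀} (hκ₁ : ∀ v, Q₁ (((g₁.1 : GL ι F₀) : Matrix ι ι F₀) *ᵥ v) = κ₁ * Q₁ v) {v₀ : ι → F₀} (hv₀ : Q₁ v₀ ≠ 0) (v : ι → F) :
    Q (((liftS h₁ h hc g₁).1 : GL ι F).val *ᵥ v) = ε κ₁ * Q v := by
  obtain ⟨c, hcc⟩ := (liftS h₁ h hc g₁).2
  have hcc' : ∀ v, Q (((liftS h₁ h hc g₁).1 : GL ι F).val *ᵥ v) = (c : F) * Q v := fun v => hcc v
  have e1 := hcc' (eV ε v₀)
  have e2 : ((liftS h₁ h hc g₁).1 : GL ι F).val *ᵥ eV ε v₀ = eV ε (((g₁.1 : GL ι F₀) : Matrix ι ι F₀) *ᵥ v₀) := liftM_mulVec ε g₁.1 v₀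
  rw [e2, hc, hc, hκ₁, map_mul] at e1
  have e3 : (c : F) = ε κ₁ := (mul_right_cancel₀ ((map_ne_zero ε).2 hv₀) e1).symm
  rw [hcc', e3]

/-- membership of a lift -/
lemma lift_mem_HMo_iff (h₁ : QF Q₁ B₁) (h : QF Q B) (hc : ∀ x, Q (eV ε x) = ε (Q₁ x)) {v₀ : ι → F₀} (hv₀ : Q₁ v₀ ≠ 0) {N : ℕ}
    (g₁ : ↥(Cfsg.Geo.quadSimilarityGroup Q₁)) : liftS h₁ h hc g₁ ∈ HMo Q N ↔ g₁ ∈ HMo Q₁ N := by
  have hdet : ((liftS h₁ h hc g₁).1 : GL ι F).val.det = ε ((g₁.1 : GL ι F₀) : Matrix ι ι F₀).det :=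
    (RingHom.map_det ε ((g₁.1 : GL ι F₀) : Matrix ι ι F₀)).symm
  constructor
  · rintro ⟨κ', h0', h1', h2'⟩
    obtain ⟨c, hcc⟩ := g₁.2
    have hcc' : ∀ v, Q₁ (((g₁.1 : GL ι F₀) : Matrix ι ι F₀) *ᵥ v) = (c : F₀) * Q₁ v := fun v => hcc v
    have e1 := lift_mult h₁ h hc g₁ hcc' hv₀ (eV ε v₀)
    rw [h1', hc] at e1
    have e2 : κ' = ε (c : F₀) := mul_right_cancel₀ ((map_ne_zero ε).2 hv₀) e1
    refine ⟨c, c.ne_zero, hcc', ?_⟩
    apply ε.injective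
    rw [← hdet, h2', e2, map_pow]
  · rintro ⟨κ, h0, h1, h2⟩
    refine ⟨ε κ, (map_ne_zero ε).2 h0, lift_mult h₁ h hc g₁ h1 hv₀, ?_⟩
    rw [hdet, h2, map_pow]

variable {m : ℕ} {t₀ : Fin m → (ι → F) × (ι → F)}

/-- scalars lie in the group -/
lemma scal_mem_HMo (C : Cx Q B t₀) {N : ℕ} (hdim : Fintype.card ι = 2 * N) (g : ↥(Cfsg.Geo.quadSimilarityGroup Q))
    (hs : IsScal g.1) : g ∈ HMo Q N := by
  obtain ⟨c, hc⟩ := hs
  have hc0 : c ≠ 0 := by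
    rintro rfl
    obtain ⟨x, hx⟩ := exists_ne_zero' C
    apply hx
    have e2 : ((g.1⁻¹ : GL ι F) : Matrix ι ι F) * (g.1 : Matrix ι ι F) = 1 := gl_inv_mul _
    rw [hc, zero_smul, mul_zero] at e2
    have e3 := congrArg (fun M : Matrix ι ι F => M *ᵥ x) e2
    simpa using e3.symm
  refine ⟨c ^ 2, pow_ne_zero _ hc0, fun v => ?_, ?_⟩
  · rw [hc, Matrix.smul_mulVec, Matrix.one_mulVec, C.h.smul]
  · rw [hc, Matrix.det_smul, Matrix.det_one, mul_one, hdim, pow_mul]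

/-- the lift of a multiple of a word -/
theorem Th_lift_list' {t₁ : Fin m → (ι → F₀) × (ι → F₀)} (C₁ : Cx Q₁ B₁ t₁) (C : Cx Q B t₀) (Qq : QuadraticForm F (ι → F)) (hQq : ⇑Qq = Q)
    (hc : ∀ x, Q (eV ε x) = ε (Q₁ x))
    (g₁ : ↥(Cfsg.Geo.quadSimilarityGroup Q₁)) {c : F₀} {L : List (ι → F₀)} (hc0 : c ≠ 0) (hL : ∀ v ∈ L, Q₁ v ≠ 0)
    (hg : ((g₁.1 : GL ι F₀) : Matrix ι ι F₀) = c • prodR Q₁ L) :
    ∃ s : OG F Q, ((s : GL ι F) : Matrix ι ι F) = prodR Q (L.map (eV ε)) ∧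
      (∀ v ∈ L.map (eV ε), Q v ≠ 0) ∧ Th C.h C.nd (simG Q (liftS C₁.h C.h hc g₁)) = cc Q s := by
  have hL' : ∀ v ∈ L.map (eV ε), Q v ≠ 0 := by
    intro v hv
    obtain ⟨w, hw, rfl⟩ := List.mem_map.1 hv
    rw [hc]
    exact (map_ne_zero ε).2 (hL w hw)
  obtain ⟨s, hs⟩ := exists_og_of_list Qq hQq C.h _ hL'
  refine ⟨s, hs, hL', ?_⟩
  refine C.Th_of_scalar ((map_ne_zero ε).2 hc0) (fun x => ?_)
  change ((liftM ε g₁.1 : GL ι F) : Matrix ι ι F) *ᵥ x = ε c • (((s : GL ι F) : Matrix ι ι F) *ᵥ x)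
  rw [liftM_val, hg, hs, ← map_prodR hc, ← Matrix.smul_mulVec]
  congr 1
  ext i j
  simp

/-- the inner automorphisms come from isometries -/
lemma inn_le_range (C : Cx Q B t₀) :
    Cfsg.Inn (Cfsg.POmega F Q) ≤ ((Th C.h C.nd).comp (simG Q)).range := by
  rintro _ ⟨z, rfl⟩
  obtain ⟨t, rfl⟩ := QuotientGroup.mk_surjective z
  refine ⟨ogSim (t : OG F Q), ?_⟩
  change Th C.h C.nd (simG Q (ogSim (t : OG F Q))) = MulAut.conj (QuotientGroup.mk t : Cfsg.POmega F Q)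
  rw [simG_ogSim, Th_ofO, conj_mk_eq C]

end General

section Abstract
variable {A B : Type*} [Group A] [Group B]

/-- centralizers under an isomorphism -/
lemma cen_congr (E : A ≃* B) (I : Subgroup A) (J : Subgroup B) (hE : ∀ β, β ∈ I ↔ E β ∈ J) (x : A) :
    Nonempty (↥(I ⊓ Subgroup.centralizer {x}) ≃* ↥(J ⊓ Subgroup.centralizer {E x})) := by
  have e : (I ⊓ Subgroup.centralizer {x}).map E.toMonoidHom = J ⊓ Subgroup.centralizer {E x} := by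
    ext y
    constructor
    · rintro ⟨β, ⟨h1, h2⟩, rfl⟩
      refine ⟨(hE β).1 h1, ?_⟩
      have h3 : β ∈ Subgroup.centralizer {x} := h2
      rw [Subgroup.mem_centralizer_singleton_iff] at h3
      change E β ∈ Subgroup.centralizer {E x}
      rw [Subgroup.mem_centralizer_singleton_iff, ← map_mul, ← map_mul, h3]
    · rintro ⟨h1, h2⟩
      have h3 : y ∈ Subgroup.centralizer {E x} := h2
      rw [Subgroup.mem_centralizer_singleton_iff] at h3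
      refine ⟨E.symm y, ⟨(hE _).2 (by simpa using h1), ?_⟩, by simp⟩
      change E.symm y ∈ Subgroup.centralizer {x}
      rw [Subgroup.mem_centralizer_singleton_iff]
      apply E.injective
      rw [map_mul, map_mul, E.apply_symm_apply, h3]
  exact ⟨(E.subgroupMap _).trans (MulEquiv.subgroupCongr e)⟩

/-- the covering under an isomorphism -/
lemma cover_congr (E : A ≃* B) (I K : Subgroup A) (J L : Subgroup B) [hL : L.Normal] (hE : ∀ β, β ∈ I ↔ E β ∈ J) (hK : ∀ β, E β ∈ L → β ∈ K) (x : A)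
    (hle : J ≤ L ⊔ (J ⊓ Subgroup.centralizer {E x})) : I ≤ K ⊔ (I ⊓ Subgroup.centralizer {x}) := by
  intro β hβ
  have h1 := hle ((hE β).1 hβ)
  rw [Subgroup.mem_sup_of_normal_left] at h1
  obtain ⟨k, hk, c, ⟨hc1, hc2⟩, e⟩ := h1
  have hc3 : c ∈ Subgroup.centralizer {E x} := hc2
  rw [Subgroup.mem_centralizer_singleton_iff] at hc3
  have e1 : β = E.symm k * E.symm c := by
    apply E.injective
    rw [map_mul, E.apply_symm_apply, E.apply_symm_apply, e]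
  rw [e1]
  refine Subgroup.mul_mem _ (Subgroup.mem_sup_left (hK _ (by simpa using hk))) (Subgroup.mem_sup_right ⟨(hE _).2 (by simpa using hc1), ?_⟩)
  change E.symm c ∈ Subgroup.centralizer {x}
  rw [Subgroup.mem_centralizer_singleton_iff]
  apply E.injective
  rw [map_mul, map_mul, E.apply_symm_apply, hc3]

end Abstract

end Cfsg.Agent.Lead.LangOm
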