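import Cfsg.Agent.Lib.Lead.LangMin5
import Cfsg.Agent.Lib.Lead.LangCen4
/-! Field automorphisms of the minus type: centralizers and the covering by the centralizer. -/
set_option autoImplicit false
set_option linter.style.haveILetI false
set_option linter.unusedSimpArgs false
set_option linter.unusedSectionVars false
set_option linter.unusedVariables false
set_option linter.deprecated false
namespace Cfsg.Agent.Lead.LangOm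
open Matrix Module Cfsg.Agent.Lead.Ortho Cfsg.Agent.Lead.Omega Cfsg.Agent.H01.Om Cfsg.Agent.Lead.Lang
open Cfsg.Agent.H11 (IsMTS Rf Pb triangle minusForm minusForm_coe Rf_isom)

variable {F : Type*} [Field F] [Fintype F] {m : ℕ}
variable {F₀ : Type*} [Field F₀] [Fintype F₀]

local notation "MI" => ((Fin m ⊕ Fin m) ⊕ Fin 2)

lemma eV_Q_minus (ε : F₀ →+* F) (a₀ b₀ : F₀) (x : MI → F₀) :
    Cfsg.quadFormMinus m F (ε a₀) (ε b₀) (eV ε x) = ε (Cfsg.quadFormMinus m F₀ a₀ b₀ x) := by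
  simp [Cfsg.quadFormMinus, eV, map_sum, map_mul, map_add, map_pow]

variable {ε : F₀ →+* F} {σ : F ≃+* F} {a₀ b₀ : F₀}
  {t₀ : Fin m → ((Fin m ⊕ Fin m) ⊕ Fin 2 → F) × ((Fin m ⊕ Fin m) ⊕ Fin 2 → F)}
  {t₁ : Fin m → ((Fin m ⊕ Fin m) ⊕ Fin 2 → F₀) × ((Fin m ⊕ Fin m) ⊕ Fin 2 → F₀)}

/-- the centralizer in odd characteristic -/
theorem cen_minus_odd (hε : ∀ a, σ a = a ↔ a ∈ Set.range ε) (hq : Odd (Fintype.card F)) (hq₀ : Odd (Fintype.card F₀)) (hm : 3 ≤ m)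
    (hab : ∀ z₁ z₂ : F, z₁ ^ 2 + ε a₀ * z₁ * z₂ + ε b₀ * z₂ ^ 2 = 0 → z₁ = 0 ∧ z₂ = 0)
    (hab₀ : ∀ z₁ z₂ : F₀, z₁ ^ 2 + a₀ * z₁ * z₂ + b₀ * z₂ ^ 2 = 0 → z₁ = 0 ∧ z₂ = 0)
    (C : Cx (Cfsg.quadFormMinus m F (ε a₀) (ε b₀)) (polarMinus m F (ε a₀) (ε b₀)) t₀)
    (C₁ : Cx (Cfsg.quadFormMinus m F₀ a₀ b₀) (polarMinus m F₀ a₀ b₀) t₁)
    (hQσ : ∀ x, Cfsg.quadFormMinus m F (ε a₀) (ε b₀) (smap σ x) = σ (Cfsg.quadFormMinus m F (ε a₀) (ε b₀) x)) :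
    Nonempty (↥(Cfsg.inndiagPOmegaMinus m F (ε a₀) (ε b₀) ⊓ Subgroup.centralizer {Th C.h C.nd (sigT σ hQσ)}) ≃*
      ↥(Cfsg.inndiagPOmegaMinus m F₀ a₀ b₀)) := by
  rw [inndiag_odd hq hm hab C.h C.nd, inndiag_odd hq₀ hm hab₀ C₁.h C₁.nd]
  have hc := eV_Q_minus (m := m) ε a₀ b₀
  obtain ⟨v₀, hv₀⟩ := exists_Q_ne C₁
  exact cen_iso C₁ C hc hQσ hε (HMo _ (m + 1)) (HMo _ (m + 1)) (fun g hs => scal_mem_HMo C minus_hdim g hs)
    (fun g₁ => lift_mem_HMo_iff C₁.h C.h hc hv₀ g₁)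

/-- the centralizer in characteristic two -/
theorem cen_minus_two (hε : ∀ a, σ a = a ↔ a ∈ Set.range ε) (h2 : (2 : F) = 0) (h2₀ : (2 : F₀) = 0) (hm : 3 ≤ m)
    (hab : ∀ z₁ z₂ : F, z₁ ^ 2 + ε a₀ * z₁ * z₂ + ε b₀ * z₂ ^ 2 = 0 → z₁ = 0 ∧ z₂ = 0)
    (hab₀ : ∀ z₁ z₂ : F₀, z₁ ^ 2 + a₀ * z₁ * z₂ + b₀ * z₂ ^ 2 = 0 → z₁ = 0 ∧ z₂ = 0)
    (C : Cx (Cfsg.quadFormMinus m F (ε a₀) (ε b₀)) (polarMinus m F (ε a₀) (ε b₀)) t₀)
    (C₁ : Cx (Cfsg.quadFormMinus m F₀ a₀ b₀) (polarMinus m F₀ a₀ b₀) t₁)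
    (hQσ : ∀ x, Cfsg.quadFormMinus m F (ε a₀) (ε b₀) (smap σ x) = σ (Cfsg.quadFormMinus m F (ε a₀) (ε b₀) x)) :
    Nonempty (↥(Cfsg.inndiagPOmegaMinus m F (ε a₀) (ε b₀) ⊓ Subgroup.centralizer {Th C.h C.nd (sigT σ hQσ)}) ≃*
      ↥(Cfsg.inndiagPOmegaMinus m F₀ a₀ b₀)) := by
  classical
  rw [inndiag_two hm h2 hab, inndiag_two hm h2₀ hab₀]
  have hc := eV_Q_minus (m := m) ε a₀ b₀
  have e := Subgroup.map_comap_eq_self (f := (Th C.h C.nd).comp (simG (Cfsg.quadFormMinus m F (ε a₀) (ε b₀))))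
    (H := Cfsg.Inn (Cfsg.POmega F (Cfsg.quadFormMinus m F (ε a₀) (ε b₀)))) (inn_le_range C)
  have e₁ := Subgroup.map_comap_eq_self (f := (Th C₁.h C₁.nd).comp (simG (Cfsg.quadFormMinus m F₀ a₀ b₀)))
    (H := Cfsg.Inn (Cfsg.POmega F₀ (Cfsg.quadFormMinus m F₀ a₀ b₀))) (inn_le_range C₁)
  have hE := cen_iso C₁ C hc hQσ hε
    ((Cfsg.Inn (Cfsg.POmega F₀ (Cfsg.quadFormMinus m F₀ a₀ b₀))).comap ((Th C₁.h C₁.nd).comp (simG (Cfsg.quadFormMinus m F₀ a₀ b₀))))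
    ((Cfsg.Inn (Cfsg.POmega F (Cfsg.quadFormMinus m F (ε a₀) (ε b₀)))).comap ((Th C.h C.nd).comp (simG (Cfsg.quadFormMinus m F (ε a₀) (ε b₀)))))
    (fun g hs => by
      rw [Subgroup.mem_comap, MonoidHom.comp_apply, (Th_simG_eq_one_iff C g).2 hs]
      exact Subgroup.one_mem _)
    (fun g₁ => by
      rw [Subgroup.mem_comap, Subgroup.mem_comap, MonoidHom.comp_apply, MonoidHom.comp_apply]
      obtain ⟨μ, s, l, hμ, hl, hsl, hgs⟩ := two_word hm h2₀ hab₀ C₁ g₁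
      have hg : ((g₁.1 : GL MI F₀) : Matrix MI MI F₀) = μ • prodR (Cfsg.quadFormMinus m F₀ a₀ b₀) l := by
        rw [hgs, hsl]
      obtain ⟨s', hs', hl', eT⟩ := Th_lift_list' C₁ C (minusForm m F (ε a₀) (ε b₀)) (minus_Qq _ _) hc g₁ hμ hl hg
      have e2 : Th C₁.h C₁.nd (simG _ g₁) = cc _ s := by
        refine C₁.Th_of_scalar hμ (fun x => ?_)
        change ((g₁.1 : GL MI F₀) : Matrix MI MI F₀) *ᵥ x = μ • (((s : GL MI F₀) : Matrix MI MI F₀) *ᵥ x)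
        rw [hgs, Matrix.smul_mulVec]
      rw [eT, e2, cc_inn_two h2 C (minusForm m F (ε a₀) (ε b₀)) (minus_Qq _ _) (minus_nd hab) minus_hdim
          (card_or (n := m + 1) (by omega)) _ hl' s' hs',
        cc_inn_two h2₀ C₁ (minusForm m F₀ a₀ b₀) (minus_Qq _ _) (minus_nd hab₀) minus_hdim
          (card_or (n := m + 1) (by omega)) _ hl s hsl, List.length_map])
  rw [e, e₁] at hE
  exact hE

/-- the inner automorphisms lie in the inner-diagonal group -/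
theorem inn_le_inndiag (hm : 3 ≤ m) {a b : F} (hab : ∀ z₁ z₂ : F, z₁ ^ 2 + a * z₁ * z₂ + b * z₂ ^ 2 = 0 → z₁ = 0 ∧ z₂ = 0) :
    Cfsg.Inn (Cfsg.POmega F (Cfsg.quadFormMinus m F a b)) ≤ Cfsg.inndiagPOmegaMinus m F a b := by
  classical
  by_cases h2 : (2 : F) = 0
  · rw [inndiag_two hm h2 hab]
  obtain ⟨t₀, ⟨C⟩⟩ := minus_cx (F := F) hm hab
  rw [inndiag_odd (odd_card_of_two_ne h2) hm hab C.h C.nd]
  rintro _ ⟨z, rfl⟩
  obtain ⟨t, rfl⟩ := QuotientGroup.mk_surjective z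
  refine ⟨ogSim (t : OG F _), ?_, ?_⟩
  · refine ogSim_mem_HMo _ _ ?_
    obtain ⟨l, hl, hsl⟩ := exists_list_og (minusForm m F a b) (minus_Qq a b) C.h (minus_hRS hm hab C.h) (t : OG F (Cfsg.quadFormMinus m F a b))
    have htS : (t : OG F (Cfsg.quadFormMinus m F a b)) ∈ SS C.h := by
      rw [← C.hΩ]
      exact t.2
    have hev := even_of_word_SS C (minusForm m F a b) (minus_Qq a b) l hl _ hsl htS
    apply Units.ext
    rw [detU_val, Units.val_one, hsl, det_prodR (minusForm m F a b) (minus_Qq a b) l hl, hev.neg_one_pow]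
  · change Th C.h C.nd (simG _ (ogSim (t : OG F _))) = MulAut.conj (QuotientGroup.mk t : Cfsg.POmega F _)
    rw [simG_ogSim, Th_ofO, conj_mk_eq C]

end Cfsg.Agent.Lead.LangOm
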