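import Cfsg.Agent.Lib.Lead.LangMin6
/-! Field automorphisms of the minus type: the inner-diagonal group is covered by the inner group and the centralizer. -/
set_option autoImplicit false
set_option linter.style.haveILetI false
set_option linter.unusedSimpArgs false
set_option linter.unusedSectionVars false
set_option linter.unusedVariables false
set_option linter.deprecated false
namespace Cfsg.Agent.Lead.LangOm
open Matrix Module Cfsg.Agent.Lead.Ortho Cfsg.Agent.Lead.Omega Cfsg.Agent.H01.Om Cfsg.Agent.Lead.Lang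
open Cfsg.Agent.H11 (IsMTS Rf Pb triangle minusForm minusForm_coe Rf_isom)

section General
variable {F : Type*} [Field F] [Fintype F] {ι : Type} [Fintype ι] [DecidableEq ι]
variable {Q : (ι → F) → F} {B : (ι → F) → (ι → F) → F}
variable {m : ℕ} {t₀ : Fin m → (ι → F) × (ι → F)}

/-- a similarity with square multiplier and the right determinant is inner, up to an element with nonsquare spinor norm -/
theorem sq_case {C : Cx Q B t₀} (X : SD C) (hv : ∃ v₀, Q v₀ ≠ 0) {N : ℕ} (hdim : Fintype.card ι = 2 * N)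
    {D : Subgroup (MulAut (Cfsg.POmega F Q))} {y : OG F Q} {L₀ : List (ι → F)} (hL₀ : ∀ v ∈ L₀, Q v ≠ 0)
    (hy : ((y : GL ι F) : Matrix ι ι F) = prodR Q L₀) (hev₀ : Even L₀.length) (hns : ¬ IsSquare (L₀.map Q).prod)
    (hyD : cc Q y ∈ D) (g : ↥(Cfsg.Geo.quadSimilarityGroup Q)) {κ : F} (h0 : κ ≠ 0)
    (h1 : ∀ v, Q (((g.1 : GL ι F) : Matrix ι ι F) *ᵥ v) = κ * Q v) (h2 : ((g.1 : GL ι F) : Matrix ι ι F).det = κ ^ N)
    (hsq : IsSquare κ) : Th C.h C.nd (simG Q g) ∈ Cfsg.Inn (Cfsg.POmega F Q) ⊔ D := by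
  obtain ⟨v₀, hv₀⟩ := hv
  have H := isSemi_simPerm (Q := Q) (g := g.1) h0 h1
  obtain ⟨μ, s, hμ, hs⟩ := exists_act_of_sq C (T := simG Q g) H hsq
  have e3 : ((g.1 : GL ι F) : Matrix ι ι F) = μ • ((s : GL ι F) : Matrix ι ι F) := by
    apply Matrix.mulVec_injective
    funext v
    rw [Matrix.smul_mulVec]
    exact hs v
  have e5 : κ = μ ^ 2 := by
    have e4 := h1 v₀
    rw [e3, Matrix.smul_mulVec, C.h.smul] at e4
    have e6 : Q (((s : GL ι F) : Matrix ι ι F) *ᵥ v₀) = Q v₀ := Q_act (Q := Q) s v₀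
    rw [e6] at e4
    exact (mul_right_cancel₀ hv₀ e4).symm
  have hds : ((s : GL ι F) : Matrix ι ι F).det = 1 := by
    rw [e3, Matrix.det_smul, hdim, e5, ← pow_mul] at h2
    have e7 : μ ^ (2 * N) ≠ 0 := pow_ne_zero _ hμ
    exact mul_left_cancel₀ e7 (by rw [h2, mul_one])
  obtain ⟨L, hL, hsL⟩ := X.list s
  have hev : Even L.length := by
    have d := X.det s L hL hsL
    rw [hds] at d
    by_contra hne
    rw [(Nat.not_even_iff_odd.1 hne).neg_one_pow] at d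
    apply X.h2
    linear_combination d
  have eT : Th C.h C.nd (simG Q g) = cc Q s := by
    refine C.Th_of_scalar hμ (fun x => ?_)
    exact hs x
  rw [eT]
  by_cases hq : IsSquare (L.map Q).prod
  · refine Subgroup.mem_sup_left ?_
    rw [C.cc_inn_iff]
    exact Or.inl ((X.mem_iff s L hL hsL).2 ⟨hev, hq⟩)
  · have hin : cc Q (s * y) ∈ Cfsg.Inn (Cfsg.POmega F Q) := by
      rw [C.cc_inn_iff]
      left
      have hL' : ∀ v ∈ L ++ L₀, Q v ≠ 0 := by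
        intro v hv
        rcases List.mem_append.1 hv with hv | hv
        · exact hL v hv
        · exact hL₀ v hv
      refine (X.mem_iff (s * y) (L ++ L₀) hL' ?_).2 ⟨?_, ?_⟩
      · rw [prodR_append, ← hsL, ← hy]
        rfl
      · rw [List.length_append]
        exact hev.add hev₀
      · have e1 : ((L ++ L₀).map Q).prod = (L.map Q).prod * (L₀.map Q).prod := by
          simp
        rw [e1]
        exact isSquare_mul_of_not X.h2 hq hns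
    have e3 : cc Q s = cc Q (s * y) * (cc Q y)⁻¹ := by
      rw [map_mul]
      group
    rw [e3]
    exact Subgroup.mul_mem _ (Subgroup.mem_sup_left hin) (Subgroup.inv_mem _ (Subgroup.mem_sup_right hyD))

end General

section Main
variable {F : Type*} [Field F] [Fintype F] {m : ℕ}
variable {F₀ : Type*} [Field F₀] [Fintype F₀]
variable {ε : F₀ →+* F} {σ : F ≃+* F} {a₀ b₀ : F₀}
  {t₀ : Fin m → ((Fin m ⊕ Fin m) ⊕ Fin 2 → F) × ((Fin m ⊕ Fin m) ⊕ Fin 2 → F)}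
  {t₁ : Fin m → ((Fin m ⊕ Fin m) ⊕ Fin 2 → F₀) × ((Fin m ⊕ Fin m) ⊕ Fin 2 → F₀)}

local notation "MI" => ((Fin m ⊕ Fin m) ⊕ Fin 2)

set_option maxHeartbeats 8000000 in
/-- **The covering when the degree is odd.** -/
theorem count_minus_odd (hε : ∀ a, σ a = a ↔ a ∈ Set.range ε) {r : ℕ} (hcard : Fintype.card F = (Fintype.card F₀) ^ r) (hro : Odd r)
    (hq₀ : Odd (Fintype.card F₀)) (h2 : (2 : F) ≠ 0) (hm : 3 ≤ m)
    (hab : ∀ z₁ z₂ : F, z₁ ^ 2 + ε a₀ * z₁ * z₂ + ε b₀ * z₂ ^ 2 = 0 → z₁ = 0 ∧ z₂ = 0)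
    (hab₀ : ∀ z₁ z₂ : F₀, z₁ ^ 2 + a₀ * z₁ * z₂ + b₀ * z₂ ^ 2 = 0 → z₁ = 0 ∧ z₂ = 0)
    (C : Cx (Cfsg.quadFormMinus m F (ε a₀) (ε b₀)) (polarMinus m F (ε a₀) (ε b₀)) t₀)
    (C₁ : Cx (Cfsg.quadFormMinus m F₀ a₀ b₀) (polarMinus m F₀ a₀ b₀) t₁)
    (hQσ : ∀ x, Cfsg.quadFormMinus m F (ε a₀) (ε b₀) (smap σ x) = σ (Cfsg.quadFormMinus m F (ε a₀) (ε b₀) x)) :
    Cfsg.inndiagPOmegaMinus m F (ε a₀) (ε b₀) ≤ Cfsg.Inn (Cfsg.POmega F (Cfsg.quadFormMinus m F (ε a₀) (ε b₀))) ⊔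
      (Cfsg.inndiagPOmegaMinus m F (ε a₀) (ε b₀) ⊓ Subgroup.centralizer {Th C.h C.nd (sigT σ hQσ)}) := by
  classical
  have hq : Odd (Fintype.card F) := odd_card_of_two_ne h2
  have h2₀ : (2 : F₀) ≠ 0 := two_ne_zero_of_odd rfl hq₀
  have hc := eV_Q_minus (m := m) ε a₀ b₀
  rw [inndiag_odd hq hm hab C.h C.nd]
  obtain ⟨v₀, hv₀⟩ := exists_Q_ne C₁
  have hscal : ∀ g : ↥(Cfsg.Geo.quadSimilarityGroup (Cfsg.quadFormMinus m F (ε a₀) (ε b₀))), IsScal g.1 → g ∈ HMo _ (m + 1) :=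
    fun g hs => scal_mem_HMo C minus_hdim g hs
  have hI := fun g₁ => lift_mem_HMo_iff (N := m + 1) C₁.h C.h hc hv₀ g₁
  have hcen := cen_range C₁ C hc hQσ hε (HMo _ (m + 1)) (HMo _ (m + 1)) hscal hI
  have hliftD : ∀ g₁ ∈ HMo (Cfsg.quadFormMinus m F₀ a₀ b₀) (m + 1), Th C.h C.nd (simG _ (liftS C₁.h C.h hc g₁)) ∈
      (HMo (Cfsg.quadFormMinus m F (ε a₀) (ε b₀)) (m + 1)).map ((Th C.h C.nd).comp (simG _)) ⊓ Subgroup.centralizer {Th C.h C.nd (sigT σ hQσ)} := by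
    intro g₁ hg₁
    rw [← hcen]
    exact ⟨g₁, hg₁, rfl⟩
  obtain ⟨ν₀, hν₀⟩ := exists_nonsq hq₀
  have hν0 : ν₀ ≠ 0 := by
    rintro rfl
    exact hν₀ IsSquare.zero
  have hν : ¬ IsSquare (ε ν₀) := ext_nonsq_odd ε hro hq₀ hcard hν₀
  haveI : Fact (Irreducible (fP a₀ b₀)) := ⟨fP_irr hab₀⟩
  obtain ⟨w₀, hw₀⟩ := exists_norm hab₀ hν0
  have hiw : iK a₀ b₀ w₀ ≠ 0 := by
    intro e
    have e1 := of_Nm a₀ b₀ w₀
    rw [e, zero_mul, hw₀] at e1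
    exact hν0 ((map_eq_zero _).1 e1)
  obtain ⟨W, hW⟩ : ∃ W : (KK a₀ b₀)ˣ, W = Units.mk0 (iK a₀ b₀ w₀) hiw := ⟨_, rfl⟩
  have hW' : iK a₀ b₀ w₀ = W := by rw [hW]; rfl
  have hnorm : (normK a₀ b₀ W : F₀) = ν₀ := by
    rw [← Nm_of_normK a₀ b₀ W w₀ hW', hw₀]
  have HD : IsSemi (Cfsg.quadFormMinus m F₀ a₀ b₀) ((deltaG a₀ b₀ m W : GS _) : Equiv.Perm _) 1 ν₀ := by
    rw [← hnorm]
    exact isSemi_delta a₀ b₀ W
  obtain ⟨g₁, H₁', hg₁'⟩ := HD.matrix C₁.h C₁.nd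
  have hg₁ : ∀ x, ((deltaG a₀ b₀ m W : GS _) : Equiv.Perm _) x = g₁.val *ᵥ x := fun x => hg₁' x
  have hdet₁ := delta_det hW' hw₀ hnorm hg₁
  have hPsim : (g₁ : GL _ F₀) ∈ Cfsg.Geo.quadSimilarityGroup (Cfsg.quadFormMinus m F₀ a₀ b₀) :=
    ⟨Units.mk0 ν₀ hν0, fun v => H₁'.hQ v⟩
  have hδ₀ : (⟨g₁, hPsim⟩ : ↥(Cfsg.Geo.quadSimilarityGroup (Cfsg.quadFormMinus m F₀ a₀ b₀))) ∈ HMo _ (m + 1) :=
    ⟨ν₀, hν0, fun v => H₁'.hQ v, hdet₁⟩
  -- the isometry with nonsquare spinor norm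
  have hN1 : Nm a₀ b₀ (![1, 0] : Fin 2 → F₀) = 1 := by simp [Nm]
  have hA₁ : Cfsg.quadFormMinus m F₀ a₀ b₀ (vecV m ![1, 0]) = 1 := by
    rw [Q_vecV, hN1]
  have hA₂ : Cfsg.quadFormMinus m F₀ a₀ b₀ (vecV m w₀) = ν₀ := by
    rw [Q_vecV, hw₀]
  have hL₁ : ∀ v ∈ [vecV m ![1, 0], vecV m w₀], Cfsg.quadFormMinus m F₀ a₀ b₀ v ≠ 0 := by
    intro v hv
    simp only [List.mem_cons, List.not_mem_nil, or_false] at hv
    rcases hv with rfl | rfl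
    · rw [hA₁]
      exact one_ne_zero
    · rw [hA₂]
      exact hν0
  obtain ⟨s₁, hs₁⟩ := exists_og_of_list (minusForm m F₀ a₀ b₀) (minus_Qq a₀ b₀) C₁.h _ hL₁
  have hds₁ : detU _ s₁ = 1 := by
    apply Units.ext
    rw [detU_val, Units.val_one, hs₁, det_prodR (minusForm m F₀ a₀ b₀) (minus_Qq a₀ b₀) _ hL₁]
    simp
  have hs₁H := ogSim_mem_HMo (m + 1) s₁ hds₁
  obtain ⟨y, hy, hLy, ey⟩ := Th_lift_list' C₁ C (minusForm m F (ε a₀) (ε b₀)) (minus_Qq _ _) hc (ogSim s₁)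
    (c := 1) (L := [vecV m ![1, 0], vecV m w₀]) one_ne_zero hL₁ (by rw [one_smul]; exact hs₁)
  have hyD : cc _ y ∈ (HMo (Cfsg.quadFormMinus m F (ε a₀) (ε b₀)) (m + 1)).map ((Th C.h C.nd).comp (simG _)) ⊓ Subgroup.centralizer {Th C.h C.nd (sigT σ hQσ)} := by
    rw [← ey]
    exact hliftD _ hs₁H
  have hns : ¬ IsSquare (([vecV m ![1, 0], vecV m w₀].map (eV ε)).map (Cfsg.quadFormMinus m F (ε a₀) (ε b₀))).prod := by
    rw [prod_map_eV hc]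
    simp only [List.map_cons, List.map_nil, List.prod_cons, List.prod_nil, hA₁, hA₂, one_mul, mul_one]
    exact hν
  have X : SD C := ⟨⟨minusForm m F (ε a₀) (ε b₀), minus_Qq _ _, minus_nd hab⟩, h2, by
    simp only [Fintype.card_sum, Fintype.card_fin]
    omega, minus_hRS hm hab C.h⟩
  obtain ⟨v₂, hv₂⟩ := exists_Q_ne C
  have hA := fun g κ h0 h1 h2' hsq => sq_case (N := m + 1) X ⟨v₂, hv₂⟩ minus_hdim hLy hy (by simp) hns hyD g (κ := κ) h0 h1 h2' hsq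
  rintro _ ⟨g, ⟨κ, h0, h1, h2'⟩, rfl⟩
  change Th C.h C.nd (simG _ g) ∈ _
  by_cases hsq : IsSquare κ
  · exact hA g κ h0 h1 h2' hsq
  · -- multiply by the lift of the diagonal element
    have hlift := hliftD _ hδ₀
    have hmult := lift_mult C₁.h C.h hc (⟨g₁, hPsim⟩ : ↥(Cfsg.Geo.quadSimilarityGroup (Cfsg.quadFormMinus m F₀ a₀ b₀))) (κ₁ := ν₀) (fun v => H₁'.hQ v) hv₀
    have hdetl : (((liftS C₁.h C.h hc ⟨g₁, hPsim⟩).1 : GL MI F) : Matrix MI MI F).det = (ε ν₀) ^ (m + 1) := by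
      have e0 : (((liftS C₁.h C.h hc ⟨g₁, hPsim⟩).1 : GL MI F) : Matrix MI MI F).det = ε (g₁.val.det) := (RingHom.map_det ε g₁.val).symm
      rw [e0, hdet₁, map_pow]
    have hgl := hA (g * liftS C₁.h C.h hc ⟨g₁, hPsim⟩) (κ * ε ν₀) (mul_ne_zero h0 ((map_ne_zero ε).2 hν0))
      (fun v => by
        change Cfsg.quadFormMinus m F (ε a₀) (ε b₀) ((((g.1 : GL MI F) : Matrix MI MI F) * ((liftS C₁.h C.h hc ⟨g₁, hPsim⟩).1 : GL MI F).val) *ᵥ v) = _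
        rw [← Matrix.mulVec_mulVec, h1, hmult, mul_assoc])
      (by
        change (((g.1 : GL MI F) : Matrix MI MI F) * ((liftS C₁.h C.h hc ⟨g₁, hPsim⟩).1 : GL MI F).val).det = _
        rw [Matrix.det_mul, h2', hdetl, mul_pow])
      (isSquare_mul_of_not h2 hsq hν)
    rw [map_mul, map_mul] at hgl
    have e : Th C.h C.nd (simG _ g) = (Th C.h C.nd (simG _ g) * Th C.h C.nd (simG _ (liftS C₁.h C.h hc ⟨g₁, hPsim⟩))) *
        (Th C.h C.nd (simG _ (liftS C₁.h C.h hc ⟨g₁, hPsim⟩)))⁻¹ := by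
      group
    rw [e]
    exact Subgroup.mul_mem _ hgl (Subgroup.inv_mem _ (Subgroup.mem_sup_right hlift))

end Main

end Cfsg.Agent.Lead.LangOm
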