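import Cfsg.Agent.Lib.Lead.LangMin7
/-! Field automorphisms of the minus type: the final statement. -/
set_option autoImplicit false
set_option linter.style.haveILetI false
set_option linter.unusedSimpArgs false
set_option linter.unusedSectionVars false
set_option linter.unusedVariables false
set_option linter.deprecated false
namespace Cfsg.Agent.Lead.LangOm
open Matrix Module Cfsg.Agent.Lead.Ortho Cfsg.Agent.Lead.Omega Cfsg.Agent.H01.Om Cfsg.Agent.Lead.Lang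
open Cfsg.Agent.H11 (IsMTS Rf Pb triangle minusForm minusForm_coe Rf_isom)

variable {F : Type*} [Field F] [Fintype F] {m : ℕ}
variable {F₀ : Type*} [Field F₀] [Fintype F₀]

/-- the degree is odd -/
lemma odd_of_aniso {ε : F₀ →+* F} {a₀ b₀ : F₀} {r : ℕ} (hr : r.Prime) (hcard : Fintype.card F = (Fintype.card F₀) ^ r)
    (hab : ∀ z₁ z₂ : F, z₁ ^ 2 + ε a₀ * z₁ * z₂ + ε b₀ * z₂ ^ 2 = 0 → z₁ = 0 ∧ z₂ = 0)
    (hab₀ : ∀ z₁ z₂ : F₀, z₁ ^ 2 + a₀ * z₁ * z₂ + b₀ * z₂ ^ 2 = 0 → z₁ = 0 ∧ z₂ = 0) : Odd r := by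
  rcases hr.eq_two_or_odd' with rfl | h
  · exfalso
    letI : Algebra F₀ F := ε.toAlgebra
    have hfin : finrank F₀ F = 2 := by
      have e := Module.card_eq_pow_finrank (K := F₀) (V := F)
      rw [hcard] at e
      exact (Nat.pow_right_injective (Fintype.one_lt_card (α := F₀))  e).symm
    obtain ⟨z, hz⟩ := exists_root_any (K := F) hab₀ hfin
    have e := hab z 1 (by
      have e1 : algebraMap F₀ F a₀ = ε a₀ := rfl
      have e2 : algebraMap F₀ F b₀ = ε b₀ := rfl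
      rw [e1, e2] at hz
      linear_combination hz)
    exact one_ne_zero e.2
  · exact h

local notation "MI" => ((Fin m ⊕ Fin m) ⊕ Fin 2)

set_option maxHeartbeats 4000000 in
/-- **Field automorphisms of prime order of the minus type.** -/
theorem field_aut_minus {p f : ℕ} [Fact p.Prime] (hF : Fintype.card F = p ^ f) (hf : 1 ≤ f) (hm : 3 ≤ m) (a b : F)
    (hab : ∀ z₁ z₂ : F, z₁ ^ 2 + a * z₁ * z₂ + b * z₂ ^ 2 = 0 → z₁ = 0 ∧ z₂ = 0)
    (x : MulAut (Cfsg.POmega F (Cfsg.quadFormMinus m F a b))) (hx : Cfsg.IsFieldAutClassPOmegaMinus m x)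
    {r : ℕ} (hr : r.Prime) (hxr : orderOf x = r) (hF₀ : Fintype.card F₀ = p ^ (f / r)) :
    Odd r ∧ r ∣ f ∧ (∃ a₀ b₀ : F₀, (∀ z₁ z₂ : F₀, z₁ ^ 2 + a₀ * z₁ * z₂ + b₀ * z₂ ^ 2 = 0 → z₁ = 0 ∧ z₂ = 0) ∧
      Nonempty (↥(Cfsg.inndiagPOmegaMinus m F a b ⊓ Subgroup.centralizer {x}) ≃* ↥(Cfsg.inndiagPOmegaMinus m F₀ a₀ b₀))) ∧
      Cfsg.splitClassCount (Cfsg.inndiagPOmegaMinus m F a b) (Cfsg.Inn (Cfsg.POmega F (Cfsg.quadFormMinus m F a b))) x = 1 := by
  classical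
  obtain ⟨a', b', ψ, σ, hab', hσ, ha', hb', hφ⟩ := hx
  obtain ⟨t₀', ⟨C'⟩⟩ := minus_cx (F := F) hm hab'
  have hQσ : ∀ x, Cfsg.quadFormMinus m F a' b' (smap σ x) = σ (Cfsg.quadFormMinus m F a' b' x) := by
    intro x
    simp [Cfsg.quadFormMinus, smap, map_sum, map_mul, map_add, map_pow, ha', hb']
  have e1 := fld_eq_Th C' σ hQσ hφ
  have e2 : MulAut.congr ψ x = Th C'.h C'.nd (sigT σ hQσ) := e1
  have hord : orderOf σ = r := by
    rw [← orderOf_sigT C' σ hQσ, ← e2, MulEquiv.orderOf_eq, hxr]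
  obtain ⟨hdvd, ε, hε, hcard⟩ := field_setup (F₀ := F₀) hF hf σ hord hr hF₀
  obtain ⟨a₀, rfl⟩ := (hε a').1 ha'
  obtain ⟨b₀, rfl⟩ := (hε b').1 hb'
  have hab₀ : ∀ z₁ z₂ : F₀, z₁ ^ 2 + a₀ * z₁ * z₂ + b₀ * z₂ ^ 2 = 0 → z₁ = 0 ∧ z₂ = 0 := by
    intro z₁ z₂ h
    have := hab' (ε z₁) (ε z₂) (by
      have := congrArg ε h
      simpa [map_add, map_mul, map_pow] using this)
    exact ⟨ε.injective (by simpa using this.1), ε.injective (by simpa using this.2)⟩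
  have hodd := odd_of_aniso hr hcard hab' hab₀
  obtain ⟨t₁, ⟨C₁⟩⟩ := minus_cx (F := F₀) hm hab₀
  have hE : ∀ β, β ∈ Cfsg.inndiagPOmegaMinus m F a b ↔ MulAut.congr ψ β ∈ Cfsg.inndiagPOmegaMinus m F (ε a₀) (ε b₀) := by
    intro β
    refine ⟨fun h => inndiag_congr hm hab hab' ψ h, fun h => ?_⟩
    have h' := inndiag_congr hm hab' hab ψ.symm h
    have e3 : MulAut.congr ψ.symm (MulAut.congr ψ β) = β := by
      ext w
      simp [MulAut.congr]
    rwa [e3] at h'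
  have hq₀ : (2 : F) ≠ 0 → Odd (Fintype.card F₀) := by
    intro h2
    have hq := odd_card_of_two_ne h2
    rw [hcard] at hq
    by_contra hne
    rw [Nat.not_odd_iff_even] at hne
    exact (Nat.not_even_iff_odd.2 hq) (hne.pow_of_ne_zero hr.ne_zero)
  refine ⟨hodd, hdvd, ⟨a₀, b₀, hab₀, ?_⟩, ?_⟩
  · obtain ⟨E1⟩ := cen_congr (MulAut.congr ψ) _ _ hE x
    rw [e2] at E1
    by_cases h2 : (2 : F) = 0
    · have h2₀ : (2 : F₀) = 0 := ε.injective (by rw [map_ofNat, map_zero]; exact h2)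
      obtain ⟨E2⟩ := cen_minus_two hε h2 h2₀ hm hab' hab₀ C' C₁ hQσ
      exact ⟨E1.trans E2⟩
    · obtain ⟨E2⟩ := cen_minus_odd hε (odd_card_of_two_ne h2) (hq₀ h2) hm hab' hab₀ C' C₁ hQσ
      exact ⟨E1.trans E2⟩
  · rw [split_eq_relIndex _ _ (inn_le_inndiag hm hab) x]
    have htop : (Cfsg.Inn (Cfsg.POmega F (Cfsg.quadFormMinus m F a b)) ⊔ (Cfsg.inndiagPOmegaMinus m F a b ⊓ Subgroup.centralizer {x})).subgroupOf
        (Cfsg.inndiagPOmegaMinus m F a b) = ⊤ := by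
      rw [Subgroup.subgroupOf_eq_top]
      refine cover_congr (MulAut.congr ψ) _ _ _ (Cfsg.Inn (Cfsg.POmega F (Cfsg.quadFormMinus m F (ε a₀) (ε b₀)))) hE ?_ x ?_
      · rintro β ⟨z, hz⟩
        refine ⟨ψ.symm z, ?_⟩
        have e3 : MulAut.congr ψ.symm (MulAut.congr ψ β) = β := by
          ext w
          simp [MulAut.congr]
        rw [← e3, ← hz]
        ext w
        simp [MulAut.congr]
      · rw [e2]
        by_cases h2 : (2 : F) = 0
        · rw [inndiag_two hm h2 hab']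
          exact le_sup_left
        · exact count_minus_odd hε hcard hodd (hq₀ h2) h2 hm hab' hab₀ C' C₁ hQσ
    rw [htop, Subgroup.index_top]

end Cfsg.Agent.Lead.LangOm
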