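import Cfsg.Agent.Lib.Lead.AutPSU17
import Cfsg.Agent.Lib.Lead.LangPSL2
import Cfsg.Agent.Lib.Lead.LangCount
/-! Lang-Steinberg for field automorphisms of odd order of `PSU_n`: Hilbert 90 in `GU`. -/
set_option autoImplicit false
set_option linter.style.haveILetI false
set_option linter.unusedSimpArgs false
set_option linter.unusedSectionVars false
set_option linter.unusedVariables false
namespace Cfsg.Agent.Lead.Lang
open Matrix Cfsg.Agent.Lead Cfsg.Agent.Lead.PSU Cfsg.Agent.Lead.AutPSU
open scoped MatrixGroups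

variable {F : Type*} [Field F] [Fintype F] {q n : ℕ}

local notation "herm" => Cfsg.hermForm n F q
local notation "PG" => (Cfsg.SU n F q ⧸ Subgroup.center (Cfsg.SU n F q))

/-- the data of the fixed field of an automorphism of odd order -/
lemma fix_data {p f : ℕ} [Fact p.Prime] (hq : q = p ^ f) (hf : 1 ≤ f) (hF : Fintype.card F = q ^ 2) (σ : F ≃+* F)
    (hodd : Odd (orderOf σ)) :
    orderOf σ ∣ f ∧ ∃ K : Subfield F, (∀ a, a ∈ K ↔ σ a = a) ∧ Nat.card K = (p ^ (f / orderOf σ)) ^ 2 ∧
      ∀ a ∈ K, a ^ q = a ^ (p ^ (f / orderOf σ)) := by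
  classical
  haveI : Finite (F ≃+* F) := Finite.of_injective (fun σ : F ≃+* F => (σ : F → F)) DFunLike.coe_injective
  have hF' : Fintype.card F = p ^ (2 * f) := by
    rw [hF, hq, ← pow_mul, mul_comm f 2]
  set r := orderOf σ with hr
  have hr0 : r ≠ 0 := (orderOf_pos σ).ne'
  have hdvd2 : r ∣ 2 * f := by
    rw [hr, ← Cfsg.Agent.Lead.AutPSL.card_ringAut hF' (by omega)]
    exact orderOf_dvd_natCard σ
  have hcop : Nat.Coprime r 2 := Nat.Coprime.symm (Nat.coprime_two_left.mpr hodd)
  have hdvd : r ∣ f := hcop.dvd_of_dvd_mul_left hdvd2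
  refine ⟨hdvd, ?_⟩
  obtain ⟨K, hK, hcard⟩ := exists_fixed_field hF' σ hr.symm hr0 hdvd2
  obtain ⟨t, ht⟩ := hdvd
  have hft : f / r = t := by
    rw [ht]
    exact Nat.mul_div_cancel_left t (Nat.pos_of_ne_zero hr0)
  have h2ft : 2 * f / r = 2 * t := by
    rw [ht]
    have : 2 * (r * t) = r * (2 * t) := by ring
    rw [this]
    exact Nat.mul_div_cancel_left _ (Nat.pos_of_ne_zero hr0)
  rw [h2ft] at hcard
  have hcard' : Nat.card K = (p ^ t) ^ 2 := by
    rw [hcard, ← pow_mul, mul_comm t 2]
  refine ⟨K, hK, ?_, ?_⟩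
  · rw [hft]
    exact hcard'
  · intro a ha
    rw [hft]
    haveI : Fintype K := Fintype.ofFinite _
    have h1 : ∀ b : K, b ^ ((p ^ t) ^ 2) = b := by
      intro b
      rw [← hcard', Nat.card_eq_fintype_card]
      exact FiniteField.pow_card b
    have h2 : ∀ (k : ℕ) (b : K), b ^ (((p ^ t) ^ 2) ^ k) = b := by
      intro k
      induction k with
      | zero => intro b; simp
      | succ k ih =>
        intro b
        rw [pow_succ', pow_mul, h1, ih]
    obtain ⟨k, hk⟩ := hodd
    have hqq : q = p ^ t * ((p ^ t) ^ 2) ^ k := by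
      rw [hq, ht, ← pow_mul, ← pow_mul, ← pow_add, hk]
      congr 1
      ring
    have h3 := congrArg Subtype.val (h2 k (⟨a, ha⟩ ^ (p ^ t)))
    rw [hqq, pow_mul]
    exact h3

/-- the `q`-th power map on the fixed field -/
noncomputable def qAut (hF : Fintype.card F = q ^ 2) (σ : F ≃+* F) (K : Subfield F) (hK : ∀ a, a ∈ K ↔ σ a = a) : K ≃+* K where
  toFun a := ⟨(a : F) ^ q, (hK _).mpr (by rw [map_pow, (hK _).mp a.2])⟩
  invFun a := ⟨(a : F) ^ q, (hK _).mpr (by rw [map_pow, (hK _).mp a.2])⟩
  left_inv a := Subtype.ext (pow_q_sq hF _)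
  right_inv a := Subtype.ext (pow_q_sq hF _)
  map_mul' a b := Subtype.ext (mul_pow _ _ _)
  map_add' a b := Subtype.ext (pow_add_q hF _ _)

lemma qAut_coe (hF : Fintype.card F = q ^ 2) (σ : F ≃+* F) (K : Subfield F) (hK : ∀ a, a ∈ K ↔ σ a = a) (a : K) :
    ((qAut hF σ K hK a : K) : F) = (a : F) ^ q := rfl

/-- the `q`-th power map on the fixed field is an involution -/
lemma qAut_order {p f : ℕ} [Fact p.Prime] (hq : q = p ^ f) (hf : 1 ≤ f) (hF : Fintype.card F = q ^ 2) (σ : F ≃+* F)
    (K : Subfield F) (hK : ∀ a, a ∈ K ↔ σ a = a) (hcard : Nat.card K = (p ^ (f / orderOf σ)) ^ 2)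
    (hKq : ∀ a ∈ K, a ^ q = a ^ (p ^ (f / orderOf σ))) :
    qAut hF σ K hK ≠ 1 ∧ orderOf (qAut hF σ K hK) = 2 := by
  classical
  haveI : Fintype K := Fintype.ofFinite _
  have hne : qAut hF σ K hK ≠ 1 := by
    intro h
    have hc : Fintype.card K = (p ^ (f / orderOf σ)) ^ 2 := by
      rw [← Nat.card_eq_fintype_card, hcard]
    obtain ⟨a, ha⟩ := exists_not_fixed hc
    apply ha
    have h1 := congrArg (fun φ : K ≃+* K => ((φ a : K) : F)) h
    simp only [qAut_coe] at h1
    apply Subtype.ext
    rw [SubmonoidClass.coe_pow, ← hKq a a.2]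
    exact h1
  refine ⟨hne, orderOf_eq_prime ?_ hne⟩
  ext a
  change ((a : F) ^ q) ^ q = (a : F)
  exact pow_q_sq hF _

/-- semilinearity of the twisted operator -/
lemma sOp_addU (σ : F ≃+* F) (g : GL (Fin n) F) (x y : Fin n → F) : sOp σ g (x + y) = sOp σ g x + sOp σ g y := by
  simp only [sOp]
  rw [← Matrix.mulVec_add]
  congr 1
  funext i
  simp

lemma sOp_smulU (σ : F ≃+* F) (g : GL (Fin n) F) (c : F) (x : Fin n → F) : sOp σ g (c • x) = σ c • sOp σ g x := by
  simp only [sOp]
  have : (fun i => σ ((c • x) i)) = σ c • (fun i => σ (x i)) := by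
    funext i
    simp
  rw [this, Matrix.mulVec_smul]

/-- a form vanishing on a spanning set -/
lemma eq_zero_of_spanU (hF : Fintype.card F = q ^ 2) {S : Set (Fin n → F)} (hS : Submodule.span F S = ⊤) {u : Fin n → F}
    (h : ∀ v ∈ S, herm u v = 0) : u = 0 := by
  have key : ∀ z ∈ Submodule.span F S, herm u z = 0 := by
    intro z hz'
    induction hz' using Submodule.span_induction with
    | mem x hx => exact h x hx
    | zero => exact herm_zero_right hF u
    | add x y _ _ hx hy => rw [herm_add_right hF, hx, hy, add_zero]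
    | smul a x _ hx => rw [herm_smul_right hF, hx, mul_zero]
  by_contra hne
  obtain ⟨z, hz⟩ := herm_nondeg hF hne
  exact hz (key z (by rw [hS]; trivial))

/-- orthonormal columns give a unitary matrix -/
lemma form_expandU (hF : Fintype.card F = q ^ 2) (P : Matrix (Fin n) (Fin n) F)
    (hP : ∀ a b, herm (fun i => P i a) (fun i => P i b) = if a = b then 1 else 0) (x y : Fin n → F) :
    herm (P *ᵥ x) (P *ᵥ y) = herm x y := by
  classical
  have e1 : ∀ z : Fin n → F, P *ᵥ z = ∑ a, z a • (fun i => P i a) := by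
    intro z
    funext i
    simp [Matrix.mulVec, dotProduct, Finset.sum_apply, mul_comm]
  rw [e1 x, e1 y, herm_sum_left, Cfsg.hermForm]
  apply Finset.sum_congr rfl
  intro a _
  rw [herm_smul_left, herm_sum_right hF, Finset.sum_eq_single a]
  · rw [herm_smul_right hF, hP, if_pos rfl]
    ring
  · intro b _ hb
    rw [herm_smul_right hF, hP, if_neg (Ne.symm hb), mul_zero]
  · intro h
    exact absurd (Finset.mem_univ a) h

set_option maxHeartbeats 2000000 in
/-- Hilbert 90 for `GU`, for an automorphism of odd order -/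
theorem h90GU {p f : ℕ} [Fact p.Prime] (hq : q = p ^ f) (hf : 1 ≤ f) (hF : Fintype.card F = q ^ 2) (σ : F ≃+* F)
    (hodd : Odd (orderOf σ)) (g : Cfsg.GU n F q) (hN : nrm σ g.1 (orderOf σ) = 1) :
    ∃ h : Cfsg.GU n F q, g * mapGU hF σ h = h := by
  classical
  haveI : Finite (F ≃+* F) := Finite.of_injective (fun σ : F ≃+* F => (σ : F → F)) DFunLike.coe_injective
  have hr : 0 < orderOf σ := orderOf_pos σ
  obtain ⟨-, K, hK, hcard, hKq⟩ := fix_data hq hf hF σ hodd
  obtain ⟨hτ1, hτ2⟩ := qAut_order hq hf hF σ K hK hcard hKq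
  -- the operator
  let T : (Fin n → F) → (Fin n → F) := sOp σ g.1
  have hT : ∀ u v, herm (T u) (T v) = σ (herm u v) := by
    intro u v
    change herm ((g.1 : Matrix (Fin n) (Fin n) F) *ᵥ smap σ u) ((g.1 : Matrix (Fin n) (Fin n) F) *ᵥ smap σ v) = _
    rw [gu_form g.2, herm_smap]
  have hspan : Submodule.span F {v | T v = v} = ⊤ := by
    apply span_fix σ hr T (sOp_addU σ g.1) (sOp_smulU σ g.1)
    intro x
    rw [sOp_iter, hN, pow_orderOf_eq_one]
    simp
  -- the fixed space as a module over the fixed field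
  let W : Submodule K (Fin n → F) :=
    { carrier := {v | T v = v}
      add_mem' := by
        intro a b ha hb
        change T (a + b) = a + b
        change T a = a at ha
        change T b = b at hb
        change sOp σ g.1 (a + b) = _
        rw [sOp_addU]
        change T a + T b = _
        rw [ha, hb]
      zero_mem' := by
        change sOp σ g.1 0 = 0
        simp only [sOp, Pi.zero_apply, map_zero]
        exact Matrix.mulVec_zero _
      smul_mem' := by
        intro a b hb
        change T b = b at hb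
        change sOp σ g.1 ((a : F) • b) = (a : F) • b
        rw [sOp_smulU]
        have ha : σ (a : F) = a := (hK _).mp a.2
        rw [ha]
        change (a : F) • T b = _
        rw [hb] }
  have hW : ∀ u v : W, herm (u : Fin n → F) v ∈ K := by
    intro u v
    rw [hK]
    have h1 := hT u v
    rw [show T u = u from u.2, show T v = v from v.2] at h1
    exact h1.symm
  let B : W → W → K := fun u v => ⟨herm (u : Fin n → F) v, hW u v⟩
  have hB : ∀ u v : W, ((B u v : K) : F) = herm (u : Fin n → F) v := fun u v => rfl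
  have H : IsHerm (qAut hF σ K hK) B :=
    { add_left := fun x y z => Subtype.ext (herm_add_left _ _ _)
      smul_left := fun c x z => Subtype.ext (herm_smul_left (c : F) _ _)
      conj := fun x y => Subtype.ext (herm_conj hF _ _)
      nondeg := by
        intro x hx
        apply Subtype.ext
        apply eq_zero_of_spanU hF hspan
        intro v hv
        exact congrArg Subtype.val (hx ⟨v, hv⟩) }
  haveI : Module.Finite K W := Module.Finite.of_finite
  obtain ⟨d, hd⟩ : ∃ d, d = Module.finrank K W := ⟨_, rfl⟩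
  obtain ⟨b, hb⟩ := exists_orthonormal hτ1 hτ2 d W B H hd.symm
  let bF : Fin d → (Fin n → F) := fun i => (b i : Fin n → F)
  have hbb : ∀ i j, herm (bF i) (bF j) = if i = j then 1 else 0 := by
    intro i j
    have := congrArg Subtype.val (hb i j)
    rw [hB] at this
    change herm ((b i : W) : Fin n → F) ((b j : W) : Fin n → F) = _
    rw [this]
    split_ifs <;> rfl
  have hcoef : ∀ (t : Fin d → F) (j : Fin d), herm (∑ i, t i • bF i) (bF j) = t j := by
    intro t j
    rw [herm_sum_left, Finset.sum_eq_single j]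
    · rw [herm_smul_left, hbb, if_pos rfl, mul_one]
    · intro i _ hi
      rw [herm_smul_left, hbb, if_neg hi, mul_zero]
    · intro h
      exact absurd (Finset.mem_univ j) h
  have hliF : LinearIndependent F bF := by
    rw [Fintype.linearIndependent_iff]
    intro t ht j
    rw [← hcoef t j, ht, herm_zero_left hF]
  have hliK : LinearIndependent K b := by
    rw [Fintype.linearIndependent_iff]
    intro t ht j
    apply Subtype.ext
    have h1 := hcoef (fun i => (t i : F)) j
    have h2 : (∑ i, (t i : F) • bF i) = ((∑ i, t i • b i : W) : Fin n → F) := by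
      rw [Submodule.coe_sum]
      rfl
    rw [h2, ht] at h1
    rw [← h1]
    change herm (0 : Fin n → F) _ = 0
    exact herm_zero_left hF _
  have hspanK : Submodule.span K (Set.range b) = ⊤ :=
    hliK.span_eq_top_of_card_eq_finrank' (by rw [Fintype.card_fin, hd])
  have hspan2 : ⊤ ≤ Submodule.span F (Set.range bF) := by
    rw [← hspan, Submodule.span_le]
    intro v hv
    have h5 : (⟨v, hv⟩ : W) ∈ Submodule.span K (Set.range b) := by
      rw [hspanK]
      trivial
    obtain ⟨c, hc⟩ := (Submodule.mem_span_range_iff_exists_fun K).mp h5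
    have h6 := congrArg (fun w : W => (w : Fin n → F)) hc
    simp only [Submodule.coe_sum] at h6
    change _ = v at h6
    rw [SetLike.mem_coe, ← h6]
    apply Submodule.sum_mem
    intro i _
    have : ((c i • b i : W) : Fin n → F) = (c i : F) • bF i := rfl
    rw [this]
    exact Submodule.smul_mem _ _ (Submodule.subset_span ⟨_, rfl⟩)
  have hcard2 : n = d := by
    let Bs : Module.Basis (Fin d) F (Fin n → F) := Module.Basis.mk hliF hspan2
    have h5 := Module.finrank_eq_card_basis Bs
    rw [Module.finrank_fintype_fun_eq_card] at h5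
    simpa using h5
  -- transport to `Fin n`
  let e : Fin n ≃ Fin d := finCongr hcard2
  let P : Matrix (Fin n) (Fin n) F := Matrix.of fun a a' => bF (e a') a
  have hPcol : ∀ a a', herm (fun i => P i a) (fun i => P i a') = if a = a' then 1 else 0 := by
    intro a a'
    have := hbb (e a) (e a')
    simp only [EmbeddingLike.apply_eq_iff_eq] at this
    exact this
  have hPform := form_expandU hF P hPcol
  have hinj : Function.Injective P.mulVec := by
    intro x y hxy
    rw [← sub_eq_zero]
    by_contra hne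
    obtain ⟨z, hz⟩ := herm_nondeg hF hne
    apply hz
    rw [← hPform, Matrix.mulVec_sub, sub_eq_zero.mpr hxy, herm_zero_left hF]
  have hunit : IsUnit P := Matrix.mulVec_injective_iff_isUnit.mp hinj
  let h : GL (Fin n) F := hunit.unit
  have hh : (h : Matrix (Fin n) (Fin n) F) = P := rfl
  have hmem : h ∈ Cfsg.GU n F q := fun u v => by
    change herm ((h : Matrix (Fin n) (Fin n) F) *ᵥ u) ((h : Matrix (Fin n) (Fin n) F) *ᵥ v) = _
    rw [hh]
    exact hPform u v
  refine ⟨⟨h, hmem⟩, ?_⟩
  apply Subtype.ext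
  apply Units.ext
  ext i j
  change ((g.1 : Matrix (Fin n) (Fin n) F) * (P.map σ)) i j = P i j
  have h5 : T (bF (e j)) = bF (e j) := (b (e j)).2
  have h6 : P i j = bF (e j) i := rfl
  rw [h6, ← h5]
  change _ = ((g.1 : Matrix (Fin n) (Fin n) F) *ᵥ (fun i => σ (bF (e j) i))) i
  simp only [Matrix.mul_apply, Matrix.mulVec, dotProduct, Matrix.map_apply]
  rfl

end Cfsg.Agent.Lead.Lang
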