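import Cfsg.Agent.Lib.Lead.LangPSU
/-! Lang-Steinberg for field automorphisms of odd order of `PSU_n`: the coset statement. -/
set_option autoImplicit false
set_option linter.style.haveILetI false
set_option linter.unusedSimpArgs false
set_option linter.unusedSectionVars false
set_option linter.unusedVariables false
namespace Cfsg.Agent.Lead.Lang
open Matrix Cfsg.Agent.Lead Cfsg.Agent.Lead.PSU Cfsg.Agent.Lead.AutPSU
open scoped MatrixGroups

variable {F : Type*} [Field F] [Fintype F] {q n : ℕ}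

local notation "herm" => Cfsg.hermForm n F q
local notation "PG" => (Cfsg.SU n F q ⧸ Subgroup.center (Cfsg.SU n F q))
local notation "pr" => (QuotientGroup.mk' (Subgroup.center (Cfsg.SU n F q)))

lemma mapGU_coe (hF : Fintype.card F = q ^ 2) (σ : F ≃+* F) (g : Cfsg.GU n F q) : (mapGU hF σ g).1 = gm σ g.1 := rfl

lemma mapGU_mul (hF : Fintype.card F = q ^ 2) (σ : F ≃+* F) (g h : Cfsg.GU n F q) :
    mapGU hF σ (g * h) = mapGU hF σ g * mapGU hF σ h := Subtype.ext (map_mul (gm σ) g.1 h.1)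

lemma mapGU_one (hF : Fintype.card F = q ^ 2) (σ : F ≃+* F) : mapGU hF σ (1 : Cfsg.GU n F q) = 1 :=
  Subtype.ext (map_one (gm σ))

lemma mapGU_inv (hF : Fintype.card F = q ^ 2) (σ : F ≃+* F) (g : Cfsg.GU n F q) :
    mapGU hF σ g⁻¹ = (mapGU hF σ g)⁻¹ := Subtype.ext (map_inv (gm σ) g.1)

/-- the twisted norm in `GU` -/
noncomputable def nrmU (hF : Fintype.card F = q ^ 2) (σ : F ≃+* F) (g : Cfsg.GU n F q) : ℕ → Cfsg.GU n F q
  | 0 => 1
  | k + 1 => g * mapGU hF σ (nrmU hF σ g k)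

lemma nrmU_coe (hF : Fintype.card F = q ^ 2) (σ : F ≃+* F) (g : Cfsg.GU n F q) (k : ℕ) : (nrmU hF σ g k).1 = nrm σ g.1 k := by
  induction k with
  | zero => rfl
  | succ k ih =>
    change g.1 * gm σ (nrmU hF σ g k).1 = _
    rw [ih]
    rfl

lemma kk_fld_powU (hF : Fintype.card F = q ^ 2) (σ : F ≃+* F) (g : Cfsg.GU n F q) (k : ℕ) :
    (kkU g * fldU σ : MulAut PG) ^ k = kkU (nrmU hF σ g k) * fldU (σ ^ k) := by
  induction k with
  | zero =>
    change (1 : MulAut PG) = kkU (1 : Cfsg.GU n F q) * fldU (σ ^ 0)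
    simp
  | succ k ih =>
    rw [pow_succ', ih]
    have e : nrmU hF σ g (k + 1) = g * mapGU hF σ (nrmU hF σ g k) := rfl
    rw [e, map_mul, pow_succ', map_mul]
    calc (kkU g * fldU σ * (kkU (nrmU hF σ g k) * fldU (σ ^ k)) : MulAut PG)
        = kkU g * (fldU σ * kkU (nrmU hF σ g k)) * fldU (σ ^ k) := by group
      _ = kkU g * (kkU (mapGU hF σ (nrmU hF σ g k)) * fldU σ) * fldU (σ ^ k) := by rw [fldU_kkU]
      _ = _ := by group

/-- scalars of norm one are unitary -/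
noncomputable def scU (hF : Fintype.card F = q ^ 2) (u : Fˣ) (hu : (u : F) ^ (q + 1) = 1) : Cfsg.GU n F q :=
  ⟨sc u, fun x y => by
    change herm (((sc u : GL (Fin n) F) : Matrix (Fin n) (Fin n) F) *ᵥ x) (((sc u : GL (Fin n) F) : Matrix (Fin n) (Fin n) F) *ᵥ y) = herm x y
    rw [sc_coe]
    simp only [Matrix.smul_mulVec, Matrix.one_mulVec]
    rw [norm_smul_form hF, hu, one_mul]⟩

lemma scU_coe (hF : Fintype.card F = q ^ 2) (u : Fˣ) (hu : (u : F) ^ (q + 1) = 1) :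
    (scU hF u hu : Cfsg.GU n F q).1 = sc u := rfl

lemma kkU_scU (hF : Fintype.card F = q ^ 2) (u : Fˣ) (hu : (u : F) ^ (q + 1) = 1) :
    (kkU (scU hF u hu : Cfsg.GU n F q) : MulAut PG) = 1 :=
  kkU_of_scalar (z := (u : F)) (sc_coe u)

/-- a unitary scalar has norm one -/
lemma scalar_norm (hF : Fintype.card F = q ^ 2) (hn : 0 < n) {g : Cfsg.GU n F q} {z : F}
    (h : (g.1 : Matrix (Fin n) (Fin n) F) = z • 1) : z ^ (q + 1) = 1 := by
  have h1 := gu_form g.2 (Pi.single ⟨0, hn⟩ 1) (Pi.single ⟨0, hn⟩ 1)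
  rw [h] at h1
  simp only [Matrix.smul_mulVec, Matrix.one_mulVec] at h1
  rw [norm_smul_form hF, herm_single_single hF, if_pos rfl, mul_one] at h1
  exact h1

/-- norm-one fixed elements are norms of norm-one elements -/
lemma exists_norm_one {p f : ℕ} [Fact p.Prime] (hq : q = p ^ f) (hf : 1 ≤ f) (hF : Fintype.card F = q ^ 2) (σ : F ≃+* F)
    (hodd : Odd (orderOf σ)) {l : F} (hl : l ^ (q + 1) = 1) (hsl : σ l = l) :
    ∃ u : F, u ^ (q + 1) = 1 ∧ ∏ i ∈ Finset.range (orderOf σ), (σ ^ i) u = l⁻¹ := by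
  classical
  have hq2 := two_le_q hF
  haveI : Finite (F ≃+* F) := Finite.of_injective (fun σ : F ≃+* F => (σ : F → F)) DFunLike.coe_injective
  obtain ⟨-, K, hK, hcard, hKq⟩ := fix_data hq hf hF σ hodd
  obtain ⟨hτ1, hτ2⟩ := qAut_order hq hf hF σ K hK hcard hKq
  haveI : Finite K := inferInstance
  have hl0 : l ≠ 0 := by
    rintro rfl
    rw [zero_pow (by omega)] at hl
    exact zero_ne_one hl
  let l' : K := ⟨l, (hK _).mpr hsl⟩
  have hN : ∏ i ∈ Finset.range (orderOf (qAut hF σ K hK)), ((qAut hF σ K hK) ^ i) l' = 1 := by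
    rw [hτ2]
    simp only [Finset.prod_range_succ, Finset.prod_range_zero, one_mul, pow_zero, pow_one]
    apply Subtype.ext
    change l * l ^ q = 1
    rw [← hl, pow_succ]
    ring
  haveI : Finite (K ≃+* K) := Finite.of_injective (fun σ : K ≃+* K => (σ : K → K)) DFunLike.coe_injective
  obtain ⟨w, hw0, hw⟩ := h90_scalar (qAut hF σ K hK) (orderOf_pos _) l' hN
  have hw' : l * (w : F) ^ q = w := congrArg Subtype.val hw
  have hw0' : (w : F) ≠ 0 := fun h => hw0 (Subtype.ext h)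
  obtain ⟨v, hv0, hv⟩ := norm_surj σ hw0' ((hK _).mp w.2)
  refine ⟨v ^ q / v, ?_, ?_⟩
  · have hvq : v ^ q ≠ 0 := pow_ne_zero _ hv0
    rw [pow_succ, div_pow, pow_q_sq hF]
    field_simp
  · have e1 : ∀ i, (σ ^ i) (v ^ q / v) = ((σ ^ i) v) ^ q / (σ ^ i) v := by
      intro i
      rw [map_div₀, map_pow]
    simp only [e1]
    rw [Finset.prod_div_distrib, Finset.prod_pow, hv, div_eq_iff hw0', eq_inv_mul_iff_mul_eq₀ hl0]
    exact hw'

/-- the field coset in `PSU` -/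
theorem field_coset_U {p f : ℕ} [Fact p.Prime] (hq : q = p ^ f) (hf : 1 ≤ f) (hF : Fintype.card F = q ^ 2) (hn3 : 3 ≤ n)
    (σ : F ≃+* F) (hodd : Odd (orderOf σ)) (g : Cfsg.GU n F q)
    (h : (kkU g * fldU σ : MulAut PG) ^ (orderOf σ) = 1) :
    ∃ k : Cfsg.GU n F q, (kkU g * fldU σ : MulAut PG) = kkU k * fldU σ * (kkU k)⁻¹ := by
  classical
  haveI : Nonempty (Fin n) := ⟨⟨0, by omega⟩⟩
  have hn : 0 < n := by omega
  haveI : Finite (F ≃+* F) := Finite.of_injective (fun σ : F ≃+* F => (σ : F → F)) DFunLike.coe_injective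
  rw [kk_fld_powU hF, pow_orderOf_eq_one, map_one, mul_one] at h
  have hsc := kkU_eq_one hF hn hn3 h
  set z := ((nrmU hF σ g (orderOf σ)).1 : Matrix (Fin n) (Fin n) F) ⟨0, hn⟩ ⟨0, hn⟩ with hz
  have hzn : z ^ (q + 1) = 1 := scalar_norm hF hn hsc
  rw [nrmU_coe] at hsc
  have hz0 : z ≠ 0 := by
    rintro e0
    rw [e0, zero_smul] at hsc
    have h1 := (nrm σ g.1 (orderOf σ)).isUnit
    rw [hsc] at h1
    exact not_isUnit_zero h1
  let l : Fˣ := Units.mk0 z hz0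
  have hl' : (sc l : GL (Fin n) F) = nrm σ g.1 (orderOf σ) := by
    apply Units.ext
    rw [sc_coe, hsc]
    rfl
  have hsl : σ (l : F) = l := by
    have e1 := nrm_succ σ g.1 (orderOf σ)
    rw [nrm_succ', pow_orderOf_eq_one, gm_one, ← hl', gm_sc, sc_comm] at e1
    have e2 := sc_inj (mul_left_cancel e1)
    have e3 := congrArg Units.val e2
    exact e3.symm
  obtain ⟨μ, hμ1, hμ⟩ := exists_norm_one hq hf hF σ hodd (l := (l : F)) hzn hsl
  have hμ0 : μ ≠ 0 := by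
    rintro rfl
    rw [zero_pow (by omega)] at hμ1
    exact zero_ne_one hμ1
  let u : Fˣ := Units.mk0 μ hμ0
  let g' : Cfsg.GU n F q := scU hF u hμ1 * g
  have hN : nrm σ g'.1 (orderOf σ) = 1 := by
    change nrm σ (sc u * g.1) (orderOf σ) = 1
    rw [nrm_sc_mul, ← hl', ← map_mul]
    have : (∏ i ∈ Finset.range (orderOf σ), Units.map (((σ ^ i : F ≃+* F) : F →* F)) u) * l = 1 := by
      apply Units.ext
      rw [Units.val_mul, Units.coe_prod]
      change (∏ i ∈ Finset.range (orderOf σ), (σ ^ i) μ) * (l : F) = 1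
      rw [hμ]
      exact inv_mul_cancel₀ l.ne_zero
    rw [this, map_one]
  obtain ⟨k, hk⟩ := h90GU hq hf hF σ hodd g' hN
  refine ⟨k, ?_⟩
  have e4 : (kkU g' : MulAut PG) = kkU g :=
    calc (kkU g' : MulAut PG) = kkU (scU hF u hμ1 : Cfsg.GU n F q) * kkU g := map_mul _ _ _
      _ = 1 * kkU g := congrArg (· * kkU g) (kkU_scU hF u hμ1)
      _ = kkU g := one_mul _
  have e5 : (kkU g * kkU (mapGU hF σ k) : MulAut PG) = kkU k := by
    rw [← e4, ← map_mul, hk]
  have e6 : (fldU σ * kkU k : MulAut PG) = kkU (mapGU hF σ k) * fldU σ := fldU_kkU hF σ k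
  have e7 : ((kkU (mapGU hF σ k) : MulAut PG))⁻¹ * fldU σ = fldU σ * (kkU k)⁻¹ := by
    rw [inv_mul_eq_iff_eq_mul, ← mul_assoc, ← e6, mul_inv_cancel_right]
  calc (kkU g * fldU σ : MulAut PG) = kkU k * ((kkU (mapGU hF σ k))⁻¹ * fldU σ) := by
        rw [← e5]; group
    _ = _ := by rw [e7]; group

/-- inner-diagonal automorphisms are the `kkU g` -/
lemma isInnerU_iff (β : MulAut PG) : Cfsg.IsInnerDiagonalAutPSU β ↔ ∃ g : Cfsg.GU n F q, β = kkU g := by
  constructor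
  · rintro ⟨g, hg, hind⟩
    refine ⟨⟨g, hg⟩, ?_⟩
    ext x
    induction x using QuotientGroup.induction_on with
    | H s =>
      have h1 := hind s (cHomU hg (RingEquiv.refl F) s) (by
        change cMat g (RingEquiv.refl F) s = _
        rw [cMat_refl]
        rfl)
      exact h1
  · rintro ⟨g, rfl⟩
    refine ⟨g.1, g.2, ?_⟩
    intro s s' hs
    have h1 : cHomU g.2 (RingEquiv.refl F) s = s' := by
      apply Subtype.ext
      apply Subtype.ext
      change cMat g.1 (RingEquiv.refl F) s = _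
      rw [cMat_refl]
      exact hs.symm
    rw [← h1]
    rfl

lemma stdU_iff (σ : F ≃+* F) (β : MulAut PG) : Cfsg.IsFieldAutPSUOf σ β ↔ β = fldU σ := by
  constructor
  · intro h
    ext x
    induction x using QuotientGroup.induction_on with
    | H s =>
      have h1 := h s (cHomU (Cfsg.GU n F q).one_mem σ s) (by
        change cMat 1 σ s = _
        rw [cMat]
        simp only [Units.val_one, inv_one, one_mul, mul_one]
        rfl)
      exact h1
  · rintro rfl s s' hs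
    have h1 : cHomU (Cfsg.GU n F q).one_mem σ s = s' := by
      apply Subtype.ext
      apply Subtype.ext
      change cMat 1 σ s = _
      rw [cMat]
      simp only [Units.val_one, inv_one, one_mul, mul_one]
      exact hs.symm
    rw [← h1]
    rfl

lemma inndiagU_eq : Cfsg.inndiagPSU n F q = (kkU : Cfsg.GU n F q →* MulAut PG).range := by
  apply le_antisymm
  · rw [Cfsg.inndiagPSU, Cfsg.autSubgroupOf, Subgroup.closure_le]
    intro β hβ
    obtain ⟨g, rfl⟩ := (isInnerU_iff β).mp hβ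
    exact ⟨g, rfl⟩
  · rintro _ ⟨g, rfl⟩
    exact Subgroup.subset_closure ((isInnerU_iff _).mpr ⟨g, rfl⟩)

lemma fldU_inj (hF : Fintype.card F = q ^ 2) (hn3 : 3 ≤ n) : Function.Injective (fldU : (F ≃+* F) →* MulAut PG) := by
  rw [injective_iff_map_eq_one]
  intro σ h
  apply fldU_eq_kkU hF (by omega) hn3 (g := (1 : Cfsg.GU n F q))
  rw [map_one, h]

lemma orderOf_fldU (hF : Fintype.card F = q ^ 2) (hn3 : 3 ≤ n) (σ : F ≃+* F) : orderOf (fldU σ : MulAut PG) = orderOf σ :=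
  orderOf_injective _ (fldU_inj hF hn3) σ

lemma range_kkU_normal (hF : Fintype.card F = q ^ 2) (hn3 : 3 ≤ n) (hne : ¬ (n = 3 ∧ q = 2)) :
    (kkU : Cfsg.GU n F q →* MulAut PG).range.Normal := by
  refine ⟨?_⟩
  rintro _ ⟨h, rfl⟩ α
  obtain ⟨g, hg, σ, rfl⟩ := aut_eq_cU hF hn3 hne α
  have e0 : cU hg σ = kkU (⟨g, hg⟩ : Cfsg.GU n F q) * fldU σ := cU_eq ⟨g, hg⟩ σ
  rw [e0]
  refine ⟨⟨g, hg⟩ * mapGU hF σ h * (⟨g, hg⟩ : Cfsg.GU n F q)⁻¹, ?_⟩
  rw [map_mul, map_mul, map_inv]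
  have e := fldU_kkU hF σ h
  calc (kkU (⟨g, hg⟩ : Cfsg.GU n F q) * kkU (mapGU hF σ h) * (kkU (⟨g, hg⟩ : Cfsg.GU n F q))⁻¹ : MulAut PG)
      = kkU (⟨g, hg⟩ : Cfsg.GU n F q) * (kkU (mapGU hF σ h) * fldU σ * (fldU σ)⁻¹) * (kkU (⟨g, hg⟩ : Cfsg.GU n F q))⁻¹ := by group
    _ = kkU (⟨g, hg⟩ : Cfsg.GU n F q) * (fldU σ * kkU h * (fldU σ)⁻¹) * (kkU (⟨g, hg⟩ : Cfsg.GU n F q))⁻¹ := by rw [e]
    _ = _ := by group

/-- S2711 -/
theorem coset_conj_U {p f : ℕ} [Fact p.Prime] (hq : q = p ^ f) (hf : 1 ≤ f) (hF : Fintype.card F = q ^ 2) (hn3 : 3 ≤ n)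
    (hne : ¬ (n = 3 ∧ q = 2)) (x δ : MulAut PG) (hx : Cfsg.IsFieldAutClassPSU x) {r : ℕ} (hr : r.Prime)
    (hxr : orderOf x = r) (hδ : δ ∈ Cfsg.inndiagPSU n F q) :
    orderOf (δ * x) = r ↔ Cfsg.IsConjUnder (Cfsg.inndiagPSU n F q) x (δ * x) := by
  have hI := inndiagU_eq (F := F) (n := n) (q := q)
  haveI hnorm : (Cfsg.inndiagPSU n F q).Normal := by
    rw [hI]
    exact range_kkU_normal hF hn3 hne
  constructor
  · intro hord
    have hcommon : ∀ α : MulAut PG, orderOf ((α * δ * α⁻¹) * (α * x * α⁻¹)) = r := by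
      intro α
      rw [← orderOf_conj' α (δ * x)] at hord
      rw [← hord]
      congr 1
      group
    have hδ' : ∀ α : MulAut PG, ∃ g : Cfsg.GU n F q, α * δ * α⁻¹ = kkU g := by
      intro α
      have := hnorm.conj_mem δ hδ α
      rw [hI] at this
      obtain ⟨g, hg⟩ := this
      exact ⟨g, hg.symm⟩
    obtain ⟨α, φ, σ, hσ, hodd, hstd, hφ⟩ := hx
    have e : α * x * α⁻¹ = fldU σ := by
      rw [hφ]
      exact (stdU_iff σ _).mp hstd
    apply conj_transport _ α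
    obtain ⟨g, hg⟩ := hδ' α
    rw [hg, e]
    have h1 := hcommon α
    rw [hg, e] at h1
    have hσr : orderOf σ = r := by
      rw [← orderOf_fldU hF hn3, ← e, orderOf_conj', hxr]
    have h2 : (kkU g * fldU σ : MulAut PG) ^ (orderOf σ) = 1 := by
      rw [hσr, ← h1]
      exact pow_orderOf_eq_one _
    obtain ⟨k, hk⟩ := field_coset_U hq hf hF hn3 σ hodd g h2
    rw [hk]
    refine ⟨kkU k, ?_, rfl⟩
    rw [hI]
    exact ⟨k, rfl⟩
  · rintro ⟨h, -, e⟩
    rw [e, orderOf_conj', hxr]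

end Cfsg.Agent.Lead.Lang
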