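import Cfsg.Agent.Lib.Lead.LangPSU2
/-! Lang-Steinberg for field automorphisms of odd order of `PSU_n`: class counts. -/
set_option autoImplicit false
set_option linter.style.haveILetI false
set_option linter.unusedSimpArgs false
set_option linter.unusedSectionVars false
set_option linter.unusedVariables false
namespace Cfsg.Agent.Lead.Lang
open Matrix Cfsg.Agent.Lead Cfsg.Agent.Lead.PSU Cfsg.Agent.Lead.AutPSU
open scoped MatrixGroups

variable {F : Type*} [Field F] [Fintype F] {q n : ℕ}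

local notation "herm" => Cfsg.hermForm n F q
local notation "PG" => (Cfsg.SU n F q ⧸ Subgroup.center (Cfsg.SU n F q))
local notation "pr" => (QuotientGroup.mk' (Subgroup.center (Cfsg.SU n F q)))

lemma root_pow (w : rootsOfUnity (q + 1) F) : ((w : Fˣ) : F) ^ (q + 1) = 1 := by
  have h := (mem_rootsOfUnity _ _).mp w.2
  have := congrArg Units.val h
  simpa using this

/-- a diagonal unitary matrix of given determinant -/
noncomputable def dMat (hn : 0 < n) (w : F) : Matrix (Fin n) (Fin n) F :=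
  Matrix.diagonal (fun i => if i = (⟨0, hn⟩ : Fin n) then w else 1)

lemma dMat_det (hn : 0 < n) (w : F) : (dMat hn w).det = w := by
  classical
  rw [dMat, Matrix.det_diagonal, Finset.prod_ite_eq' Finset.univ _ (fun _ => w)]
  simp

/-- a diagonal unitary matrix of given determinant -/
noncomputable def dU (hF : Fintype.card F = q ^ 2) (hn : 0 < n) (w : rootsOfUnity (q + 1) F) : Cfsg.GU n F q :=
  ⟨Matrix.GeneralLinearGroup.mkOfDetNeZero (dMat hn ((w : Fˣ) : F)) (by rw [dMat_det]; exact (w : Fˣ).ne_zero), by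
    intro v u
    change herm (dMat hn ((w : Fˣ) : F) *ᵥ v) (dMat hn ((w : Fˣ) : F) *ᵥ u) = herm v u
    have hx := root_pow w
    simp only [Cfsg.hermForm, dMat, Matrix.mulVec_diagonal]
    refine Finset.sum_congr rfl fun i _ => ?_
    by_cases hi : i = (⟨0, hn⟩ : Fin n)
    · simp only [hi, if_true, mul_pow]
      rw [pow_succ] at hx
      linear_combination (v ⟨0, hn⟩ * u ⟨0, hn⟩ ^ q) * hx
    · simp [hi]⟩

lemma dU_coe (hF : Fintype.card F = q ^ 2) (hn : 0 < n) (w : rootsOfUnity (q + 1) F) :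
    (((dU hF hn w : Cfsg.GU n F q).1 : GL (Fin n) F) : Matrix (Fin n) (Fin n) F) = dMat hn ((w : Fˣ) : F) := rfl

lemma guDet_dU (hF : Fintype.card F = q ^ 2) (hn : 0 < n) (w : rootsOfUnity (q + 1) F) :
    guDet (dU hF hn w : Cfsg.GU n F q) = (w : Fˣ) := by
  apply Units.ext
  rw [guDet_coe, dU_coe, dMat_det]

lemma mapGU_dU (hF : Fintype.card F = q ^ 2) (hn : 0 < n) (σ : F ≃+* F) (w : rootsOfUnity (q + 1) F)
    (h : σ ((w : Fˣ) : F) = (w : Fˣ)) : mapGU hF σ (dU hF hn w : Cfsg.GU n F q) = dU hF hn w := by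
  apply Subtype.ext
  apply Units.ext
  rw [mapGU_coe, gm_coe, dU_coe]
  ext i j
  by_cases hij : i = j
  · subst hij
    by_cases hi : i = (⟨0, hn⟩ : Fin n)
    · simp [dMat, hi, h]
    · simp [dMat, hi]
  · simp [dMat, hij]

lemma guDet_root (hF : Fintype.card F = q ^ 2) (g : Cfsg.GU n F q) : guDet g ∈ rootsOfUnity (q + 1) F := by
  rw [mem_rootsOfUnity]
  apply Units.ext
  simpa [guDet_coe] using det_pow_of_GU hF g

lemma guDet_toGU (s : Cfsg.SU n F q) : guDet (toGU s) = 1 := by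
  apply Units.ext
  rw [guDet_coe]
  exact (s.1).2

lemma exists_toGU {g : Cfsg.GU n F q} (h : guDet g = 1) : ∃ s : Cfsg.SU n F q, toGU s = g := by
  refine ⟨⟨⟨(g.1 : Matrix (Fin n) (Fin n) F), ?_⟩, g.2⟩, ?_⟩
  · have := congrArg Units.val h
    rwa [guDet_coe] at this
  · apply Subtype.ext
    apply Units.ext
    rfl

/-- the count of classes as an index, for `PSU` -/
theorem split_PSU (hF : Fintype.card F = q ^ 2) (hn : 0 < n) (x : MulAut PG) (D : Subgroup (rootsOfUnity (q + 1) F))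
    (hD : ∀ w, w ∈ D ↔ ∃ g : Cfsg.GU n F q, guDet g = (w : Fˣ) ∧ (kkU g * x : MulAut PG) = x * kkU g) :
    Cfsg.splitClassCount (kkU : Cfsg.GU n F q →* MulAut PG).range (Cfsg.Inn PG) x = D.index := by
  classical
  apply split_count (kkU : Cfsg.GU n F q →* MulAut PG).range (Cfsg.Inn PG) x D (fun a => kkU (dU hF hn a)) (fun a => ⟨_, rfl⟩)
  · rintro _ ⟨g, rfl⟩
    let w : rootsOfUnity (q + 1) F := ⟨guDet g, guDet_root hF g⟩
    have h1 : guDet (g * (dU hF hn w)⁻¹) = 1 := by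
      rw [map_mul, map_inv, guDet_dU, mul_inv_cancel]
    obtain ⟨s, hs⟩ := exists_toGU h1
    refine ⟨kkU (toGU s), ⟨pr s, (kkU_toGU s).symm⟩, w, ?_⟩
    rw [← map_mul, hs, inv_mul_cancel_right]
  · intro a b
    rw [hD]
    constructor
    · rintro ⟨k, ⟨y, rfl⟩, e⟩
      obtain ⟨s, rfl⟩ := QuotientGroup.mk_surjective y
      have e1 : (kkU (toGU s) : MulAut PG) = MulAut.conj (QuotientGroup.mk s : PG) := kkU_toGU s
      refine ⟨(dU hF hn a)⁻¹ * (toGU s)⁻¹ * dU hF hn b, ?_, ?_⟩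
      · rw [map_mul, map_mul, map_inv, map_inv, guDet_dU, guDet_dU, guDet_toGU, inv_one, mul_one]
        rfl
      · rw [map_mul, map_mul, map_inv, map_inv, e1]
        have e2 : (kkU (dU hF hn b) * x * (kkU (dU hF hn b))⁻¹ : MulAut PG) =
            MulAut.conj (QuotientGroup.mk s : PG) * (kkU (dU hF hn a) * x * (kkU (dU hF hn a))⁻¹) * (MulAut.conj (QuotientGroup.mk s : PG))⁻¹ := e
        have e3 : (kkU (dU hF hn b) * x : MulAut PG) = (MulAut.conj (QuotientGroup.mk s : PG) * (kkU (dU hF hn a) * x * (kkU (dU hF hn a))⁻¹) * (MulAut.conj (QuotientGroup.mk s : PG))⁻¹) * kkU (dU hF hn b) := by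
          rw [← e2, inv_mul_cancel_right]
        calc ((kkU (dU hF hn a))⁻¹ * (MulAut.conj (QuotientGroup.mk s : PG))⁻¹ * kkU (dU hF hn b) * x : MulAut PG)
            = (kkU (dU hF hn a))⁻¹ * (MulAut.conj (QuotientGroup.mk s : PG))⁻¹ * (kkU (dU hF hn b) * x) := by group
          _ = _ := by
            rw [e3]
            group
    · rintro ⟨g, hg, hc⟩
      have h1 : guDet (dU hF hn b * g⁻¹ * (dU hF hn a)⁻¹) = 1 := by
        rw [map_mul, map_mul, map_inv, map_inv, guDet_dU, guDet_dU, hg]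
        have : ((a⁻¹ * b : rootsOfUnity (q + 1) F) : Fˣ) = (a : Fˣ)⁻¹ * (b : Fˣ) := rfl
        rw [this, _root_.mul_inv_rev, inv_inv]
        rw [mul_inv_cancel_left, mul_inv_cancel]
      obtain ⟨s, hs⟩ := exists_toGU h1
      refine ⟨kkU (toGU s), ⟨pr s, (kkU_toGU s).symm⟩, ?_⟩
      have e1 : dU hF hn b = toGU s * dU hF hn a * g := by
        rw [hs]
        group
      have e2 : (kkU (dU hF hn b) : MulAut PG) = kkU (toGU s) * kkU (dU hF hn a) * kkU g := by
        rw [e1, map_mul, map_mul]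
      rw [e2]
      have e3 : (kkU g * x * (kkU g)⁻¹ : MulAut PG) = x := by
        rw [hc, mul_inv_cancel_right]
      calc (kkU (toGU s) * kkU (dU hF hn a) * kkU g * x * (kkU (toGU s) * kkU (dU hF hn a) * kkU g)⁻¹ : MulAut PG)
          = kkU (toGU s) * kkU (dU hF hn a) * (kkU g * x * (kkU g)⁻¹) * (kkU (dU hF hn a))⁻¹ * (kkU (toGU s))⁻¹ := by group
        _ = _ := by
          rw [e3]
          group

/-- Hilbert 90 for norm-one elements -/
lemma exists_h90_norm {p f : ℕ} [Fact p.Prime] (hq : q = p ^ f) (hf : 1 ≤ f) (hF : Fintype.card F = q ^ 2) (σ : F ≃+* F)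
    (hodd : Odd (orderOf σ)) {c : F} (hc : c ^ (q + 1) = 1) (hN : ∏ i ∈ Finset.range (orderOf σ), (σ ^ i) c = 1) :
    ∃ y : F, y ^ (q + 1) = 1 ∧ c * σ y = y := by
  classical
  have hq2 := two_le_q hF
  haveI : Finite (F ≃+* F) := Finite.of_injective (fun σ : F ≃+* F => (σ : F → F)) DFunLike.coe_injective
  obtain ⟨-, K, hK, hcard, hKq⟩ := fix_data hq hf hF σ hodd
  obtain ⟨hτ1, hτ2⟩ := qAut_order hq hf hF σ K hK hcard hKq
  haveI : Finite K := inferInstance
  haveI : Finite (K ≃+* K) := Finite.of_injective (fun σ : K ≃+* K => (σ : K → K)) DFunLike.coe_injective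
  obtain ⟨y, hy0, hy⟩ := h90_scalar σ (orderOf_pos σ) c hN
  set m := y ^ (q + 1) with hm
  have hm0 : m ≠ 0 := pow_ne_zero _ hy0
  have hc0 : c ≠ 0 := by
    rintro rfl
    rw [zero_pow (by omega)] at hc
    exact zero_ne_one hc
  have hsm : σ m = m := by
    have h1 : c ^ (q + 1) * (σ y) ^ (q + 1) = y ^ (q + 1) := by
      rw [← mul_pow, hy]
    rw [hc, one_mul] at h1
    rw [hm, map_pow, h1]
  have hmq : m ^ q = m := norm_fixed hF y
  let m' : K := ⟨m⁻¹, (hK _).mpr (by rw [map_inv₀, hsm])⟩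
  have hm'0 : m' ≠ 0 := by
    intro h
    have := congrArg Subtype.val h
    exact inv_ne_zero hm0 this
  have hm'f : qAut hF σ K hK m' = m' := by
    apply Subtype.ext
    change (m⁻¹) ^ q = m⁻¹
    rw [inv_pow, hmq]
  obtain ⟨z, hz0, hz⟩ := norm_surj (qAut hF σ K hK) hm'0 hm'f
  rw [hτ2] at hz
  simp only [Finset.prod_range_succ, Finset.prod_range_zero, one_mul, pow_zero, pow_one] at hz
  have hz' : (z : F) * (z : F) ^ q = m⁻¹ := congrArg Subtype.val hz
  refine ⟨y * z, ?_, ?_⟩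
  · rw [mul_pow, ← hm]
    have e1 : (z : F) ^ (q + 1) = m⁻¹ := by
      rw [← hz', pow_succ]
      ring
    rw [e1, mul_inv_cancel₀ hm0]
  · rw [map_mul, (hK _).mp z.2, ← mul_assoc, hy]

/-- descent in `GU` -/
lemma descend_U {p f : ℕ} [Fact p.Prime] (hq : q = p ^ f) (hf : 1 ≤ f) (hF : Fintype.card F = q ^ 2) (hn3 : 3 ≤ n)
    (σ : F ≃+* F) (hodd : Odd (orderOf σ)) (g : Cfsg.GU n F q) (h : (kkU (mapGU hF σ g) : MulAut PG) = kkU g) :
    ∃ (u : Fˣ) (hu : (u : F) ^ (q + 1) = 1), mapGU hF σ (scU hF u hu * g) = scU hF u hu * g := by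
  classical
  haveI : Nonempty (Fin n) := ⟨⟨0, by omega⟩⟩
  have hn : 0 < n := by omega
  have hq2 := two_le_q hF
  haveI : Finite (F ≃+* F) := Finite.of_injective (fun σ : F ≃+* F => (σ : F → F)) DFunLike.coe_injective
  have h1 : (kkU (mapGU hF σ g * g⁻¹) : MulAut PG) = 1 := by
    rw [map_mul, map_inv, h, mul_inv_cancel]
  have hsc := kkU_eq_one hF hn hn3 h1
  set z := ((mapGU hF σ g * g⁻¹).1 : Matrix (Fin n) (Fin n) F) ⟨0, hn⟩ ⟨0, hn⟩ with hz
  have hzn : z ^ (q + 1) = 1 := scalar_norm hF hn hsc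
  have hz0 : z ≠ 0 := by
    intro e0
    rw [e0, zero_pow (by omega)] at hzn
    exact zero_ne_one hzn
  have hc' : gm σ g.1 = sc (Units.mk0 z hz0) * g.1 := by
    have e1 : gm σ g.1 * g.1⁻¹ = sc (Units.mk0 z hz0) := by
      apply Units.ext
      rw [sc_coe]
      exact hsc
    rw [← e1, inv_mul_cancel_right]
  set c : Fˣ := Units.mk0 z hz0 with hcd
  have hit : ∀ k, gm (σ ^ k) g.1 = sc (∏ i ∈ Finset.range k, Units.map (((σ ^ i : F ≃+* F) : F →* F)) c) * g.1 := by
    intro k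
    induction k with
    | zero =>
      simp [gm_one]
    | succ k ih =>
      have e1 : σ ^ (k + 1) = σ ^ k * σ := pow_succ σ k
      rw [e1, ← gm_gm, hc', map_mul, ih, gm_sc, Finset.prod_range_succ]
      have e9 : ∀ a b : Fˣ, (sc (a * b) : GL (Fin n) F) = sc a * sc b := fun a b => map_mul _ _ _
      rw [e9, ← mul_assoc]
      congr 1
      exact sc_comm _ _
  have hN := hit (orderOf σ)
  rw [pow_orderOf_eq_one, gm_one] at hN
  have hN2 : (sc (∏ i ∈ Finset.range (orderOf σ), Units.map (((σ ^ i : F ≃+* F) : F →* F)) c) : GL (Fin n) F) = sc 1 := by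
    have e2 : (sc 1 : GL (Fin n) F) = 1 := map_one _
    rw [e2]
    exact (mul_eq_right.mp hN.symm)
  have hN3 := sc_inj hN2
  obtain ⟨y, hy1, hy⟩ := exists_h90_norm hq hf hF σ hodd (c := (c : F)) hzn (by
    have := congrArg Units.val hN3
    rw [Units.coe_prod] at this
    exact this)
  have hy0 : y ≠ 0 := by
    rintro rfl
    rw [zero_pow (by omega)] at hy1
    exact zero_ne_one hy1
  refine ⟨Units.mk0 y hy0, hy1, ?_⟩
  apply Subtype.ext
  change gm σ (sc (Units.mk0 y hy0) * g.1) = sc (Units.mk0 y hy0) * g.1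
  rw [map_mul, gm_sc, hc', ← mul_assoc]
  congr 1
  have e9 : ∀ a b : Fˣ, (sc (a * b) : GL (Fin n) F) = sc a * sc b := fun a b => map_mul _ _ _
  rw [← e9]
  congr 1
  apply Units.ext
  rw [Units.val_mul]
  change σ y * (c : F) = y
  rw [mul_comm]
  exact hy

/-- the fixed points of a field automorphism on the group of norm-one elements -/
def fixW (σ : F ≃+* F) : Subgroup (rootsOfUnity (q + 1) F) where
  carrier := {w | σ ((w : Fˣ) : F) = (w : Fˣ)}
  mul_mem' := by
    intro a b ha hb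
    simp only [Set.mem_ofPred_eq] at *
    change σ (((a : Fˣ) : F) * ((b : Fˣ) : F)) = ((a : Fˣ) : F) * ((b : Fˣ) : F)
    rw [map_mul, ha, hb]
  one_mem' := by
    change σ 1 = 1
    exact map_one σ
  inv_mem' := by
    intro a ha
    simp only [Set.mem_ofPred_eq] at *
    change σ (((a : Fˣ)⁻¹ : Fˣ) : F) = (((a : Fˣ)⁻¹ : Fˣ) : F)
    rw [Units.val_inv_eq_inv_val, map_inv₀, ha]

lemma mem_fixW {σ : F ≃+* F} {w : rootsOfUnity (q + 1) F} : w ∈ fixW σ ↔ σ ((w : Fˣ) : F) = (w : Fˣ) := Iff.rfl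

lemma guDet_mapGU (hF : Fintype.card F = q ^ 2) (σ : F ≃+* F) (g : Cfsg.GU n F q) :
    ((guDet (mapGU hF σ g) : Fˣ) : F) = σ ((guDet g : Fˣ) : F) := by
  rw [guDet_coe, guDet_coe, mapGU_coe, gm_coe]
  exact (RingHom.map_det (σ : F →+* F) _).symm

lemma guDet_scU (hF : Fintype.card F = q ^ 2) (u : Fˣ) (hu : (u : F) ^ (q + 1) = 1) :
    guDet (scU hF u hu : Cfsg.GU n F q) = u ^ n := det_sc u

/-- the description of the determinants centralizing a field automorphism -/
lemma mem_fieldU_iff {p f : ℕ} [Fact p.Prime] (hq : q = p ^ f) (hf : 1 ≤ f) (hF : Fintype.card F = q ^ 2) (hn3 : 3 ≤ n)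
    (σ : F ≃+* F) (hodd : Odd (orderOf σ)) (w : rootsOfUnity (q + 1) F) :
    w ∈ (powMonoidHom n : rootsOfUnity (q + 1) F →* rootsOfUnity (q + 1) F).range ⊔ fixW σ ↔
      ∃ g : Cfsg.GU n F q, guDet g = (w : Fˣ) ∧ (kkU g * fldU σ : MulAut PG) = fldU σ * kkU g := by
  classical
  have hn : 0 < n := by omega
  constructor
  · intro hw
    obtain ⟨_, ⟨c, rfl⟩, d, hd, rfl⟩ := Subgroup.mem_sup.mp hw
    refine ⟨scU hF (c : Fˣ) (root_pow c) * dU hF hn d, ?_, ?_⟩
    · rw [map_mul, guDet_scU, guDet_dU]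
      rfl
    · have e1 : (kkU (scU hF (c : Fˣ) (root_pow c) : Cfsg.GU n F q) : MulAut PG) = 1 := kkU_scU hF _ _
      rw [map_mul, e1, one_mul, fldU_kkU hF, mapGU_dU hF hn σ d hd]
  · rintro ⟨g, hgw, hg⟩
    have h1 : (kkU (mapGU hF σ g) : MulAut PG) = kkU g := by
      have e := fldU_kkU hF σ g
      rw [← hg] at e
      exact (mul_right_cancel e).symm
    obtain ⟨u, hu, hfix⟩ := descend_U hq hf hF hn3 σ hodd g h1
    have hu' : u ∈ rootsOfUnity (q + 1) F := by
      rw [mem_rootsOfUnity]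
      apply Units.ext
      simpa using hu
    let u' : rootsOfUnity (q + 1) F := ⟨u, hu'⟩
    have hdet : guDet (scU hF u hu * g) ∈ rootsOfUnity (q + 1) F := guDet_root hF _
    let d : rootsOfUnity (q + 1) F := ⟨guDet (scU hF u hu * g), hdet⟩
    have h2 : d ∈ fixW σ := by
      rw [mem_fixW]
      have := guDet_mapGU hF σ (scU hF u hu * g)
      rw [hfix] at this
      exact this.symm
    have h3 : w = (u'⁻¹) ^ n * d := by
      apply Subtype.ext
      change (w : Fˣ) = ((u⁻¹) ^ n) * guDet (scU hF u hu * g)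
      rw [map_mul, guDet_scU, inv_pow, inv_mul_cancel_left, hgw]
    rw [h3]
    exact Subgroup.mul_mem _ (Subgroup.mem_sup_left ⟨u'⁻¹, rfl⟩) (Subgroup.mem_sup_right h2)

/-- the index of the group of determinants -/
lemma index_fieldU {p f : ℕ} [Fact p.Prime] (hq : q = p ^ f) (hf : 1 ≤ f) (hF : Fintype.card F = q ^ 2)
    (σ : F ≃+* F) (hodd : Odd (orderOf σ)) (n : ℕ) :
    ((powMonoidHom n : rootsOfUnity (q + 1) F →* rootsOfUnity (q + 1) F).range ⊔ fixW σ).index =
      Nat.gcd n ((q + 1) / (p ^ (f / orderOf σ) + 1)) := by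
  classical
  obtain ⟨hdvd, K, hK, hcard, hKq⟩ := fix_data hq hf hF σ hodd
  have hq2 := two_le_q hF
  set r := orderOf σ with hr
  set q₀ := p ^ (f / r) with hq₀
  have hqq : q = q₀ ^ r := by
    rw [hq, hq₀, ← pow_mul, Nat.div_mul_cancel hdvd]
  have hdv : q₀ + 1 ∣ q + 1 := by
    have := Odd.nat_add_dvd_pow_add_pow q₀ 1 hodd
    rwa [one_pow, ← hqq] at this
  set e := (q + 1) / (q₀ + 1) with he
  have hcardW : Nat.card (rootsOfUnity (q + 1) F) = q + 1 := by
    rw [card_rootsOfUnity_field, hF]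
    apply Nat.gcd_eq_left
    refine ⟨q - 1, ?_⟩
    obtain ⟨t, ht⟩ : ∃ t, q = t + 1 := ⟨q - 1, by omega⟩
    rw [ht]
    simp only [Nat.add_sub_cancel]
    have : (t + 1) ^ 2 = (t + 1 + 1) * t + 1 := by ring
    omega
  have h1 : e * (q₀ + 1) = Nat.card (rootsOfUnity (q + 1) F) := by
    rw [hcardW, he, Nat.div_mul_cancel hdv]
  haveI : Fintype K := Fintype.ofFinite _
  have hcK : Fintype.card K = q₀ ^ 2 := by
    rw [← Nat.card_eq_fintype_card, hcard]
  have hfixcard : Nat.card (fixW (q := q) σ) = q₀ + 1 := by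
    rw [← card_norm_one hcK]
    have hz0 : ∀ z : {a : K // a ^ (q₀ + 1) = 1}, ((z.1 : K) : F) ≠ 0 := by
      rintro ⟨⟨z, hz'⟩, hz⟩ e0
      have hz1 : (⟨z, hz'⟩ : K) = 0 := Subtype.ext e0
      rw [hz1, zero_pow (by omega)] at hz
      exact zero_ne_one hz
    have hznorm : ∀ z : {a : K // a ^ (q₀ + 1) = 1}, ((z.1 : K) : F) ^ (q + 1) = 1 := by
      intro z
      have h2 := congrArg Subtype.val z.2
      rw [pow_succ, hKq _ z.1.2, ← pow_succ]
      exact h2
    let Ψ : {a : K // a ^ (q₀ + 1) = 1} → fixW (q := q) σ := fun z =>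
      ⟨⟨Units.mk0 ((z.1 : K) : F) (hz0 z), by
        rw [mem_rootsOfUnity]
        apply Units.ext
        simpa using hznorm z⟩, (hK _).mp z.1.2⟩
    have hΨ : Function.Bijective Ψ := by
      constructor
      · intro a b hab
        have h2 : ((a.1 : K) : F) = ((b.1 : K) : F) := congrArg (fun t : fixW (q := q) σ => (((t : rootsOfUnity (q + 1) F) : Fˣ) : F)) hab
        exact Subtype.ext (Subtype.ext h2)
      · rintro ⟨w, hw⟩
        have hwk : ((w : Fˣ) : F) ∈ K := (hK _).mpr hw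
        have hwn : (⟨((w : Fˣ) : F), hwk⟩ : K) ^ (q₀ + 1) = 1 := by
          apply Subtype.ext
          have h2 := root_pow w
          rw [pow_succ, hKq _ hwk, ← pow_succ] at h2
          exact h2
        refine ⟨⟨⟨_, hwk⟩, hwn⟩, ?_⟩
        apply Subtype.ext
        apply Subtype.ext
        apply Units.ext
        rfl
    exact (Nat.card_eq_of_bijective Ψ hΨ).symm
  have h2 : fixW (q := q) σ = (powMonoidHom e : rootsOfUnity (q + 1) F →* rootsOfUnity (q + 1) F).range :=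
    eq_pow_range_of_card _ h1 hfixcard
  rw [h2, pow_range_sup, index_pow_range, hcardW]
  apply Nat.gcd_eq_right
  have h3 : e ∣ q + 1 := Nat.div_dvd_of_dvd hdv
  exact (Nat.gcd_dvd_right n e).trans h3

end Cfsg.Agent.Lead.Lang
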