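import Cfsg.Agent.Lib.Lead.LangPSU3
/-! Lang-Steinberg for field automorphisms of odd order of `PSU_n`: centralizers. -/
set_option autoImplicit false
set_option linter.style.haveILetI false
set_option linter.unusedSimpArgs false
set_option linter.unusedSectionVars false
set_option linter.unusedVariables false
namespace Cfsg.Agent.Lead.Lang
open Matrix Cfsg.Agent.Lead Cfsg.Agent.Lead.PSU Cfsg.Agent.Lead.AutPSU
open scoped MatrixGroups

variable {F : Type*} [Field F] [Fintype F] {q n : ℕ}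

local notation "herm" => Cfsg.hermForm n F q
local notation "PG" => (Cfsg.SU n F q ⧸ Subgroup.center (Cfsg.SU n F q))
local notation "pr" => (QuotientGroup.mk' (Subgroup.center (Cfsg.SU n F q)))

section Cent
variable {F₀ : Type*} [Field F₀] [Fintype F₀] {q₀ : ℕ}

lemma herm_mapU (ε : F₀ →+* F) (hε : ∀ a : F₀, (ε a) ^ q = ε (a ^ q₀)) (x y : Fin n → F₀) :
    herm (fun i => ε (x i)) (fun i => ε (y i)) = ε (Cfsg.hermForm n F₀ q₀ x y) := by
  rw [Cfsg.hermForm, Cfsg.hermForm, map_sum]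
  apply Finset.sum_congr rfl
  intro i _
  rw [map_mul, hε]

lemma map_mulVec_funU (ε : F₀ →+* F) (M : Matrix (Fin n) (Fin n) F₀) (x : Fin n → F₀) :
    M.map ε *ᵥ (fun i => ε (x i)) = fun i => ε ((M *ᵥ x) i) := by
  funext i
  exact (RingHom.map_mulVec ε M x i).symm

/-- the embedding of `GU(F₀)` -/
lemma gεU_mem (hF : Fintype.card F = q ^ 2) (hF₀ : Fintype.card F₀ = q₀ ^ 2) (ε : F₀ →+* F)
    (hε : ∀ a : F₀, (ε a) ^ q = ε (a ^ q₀)) (g₀ : Cfsg.GU n F₀ q₀) :
    (Matrix.GeneralLinearGroup.map ε (g₀.1 : GL (Fin n) F₀) : GL (Fin n) F) ∈ Cfsg.GU n F q := by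
  classical
  intro u v
  change herm (((g₀.1 : Matrix (Fin n) (Fin n) F₀).map ε) *ᵥ u) (((g₀.1 : Matrix (Fin n) (Fin n) F₀).map ε) *ᵥ v) = herm u v
  apply form_expandU hF
  intro a b
  have e1 : ∀ c : Fin n, (fun i => ((g₀.1 : Matrix (Fin n) (Fin n) F₀).map ε) i c) = fun i => ε (((g₀.1 : Matrix (Fin n) (Fin n) F₀) *ᵥ (Pi.single c 1)) i) := by
    intro c
    funext i
    simp
  rw [e1, e1, herm_mapU ε hε, gu_form g₀.2, herm_single_single hF₀]
  split_ifs <;> simp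

/-- the lift of a unitary matrix with entries in the subfield -/
lemma lift_GU (ε : F₀ →+* F) (hε : ∀ a : F₀, (ε a) ^ q = ε (a ^ q₀)) (g₀ : GL (Fin n) F₀) (g : Cfsg.GU n F q)
    (h : Matrix.GeneralLinearGroup.map ε g₀ = g.1) : g₀ ∈ Cfsg.GU n F₀ q₀ := by
  intro u v
  change Cfsg.hermForm n F₀ q₀ ((g₀ : Matrix (Fin n) (Fin n) F₀) *ᵥ u) ((g₀ : Matrix (Fin n) (Fin n) F₀) *ᵥ v) = Cfsg.hermForm n F₀ q₀ u v
  apply ε.injective
  rw [← herm_mapU ε hε, ← herm_mapU ε hε, ← map_mulVec_funU, ← map_mulVec_funU]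
  have e : (g₀ : Matrix (Fin n) (Fin n) F₀).map ε = (g.1 : Matrix (Fin n) (Fin n) F) := by
    rw [← h]
    rfl
  rw [e]
  exact gu_form g.2 _ _

set_option maxHeartbeats 3000000 in
/-- the centralizer of a field automorphism -/
theorem centralizer_fieldU {p f : ℕ} [Fact p.Prime] (hq : q = p ^ f) (hf : 1 ≤ f) (hF : Fintype.card F = q ^ 2) (hn3 : 3 ≤ n)
    (hF₀ : Fintype.card F₀ = q₀ ^ 2) (σ : F ≃+* F) (hodd : Odd (orderOf σ)) (ε : F₀ →+* F)
    (hε : ∀ a, σ a = a ↔ a ∈ Set.range ε) (hεq : ∀ a : F₀, (ε a) ^ q = ε (a ^ q₀)) :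
    Nonempty (↥((kkU : Cfsg.GU n F q →* MulAut PG).range ⊓ Subgroup.centralizer {(fldU σ : MulAut PG)}) ≃* Cfsg.PGU n F₀ q₀) := by
  classical
  have hn : 0 < n := by omega
  let gε : Cfsg.GU n F₀ q₀ →* Cfsg.GU n F q :=
    MonoidHom.codRestrict ((Matrix.GeneralLinearGroup.map ε).comp (Cfsg.GU n F₀ q₀).subtype) _ (gεU_mem hF hF₀ ε hεq)
  have hgε : ∀ g₀ : Cfsg.GU n F₀ q₀, mapGU hF σ (gε g₀) = gε g₀ := by
    intro g₀
    apply Subtype.ext
    apply Units.ext
    ext i j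
    change σ (ε ((g₀.1 : Matrix (Fin n) (Fin n) F₀) i j)) = ε ((g₀.1 : Matrix (Fin n) (Fin n) F₀) i j)
    exact (hε _).mpr ⟨_, rfl⟩
  have hmem : ∀ g₀ : Cfsg.GU n F₀ q₀, (kkU (gε g₀) : MulAut PG) ∈
      (kkU : Cfsg.GU n F q →* MulAut PG).range ⊓ Subgroup.centralizer {(fldU σ : MulAut PG)} := by
    intro g₀
    refine Subgroup.mem_inf.mpr ⟨⟨_, rfl⟩, Subgroup.mem_centralizer_singleton_iff.mpr ?_⟩
    rw [fldU_kkU hF, hgε]
  let Φ : Cfsg.GU n F₀ q₀ →* ↥((kkU : Cfsg.GU n F q →* MulAut PG).range ⊓ Subgroup.centralizer {(fldU σ : MulAut PG)}) :=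
    MonoidHom.codRestrict (kkU.comp gε) _ hmem
  have hΦ : ∀ h : Cfsg.GU n F₀ q₀, ((Φ h : ↥((kkU : Cfsg.GU n F q →* MulAut PG).range ⊓ Subgroup.centralizer {(fldU σ : MulAut PG)})) : MulAut PG) =
      kkU (gε h) := fun h => rfl
  have hsurj : Function.Surjective Φ := by
    rintro ⟨_, ⟨g, rfl⟩, hz⟩
    have hz' : (kkU g * fldU σ : MulAut PG) = fldU σ * kkU g := Subgroup.mem_centralizer_singleton_iff.mp hz
    have h1 : (kkU (mapGU hF σ g) : MulAut PG) = kkU g := by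
      have e := fldU_kkU hF σ g
      rw [← hz'] at e
      exact (mul_right_cancel e).symm
    obtain ⟨u, hu, hfix⟩ := descend_U hq hf hF hn3 σ hodd g h1
    set g' := scU hF u hu * g with hg'
    have hfix1 : ∀ i j, (g'.1 : Matrix (Fin n) (Fin n) F) i j ∈ Set.range ε := by
      intro i j
      rw [← hε]
      have h4 : ((mapGU hF σ g').1 : Matrix (Fin n) (Fin n) F) i j = (g'.1 : Matrix (Fin n) (Fin n) F) i j := by rw [hfix]
      exact h4
    have hfix' : ∀ i j, ((g'⁻¹).1 : Matrix (Fin n) (Fin n) F) i j ∈ Set.range ε := by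
      intro i j
      rw [← hε]
      have h3 : mapGU hF σ g'⁻¹ = g'⁻¹ := by rw [mapGU_inv, hfix]
      have h4 : ((mapGU hF σ g'⁻¹).1 : Matrix (Fin n) (Fin n) F) i j = ((g'⁻¹).1 : Matrix (Fin n) (Fin n) F) i j := by rw [h3]
      exact h4
    choose M₀ hM₀ using hfix1
    choose N₀ hN₀ using hfix'
    have hM₀' : (Matrix.of M₀).map ε = (g'.1 : Matrix (Fin n) (Fin n) F) := by
      ext i j
      exact hM₀ i j
    have hN₀' : (Matrix.of N₀).map ε = ((g'⁻¹).1 : Matrix (Fin n) (Fin n) F) := by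
      ext i j
      exact hN₀ i j
    have hinj : Function.Injective (fun A : Matrix (Fin n) (Fin n) F₀ => A.map ε) :=
      Matrix.map_injective ε.injective
    have h1' : (Matrix.of M₀) * (Matrix.of N₀) = 1 := by
      apply hinj
      change ((Matrix.of M₀) * (Matrix.of N₀)).map ε = (1 : Matrix (Fin n) (Fin n) F₀).map ε
      rw [Matrix.map_mul, hM₀', hN₀']
      have e : (g'.1 : Matrix (Fin n) (Fin n) F) * ((g'⁻¹).1 : Matrix (Fin n) (Fin n) F) = 1 := by
        rw [← Units.val_mul]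
        have : g'.1 * (g'⁻¹).1 = 1 := congrArg Subtype.val (mul_inv_cancel g')
        rw [this, Units.val_one]
      rw [e]
      ext i j
      by_cases hij : i = j
      · subst hij; simp
      · simp [Matrix.one_apply, hij]
    have h2' : (Matrix.of N₀) * (Matrix.of M₀) = 1 := mul_eq_one_comm.mp h1'
    let g₀ : GL (Fin n) F₀ := ⟨Matrix.of M₀, Matrix.of N₀, h1', h2'⟩
    have hg₀ : Matrix.GeneralLinearGroup.map ε g₀ = g'.1 := by
      apply Units.ext
      exact hM₀'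
    refine ⟨⟨g₀, lift_GU ε hεq g₀ g' hg₀⟩, ?_⟩
    apply Subtype.ext
    rw [hΦ]
    have e1 : gε ⟨g₀, lift_GU ε hεq g₀ g' hg₀⟩ = g' := Subtype.ext hg₀
    rw [e1]
    change (kkU (scU hF u hu * g) : MulAut PG) = kkU g
    calc (kkU (scU hF u hu * g) : MulAut PG) = kkU (scU hF u hu : Cfsg.GU n F q) * kkU g := map_mul _ _ _
      _ = 1 * kkU g := congrArg (· * kkU g) (kkU_scU hF u hu)
      _ = kkU g := one_mul _
  have hker : Φ.ker = (Cfsg.Geo.scalars (Fin n) F₀).subgroupOf (Cfsg.GU n F₀ q₀) := by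
    ext g₀
    rw [MonoidHom.mem_ker, Subgroup.mem_subgroupOf, Cfsg.Geo.mem_scalars_iff]
    have e1 : Φ g₀ = 1 ↔ (kkU (gε g₀) : MulAut PG) = 1 := by
      constructor
      · intro h
        exact congrArg Subtype.val h
      · intro h
        exact Subtype.ext h
    rw [e1]
    have hm : ∀ i j, ((gε g₀).1 : Matrix (Fin n) (Fin n) F) i j = ε ((g₀.1 : Matrix (Fin n) (Fin n) F₀) i j) := fun i j => rfl
    let i₀ : Fin n := ⟨0, hn⟩
    constructor
    · intro hk
      have hz := kkU_eq_one hF hn hn3 hk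
      set z := ((gε g₀).1 : Matrix (Fin n) (Fin n) F) ⟨0, hn⟩ ⟨0, hn⟩ with hzd
      have hz2 : ∀ i j, ε ((g₀.1 : Matrix (Fin n) (Fin n) F₀) i j) = (z • (1 : Matrix (Fin n) (Fin n) F)) i j := by
        intro i j
        rw [← hm, ← hz]
      have hz3 : z = ε ((g₀.1 : Matrix (Fin n) (Fin n) F₀) i₀ i₀) := by
        rw [hz2]
        simp
      have hd : (g₀.1 : Matrix (Fin n) (Fin n) F₀) i₀ i₀ ≠ 0 := by
        intro h0
        rw [h0, map_zero] at hz3
        have h5 : (g₀.1 : Matrix (Fin n) (Fin n) F₀) = 0 := by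
          ext i j
          apply ε.injective
          rw [hz2, hz3]
          simp
        have h6 : (g₀.1 : Matrix (Fin n) (Fin n) F₀) * ((g₀.1⁻¹ : GL (Fin n) F₀) : Matrix (Fin n) (Fin n) F₀) = 1 := by
          rw [← Units.val_mul, mul_inv_cancel, Units.val_one]
        rw [h5, zero_mul] at h6
        have h7 := congrFun (congrFun h6 i₀) i₀
        simp at h7
      refine ⟨Units.mk0 _ hd, ?_⟩
      ext i j
      apply ε.injective
      rw [hz2]
      change z • (1 : Matrix (Fin n) (Fin n) F) i j = ε (((g₀.1 : Matrix (Fin n) (Fin n) F₀) i₀ i₀) • (1 : Matrix (Fin n) (Fin n) F₀) i j)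
      rw [hz3]
      by_cases hij : i = j
      · subst hij
        simp
      · simp [hij]
    · rintro ⟨c, hc⟩
      apply kkU_of_scalar (z := ε c)
      ext i j
      rw [hm]
      have : (g₀.1 : Matrix (Fin n) (Fin n) F₀) i j = ((c : F₀) • (1 : Matrix (Fin n) (Fin n) F₀)) i j := by rw [hc]
      rw [this]
      by_cases hij : i = j
      · subst hij
        simp
      · simp [hij]
  exact ⟨(QuotientGroup.quotientKerEquivOfSurjective Φ hsurj).symm.trans
    (QuotientGroup.quotientMulEquivOfEq hker)⟩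

end Cent

/-- S2705 -/
theorem field_aut_data_U {p f : ℕ} [Fact p.Prime] (hq : q = p ^ f) (hf : 1 ≤ f) (hF : Fintype.card F = q ^ 2) (hn3 : 3 ≤ n)
    (hne : ¬ (n = 3 ∧ q = 2)) (x : MulAut PG) (hx : Cfsg.IsFieldAutClassPSU x) {r : ℕ} (hr : r.Prime)
    (hxr : orderOf x = r) (F₀ : Type*) [Field F₀] [Fintype F₀] (hF₀ : Fintype.card F₀ = p ^ (2 * (f / r))) :
    r ∣ f ∧ Nonempty (↥(Cfsg.inndiagPSU n F q ⊓ Subgroup.centralizer {x}) ≃* Cfsg.PGU n F₀ (p ^ (f / r))) ∧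
      Cfsg.splitClassCount (Cfsg.inndiagPSU n F q) (Cfsg.Inn PG) x = Nat.gcd n ((q + 1) / (p ^ (f / r) + 1)) := by
  classical
  have hn : 0 < n := by omega
  haveI : Finite (F ≃+* F) := Finite.of_injective (fun σ : F ≃+* F => (σ : F → F)) DFunLike.coe_injective
  have hI := inndiagU_eq (F := F) (n := n) (q := q)
  haveI hnorm : (kkU : Cfsg.GU n F q →* MulAut PG).range.Normal := range_kkU_normal hF hn3 hne
  obtain ⟨α, φ, σ, hσ, hodd, hstd, hφ⟩ := hx
  have e : α * x * α⁻¹ = fldU σ := by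
    rw [hφ]
    exact (stdU_iff σ _).mp hstd
  have hσr : orderOf σ = r := by
    rw [← orderOf_fldU hF hn3, ← e, orderOf_conj', hxr]
  obtain ⟨hdvd, K, hK, hcard, hKq⟩ := fix_data hq hf hF σ hodd
  rw [hσr] at hdvd hcard hKq
  refine ⟨hdvd, ?_, ?_⟩
  · rw [hI]
    obtain ⟨E1⟩ := centralizer_conj_equiv (kkU : Cfsg.GU n F q →* MulAut PG).range α x
    rw [e] at E1
    haveI : Fintype K := Fintype.ofFinite _
    have hc : Fintype.card F₀ = Fintype.card K := by
      rw [hF₀, ← Nat.card_eq_fintype_card (α := K), hcard, ← pow_mul, mul_comm]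
    let e₀ : F₀ ≃+* K := FiniteField.ringEquivOfCardEq hc
    let ε : F₀ →+* F := K.subtype.comp (e₀ : F₀ →+* K)
    have hε : ∀ a, σ a = a ↔ a ∈ Set.range ε := by
      intro a
      constructor
      · intro ha
        refine ⟨e₀.symm ⟨a, (hK a).mpr ha⟩, ?_⟩
        simp [ε]
      · rintro ⟨b, rfl⟩
        exact (hK _).mp (e₀ b).2
    have hεq : ∀ a : F₀, (ε a) ^ q = ε (a ^ (p ^ (f / r))) := by
      intro a
      have h9 : ε a ∈ K := (e₀ a).2
      rw [hKq _ h9, map_pow]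
    have hF₀' : Fintype.card F₀ = (p ^ (f / r)) ^ 2 := by
      rw [hF₀, ← pow_mul, mul_comm]
    obtain ⟨E2⟩ := centralizer_fieldU (n := n) hq hf hF hn3 hF₀' σ hodd ε hε hεq
    exact ⟨E1.trans E2⟩
  · rw [hI]
    haveI : (Cfsg.Inn PG).Normal := inferInstance
    rw [split_conj _ _ α x, e, split_PSU hF hn _ _ (mem_fieldU_iff hq hf hF hn3 σ hodd), index_fieldU hq hf hF σ hodd, hσr]

end Cfsg.Agent.Lead.Lang
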