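import Cfsg.Agent.Lib.Lead.PSUGen
/-! Perfectness of the special unitary group. -/
set_option autoImplicit false
set_option linter.unusedSimpArgs false
set_option linter.style.haveILetI false
set_option linter.unusedSectionVars false
set_option linter.unusedVariables false
namespace Cfsg.Agent.Lead.PSU
open Matrix Cfsg.Agent.H12.UTrans
open scoped MatrixGroups commutatorElement

variable {F : Type*} [Field F] [Fintype F] {q n : ℕ}

local notation "herm" => Cfsg.hermForm n F q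

section
variable (hF : Fintype.card F = q ^ 2) (hn : 0 < n)

lemma comm_mem (g h : Cfsg.SU n F q) : ⁅g, h⁆ ∈ commutator (Cfsg.SU n F q) :=
  Subgroup.commutator_mem_commutator (Subgroup.mem_top g) (Subgroup.mem_top h)

include hF

lemma admT {x : Fin n → F} {c : F} (hx : herm x x = 0) (hc : c + c ^ q = 0) : Adm q x 0 c :=
  ⟨hx, herm_zero_left hF x, by rw [herm_zero_left hF, add_zero]; exact hc⟩

lemma adm_tr {x : Fin n → F} {c : F} (h : Adm q x 0 c) : c + c ^ q = 0 := by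
  have := h.tr
  rwa [herm_zero_left hF, add_zero] at this

lemma T_apply {x : Fin n → F} {c : F} (h : Adm q x 0 c) (y : Fin n → F) :
    act (E hF hn x 0 c h) y = y + (c * herm y x) • x := by
  rw [act_E]
  unfold Efun
  rw [herm_zero_right hF]
  simp

lemma exists_adm {u a : Fin n → F} (huu : herm u u = 0) (hau : herm a u = 0) : ∃ b, Adm q u a b := by
  obtain ⟨s, hs⟩ := exists_trace_eq hF (- herm a a) (by rw [pow_neg_q hF, herm_self_fixed hF])
  exact ⟨s, huu, hau, by rw [hs]; ring⟩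

lemma exists_z_of_iso (hn3 : 3 ≤ n) {u : Fin n → F} (hu0 : u ≠ 0) (huu : herm u u = 0) :
    ∃ z, herm z z = 1 ∧ herm z u = 0 := by
  have hON0 : IsON q (Fin.elim0 : Fin 0 → Fin n → F) := fun i => i.elim0
  have huX : u ∈ perpOf hF (Fin.elim0 : Fin 0 → Fin n → F) := fun i => i.elim0
  obtain ⟨v, hvX, hvv, hvu⟩ := exists_hyp hF hON0 huX hu0 huu
  obtain ⟨e₁, e₂, hON, -, hperp⟩ := hyp_frame hF hON0 huX hvX huu hvv hvu
  obtain ⟨z, hz, hzz⟩ := exists_unit_perp hF _ hON (by omega)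
  rw [perpOf_cons] at hz
  obtain ⟨hz1, hz2⟩ := hz
  rw [perpOf_cons] at hz1
  obtain ⟨hz3, hz4⟩ := hz1
  exact ⟨z, hzz, (hperp z hz2 hz4).1⟩

lemma T_mem (hn3 : 3 ≤ n) {u : Fin n → F} {c : F} (huu : herm u u = 0) (h : Adm q u 0 c) :
    E hF hn u 0 c h ∈ commutator (Cfsg.SU n F q) := by
  by_cases hu0 : u = 0
  · subst hu0
    rw [E_zero_b_one hF hn (herm_zero_left hF 0) h]
    exact Subgroup.one_mem _
  obtain ⟨z, hzz, hzu⟩ := exists_z_of_iso hF hn3 hu0 huu
  have hc := adm_tr hF h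
  obtain ⟨θ, hθ⟩ := exists_trace_eq hF (1 : F) (one_pow _)
  obtain ⟨l, hl⟩ : ∃ l, l = -c * θ := ⟨_, rfl⟩
  have hlzu : herm (l • z) u = 0 := by rw [herm_smul_left, hzu, mul_zero]
  obtain ⟨b₁, h₁⟩ := exists_adm hF huu hzu
  obtain ⟨b₂, h₂⟩ := exists_adm hF huu hlzu
  have hmem := comm_mem (E hF hn u z b₁ h₁) (E hF hn u (l • z) b₂ h₂)
  rw [E_commutator hF hn h₁ h₂] at hmem
  have e : herm z (l • z) - herm (l • z) z = c := by
    rw [herm_smul_right hF, herm_smul_left, hzz, hl, mul_one, mul_one, mul_pow, pow_neg_q hF]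
    have hcq : c ^ q = -c := by linear_combination hc
    rw [hcq]
    linear_combination c * hθ
  rwa [E_congr hF hn _ h rfl e] at hmem

/-- Adjusting the parameter `b`. -/
lemma E_mem_of_some (hn3 : 3 ≤ n) {u a a' : Fin n → F} {b β : F} (h' : Adm q u a' β) (ea : a' = a)
    (hmem : E hF hn u a' β h' ∈ commutator (Cfsg.SU n F q)) (h : Adm q u a b) :
    E hF hn u a b h ∈ commutator (Cfsg.SU n F q) := by
  subst ea
  have h0 : Adm q u 0 (b - β) := by
    refine ⟨h.uu, herm_zero_left hF u, ?_⟩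
    have t1 := h.tr
    have t2 := h'.tr
    rw [herm_zero_left hF, pow_sub_q hF]
    linear_combination t1 - t2
  have e : E hF hn u a' b h = E hF hn u a' β h' * E hF hn u 0 (b - β) h0 := by
    rw [E_mul hF hn h' h0]
    apply E_congr
    · simp
    · rw [herm_zero_left hF]
      ring
  rw [e]
  exact Subgroup.mul_mem _ hmem (T_mem hF hn hn3 h.uu h0)

lemma E_iso_decomp {u a : Fin n → F} {c : F} (huu : herm u u = 0) (haa : herm a a = 0)
    (hau : herm a u = 0) (hc : c + c ^ q = 0) (h1 : Adm q u (c • a) 0) (h2 : Adm q (u + a) 0 c)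
    (h3 : Adm q u 0 (-c)) (h4 : Adm q a 0 (-c)) :
    E hF hn u (c • a) 0 h1 = E hF hn (u + a) 0 c h2 * E hF hn u 0 (-c) h3 * E hF hn a 0 (-c) h4 := by
  apply su_ext
  intro y
  have hua : herm u a = 0 := herm_eq_zero_symm hF hau
  have hcq : c ^ q = -c := by linear_combination hc
  rw [act_mul, act_mul, T_apply hF hn h2, T_apply hF hn h3, T_apply hF hn h4, act_E]
  have e1 : herm (y + (-c * herm y a) • a) u = herm y u := by
    rw [herm_add_left, herm_smul_left, hau]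
    ring
  have e2 : herm (y + (-c * herm y a) • a) a = herm y a := by
    rw [herm_add_left, herm_smul_left, haa]
    ring
  have e3 : ∀ y1 : Fin n → F, herm y1 u = herm y u → herm y1 a = herm y a →
      herm (y1 + (-c * herm y u) • u) (u + a) = herm y u + herm y a := by
    intro y1 h1 h2
    rw [herm_add_right hF, herm_add_left, herm_add_left, herm_smul_left, herm_smul_left, h1, h2, huu, hua]
    ring
  rw [e1, e3 _ e1 e2]
  unfold Efun
  rw [herm_smul_right hF, hcq]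
  funext i
  simp only [Pi.add_apply, Pi.smul_apply, smul_eq_mul]
  ring

lemma exists_trace_zero : ∃ c : F, c ≠ 0 ∧ c + c ^ q = 0 := by
  obtain ⟨w, hw⟩ := exists_not_fixed hF
  refine ⟨w ^ q - w, sub_ne_zero.2 hw, ?_⟩
  rw [pow_sub_q hF, pow_q_sq hF]
  ring

/-- The isotropic case. -/
lemma iso_mem (hn3 : 3 ≤ n) {u a : Fin n → F} {b : F} (huu : herm u u = 0) (haa : herm a a = 0)
    (hau : herm a u = 0) (h : Adm q u a b) : E hF hn u a b h ∈ commutator (Cfsg.SU n F q) := by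
  have hq := two_le_q hF
  obtain ⟨c, hc0, hc⟩ := exists_trace_zero hF
  have hcq : c ^ q = -c := by linear_combination hc
  have hcn : (-c) + (-c) ^ q = 0 := by rw [pow_neg_q hF, hcq]; ring
  obtain ⟨a₀, ha₀⟩ : ∃ a₀, a₀ = c⁻¹ • a := ⟨_, rfl⟩
  have ea : c • a₀ = a := by rw [ha₀, smul_smul, mul_inv_cancel₀ hc0, one_smul]
  have ha₀a₀ : herm a₀ a₀ = 0 := by
    rw [ha₀, herm_smul_left, herm_smul_right hF, haa]
    ring
  have ha₀u : herm a₀ u = 0 := by
    rw [ha₀, herm_smul_left, hau, mul_zero]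
  have hua₀ : herm u a₀ = 0 := herm_eq_zero_symm hF ha₀u
  have h1 : Adm q u (c • a₀) 0 := by
    refine ⟨huu, by rw [herm_smul_left, ha₀u, mul_zero], ?_⟩
    rw [herm_smul_left, herm_smul_right hF, ha₀a₀, zero_pow (by omega)]
    ring
  have hsum : herm (u + a₀) (u + a₀) = 0 := by
    rw [herm_add_left, herm_add_right hF, herm_add_right hF, huu, ha₀a₀, hua₀, ha₀u]
    ring
  have h2 : Adm q (u + a₀) 0 c := admT hF hsum hc
  have h3 : Adm q u 0 (-c) := admT hF huu hcn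
  have h4 : Adm q a₀ 0 (-c) := admT hF ha₀a₀ hcn
  refine E_mem_of_some hF hn hn3 h1 ea ?_ h
  rw [E_iso_decomp hF hn huu ha₀a₀ ha₀u hc h1 h2 h3 h4]
  exact Subgroup.mul_mem _ (Subgroup.mul_mem _ (T_mem hF hn hn3 hsum h2) (T_mem hF hn hn3 huu h3))
    (T_mem hF hn hn3 ha₀a₀ h4)

/-- A partner of `u` orthogonal to an anisotropic vector in `u^⊥`. -/
lemma frame_a {u a : Fin n → F} (hn3 : 3 ≤ n) (hu0 : u ≠ 0) (huu : herm u u = 0) (hau : herm a u = 0)
    (haa : herm a a ≠ 0) :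
    ∃ v, herm v v = 0 ∧ herm v u = 1 ∧ herm a v = 0 ∧
      (4 ≤ n → ∃ z, herm z z = 1 ∧ herm z u = 0 ∧ herm z a = 0) := by
  have hq := two_le_q hF
  obtain ⟨s, hs0, hs⟩ := exists_norm_eq hF (herm a a)⁻¹ (inv_ne_zero haa)
    (by rw [inv_pow, herm_self_fixed hF])
  obtain ⟨a₁, ha₁⟩ : ∃ a₁, a₁ = s • a := ⟨_, rfl⟩
  have ha₁1 : herm a₁ a₁ = 1 := by
    rw [ha₁, herm_smul_left, herm_smul_right hF, ← mul_assoc, mul_comm s, ← pow_succ, hs,
      inv_mul_cancel₀ haa]
  have hON0 : IsON q (Fin.elim0 : Fin 0 → Fin n → F) := fun i => i.elim0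
  have hON1 : IsON q (Fin.cons a₁ Fin.elim0 : Fin 1 → Fin n → F) :=
    (isON_cons_iff hF _ a₁).2 ⟨hON0, fun i => i.elim0, ha₁1⟩
  have hua₁ : herm u a₁ = 0 := by
    rw [ha₁, herm_smul_right hF, herm_eq_zero_symm hF hau, mul_zero]
  have huX : u ∈ perpOf hF (Fin.cons a₁ Fin.elim0 : Fin 1 → Fin n → F) := by
    rw [perpOf_cons]
    exact ⟨fun i => i.elim0, hua₁⟩
  obtain ⟨v, hvX, hvv, hvu⟩ := exists_hyp hF hON1 huX hu0 huu
  have hva₁ : herm v a₁ = 0 := by
    rw [perpOf_cons] at hvX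
    exact hvX.2
  refine ⟨v, hvv, hvu, ?_, ?_⟩
  · have h1 := herm_eq_zero_symm hF hva₁
    rw [ha₁, herm_smul_left] at h1
    exact (mul_eq_zero.1 h1).resolve_left hs0
  · intro hn4
    obtain ⟨e₁, e₂, hON, -, hperp⟩ := hyp_frame hF hON1 huX hvX huu hvv hvu
    obtain ⟨z, hz, hzz⟩ := exists_unit_perp hF _ hON (by omega)
    rw [perpOf_cons] at hz
    obtain ⟨hz1, hz2⟩ := hz
    rw [perpOf_cons] at hz1
    obtain ⟨hz3, hz4⟩ := hz1
    rw [perpOf_cons] at hz3
    obtain ⟨hz5, hz6⟩ := hz3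
    refine ⟨z, hzz, (hperp z hz2 hz4).1, ?_⟩
    rw [ha₁, herm_smul_right hF] at hz6
    exact (mul_eq_zero.1 hz6).resolve_left (pow_ne_zero _ hs0)

/-- Norm-one elements different from `1`. -/
lemma exists_zeta : ∃ ζ : F, ζ ≠ 1 ∧ ζ ^ (q + 1) = 1 := by
  have hq := two_le_q hF
  obtain ⟨w, hw⟩ := exists_not_fixed hF
  have hw0 : w ≠ 0 := by
    rintro rfl
    apply hw
    rw [zero_pow (by omega)]
  have hwq0 : w ^ q ≠ 0 := pow_ne_zero _ hw0
  refine ⟨w ^ q * w⁻¹, ?_, ?_⟩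
  · intro h
    apply hw
    field_simp at h
    exact h
  · rw [mul_pow, pow_succ (w ^ q), pow_q_sq hF, inv_pow, pow_succ w]
    field_simp

/-- The anisotropic case, `n ≥ 4`. -/
lemma aniso_mem_n4 (hn4 : 4 ≤ n) {u a : Fin n → F} {b : F} (hu0 : u ≠ 0) (huu : herm u u = 0)
    (hau : herm a u = 0) (haa : herm a a ≠ 0) (h : Adm q u a b) :
    E hF hn u a b h ∈ commutator (Cfsg.SU n F q) := by
  have hq := two_le_q hF
  have hn3 : 3 ≤ n := by omega
  obtain ⟨v, -, -, -, hz⟩ := frame_a hF hn3 hu0 huu hau haa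
  obtain ⟨z, hzz, hzu, hza⟩ := hz hn4
  have haz : herm a z = 0 := herm_eq_zero_symm hF hza
  obtain ⟨κ, hκ0, hκ⟩ := exists_norm_eq hF (- herm a a) (neg_ne_zero.2 haa)
    (by rw [pow_neg_q hF, herm_self_fixed hF])
  obtain ⟨ζ, hζ1, hζ⟩ := exists_zeta hF
  have hζ0 : ζ ≠ 0 := by
    rintro rfl
    rw [zero_pow (by omega)] at hζ
    exact zero_ne_one hζ
  obtain ⟨κ', hκ'⟩ : ∃ κ', κ' = κ * ζ := ⟨_, rfl⟩
  have hκ'n : κ' ^ (q + 1) = - herm a a := by rw [hκ', mul_pow, hκ, hζ, mul_one]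
  have hδ : κ' - κ ≠ 0 := by
    rw [hκ', ← mul_sub_one]
    exact mul_ne_zero hκ0 (sub_ne_zero.2 hζ1)
  have key : ∀ t : F, t ^ (q + 1) = - herm a a → ∀ α : F,
      herm (α • (a + t • z)) (α • (a + t • z)) = 0 ∧ herm (α • (a + t • z)) u = 0 := by
    intro t ht α
    constructor
    · rw [herm_smul_left, herm_smul_right hF, herm_add_left, herm_add_right hF, herm_add_right hF,
        herm_smul_left, herm_smul_right hF, herm_smul_right hF, herm_smul_left, hzz, haz, hza]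
      rw [pow_succ] at ht
      linear_combination (α * α ^ q) * ht
    · rw [herm_smul_left, herm_add_left, herm_smul_left, hau, hzu]
      ring
  set α := κ' / (κ' - κ) with hα
  set β := -κ / (κ' - κ) with hβ
  have hαβ : α + β = 1 := by
    rw [hα, hβ]
    field_simp
    ring
  have hαβ2 : α * κ + β * κ' = 0 := by
    rw [hα, hβ]
    field_simp
    ring
  obtain ⟨k1, k2⟩ := key κ hκ α
  obtain ⟨k3, k4⟩ := key κ' hκ'n β
  have ea : α • (a + κ • z) + β • (a + κ' • z) = a := by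
    funext i
    simp only [Pi.add_apply, Pi.smul_apply, smul_eq_mul]
    linear_combination (a i) * hαβ + (z i) * hαβ2
  have A1 : Adm q u (α • (a + κ • z)) 0 := by
    refine ⟨huu, k2, ?_⟩
    rw [k1, zero_pow (by omega)]
    ring
  have A2 : Adm q u (β • (a + κ' • z)) 0 := by
    refine ⟨huu, k4, ?_⟩
    rw [k3, zero_pow (by omega)]
    ring
  refine E_mem_of_some hF hn hn3 (Adm.mul hF A1 A2) ea ?_ h
  rw [← E_mul hF hn A1 A2]
  exact Subgroup.mul_mem _ (iso_mem hF hn hn3 huu k1 k2 A1) (iso_mem hF hn hn3 huu k3 k4 A2)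

include hn in
/-- The Weyl elements. -/
lemma exists_w {u v : Fin n → F} (huu : herm u u = 0) (hvv : herm v v = 0) (hvu : herm v u = 1) {c : F}
    (hc0 : c ≠ 0) (hc : c + c ^ q = 0) :
    ∃ w : Cfsg.SU n F q, act w u = (-c⁻¹) • v ∧ act w v = c • u ∧
      ∀ y, herm y u = 0 → herm y v = 0 → act w y = y := by
  have huv : herm u v = 1 := by rw [herm_conj hF v u, hvu, one_pow]
  have hcq : c ^ q = -c := by linear_combination hc
  have hc' : (-c⁻¹) + (-c⁻¹) ^ q = 0 := by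
    rw [pow_neg_q hF, inv_pow, hcq, inv_neg]
    ring
  have A1 : Adm q u 0 c := admT hF huu hc
  have A2 : Adm q v 0 (-c⁻¹) := admT hF hvv hc'
  refine ⟨E hF hn u 0 c A1 * E hF hn v 0 (-c⁻¹) A2 * E hF hn u 0 c A1, ?_, ?_, ?_⟩
  · rw [act_mul, act_mul]
    have e1 : act (E hF hn u 0 c A1) u = u := by
      rw [T_apply hF hn, huu]
      simp
    have e2 : act (E hF hn v 0 (-c⁻¹) A2) u = u + (-c⁻¹) • v := by
      rw [T_apply hF hn, huv, mul_one]
    have e3 : act (E hF hn u 0 c A1) v = v + c • u := by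
      rw [T_apply hF hn, hvu, mul_one]
    rw [e1, e2, act_add, act_smul, e1, e3, smul_add, smul_smul, neg_mul, inv_mul_cancel₀ hc0]
    funext i
    simp only [Pi.add_apply, Pi.smul_apply, smul_eq_mul]
    ring
  · rw [act_mul, act_mul]
    have e1 : act (E hF hn u 0 c A1) u = u := by
      rw [T_apply hF hn, huu]
      simp
    have e2 : act (E hF hn v 0 (-c⁻¹) A2) u = u + (-c⁻¹) • v := by
      rw [T_apply hF hn, huv, mul_one]
    have e3 : act (E hF hn u 0 c A1) v = v + c • u := by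
      rw [T_apply hF hn, hvu, mul_one]
    have e4 : act (E hF hn v 0 (-c⁻¹) A2) v = v := by
      rw [T_apply hF hn, hvv]
      simp
    rw [e3, act_add, act_smul, e2, e4, smul_add, smul_smul, mul_neg, mul_inv_cancel₀ hc0]
    have e5 : v + (c • u + (-1 : F) • v) = c • u := by
      funext i
      simp only [Pi.add_apply, Pi.smul_apply, smul_eq_mul]
      ring
    rw [e5, act_smul, e1]
  · intro y h1 h2
    have f1 : act (E hF hn u 0 c A1) y = y := act_E_fix hF hn A1 h1 (herm_zero_right hF y)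
    have f2 : act (E hF hn v 0 (-c⁻¹) A2) y = y := act_E_fix hF hn A2 h2 (herm_zero_right hF y)
    rw [act_mul, act_mul, f1, f2, f1]

include hn in
/-- The torus element. -/
lemma exists_d {u v : Fin n → F} (huu : herm u u = 0) (hvv : herm v v = 0) (hvu : herm v u = 1) {l : F}
    (hlq : l ^ q = l) (hl0 : l ≠ 0) :
    ∃ d : Cfsg.SU n F q, act d u = l • u ∧ ∀ y, herm y u = 0 → herm y v = 0 → act d y = y := by
  obtain ⟨c, hc0, hc⟩ := exists_trace_zero hF
  have hc1 : (-l * c) + (-l * c) ^ q = 0 := by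
    rw [mul_pow, pow_neg_q hF, hlq]
    linear_combination (-l) * hc
  obtain ⟨w₁, h11, h12, h13⟩ := exists_w hF hn huu hvv hvu (mul_ne_zero (neg_ne_zero.2 hl0) hc0) hc1
  obtain ⟨w₂, h21, h22, h23⟩ := exists_w hF hn huu hvv hvu hc0 hc
  refine ⟨w₁ * w₂, ?_, ?_⟩
  · rw [act_mul, h21, act_smul, h12, smul_smul]
    congr 1
    field_simp
  · intro y h1 h2
    rw [act_mul, h23 y h1 h2, h13 y h1 h2]

lemma exists_lam (hq3 : 3 ≤ q) : ∃ l : F, l ^ q = l ∧ l ≠ 0 ∧ l ≠ 1 := by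
  classical
  by_contra hall
  push Not at hall
  have H : ∀ t : F, t ≠ 0 → t ^ (q + 1) = 1 := by
    intro t ht
    exact hall _ (norm_fixed hF t) (pow_ne_zero _ ht)
  have hcard := card_norm_one hF
  rw [Nat.card_eq_fintype_card] at hcard
  have hfilter : (Finset.univ.filter (fun z : F => z ^ (q + 1) = 1)).card = q + 1 :=
    (Fintype.card_subtype _).symm.trans hcard
  have hsub : (Finset.univ.erase (0 : F)) ⊆ Finset.univ.filter (fun z : F => z ^ (q + 1) = 1) := by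
    intro t ht
    simp only [Finset.mem_erase, Finset.mem_univ, and_true] at ht
    simp only [Finset.mem_filter, Finset.mem_univ, true_and]
    exact H t ht
  have h1 := Finset.card_le_card hsub
  rw [Finset.card_erase_of_mem (Finset.mem_univ _), Finset.card_univ, hF, hfilter] at h1
  have h2 : q ^ 2 ≤ q + 2 := by omega
  nlinarith

/-- The anisotropic case, `q ≥ 3`. -/
lemma aniso_mem_q3 (hn3 : 3 ≤ n) (hq3 : 3 ≤ q) {u a : Fin n → F} {b : F} (hu0 : u ≠ 0)
    (huu : herm u u = 0) (hau : herm a u = 0) (haa : herm a a ≠ 0) (h : Adm q u a b) :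
    E hF hn u a b h ∈ commutator (Cfsg.SU n F q) := by
  obtain ⟨v, hvv, hvu, hav, -⟩ := frame_a hF hn3 hu0 huu hau haa
  obtain ⟨l, hlq, hl0, hl1⟩ := exists_lam hF hq3
  obtain ⟨d, hdu, hdy⟩ := exists_d hF hn huu hvv hvu hlq hl0
  have hl1' : l - 1 ≠ 0 := sub_ne_zero.2 hl1
  obtain ⟨a₀, ha₀⟩ : ∃ a₀, a₀ = (l - 1)⁻¹ • a := ⟨_, rfl⟩
  have ha₀u : herm a₀ u = 0 := by rw [ha₀, herm_smul_left, hau, mul_zero]
  have ha₀v : herm a₀ v = 0 := by rw [ha₀, herm_smul_left, hav, mul_zero]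
  obtain ⟨b₀, A0⟩ := exists_adm hF huu ha₀u
  have hd0 : act d a₀ = a₀ := hdy a₀ ha₀u ha₀v
  have hmem := comm_mem d (E hF hn u a₀ b₀ A0)
  rw [commutatorElement_def, E_conj hF hn, E_inv hF hn] at hmem
  have A1 : Adm q (l • u) a₀ b₀ := by
    have := Adm.conj hF d A0
    rwa [hdu, hd0] at this
  have e1 : E hF hn (act d u) (act d a₀) b₀ (Adm.conj hF d A0) = E hF hn (l • u) a₀ b₀ A1 := by
    have : ∀ (x y : Fin n → F) (hx : x = l • u) (hy : y = a₀) (hh : Adm q x y b₀),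
        E hF hn x y b₀ hh = E hF hn (l • u) a₀ b₀ A1 := by
      intro x y hx hy hh
      subst hx hy
      rfl
    exact this _ _ hdu hd0 _
  rw [e1, E_scale hF hn hl0 A1, E_mul hF hn] at hmem
  refine E_mem_of_some hF hn hn3 _ ?_ hmem h
  rw [hlq, ha₀]
  funext i
  simp only [Pi.add_apply, Pi.smul_apply, smul_eq_mul, Pi.neg_apply]
  field_simp
  ring

theorem E_mem_comm (hn3 : 3 ≤ n) (hne : ¬ (n = 3 ∧ q = 2)) {u a : Fin n → F} {b : F} (h : Adm q u a b) :
    E hF hn u a b h ∈ commutator (Cfsg.SU n F q) := by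
  have hq := two_le_q hF
  by_cases hu0 : u = 0
  · subst hu0
    rw [E_zero_b_one hF hn (herm_zero_left hF 0) h]
    exact Subgroup.one_mem _
  by_cases haa : herm a a = 0
  · exact iso_mem hF hn hn3 h.uu haa h.au h
  by_cases hq3 : 3 ≤ q
  · exact aniso_mem_q3 hF hn hn3 hq3 hu0 h.uu h.au haa h
  · have hn4 : 4 ≤ n := by
      by_contra hn4
      exact hne ⟨by omega, by omega⟩
    exact aniso_mem_n4 hF hn hn4 hu0 h.uu h.au haa h

include hn in
theorem commutator_eq_top (hn3 : 3 ≤ n) (hne : ¬ (n = 3 ∧ q = 2)) :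
    commutator (Cfsg.SU n F q) = ⊤ := by
  rw [eq_top_iff]
  intro g _
  have hg := G0_eq_top hF hn hn3 g
  have hle : G0 hF hn ≤ commutator (Cfsg.SU n F q) := by
    rw [G0, Subgroup.closure_le]
    rintro _ ⟨u, a, b, h, rfl⟩
    exact E_mem_comm hF hn hn3 hne h
  exact hle hg

end

end Cfsg.Agent.Lead.PSU
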